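import Mathlib
import Cfsg.Prelude.Def_FischerSpaces
import Cfsg.Prelude.Def_CaseTheorems

set_option autoImplicit false

namespace Cfsg.Agent.Helper9

open Cfsg

/-- Lifting connectivity of the commuting graph of a class of involutions through a normal
subgroup of odd order that they invert. -/
theorem comm_graph_lift9 {G : Type*} [Group G] (L : Subgroup G)
    (hperf : commutator ↥L = ⊤) (Z : Subgroup G) [hn : Z.Normal] (hZL : ∀ w ∈ Z, w ∈ L)
    (hZc : ∀ w ∈ Z, ∀ l ∈ L, w * l = l * w) (hsqrt : ∀ z ∈ Z, ∃ w ∈ Z, w * w = z) (d : G)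
    (hd2 : d * d = 1) (hinv : ∀ c ∈ Z, d * c * d⁻¹ = c⁻¹)
    (hconn : (Cfsg.commutingGraph (conjugatesOf (QuotientGroup.mk d : G ⧸ Z))).Connected) :
    (Cfsg.commutingGraph (conjugatesOf d)).Connected := by
  classical
  have hconjD : ∀ x ∈ conjugatesOf d, ∀ g : G, g * x * g⁻¹ ∈ conjugatesOf d := by
    intro x hx g
    exact (show IsConj d x from hx).trans (isConj_iff.mpr ⟨g, rfl⟩)
  have hinvD : ∀ x ∈ conjugatesOf d, x * x = 1 ∧ ∀ c ∈ Z, x * c * x⁻¹ = c⁻¹ := by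
    intro x hx
    obtain ⟨g, rfl⟩ := isConj_iff.mp (show IsConj d x from hx)
    refine ⟨?_, fun c hc => ?_⟩
    · rw [show g * d * g⁻¹ * (g * d * g⁻¹) = g * (d * d) * g⁻¹ by group, hd2]
      group
    · calc g * d * g⁻¹ * c * (g * d * g⁻¹)⁻¹
          = g * (d * (g⁻¹ * c * g⁻¹⁻¹) * d⁻¹) * g⁻¹ := by group
        _ = g * (g⁻¹ * c * g⁻¹⁻¹)⁻¹ * g⁻¹ := by rw [hinv _ (hn.conj_mem c hc g⁻¹)]
        _ = c⁻¹ := by group
  have hshift : ∀ x ∈ conjugatesOf d, ∀ w ∈ Z, w⁻¹ * x * w = x * (w * w) := by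
    intro x hx w hw
    have h := (hinvD x hx).2 w hw
    calc w⁻¹ * x * w = (x * w * x⁻¹) * x * w := by rw [h]
      _ = x * (w * w) := by group
  have hmulD : ∀ x ∈ conjugatesOf d, ∀ z ∈ Z, x * z ∈ conjugatesOf d := by
    intro x hx z hz
    obtain ⟨w, hw, hww⟩ := hsqrt z hz
    have h := hconjD x hx w⁻¹
    rw [inv_inv, hshift x hx w hw, hww] at h
    exact h
  have hcomm : ∀ x ∈ conjugatesOf d, ∀ y ∈ conjugatesOf d, x * y * x⁻¹ * y⁻¹ ∈ Z →
      ∃ z ∈ Z, Commute x (y * z) := by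
    intro x hx y hy hc
    obtain ⟨z, hzZ, hz⟩ := hsqrt _ (Z.inv_mem hc)
    refine ⟨z, hzZ, ?_⟩
    have hx2 := (hinvD x hx).1
    have hy2 := (hinvD y hy).1
    have hxz := (hinvD x hx).2 z hzZ
    have hxi : x⁻¹ = x := inv_eq_of_mul_eq_one_right hx2
    have hyi : y⁻¹ = y := inv_eq_of_mul_eq_one_right hy2
    rw [hxi] at hxz
    rw [hxi, hyi] at hz
    have hz' : z * x = x * z⁻¹ := by
      calc z * x = (x * x) * z * x := by rw [hx2, one_mul]
        _ = x * (x * z * x) := by group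
        _ = x * z⁻¹ := by rw [hxz]
    have key : x * y * (z * z) = y * x := by
      rw [hz]
      calc x * y * (x * y * x * y)⁻¹ = (x * y)⁻¹ := by group
        _ = y⁻¹ * x⁻¹ := mul_inv_rev x y
        _ = y * x := by rw [hxi, hyi]
    show x * (y * z) = y * z * x
    calc x * (y * z) = x * y * (z * z) * z⁻¹ := by group
      _ = y * x * z⁻¹ := by rw [key]
      _ = y * (x * z⁻¹) := by group
      _ = y * (z * x) := by rw [hz']
      _ = y * z * x := by group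
  obtain ⟨S, hSdef⟩ : ∃ S : G → G → Prop, ∀ a b, S a b ↔
      (a ∈ conjugatesOf d ∧ b ∈ conjugatesOf d ∧ a ≠ b ∧ Commute a b) := ⟨_, fun _ _ => Iff.rfl⟩
  have hSsymm : ∀ a b, S a b → S b a := by
    intro a b h
    rw [hSdef] at h ⊢
    exact ⟨h.2.1, h.1, h.2.2.1.symm, h.2.2.2.symm⟩
  have hSconj : ∀ g a b, S a b → S (g * a * g⁻¹) (g * b * g⁻¹) := by
    intro g a b h
    rw [hSdef] at h ⊢
    refine ⟨hconjD a h.1 g, hconjD b h.2.1 g,
      fun he => h.2.2.1 (mul_left_cancel (mul_right_cancel he)), ?_⟩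
    have hc := h.2.2.2.eq
    show g * a * g⁻¹ * (g * b * g⁻¹) = g * b * g⁻¹ * (g * a * g⁻¹)
    calc g * a * g⁻¹ * (g * b * g⁻¹) = g * (a * b) * g⁻¹ := by group
      _ = g * (b * a) * g⁻¹ := by rw [hc]
      _ = g * b * g⁻¹ * (g * a * g⁻¹) := by group
  have hRsymm : ∀ a b, Relation.ReflTransGen S a b → Relation.ReflTransGen S b a := by
    intro a b h
    induction h with
    | refl => exact Relation.ReflTransGen.refl
    | tail _ hbc ih => exact Relation.ReflTransGen.head (hSsymm _ _ hbc) ih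
  have hRconj : ∀ g a b, Relation.ReflTransGen S a b →
      Relation.ReflTransGen S (g * a * g⁻¹) (g * b * g⁻¹) := by
    intro g a b h
    induction h with
    | refl => exact Relation.ReflTransGen.refl
    | tail _ hbc ih => exact ih.tail (hSconj g _ _ hbc)
  have hRmem : ∀ y, Relation.ReflTransGen S d y → y ∈ conjugatesOf d := by
    intro y hy
    rcases Relation.ReflTransGen.cases_tail hy with h | ⟨c, _, hc⟩
    · rw [h]
      exact mem_conjugatesOf_self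
    · exact ((hSdef _ _).mp hc).2.1
  -- lifting paths
  have hA' : ∀ v : ↥(conjugatesOf (QuotientGroup.mk d : G ⧸ Z)),
      Relation.ReflTransGen (Cfsg.commutingGraph (conjugatesOf (QuotientGroup.mk d : G ⧸ Z))).Adj
        ⟨QuotientGroup.mk d, mem_conjugatesOf_self⟩ v →
      ∃ y, Relation.ReflTransGen S d y ∧ (QuotientGroup.mk y : G ⧸ Z) = v.1 := by
    intro v hv
    induction hv with
    | refl => exact ⟨d, Relation.ReflTransGen.refl, rfl⟩
    | @tail b c _ hbc ih =>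
      obtain ⟨y, hy, hyb⟩ := ih
      obtain ⟨gbar, hg⟩ := isConj_iff.mp (show IsConj (QuotientGroup.mk d : G ⧸ Z) c.1 from c.2)
      obtain ⟨g, rfl⟩ := QuotientGroup.mk_surjective gbar
      have hadj := hbc
      rw [Cfsg.commutingGraph, SimpleGraph.fromRel_adj] at hadj
      obtain ⟨hne, hcm⟩ := hadj
      have hcm' : Commute (b : G ⧸ Z) (c : G ⧸ Z) := hcm.elim id Commute.symm
      have hyD := hRmem y hy
      have hy'D : g * d * g⁻¹ ∈ conjugatesOf d := hconjD d mem_conjugatesOf_self g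
      have hy'c : (QuotientGroup.mk (g * d * g⁻¹) : G ⧸ Z) = c.1 := hg
      have hmem : y * (g * d * g⁻¹) * y⁻¹ * (g * d * g⁻¹)⁻¹ ∈ Z := by
        rw [← QuotientGroup.eq_one_iff]
        show (QuotientGroup.mk y : G ⧸ Z) * QuotientGroup.mk (g * d * g⁻¹) *
          (QuotientGroup.mk y)⁻¹ * (QuotientGroup.mk (g * d * g⁻¹))⁻¹ = 1
        rw [hyb, hy'c, hcm'.eq]
        group
      obtain ⟨z, hzZ, hcz⟩ := hcomm y hyD _ hy'D hmem
      have hzc : (QuotientGroup.mk (g * d * g⁻¹ * z) : G ⧸ Z) = c.1 := by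
        show (QuotientGroup.mk (g * d * g⁻¹) : G ⧸ Z) * QuotientGroup.mk z = c.1
        rw [(QuotientGroup.eq_one_iff z).mpr hzZ, mul_one, hy'c]
      refine ⟨g * d * g⁻¹ * z, hy.tail ((hSdef _ _).mpr ⟨hyD, hmulD _ hy'D z hzZ, ?_, hcz⟩), hzc⟩
      intro he
      apply hne
      apply Subtype.ext
      rw [← hyb, ← hzc, he]
  have hA : ∀ x ∈ conjugatesOf d, ∃ z ∈ Z, Relation.ReflTransGen S d (x * z) := by
    intro x hx
    have hxbar : (QuotientGroup.mk x : G ⧸ Z) ∈ conjugatesOf (QuotientGroup.mk d : G ⧸ Z) := by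
      obtain ⟨g, rfl⟩ := isConj_iff.mp (show IsConj d x from hx)
      show IsConj (QuotientGroup.mk d : G ⧸ Z) (QuotientGroup.mk (g * d * g⁻¹))
      exact isConj_iff.mpr ⟨QuotientGroup.mk g, rfl⟩
    obtain ⟨y, hy, hyx⟩ := hA' ⟨_, hxbar⟩
      ((SimpleGraph.reachable_iff_reflTransGen _ _).mp (hconn.preconnected _ _))
    have hz : x⁻¹ * y ∈ Z := QuotientGroup.eq.mp hyx.symm
    refine ⟨x⁻¹ * y, hz, ?_⟩
    rw [mul_inv_cancel_left]
    exact hy
  -- the stabiliser of the component of `d`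
  obtain ⟨N, hN⟩ : ∃ N : Subgroup G, ∀ g, g ∈ N ↔ Relation.ReflTransGen S d (g * d * g⁻¹) := by
    refine ⟨{ carrier := {g | Relation.ReflTransGen S d (g * d * g⁻¹)}
              one_mem' := by
                show Relation.ReflTransGen S d (1 * d * 1⁻¹)
                rw [one_mul, inv_one, mul_one]
              mul_mem' := by
                intro a b ha hb
                have h1 := hRconj a _ _ hb
                have h2 := Relation.ReflTransGen.trans ha h1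
                show Relation.ReflTransGen S d (a * b * d * (a * b)⁻¹)
                rw [show a * b * d * (a * b)⁻¹ = a * (b * d * b⁻¹) * a⁻¹ by group]
                exact h2
              inv_mem' := by
                intro a ha
                have h1 := hRconj a⁻¹ _ _ ha
                rw [show a⁻¹ * (a * d * a⁻¹) * a⁻¹⁻¹ = d by group] at h1
                exact hRsymm _ _ h1 }, fun g => Iff.rfl⟩
  have hcl2 : ∀ g : G, ∃ w ∈ Z, w⁻¹ * g ∈ N := by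
    intro g
    have hxD : g * d * g⁻¹ ∈ conjugatesOf d := hconjD d mem_conjugatesOf_self g
    obtain ⟨z, hz, hr⟩ := hA _ hxD
    obtain ⟨w, hw, hww⟩ := hsqrt z hz
    refine ⟨w, hw, ?_⟩
    rw [hN, show w⁻¹ * g * d * (w⁻¹ * g)⁻¹ = w⁻¹ * (g * d * g⁻¹) * w by group,
      hshift _ hxD w hw, hww]
    exact hr
  have hcomm2 : ∀ u₁ ∈ Z, ∀ u₂ ∈ Z, ∀ l₁ ∈ L, ∀ l₂ ∈ L,
      u₁ * l₁ * (u₂ * l₂) * (u₁ * l₁)⁻¹ * (u₂ * l₂)⁻¹ = l₁ * l₂ * l₁⁻¹ * l₂⁻¹ := by
    intro u₁ hu₁ u₂ hu₂ l₁ hl₁ l₂ hl₂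
    have e1 : u₁ * l₁ * (u₂ * l₂) = (u₁ * u₂) * (l₁ * l₂) := by
      rw [mul_assoc u₁ l₁, ← mul_assoc l₁ u₂, ← hZc u₂ hu₂ l₁ hl₁]
      group
    have e2 : u₂ * l₂ * (u₁ * l₁) = (u₁ * u₂) * (l₂ * l₁) := by
      rw [mul_assoc u₂ l₂, ← mul_assoc l₂ u₁, ← hZc u₁ hu₁ l₂ hl₂,
        hZc u₁ hu₁ u₂ (hZL u₂ hu₂)]
      group
    have e3 : (u₁ * u₂) * (l₁ * l₂ * l₁⁻¹ * l₂⁻¹) = (l₁ * l₂ * l₁⁻¹ * l₂⁻¹) * (u₁ * u₂) :=
      hZc _ (Z.mul_mem hu₁ hu₂) _
        (L.mul_mem (L.mul_mem (L.mul_mem hl₁ hl₂) (L.inv_mem hl₁)) (L.inv_mem hl₂))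
    calc u₁ * l₁ * (u₂ * l₂) * (u₁ * l₁)⁻¹ * (u₂ * l₂)⁻¹
        = (u₁ * l₁ * (u₂ * l₂)) * (u₂ * l₂ * (u₁ * l₁))⁻¹ := by group
      _ = (u₁ * u₂) * (l₁ * l₂) * ((u₁ * u₂) * (l₂ * l₁))⁻¹ := by rw [e1, e2]
      _ = (u₁ * u₂) * (l₁ * l₂ * l₁⁻¹ * l₂⁻¹) * (u₁ * u₂)⁻¹ := by group
      _ = (l₁ * l₂ * l₁⁻¹ * l₂⁻¹) * (u₁ * u₂) * (u₁ * u₂)⁻¹ := by rw [e3]
      _ = l₁ * l₂ * l₁⁻¹ * l₂⁻¹ := by group
  have hLN : ∀ l ∈ L, l ∈ N := by
    have h1 : commutator ↥L ≤ N.subgroupOf L := by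
      rw [commutator_eq_closure, Subgroup.closure_le]
      rintro _ ⟨a, b, rfl⟩
      rw [SetLike.mem_coe, Subgroup.mem_subgroupOf]
      obtain ⟨w₁, hw₁, hn₁⟩ := hcl2 (a : G)
      obtain ⟨w₂, hw₂, hn₂⟩ := hcl2 (b : G)
      have h := N.mul_mem (N.mul_mem (N.mul_mem hn₁ hn₂) (N.inv_mem hn₁)) (N.inv_mem hn₂)
      rw [hcomm2 w₁⁻¹ (Z.inv_mem hw₁) w₂⁻¹ (Z.inv_mem hw₂) a a.2 b b.2] at h
      exact h
    intro l hl
    have h2 : (⟨l, hl⟩ : ↥L) ∈ commutator ↥L := by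
      rw [hperf]
      exact Subgroup.mem_top _
    exact Subgroup.mem_subgroupOf.mp (h1 h2)
  have hall : ∀ x ∈ conjugatesOf d, Relation.ReflTransGen S d x := by
    intro x hx
    obtain ⟨z, hz, hr⟩ := hA x hx
    obtain ⟨w, hw, hww⟩ := hsqrt z hz
    have hwN : Relation.ReflTransGen S d (w * d * w⁻¹) := (hN w).mp (hLN w (hZL w hw))
    have h1 := hRconj w _ _ hr
    rw [← hww, ← hshift x hx w hw, show w * (w⁻¹ * x * w) * w⁻¹ = x by group] at h1
    exact hwN.trans h1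
  have hconv : ∀ a b, Relation.ReflTransGen S a b → ∀ (ha : a ∈ conjugatesOf d)
      (hb : b ∈ conjugatesOf d),
      (Cfsg.commutingGraph (conjugatesOf d)).Reachable ⟨a, ha⟩ ⟨b, hb⟩ := by
    intro a b h
    induction h with
    | refl => intro ha hb; exact SimpleGraph.Reachable.refl _
    | @tail b c _ hbc ih =>
      intro ha hc
      have hbc' := (hSdef _ _).mp hbc
      have h1 := ih ha hbc'.1
      have hadj : (Cfsg.commutingGraph (conjugatesOf d)).Adj ⟨b, hbc'.1⟩ ⟨c, hc⟩ := by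
        rw [Cfsg.commutingGraph, SimpleGraph.fromRel_adj]
        exact ⟨fun he => hbc'.2.2.1 (congrArg Subtype.val he), Or.inl hbc'.2.2.2⟩
      exact h1.trans hadj.reachable
  rw [SimpleGraph.connected_iff_exists_forall_reachable]
  exact ⟨⟨d, mem_conjugatesOf_self⟩, fun u => hconv d u.1 (hall u.1 u.2) mem_conjugatesOf_self u.2⟩

end Cfsg.Agent.Helper9
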