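import Mathlib
import Cfsg.Agent.Helper9.SLMax

set_option autoImplicit false

namespace Cfsg.Agent.Helper9

open Cfsg
open scoped MatrixGroups Matrix Kronecker

variable {F : Type*} [Field F]

theorem f2_cases9 [Fintype F] (hq : Fintype.card F = 2) (x : F) : x = 0 ∨ x = 1 := by
  by_contra h
  push_neg at h
  have h3 : 2 < Fintype.card F :=
    Fintype.two_lt_card_iff.mpr ⟨0, 1, x, zero_ne_one, fun e => h.1 e.symm, fun e => h.2 e.symm⟩
  omega

theorem f2_two9 [Fintype F] (hq : Fintype.card F = 2) : (2 : F) = 0 := by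
  have h := FiniteField.cast_card_eq_zero F
  rw [hq] at h
  exact_mod_cast h

theorem sl_top_f2_9 [Fintype F] (hq : Fintype.card F = 2) (ι : Type) [Fintype ι] [DecidableEq ι] :
    Cfsg.Geo.specialLinear ι F = ⊤ := by
  rw [eq_top_iff]
  intro g _
  show g ∈ (Matrix.GeneralLinearGroup.det : GL ι F →* Fˣ).ker
  refine MonoidHom.mem_ker.mpr (Units.ext ?_)
  rcases f2_cases9 hq ((Matrix.GeneralLinearGroup.det g : Fˣ) : F) with h | h
  · exact absurd h (Units.ne_zero _)
  · rw [h]
    rfl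

/-- The companion matrix of `x ^ 2 + x + 1`. -/
def omega9 (F : Type*) [Field F] : Matrix (Fin 2) (Fin 2) F := !![0, 1; 1, 1]

theorem omega_sq9 : omega9 F * omega9 F = omega9 F + 1 := by
  ext i j
  fin_cases i <;> fin_cases j <;>
    simp [omega9, Matrix.mul_apply, Fin.sum_univ_two, Matrix.one_apply]

theorem gl2_omega9 [Fintype F] (hq : Fintype.card F = 2) (a : GL (Fin 2) F) :
    (a : Matrix (Fin 2) (Fin 2) F) * omega9 F = omega9 F * (a : Matrix (Fin 2) (Fin 2) F) ∨
    (a : Matrix (Fin 2) (Fin 2) F) * omega9 F =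
      (omega9 F + 1) * (a : Matrix (Fin 2) (Fin 2) F) := by
  have h2 := f2_two9 hq
  obtain ⟨A, hA⟩ : ∃ A : Matrix (Fin 2) (Fin 2) F, A = (a : Matrix (Fin 2) (Fin 2) F) := ⟨_, rfl⟩
  obtain ⟨A', hA'⟩ : ∃ A' : Matrix (Fin 2) (Fin 2) F,
      A' = ((a⁻¹ : GL (Fin 2) F) : Matrix (Fin 2) (Fin 2) F) := ⟨_, rfl⟩
  have hAA' : A * A' = 1 := by rw [hA, hA', ← Units.val_mul, mul_inv_cancel, Units.val_one]
  have hA'A : A' * A = 1 := by rw [hA, hA', ← Units.val_mul, inv_mul_cancel, Units.val_one]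
  rw [← hA]
  obtain ⟨M, hM⟩ : ∃ M : Matrix (Fin 2) (Fin 2) F, M = A * omega9 F * A' := ⟨_, rfl⟩
  have hMA : M * A = A * omega9 F := by rw [hM, mul_assoc, hA'A, mul_one]
  have hMM : M * M = M + 1 := by
    have e : M * M = A * (omega9 F * (A' * A) * omega9 F) * A' := by
      rw [hM]
      simp only [mul_assoc]
    rw [e, hA'A, mul_one, omega_sq9, mul_add, add_mul, mul_one, hAA', ← hM]
  have e00 := congrFun (congrFun hMM 0) 0
  have e01 := congrFun (congrFun hMM 0) 1
  rw [Matrix.mul_apply, Fin.sum_univ_two, Matrix.add_apply, Matrix.one_apply_eq] at e00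
  rw [Matrix.mul_apply, Fin.sum_univ_two, Matrix.add_apply, Matrix.one_apply_ne (by decide)] at e01
  have hno : ¬ (M 0 0 * M 0 0 = M 0 0 + 1) := by
    intro e
    rcases f2_cases9 hq (M 0 0) with h' | h'
    · rw [h'] at e
      have : (1 : F) = 0 := by linear_combination -e
      exact one_ne_zero this
    · rw [h'] at e
      have : (1 : F) = 0 := by linear_combination -e
      exact one_ne_zero this
  have h01 : M 0 1 = 1 := by
    rcases f2_cases9 hq (M 0 1) with h | h
    · exfalso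
      rw [h, zero_mul, add_zero] at e00
      exact hno e00
    · exact h
  have h10 : M 1 0 = 1 := by
    rcases f2_cases9 hq (M 1 0) with h | h
    · exfalso
      rw [h, mul_zero, add_zero] at e00
      exact hno e00
    · exact h
  rw [h01] at e01
  rcases f2_cases9 hq (M 0 0) with h00 | h00
  · left
    have h11 : M 1 1 = 1 := by
      rw [h00] at e01
      linear_combination e01
    have hMω : M = omega9 F := by
      rw [Matrix.eta_fin_two M, h00, h01, h10, h11]
      rfl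
    rw [← hMA, hMω]
  · right
    have h11 : M 1 1 = 0 := by
      rw [h00] at e01
      linear_combination e01
    have hMω : M = omega9 F + 1 := by
      rw [Matrix.eta_fin_two M, h00, h01, h10, h11]
      ext i j
      fin_cases i <;> fin_cases j <;> simp [omega9, Matrix.one_apply, h2, one_add_one_eq_two]
    rw [← hMA, hMω]

/-- The invertible matrices normalising the group generated by `J`, where `J * J = J + 1`, in
characteristic two. -/
def nrmJ9 {κ : Type} [Fintype κ] [DecidableEq κ] (h2 : (2 : F) = 0) (J : Matrix κ κ F) :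
    Subgroup (GL κ F) where
  carrier := {g | (g : Matrix κ κ F) * J = J * (g : Matrix κ κ F) ∨
    (g : Matrix κ κ F) * J = (J + 1) * (g : Matrix κ κ F)}
  mul_mem' := by
    intro a b ha hb
    have hMM : ∀ M : Matrix κ κ F, M + M = 0 := fun M => by rw [← two_smul F M, h2, zero_smul]
    simp only [Set.mem_setOf_eq, Units.val_mul] at ha hb ⊢
    rcases ha with ha | ha <;> rcases hb with hb | hb
    · left
      rw [mul_assoc, hb, ← mul_assoc, ha, mul_assoc]
    · right
      have e : (a : Matrix κ κ F) * (b : Matrix κ κ F) * J =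
          (J * (a : Matrix κ κ F) + (a : Matrix κ κ F)) * (b : Matrix κ κ F) := by
        rw [mul_assoc, hb, ← mul_assoc, mul_add, mul_one, ha]
      rw [e, add_mul, add_mul, one_mul, mul_assoc]
    · right
      rw [mul_assoc, hb, ← mul_assoc, ha, mul_assoc]
    · left
      have e : (a : Matrix κ κ F) * (b : Matrix κ κ F) * J =
          ((J + 1) * (a : Matrix κ κ F) + (a : Matrix κ κ F)) * (b : Matrix κ κ F) := by
        rw [mul_assoc, hb, ← mul_assoc, mul_add, mul_one, ha]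
      rw [e, add_mul J 1, one_mul, add_assoc, hMM, add_zero, mul_assoc]
  one_mem' := Or.inl (by rw [Units.val_one, one_mul, mul_one])
  inv_mem' := by
    intro a ha
    have hMM : ∀ M : Matrix κ κ F, M + M = 0 := fun M => by rw [← two_smul F M, h2, zero_smul]
    obtain ⟨A, hA⟩ : ∃ A : Matrix κ κ F, A = (a : Matrix κ κ F) := ⟨_, rfl⟩
    obtain ⟨A', hA'⟩ : ∃ A' : Matrix κ κ F, A' = ((a⁻¹ : GL κ F) : Matrix κ κ F) := ⟨_, rfl⟩
    have hAA' : A * A' = 1 := by rw [hA, hA', ← Units.val_mul, mul_inv_cancel, Units.val_one]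
    have hA'A : A' * A = 1 := by rw [hA, hA', ← Units.val_mul, inv_mul_cancel, Units.val_one]
    simp only [Set.mem_setOf_eq] at ha ⊢
    rw [← hA] at ha
    rw [← hA']
    rcases ha with ha | ha
    · left
      calc A' * J = A' * (J * A) * A' := by rw [mul_assoc, mul_assoc, hAA', mul_one]
        _ = A' * (A * J) * A' := by rw [ha]
        _ = J * A' := by rw [← mul_assoc, hA'A, one_mul]
    · right
      have h1 : J * A' = A' * J + A' := by
        calc J * A' = A' * (A * J) * A' := by rw [← mul_assoc, hA'A, one_mul]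
          _ = A' * ((J + 1) * A) * A' := by rw [ha]
          _ = A' * J + A' := by rw [mul_assoc, mul_assoc, hAA', mul_one, mul_add, mul_one]
      rw [add_mul, one_mul, h1, add_assoc, hMM, add_zero]

theorem tens2_notmax9 [Fintype F] (hq : Fintype.card F = 2) (n₂ : ℕ) (hn₂ : 2 ≤ n₂) :
    ∃ K₀ : Subgroup (GL (Fin 2 × Fin n₂) F),
      Cfsg.Geo.kroneckerSubgroup 2 n₂ F < K₀ ∧ K₀ < ⊤ := by
  classical
  have h2 := f2_two9 hq
  obtain ⟨j₀, j₁, hj⟩ : ∃ j₀ j₁ : Fin n₂, j₀ ≠ j₁ :=
    ⟨⟨0, by omega⟩, ⟨1, by omega⟩, fun h => by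
      rw [Fin.mk.injEq] at h
      exact Nat.zero_ne_one h⟩
  obtain ⟨J, hJ⟩ : ∃ J : Matrix (Fin 2 × Fin n₂) (Fin 2 × Fin n₂) F,
      J = omega9 F ⊗ₖ (1 : Matrix (Fin n₂) (Fin n₂) F) := ⟨_, rfl⟩
  obtain ⟨E, hE⟩ : ∃ E : Matrix (Fin n₂) (Fin n₂) F, E = Matrix.single j₀ j₁ 1 := ⟨_, rfl⟩
  have hEE : E * E = 0 := by
    rw [hE]
    exact Matrix.single_mul_single_of_ne _ _ _ _ hj.symm _
  have hE01 : E j₀ j₁ = 1 := by rw [hE, Matrix.single_apply_same]
  have hE00 : E j₀ j₀ = 0 := by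
    rw [hE]
    exact Matrix.single_apply_of_col_ne _ _ hj.symm _
  have hMM : ∀ M : Matrix (Fin 2 × Fin n₂) (Fin 2 × Fin n₂) F, M + M = 0 := fun M => by
    rw [← two_smul F M, h2, zero_smul]
  have hunit : ∀ N : Matrix (Fin 2) (Fin 2) F, (1 + N ⊗ₖ E) * (1 + N ⊗ₖ E) =
      (1 : Matrix (Fin 2 × Fin n₂) (Fin 2 × Fin n₂) F) := by
    intro N
    have hYY : (N ⊗ₖ E) * (N ⊗ₖ E) = 0 := by
      rw [← Matrix.mul_kronecker_mul, hEE, Matrix.kronecker_zero]
    rw [add_mul, mul_add, mul_add, one_mul, one_mul, mul_one, hYY, add_zero, add_assoc, hMM,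
      add_zero]
  have hmemK : ∀ g : GL (Fin 2 × Fin n₂) F, g ∈ nrmJ9 h2 J ↔
      ((g : Matrix (Fin 2 × Fin n₂) (Fin 2 × Fin n₂) F) * J =
        J * (g : Matrix (Fin 2 × Fin n₂) (Fin 2 × Fin n₂) F) ∨
      (g : Matrix (Fin 2 × Fin n₂) (Fin 2 × Fin n₂) F) * J =
        (J + 1) * (g : Matrix (Fin 2 × Fin n₂) (Fin 2 × Fin n₂) F)) := fun g => Iff.rfl
  refine ⟨nrmJ9 h2 J, lt_of_le_of_ne ?_ ?_, lt_of_le_of_ne le_top ?_⟩
  · rintro g ⟨a, b, hg⟩
    rw [hmemK, hg, hJ]
    have hJ1 : omega9 F ⊗ₖ (1 : Matrix (Fin n₂) (Fin n₂) F) + 1 =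
        (omega9 F + 1) ⊗ₖ (1 : Matrix (Fin n₂) (Fin n₂) F) := by
      rw [Matrix.add_kronecker, Matrix.one_kronecker_one]
    rw [hJ1, ← Matrix.mul_kronecker_mul, ← Matrix.mul_kronecker_mul, ← Matrix.mul_kronecker_mul,
      mul_one, one_mul]
    rcases gl2_omega9 hq a with h | h
    · left
      rw [h]
    · right
      rw [h]
  · intro heq
    obtain ⟨g, hg⟩ : ∃ g : GL (Fin 2 × Fin n₂) F,
        (g : Matrix (Fin 2 × Fin n₂) (Fin 2 × Fin n₂) F) = 1 + omega9 F ⊗ₖ E :=
      ⟨⟨_, _, hunit _, hunit _⟩, rfl⟩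
    have hgK : g ∈ nrmJ9 h2 J := by
      rw [hmemK]
      left
      rw [hg, hJ, add_mul, mul_add, one_mul, mul_one, ← Matrix.mul_kronecker_mul,
        ← Matrix.mul_kronecker_mul, mul_one, one_mul]
    rw [← heq] at hgK
    obtain ⟨a, b, hab⟩ := hgK
    rw [hg] at hab
    have c1 := congrFun (congrFun hab (0, j₀)) (0, j₀)
    have c2 := congrFun (congrFun hab (0, j₀)) (1, j₀)
    have c3 := congrFun (congrFun hab (0, j₀)) (1, j₁)
    rw [Matrix.add_apply, Matrix.kronecker_apply, Matrix.kronecker_apply, hE00, mul_zero, add_zero,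
      Matrix.one_apply_eq] at c1
    rw [Matrix.add_apply, Matrix.kronecker_apply, Matrix.kronecker_apply, hE00, mul_zero, add_zero,
      Matrix.one_apply_ne (by simp)] at c2
    rw [Matrix.add_apply, Matrix.kronecker_apply, Matrix.kronecker_apply, hE01, mul_one,
      Matrix.one_apply_ne (by simp), zero_add] at c3
    have hb : (b : Matrix (Fin n₂) (Fin n₂) F) j₀ j₀ ≠ 0 := by
      intro h
      rw [h, mul_zero] at c1
      exact one_ne_zero c1
    have ha : (a : Matrix (Fin 2) (Fin 2) F) 0 1 = 0 := by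
      rcases mul_eq_zero.mp c2.symm with h | h
      · exact h
      · exact absurd h hb
    rw [ha, zero_mul] at c3
    simp [omega9] at c3
  · intro heq
    obtain ⟨T, hT⟩ : ∃ T : GL (Fin 2 × Fin n₂) F,
        (T : Matrix (Fin 2 × Fin n₂) (Fin 2 × Fin n₂) F) =
          1 + (Matrix.single 0 0 1 : Matrix (Fin 2) (Fin 2) F) ⊗ₖ E :=
      ⟨⟨_, _, hunit _, hunit _⟩, rfl⟩
    have hTK : T ∈ nrmJ9 h2 J := by
      rw [heq]
      exact Subgroup.mem_top _
    rw [hmemK] at hTK
    rcases hTK with h | h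
    · rw [hT, hJ, add_mul, mul_add, one_mul, mul_one, ← Matrix.mul_kronecker_mul,
        ← Matrix.mul_kronecker_mul, mul_one, one_mul] at h
      have h' := add_left_cancel h
      have c := congrFun (congrFun h' (0, j₀)) (1, j₁)
      rw [Matrix.kronecker_apply, Matrix.kronecker_apply, hE01, mul_one, mul_one,
        Matrix.single_mul_apply_same,
        Matrix.mul_single_apply_of_ne (1 : F) (0 : Fin 2) (0 : Fin 2) (0 : Fin 2) (1 : Fin 2)
          (by decide)] at c
      simp [omega9] at c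
    · rw [hT, hJ, add_mul, one_mul, mul_add, mul_one,
        add_mul (omega9 F ⊗ₖ (1 : Matrix (Fin n₂) (Fin n₂) F)) 1, one_mul,
        ← Matrix.mul_kronecker_mul, ← Matrix.mul_kronecker_mul, mul_one, one_mul] at h
      have c := congrFun (congrFun h (0, j₀)) (0, j₀)
      simp [Matrix.one_apply, hE00, omega9] at c

end Cfsg.Agent.Helper9
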