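import Mathlib
import Cfsg.Prelude.Def_GeometricClasses
import Cfsg.Prelude.Def_Classical
import Cfsg.Agent.Helper9.Tens2

set_option autoImplicit false

namespace Cfsg.Agent.Helper9

open Cfsg
open scoped MatrixGroups Matrix

variable {n : ℕ} {F : Type*} [Field F]

/-- The sum of all the members of a decomposition but one. -/
def dhat9 {t : ℕ} (D : Fin t → Submodule F (Fin n → F)) (i : Fin t) : Submodule F (Fin n → F) :=
  ⨆ j : {j : Fin t // j ≠ i}, D j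

open Classical in
/-- The number of non-zero components of a vector, as a field element. -/
noncomputable def cntN9 {t : ℕ} (D : Fin t → Submodule F (Fin n → F)) (x : Fin n → F) : F :=
  ((Finset.univ.filter (fun i : Fin t => x ∉ dhat9 D i)).card : F)

theorem dhat_map9 {t : ℕ} (D : Fin t → Submodule F (Fin n → F)) (g : GL (Fin n) F) (π : Equiv.Perm (Fin t))
    (hπ : ∀ i, (D i).map (Matrix.toLin' (g : Matrix (Fin n) (Fin n) F)) = D (π i)) (i : Fin t) :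
    (dhat9 D i).map (Matrix.toLin' (g : Matrix (Fin n) (Fin n) F)) = dhat9 D (π i) := by
  unfold dhat9
  rw [Submodule.map_iSup]
  apply le_antisymm
  · refine iSup_le fun j => ?_
    rw [hπ]
    exact le_iSup (fun j : {j : Fin t // j ≠ π i} => D j)
      ⟨π j, fun h => j.2 (π.injective h)⟩
  · refine iSup_le fun j => ?_
    have h1 := hπ (π.symm j)
    rw [Equiv.apply_symm_apply] at h1
    rw [← h1]
    exact le_iSup (fun j : {j : Fin t // j ≠ i} =>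
      (D j).map (Matrix.toLin' (g : Matrix (Fin n) (Fin n) F)))
      ⟨π.symm j, fun h => j.2 (by
        have h5 := congrArg π h
        rw [Equiv.apply_symm_apply] at h5
        exact h5)⟩

theorem cntN_stab9 {t : ℕ} (D : Fin t → Submodule F (Fin n → F)) (g : GL (Fin n) F)
    (hg : g ∈ Cfsg.Geo.decompositionStabilizer D) (x : Fin n → F) :
    cntN9 D ((g : Matrix (Fin n) (Fin n) F) *ᵥ x) = cntN9 D x := by
  classical
  obtain ⟨π, hπ⟩ := hg
  have key : ∀ i, (g : Matrix (Fin n) (Fin n) F) *ᵥ x ∈ dhat9 D (π i) ↔ x ∈ dhat9 D i := by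
    intro i
    rw [← dhat_map9 D g π hπ i]
    constructor
    · intro h
      obtain ⟨y, hy, hyx⟩ := Submodule.mem_map.mp h
      rw [Matrix.toLin'_apply] at hyx
      have h2 : y = x := by
        have h3 : ((g⁻¹ : GL (Fin n) F) : Matrix (Fin n) (Fin n) F) *ᵥ ((g : Matrix (Fin n) (Fin n) F) *ᵥ y) = ((g⁻¹ : GL (Fin n) F) : Matrix (Fin n) (Fin n) F) *ᵥ ((g : Matrix (Fin n) (Fin n) F) *ᵥ x) := by rw [hyx]
        rw [gl_inv_mul_vec9, gl_inv_mul_vec9] at h3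
        exact h3
      rw [← h2]
      exact hy
    · intro h
      have h3 := Submodule.mem_map_of_mem
        (f := Matrix.toLin' (g : Matrix (Fin n) (Fin n) F)) h
      rw [Matrix.toLin'_apply] at h3
      exact h3
  unfold cntN9
  congr 1
  symm
  refine Finset.card_equiv π ?_
  intro i
  simp only [Finset.mem_filter, Finset.mem_univ, true_and]
  rw [key]

theorem cntN_eq_card9 {t : ℕ} (D : Fin t → Submodule F (Fin n → F)) (x : Fin n → F) (S : Finset (Fin t))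
    (hS : ∀ i, i ∈ S ↔ x ∉ dhat9 D i) : cntN9 D x = (S.card : F) := by
  classical
  unfold cntN9
  congr 2
  ext i
  rw [Finset.mem_filter, hS]
  simp

theorem exists_adapted_basis9 {t m : ℕ} {D : Fin t → Submodule F (Fin n → F)}
    (hD : Cfsg.Geo.IsMDecomposition m D) :
    ∃ B : Module.Basis (Σ _ : Fin t, Fin m) F (Fin n → F), (∀ a, B a ∈ D a.1) ∧
      ∀ j y, y ∈ D j → ∀ i k, i ≠ j → B.repr y ⟨i, k⟩ = 0 := by
  classical
  have hint : DirectSum.IsInternal D :=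
    DirectSum.isInternal_submodule_of_iSupIndep_of_iSup_eq_top hD.indep hD.iSup_eq_top
  refine ⟨hint.collectedBasis (fun i => Module.finBasisOfFinrankEq F (D i) (hD.finrank_eq i)),
    fun a => hint.collectedBasis_mem _ a, ?_⟩
  intro j y hy i k hij
  exact hint.collectedBasis_repr_of_mem_ne _ (Ne.symm hij) hy

theorem mem_dhat_iff9 {t m : ℕ} {D : Fin t → Submodule F (Fin n → F)}
    (B : Module.Basis (Σ _ : Fin t, Fin m) F (Fin n → F))
    (hB1 : ∀ a, B a ∈ D a.1) (hB2 : ∀ j y, y ∈ D j → ∀ i k, i ≠ j → B.repr y ⟨i, k⟩ = 0)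
    (x : Fin n → F) (i : Fin t) : x ∈ dhat9 D i ↔ ∀ k, B.repr x ⟨i, k⟩ = 0 := by
  constructor
  · intro hx k
    unfold dhat9 at hx
    refine Submodule.iSup_induction (fun j : {j : Fin t // j ≠ i} => D j)
      (motive := fun y => B.repr y ⟨i, k⟩ = 0) hx ?_ ?_ ?_
    · intro j y hy
      exact hB2 j.1 y hy i k (Ne.symm j.2)
    · simp
    · intro y z hy hz
      rw [map_add, Finsupp.add_apply, hy, hz, add_zero]
  · intro h
    rw [← B.sum_repr x]
    refine Submodule.sum_mem _ fun a _ => ?_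
    by_cases ha : a.1 = i
    · have h0 : B.repr x a = 0 := by
        obtain ⟨a1, a2⟩ := a
        simp only at ha
        subst ha
        exact h a2
      rw [h0, zero_smul]
      exact Submodule.zero_mem _
    · refine Submodule.smul_mem _ _ ?_
      exact (le_iSup (fun j : {j : Fin t // j ≠ i} => D j) ⟨a.1, ha⟩) (hB1 a)

open Classical in
theorem cntN_formula9 {t m : ℕ} {D : Fin t → Submodule F (Fin n → F)}
    (B : Module.Basis (Σ _ : Fin t, Fin m) F (Fin n → F))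
    (hB1 : ∀ a, B a ∈ D a.1) (hB2 : ∀ j y, y ∈ D j → ∀ i k, i ≠ j → B.repr y ⟨i, k⟩ = 0)
    (x : Fin n → F) :
    cntN9 D x = ∑ i : Fin t, (if ∀ k, B.repr x ⟨i, k⟩ = 0 then (0 : F) else 1) := by
  unfold cntN9
  rw [Finset.natCast_card_filter]
  refine Finset.sum_congr rfl fun i _ => ?_
  by_cases h : x ∈ dhat9 D i
  · rw [if_neg (not_not.mpr h), if_pos ((mem_dhat_iff9 B hB1 hB2 x i).mp h)]
  · rw [if_pos h, if_neg (fun h' => h ((mem_dhat_iff9 B hB1 hB2 x i).mpr h'))]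

theorem dec_notmax_of9 {t m : ℕ} {D : Fin t → Submodule F (Fin n → F)} (hD : Cfsg.Geo.IsMDecomposition m D)
    (B : Module.Basis (Σ _ : Fin t, Fin m) F (Fin n → F))
    (hB1 : ∀ a, B a ∈ D a.1) (hB2 : ∀ j y, y ∈ D j → ∀ i k, i ≠ j → B.repr y ⟨i, k⟩ = 0)
    (g₁ : GL (Fin n) F) (hg₁S : g₁ ∈ Cfsg.Geo.specialLinear (Fin n) F)
    (hg₁N : ∀ x, cntN9 D ((g₁ : Matrix (Fin n) (Fin n) F) *ᵥ x) = cntN9 D x)
    (hw : ∃ a₀ j₂ k₂ j₃ k₃, j₂ ≠ j₃ ∧ B.repr ((g₁ : Matrix (Fin n) (Fin n) F) *ᵥ (B a₀)) ⟨j₂, k₂⟩ ≠ 0 ∧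
      B.repr ((g₁ : Matrix (Fin n) (Fin n) F) *ᵥ (B a₀)) ⟨j₃, k₃⟩ ≠ 0) :
    ∃ K : Subgroup (GL (Fin n) F),
      Cfsg.Geo.decompositionStabilizer D ⊓ Cfsg.Geo.specialLinear (Fin n) F < K ∧
      K < Cfsg.Geo.specialLinear (Fin n) F := by
  classical
  refine ⟨Cfsg.isometryGroup F (cntN9 D) ⊓ Cfsg.Geo.specialLinear (Fin n) F, ?_, ?_⟩
  · refine lt_of_le_of_ne ?_ ?_
    · intro g hg
      exact ⟨fun u _ => cntN_stab9 D g hg.1 u, hg.2⟩
    · intro heq
      have hg₁K : g₁ ∈ Cfsg.isometryGroup F (cntN9 D) ⊓ Cfsg.Geo.specialLinear (Fin n) F :=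
        ⟨fun u _ => hg₁N u, hg₁S⟩
      rw [← heq] at hg₁K
      obtain ⟨π, hπ⟩ := hg₁K.1
      obtain ⟨a₀, j₂, k₂, j₃, k₃, hne, h2, h3⟩ := hw
      have hmem : (g₁ : Matrix (Fin n) (Fin n) F) *ᵥ (B a₀) ∈ D (π a₀.1) := by
        rw [← hπ]
        have h4 := Submodule.mem_map_of_mem
          (f := Matrix.toLin' (g₁ : Matrix (Fin n) (Fin n) F)) (hB1 a₀)
        rw [Matrix.toLin'_apply] at h4
        exact h4
      by_cases hj : j₂ = π a₀.1
      · exact h3 (hB2 _ _ hmem j₃ k₃ (fun h => hne (hj.trans h.symm)))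
      · exact h2 (hB2 _ _ hmem j₂ k₂ hj)
  · refine lt_of_le_of_ne inf_le_right ?_
    intro heq
    have ht := hD.two_le
    have hm := hD.pos
    obtain ⟨i₁, hi₁⟩ : ∃ i₁ : Fin t, i₁ = ⟨0, by omega⟩ := ⟨_, rfl⟩
    obtain ⟨i₂, hi₂⟩ : ∃ i₂ : Fin t, i₂ = ⟨1, by omega⟩ := ⟨_, rfl⟩
    obtain ⟨k₀, -⟩ : ∃ k₀ : Fin m, k₀ = ⟨0, hm⟩ := ⟨_, rfl⟩
    have hi : i₁ ≠ i₂ := by
      rw [hi₁, hi₂]
      intro h
      have h' := congrArg Fin.val h
      simp at h'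
    have hrep : ∀ (a b : Σ _ : Fin t, Fin m), B.repr (B a) b = if a = b then 1 else 0 :=
      fun a b => Module.Basis.repr_self_apply B a b
    have hfst : ∀ (i j : Fin t) (k l : Fin m), i ≠ j →
        (⟨i, k⟩ : Σ _ : Fin t, Fin m) ≠ ⟨j, l⟩ := fun i j k l h h' => h (congrArg Sigma.fst h')
    have hφv : B.coord ⟨i₁, k₀⟩ (B ⟨i₂, k₀⟩) = 0 := by
      rw [Module.Basis.coord_apply, hrep, if_neg (hfst _ _ _ _ (Ne.symm hi))]
    obtain ⟨g, hgS, hg⟩ := exists_transv9 (B.coord ⟨i₁, k₀⟩) (B ⟨i₂, k₀⟩) hφv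
    have hgK : g ∈ Cfsg.isometryGroup F (cntN9 D) ⊓ Cfsg.Geo.specialLinear (Fin n) F := by
      rw [heq]
      exact hgS
    have h1 : cntN9 D ((g : Matrix (Fin n) (Fin n) F) *ᵥ (B ⟨i₁, k₀⟩)) = cntN9 D (B ⟨i₁, k₀⟩) := hgK.1 (B ⟨i₁, k₀⟩) 0
    have hS1 : ∀ i, i ∈ ({i₁} : Finset (Fin t)) ↔ B ⟨i₁, k₀⟩ ∉ dhat9 D i := by
      intro i
      rw [Finset.mem_singleton, mem_dhat_iff9 B hB1 hB2]
      constructor
      · intro hi1 h
        have h' := h k₀
        rw [hrep, hi1, if_pos rfl] at h'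
        exact one_ne_zero h'
      · intro h
        by_contra hi1
        apply h
        intro k
        rw [hrep, if_neg (hfst _ _ _ _ (Ne.symm hi1))]
    have hS2 : ∀ i, i ∈ ({i₁, i₂} : Finset (Fin t)) ↔
        B ⟨i₁, k₀⟩ + B ⟨i₂, k₀⟩ ∉ dhat9 D i := by
      intro i
      rw [Finset.mem_insert, Finset.mem_singleton, mem_dhat_iff9 B hB1 hB2]
      constructor
      · rintro (hi1 | hi2) h
        · have h' := h k₀
          rw [map_add, Finsupp.add_apply, hrep, hrep, hi1, if_pos rfl,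
            if_neg (hfst _ _ _ _ (Ne.symm hi)), add_zero] at h'
          exact one_ne_zero h'
        · have h' := h k₀
          rw [map_add, Finsupp.add_apply, hrep, hrep, hi2, if_pos rfl,
            if_neg (hfst _ _ _ _ hi), zero_add] at h'
          exact one_ne_zero h'
      · intro h
        by_contra hcon
        push_neg at hcon
        apply h
        intro k
        rw [map_add, Finsupp.add_apply, hrep, hrep, if_neg (hfst _ _ _ _ (Ne.symm hcon.1)),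
          if_neg (hfst _ _ _ _ (Ne.symm hcon.2)), add_zero]
    have hN1 : cntN9 D (B ⟨i₁, k₀⟩) = (1 : F) := by
      rw [cntN_eq_card9 D _ _ hS1, Finset.card_singleton, Nat.cast_one]
    have hN2 : cntN9 D (B ⟨i₁, k₀⟩ + B ⟨i₂, k₀⟩) = (2 : F) := by
      rw [cntN_eq_card9 D _ _ hS2, Finset.card_pair hi]
      norm_num
    rw [hg, Module.Basis.coord_apply, hrep, if_pos rfl, one_smul, hN1, hN2] at h1
    have h0 : (1 : F) = 0 := by linear_combination h1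
    exact one_ne_zero h0

theorem ell_sum9 {t : ℕ} (ℓ : Fin t → Module.Dual F (Fin n → F)) (e : Fin t → Fin n → F)
    (hδ : ∀ i j, ℓ i (e j) = if i = j then 1 else 0) (A : Finset (Fin t)) (i : Fin t) :
    ℓ i (∑ j ∈ A, e j) = if i ∈ A then 1 else 0 := by
  rw [map_sum]
  simp_rw [hδ]
  rw [Finset.sum_ite_eq]

theorem dual_sum_sum9 {t : ℕ} (ℓ : Fin t → Module.Dual F (Fin n → F)) (e : Fin t → Fin n → F)
    (hδ : ∀ i j, ℓ i (e j) = if i = j then 1 else 0) (A B : Finset (Fin t)) :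
    (∑ i ∈ A, ℓ i) (∑ j ∈ B, e j) = ((A ∩ B).card : F) := by
  rw [LinearMap.sum_apply]
  simp_rw [ell_sum9 ℓ e hδ]
  rw [Finset.sum_boole, Finset.filter_mem_eq_inter]

theorem sum_sq_char2_9 (h2 : (2 : F) = 0) {κ : Type*} (A : Finset κ) (f : κ → F) :
    (∑ i ∈ A, f i) ^ 2 = ∑ i ∈ A, (f i) ^ 2 := by
  classical
  induction A using Finset.induction_on with
  | empty => simp
  | insert a s ha ih =>
    rw [Finset.sum_insert ha, Finset.sum_insert ha, ← ih]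
    linear_combination (f a * ∑ i ∈ s, f i) * h2

theorem dec1_char2_9 (h2 : (2 : F) = 0) {t : ℕ} (ht : 4 ≤ t)
    (ℓ : Fin t → Module.Dual F (Fin n → F)) (e : Fin t → Fin n → F)
    (hδ : ∀ i j, ℓ i (e j) = if i = j then 1 else 0) :
    ∃ g : GL (Fin n) F, g ∈ Cfsg.Geo.specialLinear (Fin n) F ∧
      (∀ x, ∑ i, ℓ i ((g : Matrix (Fin n) (Fin n) F) *ᵥ x) = ∑ i, ℓ i x) ∧
      (∀ x, ∑ i, (ℓ i ((g : Matrix (Fin n) (Fin n) F) *ᵥ x)) ^ 3 = ∑ i, (ℓ i x) ^ 3) ∧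
      ∃ i₀ j₂ j₃, j₂ ≠ j₃ ∧ ℓ j₂ ((g : Matrix (Fin n) (Fin n) F) *ᵥ (e i₀)) ≠ 0 ∧ ℓ j₃ ((g : Matrix (Fin n) (Fin n) F) *ᵥ (e i₀)) ≠ 0 := by
  classical
  obtain ⟨A, -, hA⟩ := Finset.exists_subset_card_eq (s := (Finset.univ : Finset (Fin t)))
    (n := 4) (by rw [Finset.card_univ, Fintype.card_fin]; exact ht)
  have h4 : (4 : F) = 0 := by linear_combination 2 * h2
  have hψz : (∑ i ∈ A, ℓ i) (∑ j ∈ A, e j) = 0 := by
    rw [dual_sum_sum9 ℓ e hδ, Finset.inter_self, hA]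
    push_cast
    exact h4
  obtain ⟨g, hgS, hg⟩ := exists_transv9 (∑ i ∈ A, ℓ i) (∑ j ∈ A, e j) hψz
  have hcoord : ∀ i x, ℓ i ((g : Matrix (Fin n) (Fin n) F) *ᵥ x) =
      ℓ i x + (∑ j ∈ A, ℓ j x) * (if i ∈ A then 1 else 0) := by
    intro i x
    rw [hg, map_add, map_smul, ell_sum9 ℓ e hδ, smul_eq_mul, LinearMap.sum_apply]
  refine ⟨g, hgS, ?_, ?_, ?_⟩
  · intro x
    simp_rw [hcoord]
    rw [Finset.sum_add_distrib, ← Finset.mul_sum, Finset.sum_boole,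
      Finset.filter_mem_eq_inter, Finset.univ_inter, hA]
    push_cast
    rw [h4, mul_zero, add_zero]
  · intro x
    obtain ⟨p, hp⟩ : ∃ p, p = ∑ j ∈ A, ℓ j x := ⟨_, rfl⟩
    have hterm : ∀ i, (ℓ i ((g : Matrix (Fin n) (Fin n) F) *ᵥ x)) ^ 3 = (ℓ i x) ^ 3 +
        (if i ∈ A then ((ℓ i x) ^ 2 * p + ℓ i x * p ^ 2 + p ^ 3) else 0) := by
      intro i
      rw [hcoord, ← hp]
      by_cases hi : i ∈ A
      · simp only [if_pos hi]
        linear_combination ((ℓ i x) ^ 2 * p + ℓ i x * p ^ 2) * h2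
      · simp only [if_neg hi]
        ring
    simp_rw [hterm]
    have hs : ∑ i, (if i ∈ A then ((ℓ i x) ^ 2 * p + ℓ i x * p ^ 2 + p ^ 3) else 0) =
        p ^ 2 * p + p * p ^ 2 + 4 * p ^ 3 := by
      rw [Finset.sum_ite_mem, Finset.univ_inter, Finset.sum_add_distrib,
        Finset.sum_add_distrib, ← Finset.sum_mul, ← Finset.sum_mul, ← sum_sq_char2_9 h2,
        ← hp, Finset.sum_const, hA, nsmul_eq_mul]
      push_cast
      ring
    rw [Finset.sum_add_distrib, hs]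
    linear_combination (p ^ 3) * h2 + p ^ 3 * h4
  · have hcard : 0 < A.card := by omega
    obtain ⟨i₀, hi₀⟩ := Finset.card_pos.mp hcard
    have hcard2 : 1 < (A.erase i₀).card := by
      rw [Finset.card_erase_of_mem hi₀]
      omega
    obtain ⟨j₂, hj₂, j₃, hj₃, hne⟩ := Finset.one_lt_card.mp hcard2
    have hval : ∀ j ∈ A.erase i₀, ℓ j ((g : Matrix (Fin n) (Fin n) F) *ᵥ (e i₀)) = 1 := by
      intro j hj
      have hjA := Finset.mem_of_mem_erase hj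
      have hjne := Finset.ne_of_mem_erase hj
      rw [hcoord]
      simp_rw [hδ]
      rw [Finset.sum_ite_eq', if_pos hi₀, if_neg hjne, if_pos hjA]
      ring
    refine ⟨i₀, j₂, j₃, hne, ?_, ?_⟩
    · rw [hval j₂ hj₂]
      exact one_ne_zero
    · rw [hval j₃ hj₃]
      exact one_ne_zero

theorem dec1_char3_9 (h3 : (3 : F) = 0) {t : ℕ} (ht : 6 ≤ t)
    (ℓ : Fin t → Module.Dual F (Fin n → F)) (e : Fin t → Fin n → F)
    (hδ : ∀ i j, ℓ i (e j) = if i = j then 1 else 0) :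
    ∃ g : GL (Fin n) F, g ∈ Cfsg.Geo.specialLinear (Fin n) F ∧
      (∀ x, ∑ i, (ℓ i ((g : Matrix (Fin n) (Fin n) F) *ᵥ x)) ^ 2 = ∑ i, (ℓ i x) ^ 2) ∧
      ∃ i₀ j₂ j₃, j₂ ≠ j₃ ∧ ℓ j₂ ((g : Matrix (Fin n) (Fin n) F) *ᵥ (e i₀)) ≠ 0 ∧ ℓ j₃ ((g : Matrix (Fin n) (Fin n) F) *ᵥ (e i₀)) ≠ 0 := by
  classical
  obtain ⟨C, -, hC⟩ := Finset.exists_subset_card_eq (s := (Finset.univ : Finset (Fin t)))
    (n := 6) (by rw [Finset.card_univ, Fintype.card_fin]; exact ht)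
  obtain ⟨A, hAC, hA⟩ := Finset.exists_subset_card_eq (s := C) (n := 3) (by omega)
  obtain ⟨B, hB⟩ : ∃ B, B = C \ A := ⟨_, rfl⟩
  have hBc : B.card = 3 := by
    rw [hB, Finset.card_sdiff_of_subset hAC]
    omega
  have hdis : Disjoint A B := by
    rw [hB]
    exact Finset.disjoint_sdiff
  have hAB : A ∩ B = ∅ := Finset.disjoint_iff_inter_eq_empty.mp hdis
  have hBA : B ∩ A = ∅ := by
    rw [Finset.inter_comm]
    exact hAB
  have h1 : (∑ i ∈ A, ℓ i) (∑ j ∈ B, e j) = 0 := by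
    rw [dual_sum_sum9 ℓ e hδ, hAB]
    simp
  have h2 : (-(∑ i ∈ B, ℓ i)) (∑ j ∈ A, e j) = 0 := by
    rw [LinearMap.neg_apply, dual_sum_sum9 ℓ e hδ, hBA]
    simp
  have h3' : (∑ i ∈ B, ℓ i) (∑ j ∈ B, e j) = 0 := by
    rw [dual_sum_sum9 ℓ e hδ, Finset.inter_self, hBc]
    push_cast
    exact h3
  obtain ⟨t₂, ht₂S, ht₂⟩ := exists_transv9 (∑ i ∈ A, ℓ i) (∑ j ∈ B, e j) h1
  obtain ⟨t₁, ht₁S, ht₁⟩ := exists_transv9 (-(∑ i ∈ B, ℓ i)) (∑ j ∈ A, e j) h2
  have hcoord : ∀ i x, ℓ i (((t₁ * t₂ : GL (Fin n) F) : Matrix (Fin n) (Fin n) F) *ᵥ x) =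
      ℓ i x + (∑ j ∈ A, ℓ j x) * (if i ∈ B then 1 else 0) -
        (∑ j ∈ B, ℓ j x) * (if i ∈ A then 1 else 0) := by
    intro i x
    rw [gl_mul_vec9, ht₂, ht₁]
    simp only [LinearMap.neg_apply, map_add, map_smul, smul_eq_mul, map_neg]
    rw [h3', ell_sum9 ℓ e hδ, ell_sum9 ℓ e hδ]
    simp only [LinearMap.sum_apply]
    ring
  refine ⟨t₁ * t₂, mul_mem ht₁S ht₂S, ?_, ?_⟩
  · intro x
    obtain ⟨p, hp⟩ : ∃ p, p = ∑ j ∈ A, ℓ j x := ⟨_, rfl⟩
    obtain ⟨r, hr⟩ : ∃ r, r = ∑ j ∈ B, ℓ j x := ⟨_, rfl⟩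
    have hterm : ∀ i, (ℓ i (((t₁ * t₂ : GL (Fin n) F) : Matrix (Fin n) (Fin n) F) *ᵥ x)) ^ 2 = (ℓ i x) ^ 2 +
        (if i ∈ B then (2 * p * ℓ i x + p ^ 2) else 0) +
        (if i ∈ A then (-(2 * r * ℓ i x) + r ^ 2) else 0) := by
      intro i
      rw [hcoord, ← hp, ← hr]
      by_cases hiA : i ∈ A
      · have hiB : i ∉ B := fun h => Finset.disjoint_left.mp hdis hiA h
        simp only [if_pos hiA, if_neg hiB]
        ring
      · by_cases hiB : i ∈ B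
        · simp only [if_neg hiA, if_pos hiB]
          ring
        · simp only [if_neg hiA, if_neg hiB]
          ring
    simp_rw [hterm]
    have hsB : ∑ i, (if i ∈ B then (2 * p * ℓ i x + p ^ 2) else 0) = 2 * p * r + 3 * p ^ 2 := by
      rw [Finset.sum_ite_mem, Finset.univ_inter, Finset.sum_add_distrib, ← Finset.mul_sum,
        ← hr, Finset.sum_const, hBc, nsmul_eq_mul]
      push_cast
      ring
    have hsA : ∑ i, (if i ∈ A then (-(2 * r * ℓ i x) + r ^ 2) else 0) =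
        -(2 * r * p) + 3 * r ^ 2 := by
      rw [Finset.sum_ite_mem, Finset.univ_inter, Finset.sum_add_distrib,
        Finset.sum_neg_distrib, ← Finset.mul_sum, ← hp, Finset.sum_const, hA, nsmul_eq_mul]
      push_cast
      ring
    rw [Finset.sum_add_distrib, Finset.sum_add_distrib, hsB, hsA]
    linear_combination (p ^ 2 + r ^ 2) * h3
  · have hcard : 0 < A.card := by omega
    obtain ⟨i₀, hi₀⟩ := Finset.card_pos.mp hcard
    have hcard2 : 1 < B.card := by omega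
    obtain ⟨j₂, hj₂, j₃, hj₃, hne⟩ := Finset.one_lt_card.mp hcard2
    have hval : ∀ j ∈ B, ℓ j (((t₁ * t₂ : GL (Fin n) F) : Matrix (Fin n) (Fin n) F) *ᵥ (e i₀)) = 1 := by
      intro j hj
      have hjA : j ∉ A := fun h => Finset.disjoint_left.mp hdis h hj
      have hi₀B : i₀ ∉ B := fun h => Finset.disjoint_left.mp hdis hi₀ h
      have hjne : j ≠ i₀ := fun h => hjA (h ▸ hi₀)
      rw [hcoord]
      simp_rw [hδ]
      rw [Finset.sum_ite_eq', Finset.sum_ite_eq', if_pos hi₀, if_neg hi₀B, if_neg hjne,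
        if_pos hj, if_neg hjA]
      ring
    refine ⟨i₀, j₂, j₃, hne, ?_, ?_⟩
    · rw [hval j₂ hj₂]
      exact one_ne_zero
    · rw [hval j₃ hj₃]
      exact one_ne_zero

theorem dec2_char2_9 [Fintype F] (hq : Fintype.card F = 2) {t : ℕ} (ht : 3 ≤ t)
    (lam mu : Fin t → Module.Dual F (Fin n → F)) (a b : Fin t → Fin n → F)
    (hla : ∀ i j, lam i (a j) = if i = j then 1 else 0) (hma : ∀ i j, mu i (a j) = 0)
    (hlb : ∀ i j, lam i (b j) = 0) (hmb : ∀ i j, mu i (b j) = if i = j then 1 else 0) :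
    ∃ g : GL (Fin n) F, g ∈ Cfsg.Geo.specialLinear (Fin n) F ∧
      (∀ x, ∑ i, (lam i ((g : Matrix (Fin n) (Fin n) F) *ᵥ x) + lam i ((g : Matrix (Fin n) (Fin n) F) *ᵥ x) * mu i ((g : Matrix (Fin n) (Fin n) F) *ᵥ x) + mu i ((g : Matrix (Fin n) (Fin n) F) *ᵥ x)) =
        ∑ i, (lam i x + lam i x * mu i x + mu i x)) ∧
      ∃ i₀ j₂ j₃, j₂ ≠ j₃ ∧ lam j₂ ((g : Matrix (Fin n) (Fin n) F) *ᵥ (b i₀)) ≠ 0 ∧ lam j₃ ((g : Matrix (Fin n) (Fin n) F) *ᵥ (b i₀)) ≠ 0 := by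
  classical
  have h2 := f2_two9 hq
  obtain ⟨A, -, hA⟩ := Finset.exists_subset_card_eq (s := (Finset.univ : Finset (Fin t)))
    (n := 3) (by rw [Finset.card_univ, Fintype.card_fin]; exact ht)
  have hmv : ∀ i, mu i (∑ j ∈ A, a j) = 0 := by
    intro i
    rw [map_sum]
    exact Finset.sum_eq_zero fun j _ => hma i j
  have hφv : (∑ i ∈ A, mu i) (∑ j ∈ A, a j) = 0 := by
    rw [LinearMap.sum_apply]
    exact Finset.sum_eq_zero fun i _ => hmv i
  obtain ⟨g, hgS, hg⟩ := exists_transv9 (∑ i ∈ A, mu i) (∑ j ∈ A, a j) hφv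
  have hcl : ∀ i x, lam i ((g : Matrix (Fin n) (Fin n) F) *ᵥ x) =
      lam i x + (∑ j ∈ A, mu j x) * (if i ∈ A then 1 else 0) := by
    intro i x
    rw [hg, map_add, map_smul, ell_sum9 lam a hla, smul_eq_mul, LinearMap.sum_apply]
  have hcm : ∀ i x, mu i ((g : Matrix (Fin n) (Fin n) F) *ᵥ x) = mu i x := by
    intro i x
    rw [hg, map_add, map_smul, hmv, smul_zero, add_zero]
  refine ⟨g, hgS, ?_, ?_⟩
  · intro x
    obtain ⟨p, hp⟩ : ∃ p, p = ∑ j ∈ A, mu j x := ⟨_, rfl⟩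
    have hpp : p * p = p := by
      rcases f2_cases9 hq p with h | h <;> rw [h] <;> ring
    have hterm : ∀ i, lam i ((g : Matrix (Fin n) (Fin n) F) *ᵥ x) + lam i ((g : Matrix (Fin n) (Fin n) F) *ᵥ x) * mu i ((g : Matrix (Fin n) (Fin n) F) *ᵥ x) + mu i ((g : Matrix (Fin n) (Fin n) F) *ᵥ x) =
        (lam i x + lam i x * mu i x + mu i x) + (if i ∈ A then (p + p * mu i x) else 0) := by
      intro i
      rw [hcl, hcm, ← hp]
      by_cases hi : i ∈ A
      · simp only [if_pos hi]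
        ring
      · simp only [if_neg hi]
        ring
    simp_rw [hterm]
    have hs : ∑ i, (if i ∈ A then (p + p * mu i x) else 0) = 3 * p + p * p := by
      rw [Finset.sum_ite_mem, Finset.univ_inter, Finset.sum_add_distrib, ← Finset.mul_sum,
        ← hp, Finset.sum_const, hA, nsmul_eq_mul]
      push_cast
      ring
    rw [Finset.sum_add_distrib, hs, hpp]
    linear_combination (2 * p) * h2
  · have hcard : 0 < A.card := by omega
    obtain ⟨i₀, hi₀⟩ := Finset.card_pos.mp hcard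
    have hcard2 : 1 < A.card := by omega
    obtain ⟨j₂, hj₂, j₃, hj₃, hne⟩ := Finset.one_lt_card.mp hcard2
    have hval : ∀ j ∈ A, lam j ((g : Matrix (Fin n) (Fin n) F) *ᵥ (b i₀)) = 1 := by
      intro j hj
      rw [hcl, hlb]
      simp_rw [hmb]
      rw [Finset.sum_ite_eq', if_pos hi₀, if_pos hj]
      ring
    refine ⟨i₀, j₂, j₃, hne, ?_, ?_⟩
    · rw [hval j₂ hj₂]
      exact one_ne_zero
    · rw [hval j₃ hj₃]
      exact one_ne_zero

theorem dec_notmax_m1_9 [Fintype F] {t : ℕ} (hn : 13 ≤ n) (D : Fin t → Submodule F (Fin n → F))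
    (hD : Cfsg.Geo.IsMDecomposition 1 D) (hq : Fintype.card F ≤ 4) :
    ∃ K : Subgroup (GL (Fin n) F),
      Cfsg.Geo.decompositionStabilizer D ⊓ Cfsg.Geo.specialLinear (Fin n) F < K ∧
      K < Cfsg.Geo.specialLinear (Fin n) F := by
  classical
  obtain ⟨B, hB1, hB2⟩ := exists_adapted_basis9 hD
  have htn : t = n := by
    have h1 := Module.finrank_eq_card_basis B
    rw [Module.finrank_fin_fun, Fintype.card_sigma] at h1
    simp at h1
    exact h1.symm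
  obtain ⟨ℓ, hℓ⟩ : ∃ ℓ : Fin t → Module.Dual F (Fin n → F), ℓ = fun i => B.coord ⟨i, 0⟩ := ⟨_, rfl⟩
  obtain ⟨e, he⟩ : ∃ e : Fin t → Fin n → F, e = fun i => B ⟨i, 0⟩ := ⟨_, rfl⟩
  have hδ : ∀ i j, ℓ i (e j) = if i = j then 1 else 0 := by
    intro i j
    rw [hℓ, he]
    show B.coord ⟨i, 0⟩ (B ⟨j, 0⟩) = _
    rw [Module.Basis.coord_apply, Module.Basis.repr_self_apply]
    by_cases hij : i = j
    · subst hij
      rw [if_pos rfl, if_pos rfl]
    · rw [if_neg hij, if_neg]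
      intro h
      exact hij (congrArg Sigma.fst h).symm
  have hq1 : 1 < Fintype.card F := Fintype.one_lt_card
  have hform : ∀ x, cntN9 D x = ∑ i, (ℓ i x) ^ (Fintype.card F - 1) := by
    intro x
    rw [cntN_formula9 B hB1 hB2]
    refine Finset.sum_congr rfl fun i _ => ?_
    rw [hℓ]
    show _ = (B.coord ⟨i, 0⟩ x) ^ _
    rw [Module.Basis.coord_apply]
    by_cases h0 : B.repr x ⟨i, 0⟩ = 0
    · rw [if_pos (fun k => by rw [Subsingleton.elim k 0]; exact h0), h0, zero_pow (by omega)]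
    · rw [if_neg (fun h' => h0 (h' 0)), FiniteField.pow_card_sub_one_eq_one _ h0]
  have hfin : ∀ g : GL (Fin n) F, g ∈ Cfsg.Geo.specialLinear (Fin n) F →
      (∀ x, cntN9 D ((g : Matrix (Fin n) (Fin n) F) *ᵥ x) = cntN9 D x) →
      (∃ i₀ j₂ j₃, j₂ ≠ j₃ ∧ ℓ j₂ ((g : Matrix (Fin n) (Fin n) F) *ᵥ (e i₀)) ≠ 0 ∧ ℓ j₃ ((g : Matrix (Fin n) (Fin n) F) *ᵥ (e i₀)) ≠ 0) →
      ∃ K : Subgroup (GL (Fin n) F),
        Cfsg.Geo.decompositionStabilizer D ⊓ Cfsg.Geo.specialLinear (Fin n) F < K ∧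
        K < Cfsg.Geo.specialLinear (Fin n) F := by
    intro g hgS hgN ⟨i₀, j₂, j₃, hne, h2, h3⟩
    rw [hℓ, he] at h2 h3
    exact dec_notmax_of9 hD B hB1 hB2 g hgS hgN ⟨⟨i₀, 0⟩, j₂, 0, j₃, 0, hne, h2, h3⟩
  have hcases : Fintype.card F = 2 ∨ Fintype.card F = 3 ∨ Fintype.card F = 4 := by omega
  rcases hcases with h | h | h
  · have h2 : (2 : F) = 0 := f2_two9 h
    obtain ⟨g, hgS, hg1, -, hw⟩ := dec1_char2_9 h2 (by omega : 4 ≤ t) ℓ e hδ
    refine hfin g hgS (fun x => ?_) hw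
    rw [hform, hform, h]
    simp only [Nat.add_one_sub_one, pow_one]
    exact hg1 x
  · have h3 : (3 : F) = 0 := by
      have h' := FiniteField.cast_card_eq_zero F
      rw [h] at h'
      exact_mod_cast h'
    obtain ⟨g, hgS, hg1, hw⟩ := dec1_char3_9 h3 (by omega : 6 ≤ t) ℓ e hδ
    refine hfin g hgS (fun x => ?_) hw
    rw [hform, hform, h]
    exact hg1 x
  · have h2 : (2 : F) = 0 := by
      have h' := FiniteField.cast_card_eq_zero F
      rw [h] at h'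
      have h4 : (4 : F) = 0 := by exact_mod_cast h'
      have h5 : (2 : F) * 2 = 0 := by linear_combination h4
      exact mul_self_eq_zero.mp h5
    obtain ⟨g, hgS, -, hg3, hw⟩ := dec1_char2_9 h2 (by omega : 4 ≤ t) ℓ e hδ
    refine hfin g hgS (fun x => ?_) hw
    rw [hform, hform, h]
    exact hg3 x

theorem dec_notmax_m2_9 [Fintype F] {t : ℕ} (hn : 13 ≤ n) (D : Fin t → Submodule F (Fin n → F))
    (hD : Cfsg.Geo.IsMDecomposition 2 D) (hq : Fintype.card F = 2) :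
    ∃ K : Subgroup (GL (Fin n) F),
      Cfsg.Geo.decompositionStabilizer D ⊓ Cfsg.Geo.specialLinear (Fin n) F < K ∧
      K < Cfsg.Geo.specialLinear (Fin n) F := by
  classical
  obtain ⟨B, hB1, hB2⟩ := exists_adapted_basis9 hD
  have htn : t * 2 = n := by
    have h1 := Module.finrank_eq_card_basis B
    rw [Module.finrank_fin_fun, Fintype.card_sigma] at h1
    simp at h1
    exact h1.symm
  have h2 := f2_two9 hq
  obtain ⟨lam, hlam⟩ : ∃ lam : Fin t → Module.Dual F (Fin n → F),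
    lam = fun i => B.coord ⟨i, 0⟩ := ⟨_, rfl⟩
  obtain ⟨mu, hmu⟩ : ∃ mu : Fin t → Module.Dual F (Fin n → F),
    mu = fun i => B.coord ⟨i, 1⟩ := ⟨_, rfl⟩
  obtain ⟨a, ha⟩ : ∃ a : Fin t → Fin n → F, a = fun i => B ⟨i, 0⟩ := ⟨_, rfl⟩
  obtain ⟨b, hb⟩ : ∃ b : Fin t → Fin n → F, b = fun i => B ⟨i, 1⟩ := ⟨_, rfl⟩
  have hgen : ∀ (k l : Fin 2) (i j : Fin t),
      B.coord ⟨i, k⟩ (B ⟨j, l⟩) = if i = j ∧ k = l then 1 else 0 := by
    intro k l i j
    rw [Module.Basis.coord_apply, Module.Basis.repr_self_apply]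
    by_cases h : i = j ∧ k = l
    · obtain ⟨rfl, rfl⟩ := h
      rw [if_pos rfl, if_pos ⟨rfl, rfl⟩]
    · rw [if_neg h, if_neg]
      intro h'
      apply h
      simp only [Sigma.mk.injEq, heq_eq_eq] at h'
      exact ⟨h'.1.symm, h'.2.symm⟩
  have hla : ∀ i j, lam i (a j) = if i = j then 1 else 0 := by
    intro i j
    rw [hlam, ha]
    show B.coord ⟨i, 0⟩ (B ⟨j, 0⟩) = _
    rw [hgen]
    simp
  have hma : ∀ i j, mu i (a j) = 0 := by
    intro i j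
    rw [hmu, ha]
    show B.coord ⟨i, 1⟩ (B ⟨j, 0⟩) = _
    rw [hgen]
    simp
  have hlb : ∀ i j, lam i (b j) = 0 := by
    intro i j
    rw [hlam, hb]
    show B.coord ⟨i, 0⟩ (B ⟨j, 1⟩) = _
    rw [hgen]
    simp
  have hmb : ∀ i j, mu i (b j) = if i = j then 1 else 0 := by
    intro i j
    rw [hmu, hb]
    show B.coord ⟨i, 1⟩ (B ⟨j, 1⟩) = _
    rw [hgen]
    simp
  have hform : ∀ x, cntN9 D x = ∑ i, (lam i x + lam i x * mu i x + mu i x) := by
    intro x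
    rw [cntN_formula9 B hB1 hB2]
    refine Finset.sum_congr rfl fun i _ => ?_
    rw [hlam, hmu]
    show _ = B.coord ⟨i, 0⟩ x + B.coord ⟨i, 0⟩ x * B.coord ⟨i, 1⟩ x + B.coord ⟨i, 1⟩ x
    rw [Module.Basis.coord_apply, Module.Basis.coord_apply]
    rcases f2_cases9 hq (B.repr x ⟨i, 0⟩) with h0 | h0 <;>
      rcases f2_cases9 hq (B.repr x ⟨i, 1⟩) with h1 | h1
    · rw [if_pos (Fin.forall_fin_two.mpr ⟨h0, h1⟩), h0, h1]
      ring
    · rw [if_neg (fun h' => by have h'' := h' 1; rw [h1] at h''; exact one_ne_zero h''), h0, h1]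
      ring
    · rw [if_neg (fun h' => by have h'' := h' 0; rw [h0] at h''; exact one_ne_zero h''), h0, h1]
      ring
    · rw [if_neg (fun h' => by have h'' := h' 0; rw [h0] at h''; exact one_ne_zero h''), h0, h1]
      linear_combination (-1 : F) * h2
  obtain ⟨g, hgS, hgN, i₀, j₂, j₃, hne, hw2, hw3⟩ :=
    dec2_char2_9 hq (by omega : 3 ≤ t) lam mu a b hla hma hlb hmb
  rw [hlam, hb] at hw2 hw3
  refine dec_notmax_of9 hD B hB1 hB2 g hgS (fun x => ?_) ⟨⟨i₀, 1⟩, j₂, 0, j₃, 0, hne, hw2, hw3⟩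
  rw [hform, hform]
  exact hgN x

theorem dec_notmax9 [Fintype F] {t : ℕ} (hn : 13 ≤ n) (m : ℕ) (D : Fin t → Submodule F (Fin n → F))
    (hD : Cfsg.Geo.IsMDecomposition m D)
    (h : (m = 1 ∧ Fintype.card F ≤ 4) ∨ (m = 2 ∧ Fintype.card F = 2)) :
    ∃ K : Subgroup (GL (Fin n) F),
      Cfsg.Geo.decompositionStabilizer D ⊓ Cfsg.Geo.specialLinear (Fin n) F < K ∧
      K < Cfsg.Geo.specialLinear (Fin n) F := by
  rcases h with ⟨rfl, hq⟩ | ⟨rfl, hq⟩
  · exact dec_notmax_m1_9 hn D hD hq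
  · exact dec_notmax_m2_9 hn D hD hq

end Cfsg.Agent.Helper9
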