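import Mathlib
import Cfsg.Prelude.Def_GeometricClasses

set_option autoImplicit false

namespace Cfsg.Agent.Helper9

open Cfsg

variable {F : Type*} [Field F]

theorem f3_cases9 [Fintype F] (hq : Fintype.card F = 3) (x : F) : x = 0 ∨ x = 1 ∨ x = -1 := by
  have h := FiniteField.pow_card x
  rw [hq] at h
  have h' : x * ((x - 1) * (x + 1)) = 0 := by linear_combination h
  rcases mul_eq_zero.mp h' with h0 | h1
  · exact Or.inl h0
  · rcases mul_eq_zero.mp h1 with h2 | h2
    · exact Or.inr (Or.inl (sub_eq_zero.mp h2))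
    · exact Or.inr (Or.inr (eq_neg_of_add_eq_zero_left h2))

theorem f3_three9 [Fintype F] (hq : Fintype.card F = 3) : (3 : F) = 0 := by
  have h' := FiniteField.cast_card_eq_zero F
  rw [hq] at h'
  exact_mod_cast h'

theorem f3_two9 [Fintype F] (hq : Fintype.card F = 3) : (2 : F) ≠ 0 := by
  intro h2
  have h3 := f3_three9 hq
  have h1 : (1 : F) = 0 := by linear_combination h3 - h2
  exact one_ne_zero h1

/-- A non-degenerate symmetric bilinear form on a three-dimensional space over the field with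
three elements has an orthogonal basis of vectors of one common norm. -/
theorem f3_frame9 [Fintype F] (hq : Fintype.card F = 3)
    (f : (Fin 3 → F) → (Fin 3 → F) → F) (hf : Cfsg.Geo.IsSymmetricForm f) :
    ∃ (ε : F) (e₁ e₂ e₃ : Fin 3 → F), ε * ε = 1 ∧ f e₁ e₁ = ε ∧ f e₂ e₂ = ε ∧ f e₃ e₃ = ε ∧
      f e₁ e₂ = 0 ∧ f e₁ e₃ = 0 ∧ f e₂ e₃ = 0 ∧
      ∀ v, v = (ε * f v e₁) • e₁ + (ε * f v e₂) • e₂ + (ε * f v e₃) • e₃ := by
  classical
  have h3 : (3 : F) = 0 := f3_three9 hq
  have h2 : (2 : F) ≠ 0 := f3_two9 hq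
  have hbl := hf.bilinear
  have hsub_left : ∀ x y v, f (x - y) v = f x v - f y v := by
    intro x y v
    have h1 := hbl.add_left (x - y) y v
    rw [sub_add_cancel] at h1
    linear_combination -h1
  have hsub_right : ∀ v x y, f v (x - y) = f v x - f v y := by
    intro v x y
    rw [hf.symm, hsub_left, hf.symm x v, hf.symm y v]
  have L1 : ∀ (ε : F) (p q r : Fin 3 → F), ε * ε = 1 → f p p = ε → f q q = ε → f r r = ε →
      f p q = 0 → f p r = 0 → f q r = 0 →
      (∀ d, f d p = 0 → f d q = 0 → f d r = 0 → d = 0) →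
      ∀ v, v = (ε * f v p) • p + (ε * f v q) • q + (ε * f v r) • r := by
    intro ε p q r hε hpp hqq hrr hpq hpr hqr hspan v
    have hqp : f q p = 0 := by rw [hf.symm]; exact hpq
    have hrp : f r p = 0 := by rw [hf.symm]; exact hpr
    have hrq : f r q = 0 := by rw [hf.symm]; exact hqr
    have hd := hspan (v - ((ε * f v p) • p + (ε * f v q) • q + (ε * f v r) • r)) ?_ ?_ ?_
    · exact sub_eq_zero.mp hd
    · rw [hsub_left, hbl.add_left, hbl.add_left, hbl.smul_left, hbl.smul_left, hbl.smul_left,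
        hpp, hqp, hrp]
      linear_combination (- f v p) * hε
    · rw [hsub_left, hbl.add_left, hbl.add_left, hbl.smul_left, hbl.smul_left, hbl.smul_left,
        hpq, hqq, hrq]
      linear_combination (- f v q) * hε
    · rw [hsub_left, hbl.add_left, hbl.add_left, hbl.smul_left, hbl.smul_left, hbl.smul_left,
        hpr, hqr, hrr]
      linear_combination (- f v r) * hε
  have L2 : ∀ (p q r : Fin 3 → F) (a b : F), (a = 1 ∨ a = -1) → (b = 1 ∨ b = -1) →
      f p p = a → f q q = a → f r r = b → f p q = 0 → f p r = 0 → f q r = 0 →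
      (∀ d, f d p = 0 → f d q = 0 → f d r = 0 → d = 0) →
      ∃ (ε : F) (e₁ e₂ e₃ : Fin 3 → F), ε * ε = 1 ∧ f e₁ e₁ = ε ∧ f e₂ e₂ = ε ∧ f e₃ e₃ = ε ∧
        f e₁ e₂ = 0 ∧ f e₁ e₃ = 0 ∧ f e₂ e₃ = 0 ∧
        (∀ d, f d e₁ = 0 → f d e₂ = 0 → f d e₃ = 0 → d = 0) := by
    intro p q r a b ha hb hpp hqq hrr hpq hpr hqr hspan
    have haa : a * a = 1 := by rcases ha with h | h <;> rw [h] <;> ring
    have hqp : f q p = 0 := by rw [hf.symm]; exact hpq
    by_cases hab : b = a
    · exact ⟨a, p, q, r, haa, hpp, hqq, hrr.trans hab, hpq, hpr, hqr, hspan⟩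
    · have hba : b = -a := by
        rcases ha with h | h <;> rcases hb with h' | h'
        · exact absurd (h'.trans h.symm) hab
        · rw [h', h]
        · rw [h', h, neg_neg]
        · exact absurd (h'.trans h.symm) hab
      refine ⟨-a, p + q, p - q, r, by linear_combination haa, ?_, ?_, by rw [hrr, hba], ?_, ?_,
        ?_, ?_⟩
      · rw [hbl.add_left, hbl.add_right, hbl.add_right, hpp, hqq, hpq, hqp]
        linear_combination a * h3
      · rw [hsub_left, hsub_right, hsub_right, hpp, hqq, hpq, hqp]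
        linear_combination a * h3
      · rw [hbl.add_left, hsub_right, hsub_right, hpp, hqq, hpq, hqp]
        ring
      · rw [hbl.add_left, hpr, hqr, add_zero]
      · rw [hsub_left, hpr, hqr, sub_zero]
      · intro d h1 h2' h3'
        rw [hbl.add_right] at h1
        rw [hsub_right] at h2'
        have hdp : f d p = 0 := by
          have h4 : (2 : F) * f d p = 0 := by linear_combination h1 + h2'
          rcases mul_eq_zero.mp h4 with h | h
          · exact absurd h h2
          · exact h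
        have hdq : f d q = 0 := by linear_combination h1 - hdp
        exact hspan d hdp hdq h3'
  obtain ⟨B, hB⟩ : ∃ B : LinearMap.BilinForm F (Fin 3 → F), ∀ x y, B x y = f x y :=
    ⟨LinearMap.mk₂ F f hbl.add_left (fun c x v => hbl.smul_left c x v) hbl.add_right
      (fun c v x => hbl.smul_right c v x), fun x y => rfl⟩
  have hBs : LinearMap.BilinForm.IsSymm B := ⟨fun x y => by
    rw [hB, hB]
    exact hf.symm x y⟩
  have hinv2 : Invertible (2 : F) := invertibleOfNonzero h2
  obtain ⟨v, hv⟩ := LinearMap.BilinForm.exists_orthogonal_basis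
    (LinearMap.BilinForm.isSymm_iff.mp hBs)
  have hfr : Module.finrank F (Fin 3 → F) = 3 := Module.finrank_fin_fun F
  obtain ⟨b, hb⟩ : ∃ b : Module.Basis (Fin 3) F (Fin 3 → F),
      ∀ i j, i ≠ j → f (b i) (b j) = 0 := by
    refine ⟨v.reindex (finCongr hfr), fun i j hij => ?_⟩
    rw [← hB]
    simp only [Module.Basis.reindex_apply]
    exact hv (fun h => hij ((finCongr hfr).symm.injective h))
  have hspan : ∀ d, f d (b 0) = 0 → f d (b 1) = 0 → f d (b 2) = 0 → d = 0 := by
    intro d h0 h1 h2'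
    have hall : ∀ i, f d (b i) = 0 := by
      intro i
      fin_cases i
      · exact h0
      · exact h1
      · exact h2'
    by_contra hd
    obtain ⟨x, hx⟩ := (hf.nondegenerate d hd).2
    apply hx
    rw [← hB, ← b.sum_repr x, map_sum]
    refine Finset.sum_eq_zero fun i _ => ?_
    rw [map_smul, hB, smul_eq_mul, hall, mul_zero]
  have hnorm : ∀ i, f (b i) (b i) ≠ 0 := by
    intro i h0
    obtain ⟨x, hx⟩ := (hf.nondegenerate (b i) (b.ne_zero i)).2
    apply hx
    rw [← hB, ← b.sum_repr x, map_sum]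
    refine Finset.sum_eq_zero fun j _ => ?_
    rw [map_smul, hB, smul_eq_mul]
    by_cases hij : i = j
    · rw [← hij, h0, mul_zero]
    · rw [hb i j hij, mul_zero]
  have hpm : ∀ i, f (b i) (b i) = 1 ∨ f (b i) (b i) = -1 := fun i =>
    (f3_cases9 hq _).resolve_left (hnorm i)
  have key : ∃ (ε : F) (e₁ e₂ e₃ : Fin 3 → F), ε * ε = 1 ∧ f e₁ e₁ = ε ∧ f e₂ e₂ = ε ∧
      f e₃ e₃ = ε ∧ f e₁ e₂ = 0 ∧ f e₁ e₃ = 0 ∧ f e₂ e₃ = 0 ∧
      (∀ d, f d e₁ = 0 → f d e₂ = 0 → f d e₃ = 0 → d = 0) := by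
    by_cases h01 : f (b 0) (b 0) = f (b 1) (b 1)
    · exact L2 (b 0) (b 1) (b 2) _ _ (hpm 0) (hpm 2) rfl h01.symm rfl (hb 0 1 (by decide))
        (hb 0 2 (by decide)) (hb 1 2 (by decide)) hspan
    · by_cases h02 : f (b 0) (b 0) = f (b 2) (b 2)
      · exact L2 (b 0) (b 2) (b 1) _ _ (hpm 0) (hpm 1) rfl h02.symm rfl (hb 0 2 (by decide))
          (hb 0 1 (by decide)) (hb 2 1 (by decide)) (fun d h0 h2' h1 => hspan d h0 h1 h2')
      · have h12 : f (b 1) (b 1) = f (b 2) (b 2) := by
          rcases hpm 0 with h | h <;> rcases hpm 1 with h' | h' <;> rcases hpm 2 with h'' | h''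
          all_goals first
            | (rw [h', h'']; done)
            | (exact absurd (h.trans h'.symm) h01)
            | (exact absurd (h.trans h''.symm) h02)
        exact L2 (b 1) (b 2) (b 0) _ _ (hpm 1) (hpm 0) rfl h12.symm rfl (hb 1 2 (by decide))
          (hb 1 0 (by decide)) (hb 2 0 (by decide)) (fun d h1 h2' h0 => hspan d h0 h1 h2')
  obtain ⟨ε, e₁, e₂, e₃, hε, h11, h22, h33, h12, h13, h23, hsp⟩ := key
  exact ⟨ε, e₁, e₂, e₃, hε, h11, h22, h33, h12, h13, h23,
    L1 ε e₁ e₂ e₃ hε h11 h22 h33 h12 h13 h23 hsp⟩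

end Cfsg.Agent.Helper9
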