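import Mathlib
import Cfsg.Prelude.Def_Sporadic_a

set_option autoImplicit false

namespace Cfsg.Agent.Helper9

open Cfsg

/-- Indicator word of a set of coordinates. -/
def ind24 (s : Finset (Fin 24)) : Fin 24 → ZMod 2 := fun i => if i ∈ s then 1 else 0

theorem support₂_ind24 (s : Finset (Fin 24)) : support₂ (ind24 s) = s := by
  ext i
  simp [support₂, ind24]

theorem ind24_support₂ (w : Fin 24 → ZMod 2) : ind24 (support₂ w) = w := by
  funext i
  simp only [ind24, support₂, Finset.mem_filter, Finset.mem_univ, true_and]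
  have : ∀ x : ZMod 2, (if x ≠ 0 then (1 : ZMod 2) else 0) = x := by decide
  exact this (w i)

theorem ind24_injective : Function.Injective ind24 := fun s t h => by
  rw [← support₂_ind24 s, ← support₂_ind24 t, h]

theorem support₂_add9 (v w : Fin 24 → ZMod 2) :
    support₂ (v + w) = symmDiff (support₂ v) (support₂ w) := by
  ext a
  simp only [Finset.mem_symmDiff, support₂, Finset.mem_filter, Finset.mem_univ, true_and,
    Pi.add_apply]
  exact (by decide : ∀ x y : ZMod 2, x + y ≠ 0 ↔ (x ≠ 0 ∧ ¬ y ≠ 0) ∨ (y ≠ 0 ∧ ¬ x ≠ 0)) _ _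

theorem card_symmDiff9 (s t : Finset (Fin 24)) :
    (symmDiff s t).card + 2 * (s ∩ t).card = s.card + t.card := by
  have h1 : symmDiff s t = (s \ t) ∪ (t \ s) := rfl
  have h2 : Disjoint (s \ t) (t \ s) := by
    rw [Finset.disjoint_left]
    intro a ha hb
    exact (Finset.mem_sdiff.mp ha).2 (Finset.mem_sdiff.mp hb).1
  rw [h1, Finset.card_union_of_disjoint h2]
  have h3 := Finset.card_sdiff_add_card_inter s t
  have h4 := Finset.card_sdiff_add_card_inter t s
  rw [Finset.inter_comm t s] at h4
  omega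

theorem card_support₂_add (v w : Fin 24 → ZMod 2) :
    (support₂ (v + w)).card + 2 * (support₂ v ∩ support₂ w).card =
      (support₂ v).card + (support₂ w).card := by
  rw [support₂_add9]
  exact card_symmDiff9 _ _

theorem add_self_zmod2 (v : Fin 24 → ZMod 2) : v + v = 0 := by
  funext i
  exact (by decide : ∀ x : ZMod 2, x + x = 0) (v i)

theorem eq_of_add_eq_zero2 {v w : Fin 24 → ZMod 2} (h : v + w = 0) : v = w := by
  funext i
  exact (by decide : ∀ x y : ZMod 2, x + y = 0 → x = y) _ _ (congrFun h i)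

theorem support₂_eq_empty {v : Fin 24 → ZMod 2} (h : (support₂ v).card = 0) : v = 0 := by
  rw [← ind24_support₂ v, Finset.card_eq_zero.mp h]
  funext i
  simp [ind24]

/-- A family of words with pairwise disjoint supports of size 4 has at most 6 members, and
if it has 6 members the supports cover all coordinates. -/
theorem disjoint_family24 (Fam : Finset (Fin 24 → ZMod 2))
    (h4 : ∀ v ∈ Fam, (support₂ v).card = 4)
    (hdisj : ∀ v ∈ Fam, ∀ v' ∈ Fam, v ≠ v' → Disjoint (support₂ v) (support₂ v')) :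
    Fam.card ≤ 6 ∧ (Fam.card = 6 → ∀ e : Fin 24, ∃ v ∈ Fam, e ∈ support₂ v) := by
  classical
  have h1 : (Fam.biUnion support₂).card = ∑ v ∈ Fam, (support₂ v).card :=
    Finset.card_biUnion (fun v hv v' hv' hne => hdisj v hv v' hv' hne)
  rw [Finset.sum_congr rfl h4, Finset.sum_const, smul_eq_mul] at h1
  have h2 : (Fam.biUnion support₂).card ≤ 24 := by
    have := Finset.card_le_univ (Fam.biUnion support₂)
    simpa using this
  refine ⟨by omega, fun h6 e => ?_⟩
  have h3 : Fam.biUnion support₂ = Finset.univ := by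
    apply Finset.eq_univ_of_card
    rw [h1, h6]
    simp
  have h5 : e ∈ Fam.biUnion support₂ := by
    rw [h3]
    exact Finset.mem_univ e
  exact Finset.mem_biUnion.mp h5

/-- In a binary code of length 24, dimension 12 and minimum weight at least 8, every five
coordinates lie in the support of a word of weight 8. -/
theorem golay_key (C : Submodule (ZMod 2) (Fin 24 → ZMod 2))
    (hdim : Module.finrank (ZMod 2) C = 12)
    (hmin : ∀ w ∈ C, w ≠ 0 → 8 ≤ (support₂ w).card) (s : Finset (Fin 24)) (hs : s.card = 5) :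
    ∃ c ∈ C, (support₂ c).card = 8 ∧ s ⊆ support₂ c := by
  classical
  have hπ : ∀ v w : Fin 24 → ZMod 2, C.mkQ v = C.mkQ w ↔ v + w ∈ C := by
    intro v w
    rw [Submodule.mkQ_apply, Submodule.mkQ_apply, Submodule.Quotient.eq]
    have : v - w = v + w := by
      funext i
      exact (by decide : ∀ x y : ZMod 2, x - y = x + y) _ _
    rw [this]
  have : Fintype ((Fin 24 → ZMod 2) ⧸ C) := Fintype.ofFinite _
  have hcardQ : Fintype.card ((Fin 24 → ZMod 2) ⧸ C) = 4096 := by
    have h1 := Submodule.card_eq_card_quotient_mul_card C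
    have h2 : Nat.card (Fin 24 → ZMod 2) = 2 ^ 24 := by
      simp
    have h3 : Nat.card C = 2 ^ 12 := by
      rw [Module.natCard_eq_pow_finrank (K := ZMod 2), hdim]
      simp
    rw [h2, h3] at h1
    rw [← Nat.card_eq_fintype_card]
    have h4 : (2 : ℕ) ^ 24 = 2 ^ 12 * 4096 := by norm_num
    rw [h4] at h1
    exact (Nat.eq_of_mul_eq_mul_left (by norm_num) h1).symm
  -- words of weight k
  obtain ⟨W, hW⟩ : ∃ W : ℕ → Finset (Fin 24 → ZMod 2),
      W = fun k => (Finset.powersetCard k (Finset.univ : Finset (Fin 24))).image ind24 := ⟨_, rfl⟩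
  have hWmem : ∀ k v, v ∈ W k ↔ (support₂ v).card = k := by
    intro k v
    rw [hW]
    constructor
    · intro hv
      obtain ⟨t, ht, rfl⟩ := Finset.mem_image.mp hv
      rw [support₂_ind24]
      exact (Finset.mem_powersetCard.mp ht).2
    · intro hv
      exact Finset.mem_image.mpr ⟨support₂ v,
        Finset.mem_powersetCard.mpr ⟨Finset.subset_univ _, hv⟩, ind24_support₂ v⟩
  have hWcard : ∀ k, (W k).card = Nat.choose 24 k := by
    intro k
    rw [hW]
    show ((Finset.powersetCard k (Finset.univ : Finset (Fin 24))).image ind24).card = _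
    rw [Finset.card_image_of_injective _ ind24_injective, Finset.card_powersetCard]
    simp
  obtain ⟨A, hA⟩ : ∃ A : Finset (Fin 24 → ZMod 2), A = (Finset.range 4).biUnion W := ⟨_, rfl⟩
  have hAmem : ∀ v, v ∈ A ↔ (support₂ v).card ≤ 3 := by
    intro v
    rw [hA, Finset.mem_biUnion]
    constructor
    · rintro ⟨k, hk, hv⟩
      rw [hWmem] at hv
      rw [Finset.mem_range] at hk
      omega
    · intro hv
      exact ⟨(support₂ v).card, Finset.mem_range.mpr (by omega), (hWmem _ _).mpr rfl⟩
  have hAcard : A.card = 2325 := by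
    rw [hA, Finset.card_biUnion]
    · rw [Finset.sum_congr rfl (fun k _ => hWcard k)]
      decide
    · intro j _ k _ hjk
      rw [Function.onFun, Finset.disjoint_left]
      intro v hv1 hv2
      rw [hWmem] at hv1 hv2
      exact hjk (hv1.symm.trans hv2)
  have hAinj : Set.InjOn C.mkQ (A : Set (Fin 24 → ZMod 2)) := by
    intro a ha a' ha' h
    rw [Finset.mem_coe, hAmem] at ha ha'
    rw [hπ] at h
    apply eq_of_add_eq_zero2
    by_contra h0
    have h8 := hmin _ h h0
    have hsum := card_support₂_add a a'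
    omega
  have hdisjT : ∀ v ∈ W 4, ∀ a ∈ A, C.mkQ v ≠ C.mkQ a := by
    intro v hv a ha h
    rw [hWmem] at hv
    rw [hAmem] at ha
    rw [hπ] at h
    by_cases h0 : v + a = 0
    · have := eq_of_add_eq_zero2 h0
      rw [this] at hv
      omega
    · have h8 := hmin _ h h0
      have hsum := card_support₂_add v a
      omega
  have hdisj4 : ∀ v ∈ W 4, ∀ v' ∈ W 4, C.mkQ v = C.mkQ v' → v ≠ v' →
      Disjoint (support₂ v) (support₂ v') := by
    intro v hv v' hv' h hne
    rw [hWmem] at hv hv'
    rw [hπ] at h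
    have h0 : v + v' ≠ 0 := fun h0 => hne (eq_of_add_eq_zero2 h0)
    have h8 := hmin _ h h0
    have hsum := card_support₂_add v v'
    rw [Finset.disjoint_iff_inter_eq_empty, ← Finset.card_eq_zero]
    omega
  have hfib : ∀ q : (Fin 24 → ZMod 2) ⧸ C,
      ((W 4).filter (fun v => C.mkQ v = q)).card ≤ 6 ∧
        (((W 4).filter (fun v => C.mkQ v = q)).card = 6 →
          ∀ e : Fin 24, ∃ v ∈ (W 4).filter (fun v => C.mkQ v = q), e ∈ support₂ v) := by
    intro q
    apply disjoint_family24
    · intro v hv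
      exact (hWmem 4 v).mp (Finset.mem_filter.mp hv).1
    · intro v hv v' hv' hne
      rw [Finset.mem_filter] at hv hv'
      exact hdisj4 v hv.1 v' hv'.1 (hv.2.trans hv'.2.symm) hne
  have hTA : (A.image C.mkQ).card = 2325 := by
    rw [Finset.card_image_of_injOn hAinj, hAcard]
  have hdisjoint : Disjoint ((W 4).image C.mkQ) (A.image C.mkQ) := by
    rw [Finset.disjoint_left]
    intro q hq1 hq2
    obtain ⟨v, hv, rfl⟩ := Finset.mem_image.mp hq1
    obtain ⟨a, ha, hav⟩ := Finset.mem_image.mp hq2
    exact hdisjT v hv a ha hav.symm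
  have hT4 : ((W 4).image C.mkQ).card ≤ 1771 := by
    have h1 := Finset.card_union_of_disjoint hdisjoint
    have h2 := Finset.card_le_univ ((W 4).image C.mkQ ∪ A.image C.mkQ)
    rw [hcardQ] at h2
    omega
  have hsum : (W 4).card = ∑ q ∈ (W 4).image C.mkQ, ((W 4).filter (fun v => C.mkQ v = q)).card :=
    Finset.card_eq_sum_card_image C.mkQ (W 4)
  have hW4 : (W 4).card = 10626 := by
    rw [hWcard]
    decide
  have hall : ∀ q ∈ (W 4).image C.mkQ, ((W 4).filter (fun v => C.mkQ v = q)).card = 6 := by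
    by_contra hne
    push_neg at hne
    obtain ⟨q0, hq0, hq0ne⟩ := hne
    have hlt : ∑ q ∈ (W 4).image C.mkQ, ((W 4).filter (fun v => C.mkQ v = q)).card <
        ∑ q ∈ (W 4).image C.mkQ, 6 := by
      apply Finset.sum_lt_sum
      · intro q _
        exact (hfib q).1
      · exact ⟨q0, hq0, lt_of_le_of_ne (hfib q0).1 hq0ne⟩
    rw [Finset.sum_const, smul_eq_mul, ← hsum, hW4] at hlt
    omega
  -- the 5-set
  obtain ⟨e, he⟩ : ∃ e, e ∈ s := by
    apply Finset.card_pos.mp
    omega
  have hv4 : (support₂ (ind24 (s.erase e))).card = 4 := by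
    rw [support₂_ind24, Finset.card_erase_of_mem he, hs]
  have hvW : ind24 (s.erase e) ∈ W 4 := (hWmem 4 _).mpr hv4
  have h6 := hall _ (Finset.mem_image_of_mem _ hvW)
  obtain ⟨v', hv', hev'⟩ := (hfib _).2 h6 e
  rw [Finset.mem_filter] at hv'
  have hne : ind24 (s.erase e) ≠ v' := by
    intro h
    rw [← h, support₂_ind24] at hev'
    exact (Finset.notMem_erase e s) hev'
  have hd := hdisj4 _ hvW v' hv'.1 hv'.2.symm hne
  have hc : ind24 (s.erase e) + v' ∈ C := (hπ _ _).mp hv'.2.symm
  refine ⟨_, hc, ?_, ?_⟩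
  · have hsum2 := card_support₂_add (ind24 (s.erase e)) v'
    have h0 : (support₂ (ind24 (s.erase e)) ∩ support₂ v').card = 0 := by
      rw [Finset.card_eq_zero, ← Finset.disjoint_iff_inter_eq_empty]
      exact hd
    have hv'4 := (hWmem 4 v').mp hv'.1
    omega
  · intro x hx
    rw [support₂_add9, Finset.mem_symmDiff, support₂_ind24]
    by_cases hxe : x = e
    · right
      rw [hxe]
      exact ⟨hev', Finset.notMem_erase e s⟩
    · left
      have hx' : x ∈ s.erase e := Finset.mem_erase.mpr ⟨hxe, hx⟩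
      refine ⟨hx', fun hxv' => ?_⟩
      rw [support₂_ind24] at hd
      exact (Finset.disjoint_left.mp hd) hx' hxv'

end Cfsg.Agent.Helper9
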