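import Mathlib
import Cfsg.Agent.Helper9.GolayAbstract

set_option autoImplicit false

namespace Cfsg.Agent.Helper9

open Cfsg

/-- Dot product of binary words as the parity of the intersection of the supports. -/
theorem dot_eq_card_inter24 (v w : Fin 24 → ZMod 2) :
    ∑ i, v i * w i = ((support₂ v ∩ support₂ w).card : ZMod 2) := by
  classical
  have h1 : ∀ i, v i * w i = if i ∈ support₂ v ∩ support₂ w then (1 : ZMod 2) else 0 := by
    intro i
    simp only [Finset.mem_inter, support₂, Finset.mem_filter, Finset.mem_univ, true_and]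
    exact (by decide : ∀ x y : ZMod 2, x * y = if x ≠ 0 ∧ y ≠ 0 then (1 : ZMod 2) else 0) _ _
  rw [Finset.sum_congr rfl (fun i _ => h1 i), Finset.sum_ite_mem, Finset.univ_inter,
    Finset.sum_const, nsmul_eq_mul, mul_one]

/-- The structure of the cosets of a binary code of length 24, dimension 12 and minimum weight
at least 8. -/
theorem golay_cosets (C : Submodule (ZMod 2) (Fin 24 → ZMod 2))
    (hdim : Module.finrank (ZMod 2) C = 12)
    (hmin : ∀ w ∈ C, w ≠ 0 → 8 ≤ (support₂ w).card) (w : Fin 24 → ZMod 2) :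
    (∃ a : Fin 24 → ZMod 2, (support₂ a).card ≤ 3 ∧ a + w ∈ C ∧
      ∀ u : Fin 24 → ZMod 2, u + w ∈ C → (support₂ u).card ≤ 4 → u = a) ∨
    (∃ Fam : Finset (Fin 24 → ZMod 2), Fam.card = 6 ∧
      (∀ u, u ∈ Fam ↔ (u + w ∈ C ∧ (support₂ u).card ≤ 4)) ∧
      (∀ u ∈ Fam, (support₂ u).card = 4) ∧
      ∀ u ∈ Fam, ∀ u' ∈ Fam, u ≠ u' → Disjoint (support₂ u) (support₂ u')) := by
  classical
  have hπ : ∀ v w : Fin 24 → ZMod 2, C.mkQ v = C.mkQ w ↔ v + w ∈ C := by
    intro v w
    rw [Submodule.mkQ_apply, Submodule.mkQ_apply, Submodule.Quotient.eq]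
    have : v - w = v + w := by
      funext i
      exact (by decide : ∀ x y : ZMod 2, x - y = x + y) _ _
    rw [this]
  have : Fintype ((Fin 24 → ZMod 2) ⧸ C) := Fintype.ofFinite _
  have hcardQ : Fintype.card ((Fin 24 → ZMod 2) ⧸ C) = 4096 := by
    have h1 := Submodule.card_eq_card_quotient_mul_card C
    have h2 : Nat.card (Fin 24 → ZMod 2) = 2 ^ 24 := by
      simp
    have h3 : Nat.card C = 2 ^ 12 := by
      rw [Module.natCard_eq_pow_finrank (K := ZMod 2), hdim]
      simp
    rw [h2, h3] at h1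
    rw [← Nat.card_eq_fintype_card]
    have h4 : (2 : ℕ) ^ 24 = 2 ^ 12 * 4096 := by norm_num
    rw [h4] at h1
    exact (Nat.eq_of_mul_eq_mul_left (by norm_num) h1).symm
  -- words of weight k
  obtain ⟨W, hW⟩ : ∃ W : ℕ → Finset (Fin 24 → ZMod 2),
      W = fun k => (Finset.powersetCard k (Finset.univ : Finset (Fin 24))).image ind24 := ⟨_, rfl⟩
  have hWmem : ∀ k v, v ∈ W k ↔ (support₂ v).card = k := by
    intro k v
    rw [hW]
    constructor
    · intro hv
      obtain ⟨t, ht, rfl⟩ := Finset.mem_image.mp hv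
      rw [support₂_ind24]
      exact (Finset.mem_powersetCard.mp ht).2
    · intro hv
      exact Finset.mem_image.mpr ⟨support₂ v,
        Finset.mem_powersetCard.mpr ⟨Finset.subset_univ _, hv⟩, ind24_support₂ v⟩
  have hWcard : ∀ k, (W k).card = Nat.choose 24 k := by
    intro k
    rw [hW]
    show ((Finset.powersetCard k (Finset.univ : Finset (Fin 24))).image ind24).card = _
    rw [Finset.card_image_of_injective _ ind24_injective, Finset.card_powersetCard]
    simp
  obtain ⟨A, hA⟩ : ∃ A : Finset (Fin 24 → ZMod 2), A = (Finset.range 4).biUnion W := ⟨_, rfl⟩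
  have hAmem : ∀ v, v ∈ A ↔ (support₂ v).card ≤ 3 := by
    intro v
    rw [hA, Finset.mem_biUnion]
    constructor
    · rintro ⟨k, hk, hv⟩
      rw [hWmem] at hv
      rw [Finset.mem_range] at hk
      omega
    · intro hv
      exact ⟨(support₂ v).card, Finset.mem_range.mpr (by omega), (hWmem _ _).mpr rfl⟩
  have hAcard : A.card = 2325 := by
    rw [hA, Finset.card_biUnion]
    · rw [Finset.sum_congr rfl (fun k _ => hWcard k)]
      decide
    · intro j _ k _ hjk
      rw [Function.onFun, Finset.disjoint_left]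
      intro v hv1 hv2
      rw [hWmem] at hv1 hv2
      exact hjk (hv1.symm.trans hv2)
  have hAinj : Set.InjOn C.mkQ (A : Set (Fin 24 → ZMod 2)) := by
    intro a ha a' ha' h
    rw [Finset.mem_coe, hAmem] at ha ha'
    rw [hπ] at h
    apply eq_of_add_eq_zero2
    by_contra h0
    have h8 := hmin _ h h0
    have hsum := card_support₂_add a a'
    omega
  have hdisjT : ∀ v ∈ W 4, ∀ a ∈ A, C.mkQ v ≠ C.mkQ a := by
    intro v hv a ha h
    rw [hWmem] at hv
    rw [hAmem] at ha
    rw [hπ] at h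
    by_cases h0 : v + a = 0
    · have := eq_of_add_eq_zero2 h0
      rw [this] at hv
      omega
    · have h8 := hmin _ h h0
      have hsum := card_support₂_add v a
      omega
  have hdisj4 : ∀ v ∈ W 4, ∀ v' ∈ W 4, C.mkQ v = C.mkQ v' → v ≠ v' →
      Disjoint (support₂ v) (support₂ v') := by
    intro v hv v' hv' h hne
    rw [hWmem] at hv hv'
    rw [hπ] at h
    have h0 : v + v' ≠ 0 := fun h0 => hne (eq_of_add_eq_zero2 h0)
    have h8 := hmin _ h h0
    have hsum := card_support₂_add v v'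
    rw [Finset.disjoint_iff_inter_eq_empty, ← Finset.card_eq_zero]
    omega
  have hfib : ∀ q : (Fin 24 → ZMod 2) ⧸ C,
      ((W 4).filter (fun v => C.mkQ v = q)).card ≤ 6 ∧
        (((W 4).filter (fun v => C.mkQ v = q)).card = 6 →
          ∀ e : Fin 24, ∃ v ∈ (W 4).filter (fun v => C.mkQ v = q), e ∈ support₂ v) := by
    intro q
    apply disjoint_family24
    · intro v hv
      exact (hWmem 4 v).mp (Finset.mem_filter.mp hv).1
    · intro v hv v' hv' hne
      rw [Finset.mem_filter] at hv hv'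
      exact hdisj4 v hv.1 v' hv'.1 (hv.2.trans hv'.2.symm) hne
  have hTA : (A.image C.mkQ).card = 2325 := by
    rw [Finset.card_image_of_injOn hAinj, hAcard]
  have hdisjoint : Disjoint ((W 4).image C.mkQ) (A.image C.mkQ) := by
    rw [Finset.disjoint_left]
    intro q hq1 hq2
    obtain ⟨v, hv, rfl⟩ := Finset.mem_image.mp hq1
    obtain ⟨a, ha, hav⟩ := Finset.mem_image.mp hq2
    exact hdisjT v hv a ha hav.symm
  have hT4 : ((W 4).image C.mkQ).card ≤ 1771 := by
    have h1 := Finset.card_union_of_disjoint hdisjoint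
    have h2 := Finset.card_le_univ ((W 4).image C.mkQ ∪ A.image C.mkQ)
    rw [hcardQ] at h2
    omega
  have hsum : (W 4).card = ∑ q ∈ (W 4).image C.mkQ, ((W 4).filter (fun v => C.mkQ v = q)).card :=
    Finset.card_eq_sum_card_image C.mkQ (W 4)
  have hW4 : (W 4).card = 10626 := by
    rw [hWcard]
    decide
  have hall : ∀ q ∈ (W 4).image C.mkQ, ((W 4).filter (fun v => C.mkQ v = q)).card = 6 := by
    by_contra hne
    push_neg at hne
    obtain ⟨q0, hq0, hq0ne⟩ := hne
    have hlt : ∑ q ∈ (W 4).image C.mkQ, ((W 4).filter (fun v => C.mkQ v = q)).card <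
        ∑ q ∈ (W 4).image C.mkQ, 6 := by
      apply Finset.sum_lt_sum
      · intro q _
        exact (hfib q).1
      · exact ⟨q0, hq0, lt_of_le_of_ne (hfib q0).1 hq0ne⟩
    rw [Finset.sum_const, smul_eq_mul, ← hsum, hW4] at hlt
    omega
  have hT4eq : ((W 4).image C.mkQ).card = 1771 := by
    rw [Finset.sum_congr rfl hall, Finset.sum_const, smul_eq_mul, hW4] at hsum
    omega
  have hunion : (W 4).image C.mkQ ∪ A.image C.mkQ = Finset.univ := by
    apply Finset.eq_univ_of_card
    rw [Finset.card_union_of_disjoint hdisjoint, hT4eq, hTA, hcardQ]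
  have hq : C.mkQ w ∈ (W 4).image C.mkQ ∪ A.image C.mkQ := by
    rw [hunion]
    exact Finset.mem_univ _
  rcases Finset.mem_union.mp hq with hq4 | hqA
  · right
    obtain ⟨v, hv, hvw⟩ := Finset.mem_image.mp hq4
    refine ⟨(W 4).filter (fun u => C.mkQ u = C.mkQ w), hall _ hq4, ?_, ?_, ?_⟩
    · intro u
      rw [Finset.mem_filter, hWmem, hπ]
      constructor
      · rintro ⟨h1, h2⟩
        exact ⟨h2, by omega⟩
      · rintro ⟨h1, h2⟩
        refine ⟨?_, h1⟩
        by_contra h4
        have huA : u ∈ A := (hAmem u).mpr (by omega)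
        exact hdisjT v hv u huA (hvw.trans ((hπ u w).mpr h1).symm)
    · intro u hu
      exact (hWmem 4 u).mp (Finset.mem_filter.mp hu).1
    · intro u hu u' hu' hne
      rw [Finset.mem_filter] at hu hu'
      exact hdisj4 u hu.1 u' hu'.1 (hu.2.trans hu'.2.symm) hne
  · left
    obtain ⟨a, ha, haw⟩ := Finset.mem_image.mp hqA
    refine ⟨a, (hAmem a).mp ha, (hπ a w).mp haw, ?_⟩
    intro u huw hu4
    have hua : C.mkQ u = C.mkQ a := ((hπ u w).mpr huw).trans haw.symm
    by_cases h3 : (support₂ u).card ≤ 3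
    · exact hAinj (Finset.mem_coe.mpr ((hAmem u).mpr h3)) (Finset.mem_coe.mpr ha) hua
    · exfalso
      have hu4' : u ∈ W 4 := (hWmem 4 u).mpr (by omega)
      exact hdisjT u hu4' a ha hua

end Cfsg.Agent.Helper9
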