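import Mathlib
import Cfsg.Prelude.Def_MonsterType
import Cfsg.Agent.Helper3.Cores
import Cfsg.Agent.Helper5.Basic

set_option autoImplicit false

namespace Cfsg.Agent.Helper9

open scoped commutatorElement

/-- A fixed-point-free involution normalizing a finite subgroup inverts it. -/
theorem fpf_inv9 {G : Type*} [Group G] [Finite G] (K : Subgroup G) (t : G) (ht : t * t = 1)
    (hn : ∀ k ∈ K, t * k * t⁻¹ ∈ K) (hf : ∀ k ∈ K, t * k = k * t → k = 1) :
    ∀ k ∈ K, t * k * t⁻¹ = k⁻¹ := by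
  classical
  have hti : t⁻¹ = t := inv_eq_of_mul_eq_one_right ht
  let φ : K → K := fun k => ⟨(k : G)⁻¹ * (t * k * t⁻¹), K.mul_mem (K.inv_mem k.2) (hn k k.2)⟩
  have hinj : Function.Injective φ := by
    intro a b hab
    have h1 : (a : G)⁻¹ * (t * a * t⁻¹) = (b : G)⁻¹ * (t * b * t⁻¹) := congrArg Subtype.val hab
    have h3 : (b : G) * (a : G)⁻¹ = t * ((b : G) * (a : G)⁻¹) * t⁻¹ := by
      have e1 : (b : G) * ((a : G)⁻¹ * (t * a * t⁻¹)) = t * b * t⁻¹ := by rw [h1]; group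
      calc (b : G) * (a : G)⁻¹
          = (b : G) * ((a : G)⁻¹ * (t * a * t⁻¹)) * (t * a * t⁻¹)⁻¹ := by group
        _ = t * b * t⁻¹ * (t * a * t⁻¹)⁻¹ := by rw [e1]
        _ = t * ((b : G) * (a : G)⁻¹) * t⁻¹ := by group
    have h2 : t * ((b : G) * (a : G)⁻¹) = ((b : G) * (a : G)⁻¹) * t := by
      calc t * ((b : G) * (a : G)⁻¹) = t * ((b : G) * (a : G)⁻¹) * t⁻¹ * t := by group
        _ = ((b : G) * (a : G)⁻¹) * t := by rw [← h3]
    have h5 := hf _ (K.mul_mem b.2 (K.inv_mem a.2)) h2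
    have h6 : (b : G) = a := by
      calc (b : G) = (b : G) * (a : G)⁻¹ * a := by group
        _ = a := by rw [h5, one_mul]
    exact Subtype.ext h6.symm
  have hsurj : Function.Surjective φ := Finite.surjective_of_injective hinj
  intro k hk
  obtain ⟨a, ha⟩ := hsurj ⟨k, hk⟩
  have hk' : k = (a : G)⁻¹ * (t * a * t⁻¹) := (congrArg Subtype.val ha).symm
  have e1 : t⁻¹ * t⁻¹ = 1 := by rw [hti]; exact ht
  rw [hk']
  calc t * ((a : G)⁻¹ * (t * a * t⁻¹)) * t⁻¹
      = t * (a : G)⁻¹ * t * a * (t⁻¹ * t⁻¹) := by group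
    _ = t * (a : G)⁻¹ * t * a := by rw [e1, mul_one]
    _ = t * (a : G)⁻¹ * t⁻¹ * a := by rw [hti]
    _ = ((a : G)⁻¹ * (t * a * t⁻¹))⁻¹ := by group

theorem les_crit9 {G : Type*} [Group G] [Finite G] (Q : Subgroup G)
    (hL1 : Cfsg.IsExtraspecial 2 ↥Q)
    (hL2 : Subgroup.centralizer (Q : Set G) = ((Subgroup.center ↥Q).map Q.subtype))
    (hL3 : Subgroup.centralizer (((Subgroup.center ↥Q).map Q.subtype) : Set G) ≤
      Subgroup.normalizer (Q : Set G))
    (b : G) (hbQ : b ∈ Q) (hbZ : b ∉ ((Subgroup.center ↥Q).map Q.subtype)) (hb : orderOf b = 2)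
    (hZ : ((Subgroup.center ↥Q).map Q.subtype) ≤
      (Cfsg.pCore 2 ↥(Subgroup.centralizer ({b} : Set G))).map
        (Subgroup.centralizer ({b} : Set G)).subtype) :
    Cfsg.IsLargeExtraspecial Q := by
  classical
  refine ⟨hL1, hL2, hL3, ?_⟩
  intro K hKodd hQK
  haveI : Fact (Nat.Prime 2) := ⟨Nat.prime_two⟩
  have hQp : IsPGroup 2 Q := hL1.1.1
  have hodd1 : ∀ (P : Subgroup G), IsPGroup 2 P → ∀ k, k ∈ K → k ∈ P → k = 1 := by
    intro P hP k hkK hkP
    obtain ⟨n, hn⟩ := hP ⟨k, hkP⟩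
    have h1 : k ^ 2 ^ n = 1 := by simpa using congrArg Subtype.val hn
    have h2 : orderOf k ∣ 2 ^ n := orderOf_dvd_of_pow_eq_one h1
    have h3 : orderOf k ∣ Nat.card K := by
      have := orderOf_dvd_natCard (⟨k, hkK⟩ : K)
      rwa [Subgroup.orderOf_mk] at this
    have h4 : Nat.Coprime (2 ^ n) (Nat.card K) :=
      Nat.Coprime.pow_left n (Nat.coprime_two_left.mpr hKodd)
    have h5 : orderOf k = 1 := Nat.eq_one_of_dvd_coprimes h4 h2 h3
    exact orderOf_eq_one_iff.mp h5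
  obtain ⟨Z, hZdef⟩ : ∃ Z : Subgroup G, Z = (Subgroup.center ↥Q).map Q.subtype := ⟨_, rfl⟩
  rw [← hZdef] at hL2 hL3 hbZ hZ
  have hZQ : Z ≤ Q := by rw [hZdef]; exact Subgroup.map_subtype_le _
  have hZcard : Nat.card Z = 2 := by
    rw [hZdef, Subgroup.card_map_of_injective Q.subtype_injective]
    exact hL1.2
  obtain ⟨zz, hzz1, hzzu⟩ := (Nat.card_eq_two_iff' (1 : Z)).mp hZcard
  obtain ⟨z, hzdef⟩ : ∃ z : G, z = (zz : G) := ⟨_, rfl⟩
  have hzZ : z ∈ Z := hzdef ▸ zz.2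
  have hz1 : z ≠ 1 := by
    intro h
    apply hzz1
    apply Subtype.ext
    rw [← hzdef, h]; rfl
  have hZall : ∀ x ∈ Z, x = 1 ∨ x = z := by
    intro x hx
    by_cases h : (⟨x, hx⟩ : Z) = 1
    · left; exact congrArg Subtype.val h
    · right; rw [hzdef]; exact congrArg Subtype.val (hzzu ⟨x, hx⟩ h)
  have hzQ : z ∈ Q := hZQ hzZ
  have hzc : ∀ q ∈ Q, q * z = z * q := by
    intro q hq
    have : z ∈ Subgroup.centralizer (Q : Set G) := hL2 ▸ hzZ
    exact Subgroup.mem_centralizer_iff.mp this q hq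
  have hzz : z * z = 1 := by
    rcases hZall _ (Z.mul_mem hzZ hzZ) with h | h
    · exact h
    · exact absurd (by simpa using h) hz1
  have hbb : b * b = 1 := by
    have := pow_orderOf_eq_one b
    rw [hb, pow_two] at this
    exact this
  have hnK : ∀ q ∈ Q, ∀ k ∈ K, q * k * q⁻¹ ∈ K := by
    intro q hq k hk
    exact (Subgroup.mem_normalizer_iff.mp (hQK hq) k).mp hk
  -- C_K(z) = 1
  have hCz : ∀ k ∈ K, z * k = k * z → k = 1 := by
    intro k hk hkz
    have hkC : k ∈ Subgroup.centralizer (Z : Set G) := by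
      rw [Subgroup.mem_centralizer_iff]
      intro x hx
      rcases hZall x hx with h | h
      · rw [h]; simp
      · rw [h]; exact hkz
    have hkN := hL3 hkC
    have hkQ : k ∈ Subgroup.centralizer (Q : Set G) := by
      rw [Subgroup.mem_centralizer_iff]
      intro q hq
      have c1 : k * q * k⁻¹ * q⁻¹ ∈ Q :=
        Q.mul_mem ((Subgroup.mem_normalizer_iff.mp hkN q).mp hq) (Q.inv_mem hq)
      have c2 : k * q * k⁻¹ * q⁻¹ ∈ K := by
        have := K.mul_mem hk (hnK q hq k⁻¹ (K.inv_mem hk))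
        have e : k * (q * k⁻¹ * q⁻¹) = k * q * k⁻¹ * q⁻¹ := by group
        rwa [e] at this
      have c3 := hodd1 Q hQp _ c2 c1
      calc q * k = (k * q * k⁻¹ * q⁻¹)⁻¹ * (k * q) := by group
        _ = k * q := by rw [c3]; simp
    rw [hL2] at hkQ
    exact hodd1 Q hQp k hk (hZQ hkQ)
  -- C_K(b) = 1
  have hOp : IsPGroup 2 ((Cfsg.pCore 2 ↥(Subgroup.centralizer ({b} : Set G))).map
        (Subgroup.centralizer ({b} : Set G)).subtype) :=
    (Cfsg.Agent.Helper3.pCore_isPGroup 2 _).map _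
  have hCb : ∀ k ∈ K, b * k = k * b → k = 1 := by
    intro k hk hkb
    have hkC : k ∈ Subgroup.centralizer ({b} : Set G) := by
      rw [Subgroup.mem_centralizer_iff]
      intro x hx
      rw [Set.mem_singleton_iff] at hx
      rw [hx]; exact hkb
    obtain ⟨zc, hzc1, hzc2⟩ := Subgroup.mem_map.mp (hZ hzZ)
    have hn := (Cfsg.Agent.Helper5.pCore_normal 2 ↥(Subgroup.centralizer ({b} : Set G))).conj_mem
      zc hzc1 ⟨k, hkC⟩
    have c0 : k * z * k⁻¹ ∈ (Cfsg.pCore 2 ↥(Subgroup.centralizer ({b} : Set G))).map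
        (Subgroup.centralizer ({b} : Set G)).subtype := by
      refine Subgroup.mem_map.mpr ⟨_, hn, ?_⟩
      rw [← hzc2]; rfl
    have c1 : k * z * k⁻¹ * z⁻¹ ∈ (Cfsg.pCore 2 ↥(Subgroup.centralizer ({b} : Set G))).map
        (Subgroup.centralizer ({b} : Set G)).subtype :=
      Subgroup.mul_mem _ c0 (Subgroup.inv_mem _ (hZ hzZ))
    have c2 : k * z * k⁻¹ * z⁻¹ ∈ K := by
      have := K.mul_mem hk (hnK z hzQ k⁻¹ (K.inv_mem hk))
      have e : k * (z * k⁻¹ * z⁻¹) = k * z * k⁻¹ * z⁻¹ := by group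
      rwa [e] at this
    have c3 := hodd1 _ hOp _ c2 c1
    apply hCz k hk
    calc z * k = (k * z * k⁻¹ * z⁻¹)⁻¹ * (k * z) := by group
      _ = k * z := by rw [c3]; simp
  -- conjugating element
  obtain ⟨q, hq, hqb⟩ : ∃ q ∈ Q, q * b * q⁻¹ = z * b := by
    have hbC : b ∉ Subgroup.centralizer (Q : Set G) := by rw [hL2]; exact hbZ
    rw [Subgroup.mem_centralizer_iff] at hbC
    push Not at hbC
    obtain ⟨q, hq, hne⟩ := hbC
    refine ⟨q, hq, ?_⟩
    have hcomm : (⁅(⟨q, hq⟩ : Q), ⟨b, hbQ⟩⁆ : Q) ∈ Subgroup.center Q := by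
      rw [← hL1.1.2.2, commutator_def]
      exact Subgroup.commutator_mem_commutator (Subgroup.mem_top _) (Subgroup.mem_top _)
    have hcZ : q * b * q⁻¹ * b⁻¹ ∈ Z := by
      rw [hZdef]
      exact Subgroup.mem_map.mpr ⟨_, hcomm, rfl⟩
    rcases hZall _ hcZ with h | h
    · exfalso
      apply hne
      calc q * b = q * b * q⁻¹ * b⁻¹ * (b * q) := by group
        _ = b * q := by rw [h, one_mul]
    · calc q * b * q⁻¹ = q * b * q⁻¹ * b⁻¹ * b := by group
        _ = z * b := by rw [h]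
  have hzb : z * b = b * z := (hzc b hbQ).symm
  -- C_K(zb) = 1
  have hCzb : ∀ k ∈ K, (z * b) * k = k * (z * b) → k = 1 := by
    intro k hk hkzb
    have hk' : q⁻¹ * k * q ∈ K := by
      have := hnK q⁻¹ (Q.inv_mem hq) k hk
      rwa [inv_inv] at this
    have e1 : b = q⁻¹ * (z * b) * q := by rw [← hqb]; group
    have h1 : b * (q⁻¹ * k * q) = (q⁻¹ * k * q) * b := by
      calc b * (q⁻¹ * k * q) = q⁻¹ * (z * b) * q * (q⁻¹ * k * q) := by rw [← e1]
        _ = q⁻¹ * ((z * b) * k) * q := by group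
        _ = q⁻¹ * (k * (z * b)) * q := by rw [hkzb]
        _ = (q⁻¹ * k * q) * (q⁻¹ * (z * b) * q) := by group
        _ = (q⁻¹ * k * q) * b := by rw [← e1]
    have h2 := hCb _ hk' h1
    calc k = q * (q⁻¹ * k * q) * q⁻¹ := by group
      _ = 1 := by rw [h2]; group
  have hiz := fpf_inv9 K z hzz (hnK z hzQ) hCz
  have hib := fpf_inv9 K b hbb (hnK b hbQ) hCb
  rw [Subgroup.eq_bot_iff_forall]
  intro k hk
  apply hCzb k hk
  have e1 : b * k * b⁻¹ = k⁻¹ := hib k hk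
  have e2 : z * k⁻¹ * z⁻¹ = k⁻¹⁻¹ := hiz k⁻¹ (K.inv_mem hk)
  calc z * b * k = z * (b * k * b⁻¹) * z⁻¹ * (z * b) := by group
    _ = k * (z * b) := by rw [e1, e2, inv_inv]

end Cfsg.Agent.Helper9
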