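import Mathlib
import Cfsg.Prelude.Def_MonsterType
import Cfsg.Agent.Helper9.LargeES9b
import Cfsg.Agent.Helper9.LargeES9f

set_option autoImplicit false

namespace Cfsg.Agent.Helper9

open scoped commutatorElement

/-- Basic element-level facts about an extraspecial subgroup with (L2), (L3). -/
theorem les_basic9 {G : Type*} [Group G] [Finite G] (Q : Subgroup G)
    (hL1 : Cfsg.IsExtraspecial 2 ↥Q)
    (hL2 : Subgroup.centralizer (Q : Set G) = ((Subgroup.center ↥Q).map Q.subtype))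
    (hL3 : Subgroup.centralizer (((Subgroup.center ↥Q).map Q.subtype) : Set G) ≤
      Subgroup.normalizer (Q : Set G)) :
    ∃ z : G, z ≠ 1 ∧ z * z = 1 ∧ z ∈ Q ∧
      (∀ x, x ∈ (Subgroup.center ↥Q).map Q.subtype ↔ (x = 1 ∨ x = z)) ∧
      (∀ q ∈ Q, z * q = q * z) ∧
      (∀ a ∈ Q, ∀ b ∈ Q, a * b * a⁻¹ * b⁻¹ = 1 ∨ a * b * a⁻¹ * b⁻¹ = z) ∧
      (∀ a : G, (∀ b ∈ Q, a * b = b * a) → a = 1 ∨ a = z) ∧
      (∀ h : G, h * z = z * h → ∀ q ∈ Q, h * q * h⁻¹ ∈ Q) := by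
  classical
  obtain ⟨Z, hZdef⟩ : ∃ Z : Subgroup G, Z = (Subgroup.center ↥Q).map Q.subtype := ⟨_, rfl⟩
  rw [← hZdef] at hL2 hL3
  have hZQ : Z ≤ Q := by rw [hZdef]; exact Subgroup.map_subtype_le _
  have hZcard : Nat.card Z = 2 := by
    rw [hZdef, Subgroup.card_map_of_injective Q.subtype_injective]
    exact hL1.2
  obtain ⟨zz, hzz1, hzzu⟩ := (Nat.card_eq_two_iff' (1 : Z)).mp hZcard
  obtain ⟨z, hzdef⟩ : ∃ z : G, z = (zz : G) := ⟨_, rfl⟩
  have hzZ : z ∈ Z := hzdef ▸ zz.2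
  have hz1 : z ≠ 1 := by
    intro h
    apply hzz1
    apply Subtype.ext
    rw [← hzdef, h]; rfl
  have hZall : ∀ x ∈ Z, x = 1 ∨ x = z := by
    intro x hx
    by_cases h : (⟨x, hx⟩ : Z) = 1
    · left; exact congrArg Subtype.val h
    · right; rw [hzdef]; exact congrArg Subtype.val (hzzu ⟨x, hx⟩ h)
  have hzc : ∀ q ∈ Q, z * q = q * z := by
    intro q hq
    have : z ∈ Subgroup.centralizer (Q : Set G) := hL2 ▸ hzZ
    exact (Subgroup.mem_centralizer_iff.mp this q hq).symm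
  have hzz : z * z = 1 := by
    rcases hZall _ (Z.mul_mem hzZ hzZ) with h | h
    · exact h
    · exact absurd (by simpa using h) hz1
  refine ⟨z, hz1, hzz, hZQ hzZ, ?_, hzc, ?_, ?_, ?_⟩
  · intro x
    rw [← hZdef]
    constructor
    · exact hZall x
    · rintro (h | h)
      · rw [h]; exact Z.one_mem
      · rw [h]; exact hzZ
  · intro a ha b hb
    have hcomm : (⁅(⟨a, ha⟩ : Q), ⟨b, hb⟩⁆ : Q) ∈ Subgroup.center Q := by
      rw [← hL1.1.2.2, commutator_def]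
      exact Subgroup.commutator_mem_commutator (Subgroup.mem_top _) (Subgroup.mem_top _)
    have hcZ : a * b * a⁻¹ * b⁻¹ ∈ Z := by
      rw [hZdef]
      exact Subgroup.mem_map.mpr ⟨_, hcomm, rfl⟩
    exact hZall _ hcZ
  · intro a ha
    have : a ∈ Subgroup.centralizer (Q : Set G) := by
      rw [Subgroup.mem_centralizer_iff]
      intro b hb
      exact (ha b hb).symm
    rw [hL2] at this
    exact hZall a this
  · intro h hh q hq
    have hC : h ∈ Subgroup.centralizer (Z : Set G) := by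
      rw [Subgroup.mem_centralizer_iff]
      intro x hx
      rcases hZall x hx with e | e
      · rw [e]; simp
      · rw [e]; exact hh.symm
    exact (Subgroup.mem_normalizer_iff.mp (hL3 hC) q).mp hq

/-- Transport of the basic facts to a conjugate. -/
theorem les_tr9 {G : Type*} [Group G] (Q Q₁ : Subgroup G) (z u g : G)
    (hQ₁ : Q₁ = Q.map (MulAut.conj g).toMonoidHom) (hu : u = g * z * g⁻¹)
    (hzQ : z ∈ Q) (hzc : ∀ q ∈ Q, z * q = q * z)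
    (P1 : ∀ a ∈ Q, ∀ b ∈ Q, a * b * a⁻¹ * b⁻¹ = 1 ∨ a * b * a⁻¹ * b⁻¹ = z)
    (PC : ∀ a : G, (∀ b ∈ Q, a * b = b * a) → a = 1 ∨ a = z)
    (hNQ : ∀ h : G, h * z = z * h → ∀ q ∈ Q, h * q * h⁻¹ ∈ Q) :
    (∀ x, x ∈ Q₁ ↔ g⁻¹ * x * g ∈ Q) ∧ u ∈ Q₁ ∧ (∀ q ∈ Q₁, u * q = q * u) ∧
    (∀ a ∈ Q₁, ∀ b ∈ Q₁, a * b * a⁻¹ * b⁻¹ = 1 ∨ a * b * a⁻¹ * b⁻¹ = u) ∧
    (∀ a : G, (∀ b ∈ Q₁, a * b = b * a) → a = 1 ∨ a = u) ∧
    (∀ h : G, h * u = u * h → ∀ q ∈ Q₁, h * q * h⁻¹ ∈ Q₁) := by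
  have hmem : ∀ x, x ∈ Q₁ ↔ g⁻¹ * x * g ∈ Q := by
    intro x
    rw [hQ₁]
    constructor
    · rintro ⟨q, hq, rfl⟩
      have e : g⁻¹ * ((MulAut.conj g).toMonoidHom q) * g = q := by
        show g⁻¹ * (g * q * g⁻¹) * g = q
        group
      rw [e]; exact hq
    · intro h
      refine ⟨g⁻¹ * x * g, h, ?_⟩
      show g * (g⁻¹ * x * g) * g⁻¹ = x
      group
  have hz : z = g⁻¹ * u * g := by rw [hu]; group
  refine ⟨hmem, ?_, ?_, ?_, ?_, ?_⟩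
  · rw [hmem, ← hz]; exact hzQ
  · intro q hq
    have h1 := hzc _ ((hmem q).mp hq)
    calc u * q = g * (z * (g⁻¹ * q * g)) * g⁻¹ := by rw [hu]; group
      _ = g * ((g⁻¹ * q * g) * z) * g⁻¹ := by rw [h1]
      _ = q * u := by rw [hu]; group
  · intro a ha b hb
    have e : a * b * a⁻¹ * b⁻¹ =
        g * ((g⁻¹ * a * g) * (g⁻¹ * b * g) * (g⁻¹ * a * g)⁻¹ * (g⁻¹ * b * g)⁻¹) * g⁻¹ := by group
    rcases P1 _ ((hmem a).mp ha) _ ((hmem b).mp hb) with h | h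
    · left; rw [e, h]; group
    · right; rw [e, h, hu]
  · intro a ha
    have h1 : ∀ b ∈ Q, (g⁻¹ * a * g) * b = b * (g⁻¹ * a * g) := by
      intro b hb
      have hb' : g * b * g⁻¹ ∈ Q₁ := by
        rw [hmem]
        have e : g⁻¹ * (g * b * g⁻¹) * g = b := by group
        rw [e]; exact hb
      have h2 := ha _ hb'
      calc (g⁻¹ * a * g) * b = g⁻¹ * (a * (g * b * g⁻¹)) * g := by group
        _ = g⁻¹ * ((g * b * g⁻¹) * a) * g := by rw [h2]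
        _ = b * (g⁻¹ * a * g) := by group
    rcases PC _ h1 with h | h
    · left
      calc a = g * (g⁻¹ * a * g) * g⁻¹ := by group
        _ = 1 := by rw [h]; group
    · right
      calc a = g * (g⁻¹ * a * g) * g⁻¹ := by group
        _ = u := by rw [h, hu]
  · intro h hh q hq
    have h1 : (g⁻¹ * h * g) * z = z * (g⁻¹ * h * g) := by
      rw [hz]
      calc (g⁻¹ * h * g) * (g⁻¹ * u * g) = g⁻¹ * (h * u) * g := by group
        _ = g⁻¹ * (u * h) * g := by rw [hh]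
        _ = (g⁻¹ * u * g) * (g⁻¹ * h * g) := by group
    have h2 := hNQ _ h1 _ ((hmem q).mp hq)
    rw [hmem]
    have e : g⁻¹ * (h * q * h⁻¹) * g = (g⁻¹ * h * g) * (g⁻¹ * q * g) * (g⁻¹ * h * g)⁻¹ := by
      group
    rw [e]; exact h2

/-- In a large enough extraspecial group, the centralizer of a noncentral element contains an
element whose square is the central involution. -/
theorem les_sq9 {G : Type*} [Group G] [Finite G] (Q : Subgroup G) (z u : G)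
    (hz1 : z ≠ 1) (hzz : z * z = 1) (hzQ : z ∈ Q) (hzc : ∀ q ∈ Q, z * q = q * z)
    (P1 : ∀ a ∈ Q, ∀ b ∈ Q, a * b * a⁻¹ * b⁻¹ = 1 ∨ a * b * a⁻¹ * b⁻¹ = z)
    (P2 : ∀ a ∈ Q, (∀ b ∈ Q, a * b = b * a) → a = 1 ∨ a = z)
    (huQ : u ∈ Q) (y : G) (hyQ : y ∈ Q) (hyu : y * u * y⁻¹ * u⁻¹ = z)
    (hcard : 32 ≤ Nat.card Q) :
    ∃ d ∈ Q, d * u = u * d ∧ d * d = z := by
  classical
  haveI := Fintype.ofFinite G
  by_contra hno
  push Not at hno
  have S1 : ∀ a ∈ Q, a * a = 1 ∨ a * a = z := by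
    intro a ha
    apply P2 _ (Q.mul_mem ha ha)
    intro b hb
    have hc := P1 b hb a ha
    have h1 : b * a * b⁻¹ = (b * a * b⁻¹ * a⁻¹) * a := by group
    have h2 : b * (a * a) * b⁻¹ = a * a := by
      have e : b * (a * a) * b⁻¹ = (b * a * b⁻¹) * (b * a * b⁻¹) := by group
      rw [e, h1]
      rcases hc with h | h
      · rw [h]; simp
      · rw [h]
        calc z * a * (z * a) = z * (a * z) * a := by group
          _ = z * (z * a) * a := by rw [hzc a ha]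
          _ = (z * z) * (a * a) := by group
          _ = a * a := by rw [hzz, one_mul]
    calc a * a * b = b * (a * a) * b⁻¹ * b := by rw [h2]
      _ = b * (a * a) := by group
  obtain ⟨D, hD⟩ : ∃ D : Subgroup G, D = Q ⊓ Subgroup.centralizer ({u} : Set G) := ⟨_, rfl⟩
  have hmD : ∀ x, x ∈ D ↔ x ∈ Q ∧ x * u = u * x := by
    intro x
    rw [hD, Subgroup.mem_inf, Subgroup.mem_centralizer_iff]
    constructor
    · rintro ⟨h1, h2⟩; exact ⟨h1, (h2 u rfl).symm⟩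
    · rintro ⟨h1, h2⟩
      exact ⟨h1, fun v hv => by rw [Set.mem_singleton_iff.mp hv]; exact h2.symm⟩
  have hsq1 : ∀ d ∈ D, d * d = 1 := by
    intro d hd
    obtain ⟨hdQ, hdu⟩ := (hmD d).mp hd
    rcases S1 d hdQ with h | h
    · exact h
    · exact absurd h (hno d hdQ hdu)
  have hab : ∀ a ∈ D, ∀ b ∈ D, a * b = b * a := by
    intro a ha b hb
    have h1 := hsq1 a ha
    have h2 := hsq1 b hb
    have h3 := hsq1 (a * b) (D.mul_mem ha hb)
    calc a * b = a * (a * b * (a * b)) * b := by rw [h3, mul_one]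
      _ = (a * a) * b * a * (b * b) := by group
      _ = b * a := by rw [h1, h2, one_mul, mul_one]
  have hDQ : D ≤ Q := by rw [hD]; exact inf_le_left
  have hzD : z ∈ D := (hmD z).mpr ⟨hzQ, hzc u huQ⟩
  have c1 := idx2_9 Q z u y hzz hz1 hzc (fun h hh => P1 h hh u huQ) hyQ hyu
  have c2 := les_count9 Q D hDQ z hzD hz1 hzz hzc P1 P2
  have eD : (Finset.univ.filter (fun a : G => a ∈ D)) =
      (Finset.univ.filter (fun h : G => h ∈ Q)).filter (fun h => h * u = u * h) := by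
    ext x
    simp only [Finset.mem_filter, Finset.mem_univ, true_and]
    exact hmD x
  have hsub : (Finset.univ.filter (fun a : G => a ∈ D)) ⊆
      (Finset.univ.filter (fun e : G => e ∈ Q)).filter (fun e => ∀ a ∈ D, a * e = e * a) := by
    intro x hx
    simp only [Finset.mem_filter, Finset.mem_univ, true_and] at hx ⊢
    exact ⟨hDQ hx, fun a ha => hab a ha x hx⟩
  have c3 := Finset.card_le_card hsub
  rw [← eD] at c1
  have hFQ : (Finset.univ.filter (fun e : G => e ∈ Q)).card = Nat.card Q := by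
    rw [Nat.card_eq_fintype_card, ← Fintype.card_subtype]
  rw [hFQ] at c1 c2
  obtain ⟨a, ha⟩ : ∃ a : ℕ, a = (Finset.univ.filter (fun a : G => a ∈ D)).card := ⟨_, rfl⟩
  obtain ⟨c, hc⟩ : ∃ c : ℕ, c = ((Finset.univ.filter (fun e : G => e ∈ Q)).filter
      (fun e => ∀ a ∈ D, a * e = e * a)).card := ⟨_, rfl⟩
  rw [← ha] at c1 c2 c3
  rw [← hc] at c2 c3
  have ha16 : 16 ≤ a := by omega
  have h5 : a * a ≤ c * a := Nat.mul_le_mul_right a c3
  have h6 : 16 * a ≤ a * a := Nat.mul_le_mul_right a ha16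
  have h7 : c * a = 4 * a := by omega
  rw [h7] at h5
  have : 16 * a ≤ 4 * a := le_trans h6 h5
  omega

/-- The key step: under the auxiliary facts, the central involution lies in the conjugate. -/
theorem les_a9 {G : Type*} [Group G] [Finite G] (Q Q₁ : Subgroup G) (z u : G)
    (hz1 : z ≠ 1) (hzz : z * z = 1) (hzQ : z ∈ Q) (hzc : ∀ q ∈ Q, z * q = q * z)
    (P1 : ∀ a ∈ Q, ∀ b ∈ Q, a * b * a⁻¹ * b⁻¹ = 1 ∨ a * b * a⁻¹ * b⁻¹ = z)
    (P2 : ∀ a ∈ Q, (∀ b ∈ Q, a * b = b * a) → a = 1 ∨ a = z)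
    (hNQ : ∀ h : G, h * z = z * h → ∀ q ∈ Q, h * q * h⁻¹ ∈ Q)
    (hu1 : u ≠ 1) (huu : u * u = 1) (huQ₁ : u ∈ Q₁) (huc : ∀ q ∈ Q₁, u * q = q * u)
    (P1' : ∀ a ∈ Q₁, ∀ b ∈ Q₁, a * b * a⁻¹ * b⁻¹ = 1 ∨ a * b * a⁻¹ * b⁻¹ = u)
    (P2' : ∀ a : G, (∀ b ∈ Q₁, a * b = b * a) → a = 1 ∨ a = u)
    (hNQ₁ : ∀ h : G, h * u = u * h → ∀ q ∈ Q₁, h * q * h⁻¹ ∈ Q₁)
    (huQ : u ∈ Q) (huz : u ≠ z)
    (hB : (∃ x ∈ Q₁, x * z * x⁻¹ = z * u) → z ∈ Q₁)
    (hd₀ : ∃ d ∈ Q, d * u = u * d ∧ d * d = z) :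
    z ∈ Q₁ := by
  classical
  by_contra hzQ₁
  have hui : u⁻¹ = u := inv_eq_of_mul_eq_one_right huu
  have hzi : z⁻¹ = z := inv_eq_of_mul_eq_one_right hzz
  have hzu : z * u = u * z := hzc u huQ
  obtain ⟨A, hmemA⟩ : ∃ A : Subgroup G, ∀ x, x ∈ A ↔ (x = 1 ∨ x = u ∨ x = z ∨ x = u * z) := by
    refine ⟨{ carrier := {x | x = 1 ∨ x = u ∨ x = z ∨ x = u * z}
              mul_mem' := ?_
              one_mem' := Or.inl rfl
              inv_mem' := ?_ }, fun x => Iff.rfl⟩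
    · intro a b ha hb
      have e1 : u * (u * z) = z := by rw [← mul_assoc, huu, one_mul]
      have e3 : z * (u * z) = u := by rw [← mul_assoc, hzu, mul_assoc, hzz, mul_one]
      have e4 : u * z * u = z := by rw [← hzu, mul_assoc, huu, mul_one]
      have e5 : u * z * z = u := by rw [mul_assoc, hzz, mul_one]
      have e6 : u * z * (u * z) = 1 := by rw [← mul_assoc, e4, hzz]
      rcases ha with h1 | h1 | h1 | h1 <;> rcases hb with h2 | h2 | h2 | h2 <;>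
        simp only [h1, h2, Set.mem_ofPred_eq, one_mul, mul_one, huu, hzz, hzu, e1, e3, e4, e5,
          e6] <;> simp
    · intro a ha
      rcases ha with h1 | h1 | h1 | h1 <;>
        simp only [h1, Set.mem_ofPred_eq, inv_one, hui, hzi, mul_inv_rev, hzu] <;> simp
  have hAQ : A ≤ Q := by
    intro x hx
    rcases (hmemA x).mp hx with h | h | h | h
    · rw [h]; exact Q.one_mem
    · rw [h]; exact huQ
    · rw [h]; exact hzQ
    · rw [h]; exact Q.mul_mem huQ hzQ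
  have hzA : z ∈ A := (hmemA z).mpr (Or.inr (Or.inr (Or.inl rfl)))
  have huA : u ∈ A := (hmemA u).mpr (Or.inr (Or.inl rfl))
  -- Step A
  have hA : ∀ x ∈ Q, x ∈ Q₁ → x = 1 ∨ x = u := by
    intro x hxQ hxQ₁
    have hxA : x ∈ A := by
      by_contra hxA
      obtain ⟨q, hqQ, hqA, hqx⟩ := les_dc9 Q A hAQ z hzA hz1 hzz hzc P1 P2 x hxQ hxA
      have hqu : q * u = u * q := (hqA u huA).symm
      have h1 : q * x * q⁻¹ ∈ Q₁ := hNQ₁ q hqu x hxQ₁
      have h2 : q * x * q⁻¹ * x⁻¹ ∈ Q₁ := Q₁.mul_mem h1 (Q₁.inv_mem hxQ₁)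
      rw [hqx] at h2
      exact hzQ₁ h2
    rcases (hmemA x).mp hxA with h | h | h | h
    · left; exact h
    · right; exact h
    · exfalso; rw [h] at hxQ₁; exact hzQ₁ hxQ₁
    · exfalso
      apply hzQ₁
      have h3 : u⁻¹ * x ∈ Q₁ := Q₁.mul_mem (Q₁.inv_mem huQ₁) hxQ₁
      rw [h] at h3
      have e : u⁻¹ * (u * z) = z := by group
      rwa [e] at h3
  -- squares in Q₁
  have S1 : ∀ a ∈ Q₁, a * a = 1 ∨ a * a = u := by
    intro a ha
    apply P2'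
    intro b hb
    have hc := P1' b hb a ha
    have h1 : b * a * b⁻¹ = (b * a * b⁻¹ * a⁻¹) * a := by group
    have h2 : b * (a * a) * b⁻¹ = a * a := by
      have e : b * (a * a) * b⁻¹ = (b * a * b⁻¹) * (b * a * b⁻¹) := by group
      rw [e, h1]
      rcases hc with h | h
      · rw [h]; simp
      · rw [h]
        calc u * a * (u * a) = u * (a * u) * a := by group
          _ = u * (u * a) * a := by rw [huc a ha]
          _ = (u * u) * (a * a) := by group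
          _ = a * a := by rw [huu, one_mul]
    calc a * a * b = b * (a * a) * b⁻¹ * b := by rw [h2]
      _ = b * (a * a) := by group
  have F2 : ∀ y ∈ Q₁, (z * y * z⁻¹ * y⁻¹ = 1 ∨ z * y * z⁻¹ * y⁻¹ = u) → z * y = y * z := by
    intro y hy h
    rcases h with h | h
    · calc z * y = z * y * z⁻¹ * y⁻¹ * (y * z) := by group
        _ = y * z := by rw [h, one_mul]
    · exfalso
      apply hzQ₁
      apply hB
      refine ⟨y, hy, ?_⟩
      have e : y * z⁻¹ * y⁻¹ = z⁻¹ * u := by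
        calc y * z⁻¹ * y⁻¹ = z⁻¹ * (z * y * z⁻¹ * y⁻¹) := by group
          _ = z⁻¹ * u := by rw [h]
      rw [hzi] at e
      exact e
  obtain ⟨d, hdQ, hdu, hdd⟩ := hd₀
  have hdN : ∀ q ∈ Q₁, d * q * d⁻¹ ∈ Q₁ := hNQ₁ d hdu
  have F1 : ∀ y ∈ Q₁, z * y = y * z →
      (d * y * d⁻¹ * y⁻¹ = 1 ∨ d * y * d⁻¹ * y⁻¹ = u) := by
    intro y hy hzy
    apply hA
    · have h1 : y * d⁻¹ * y⁻¹ ∈ Q := hNQ y hzy.symm d⁻¹ (Q.inv_mem hdQ)
      have h2 := Q.mul_mem hdQ h1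
      have e : d * (y * d⁻¹ * y⁻¹) = d * y * d⁻¹ * y⁻¹ := by group
      rwa [e] at h2
    · exact Q₁.mul_mem (hdN y hy) (Q₁.inv_mem hy)
  have L : ∀ y ∈ Q₁, ∃ ε, (ε = 1 ∨ ε = u) ∧
      z * y * z⁻¹ * y⁻¹ = ε * (d * (d * y * d⁻¹ * y⁻¹) * d⁻¹ * (d * y * d⁻¹ * y⁻¹)⁻¹) := by
    intro y hy
    obtain ⟨a, ha⟩ : ∃ a, a = d * y * d⁻¹ := ⟨_, rfl⟩
    have haQ : a ∈ Q₁ := ha ▸ hdN y hy
    have hb : z * y * z⁻¹ = d * a * d⁻¹ := by
      rw [ha, ← hdd]; group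
    have hbQ : d * a * d⁻¹ ∈ Q₁ := hdN a haQ
    obtain ⟨ε, hεdef⟩ : ∃ ε, ε = (a⁻¹ * y) * (a⁻¹ * y) := ⟨_, rfl⟩
    have hε : ε = 1 ∨ ε = u := by
      rw [hεdef]; exact S1 (a⁻¹ * y) (Q₁.mul_mem (Q₁.inv_mem haQ) hy)
    have hεb : ∀ q ∈ Q₁, ε * q = q * ε := by
      intro q hq
      rcases hε with h | h
      · rw [h]; simp
      · rw [h]; exact huc q hq
    have hε2 : ε * ε = 1 := by
      rcases hε with h | h
      · rw [h]; simp
      · rw [h]; exact huu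
    have e1 : a⁻¹ * y * a⁻¹ = ε * y⁻¹ := by rw [hεdef]; group
    refine ⟨ε, hε, ?_⟩
    calc z * y * z⁻¹ * y⁻¹ = d * a * d⁻¹ * y⁻¹ := by rw [hb]
      _ = d * a * d⁻¹ * (ε * ε * y⁻¹) := by rw [hε2, one_mul]
      _ = d * a * d⁻¹ * ε * (ε * y⁻¹) := by group
      _ = ε * (d * a * d⁻¹) * (ε * y⁻¹) := by rw [hεb _ hbQ]
      _ = ε * (d * a * d⁻¹) * (a⁻¹ * y * a⁻¹) := by rw [e1]
      _ = ε * (d * (d * y * d⁻¹ * y⁻¹) * d⁻¹ * (d * y * d⁻¹ * y⁻¹)⁻¹) := by rw [ha]; group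
  have hEmul : ∀ s t : G, (s = 1 ∨ s = u) → (t = 1 ∨ t = u) → (s * t = 1 ∨ s * t = u) := by
    intro s t hs ht
    rcases hs with h | h <;> rcases ht with h' | h' <;> rw [h, h']
    · left; simp
    · right; simp
    · right; simp
    · left; exact huu
  have hδu : ∀ ε s : G, (ε = 1 ∨ ε = u) → s ∈ Q₁ →
      d * (ε * s) * d⁻¹ * (ε * s)⁻¹ = d * s * d⁻¹ * s⁻¹ := by
    intro ε s hε hs
    rcases hε with h | h
    · rw [h, one_mul]
    · rw [h]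
      have h1 : d * s * d⁻¹ * s⁻¹ ∈ Q₁ := Q₁.mul_mem (hdN s hs) (Q₁.inv_mem hs)
      calc d * (u * s) * d⁻¹ * (u * s)⁻¹ = (d * u) * s * d⁻¹ * s⁻¹ * u⁻¹ := by group
        _ = (u * d) * s * d⁻¹ * s⁻¹ * u⁻¹ := by rw [hdu]
        _ = u * (d * s * d⁻¹ * s⁻¹) * u⁻¹ := by group
        _ = (d * s * d⁻¹ * s⁻¹) * u * u⁻¹ := by rw [huc _ h1]
        _ = d * s * d⁻¹ * s⁻¹ := by group
  have hzN : ∀ q ∈ Q₁, z * q * z⁻¹ ∈ Q₁ := hNQ₁ z hzu
  have main : ∀ x ∈ Q₁, d * x * d⁻¹ * x⁻¹ = 1 ∨ d * x * d⁻¹ * x⁻¹ = u := by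
    intro x hx
    obtain ⟨s, hs⟩ : ∃ s, s = z * x * z⁻¹ * x⁻¹ := ⟨_, rfl⟩
    have hsQ : s ∈ Q₁ := hs ▸ Q₁.mul_mem (hzN x hx) (Q₁.inv_mem hx)
    have h1 : z * s * z⁻¹ * s⁻¹ = s⁻¹ * s⁻¹ := by
      have e : z * s * z⁻¹ = s⁻¹ := by
        rw [hs]
        calc z * (z * x * z⁻¹ * x⁻¹) * z⁻¹ = (z * z) * x * z⁻¹ * x⁻¹ * z⁻¹ := by group
          _ = x * z⁻¹ * x⁻¹ * z⁻¹ := by rw [hzz, one_mul]
          _ = x * z * x⁻¹ * z⁻¹ := by rw [hzi]
          _ = (z * x * z⁻¹ * x⁻¹)⁻¹ := by group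
      rw [e]
    have h2 : z * s = s * z :=
      F2 s hsQ (by rw [h1]; exact S1 s⁻¹ (Q₁.inv_mem hsQ))
    have h3 := F1 s hsQ h2
    obtain ⟨ε, hε, hL⟩ := L x hx
    obtain ⟨x1, hx1⟩ : ∃ x1, x1 = d * x * d⁻¹ * x⁻¹ := ⟨_, rfl⟩
    have hx1Q : x1 ∈ Q₁ := hx1 ▸ Q₁.mul_mem (hdN x hx) (Q₁.inv_mem hx)
    obtain ⟨x2, hx2⟩ : ∃ x2, x2 = d * x1 * d⁻¹ * x1⁻¹ := ⟨_, rfl⟩
    have hx2Q : x2 ∈ Q₁ := hx2 ▸ Q₁.mul_mem (hdN x1 hx1Q) (Q₁.inv_mem hx1Q)
    rw [← hs, ← hx1, ← hx2] at hL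
    have hε2 : ε * ε = 1 := by
      rcases hε with h | h
      · rw [h]; simp
      · rw [h]; exact huu
    have hx2s : x2 = ε * s := by rw [hL, ← mul_assoc, hε2, one_mul]
    have h4 : d * x2 * d⁻¹ * x2⁻¹ = 1 ∨ d * x2 * d⁻¹ * x2⁻¹ = u := by
      rw [hx2s, hδu ε s hε hsQ]; exact h3
    obtain ⟨ε', hε', hL'⟩ := L x1 hx1Q
    rw [← hx2] at hL'
    have h5 : z * x1 = x1 * z := F2 x1 hx1Q (by rw [hL']; exact hEmul _ _ hε' h4)
    have h6 := F1 x1 hx1Q h5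
    rw [← hx2] at h6
    have h7 : z * x = x * z := F2 x hx (by rw [← hs, hL]; exact hEmul _ _ hε h6)
    have h8 := F1 x hx h7
    exact h8
  have hzC : ∀ x ∈ Q₁, z * x = x * z := by
    intro x hx
    have hc := main x hx
    have e1 : d * x * d⁻¹ = (d * x * d⁻¹ * x⁻¹) * x := by group
    have e2 : z * x * z⁻¹ = d * (d * x * d⁻¹) * d⁻¹ := by rw [← hdd]; group
    have e3 : z * x * z⁻¹ = x := by
      rw [e2]
      rcases hc with h | h
      · have e4 : d * x * d⁻¹ = x := by rw [e1, h, one_mul]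
        rw [e4, e4]
      · have e4 : d * x * d⁻¹ = u * x := by rw [e1, h]
        rw [e4]
        calc d * (u * x) * d⁻¹ = (d * u) * d⁻¹ * (d * x * d⁻¹) := by group
          _ = (u * d) * d⁻¹ * (d * x * d⁻¹) := by rw [hdu]
          _ = u * (d * x * d⁻¹) := by group
          _ = u * (u * x) := by rw [e4]
          _ = x := by rw [← mul_assoc, huu, one_mul]
    calc z * x = z * x * z⁻¹ * z := by group
      _ = x * z := by rw [e3]
  rcases P2' z hzC with h | h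
  · exact hz1 h
  · exact huz h.symm

end Cfsg.Agent.Helper9
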