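import Mathlib
import Cfsg.Prelude.Def_MonsterType
import Cfsg.Agent.Helper9.LargeES9g

set_option autoImplicit false

namespace Cfsg.Agent.Helper9

/-- The explicit four-group on two commuting involutions. -/
theorem four9 {G : Type*} [Group G] (z u : G) (hzz : z * z = 1) (huu : u * u = 1)
    (hzu : z * u = u * z) :
    ∃ A : Subgroup G, ∀ x, x ∈ A ↔ (x = 1 ∨ x = u ∨ x = z ∨ x = u * z) := by
  have hui : u⁻¹ = u := inv_eq_of_mul_eq_one_right huu
  have hzi : z⁻¹ = z := inv_eq_of_mul_eq_one_right hzz
  refine ⟨{ carrier := {x | x = 1 ∨ x = u ∨ x = z ∨ x = u * z}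
            mul_mem' := ?_
            one_mem' := Or.inl rfl
            inv_mem' := ?_ }, fun x => Iff.rfl⟩
  · intro a b ha hb
    have e1 : u * (u * z) = z := by rw [← mul_assoc, huu, one_mul]
    have e3 : z * (u * z) = u := by rw [← mul_assoc, hzu, mul_assoc, hzz, mul_one]
    have e4 : u * z * u = z := by rw [← hzu, mul_assoc, huu, mul_one]
    have e5 : u * z * z = u := by rw [mul_assoc, hzz, mul_one]
    have e6 : u * z * (u * z) = 1 := by rw [← mul_assoc, e4, hzz]
    rcases ha with h1 | h1 | h1 | h1 <;> rcases hb with h2 | h2 | h2 | h2 <;>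
      simp only [h1, h2, Set.mem_ofPred_eq, one_mul, mul_one, huu, hzz, hzu, e1, e3, e4, e5,
        e6] <;> simp
  · intro a ha
    rcases ha with h1 | h1 | h1 | h1 <;>
      simp only [h1, Set.mem_ofPred_eq, inv_one, hui, hzi, mul_inv_rev, hzu] <;> simp

/-- The normalizer of a four-group all of whose involutions are fused by two given elements
induces the symmetric group of degree three. -/
theorem les_idx6_9 {G : Type*} [Group G] [Finite G] (V : Subgroup G) (z u y x : G)
    (hV : ∀ v, v ∈ V ↔ (v = 1 ∨ v = u ∨ v = z ∨ v = u * z))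
    (hz1 : z ≠ 1) (hu1 : u ≠ 1) (huz : u ≠ z) (hzz : z * z = 1) (huu : u * u = 1)
    (hzu : z * u = u * z)
    (hyz : y * z * y⁻¹ = z) (hyu : y * u * y⁻¹ = u * z)
    (hxu : x * u * x⁻¹ = u) (hxz : x * z * x⁻¹ = u * z) :
    (Subgroup.centralizer (V : Set G)).relIndex (Subgroup.normalizer (V : Set G)) = 6 := by
  classical
  obtain ⟨N, hN⟩ : ∃ N : Subgroup G, N = Subgroup.normalizer (V : Set G) := ⟨_, rfl⟩
  rw [← hN]
  have hyuz : y * (u * z) * y⁻¹ = u := by
    calc y * (u * z) * y⁻¹ = (y * u * y⁻¹) * (y * z * y⁻¹) := by group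
      _ = u * z * z := by rw [hyu, hyz]
      _ = u := by rw [mul_assoc, hzz, mul_one]
  have hxuz : x * (u * z) * x⁻¹ = z := by
    calc x * (u * z) * x⁻¹ = (x * u * x⁻¹) * (x * z * x⁻¹) := by group
      _ = u * (u * z) := by rw [hxu, hxz]
      _ = z := by rw [← mul_assoc, huu, one_mul]
  have hyN : y ∈ N := by
    rw [hN]
    apply Subgroup.mem_normalizer_fintype
    intro v hv
    have hv' := (hV v).mp hv
    show y * v * y⁻¹ ∈ V
    rw [hV]
    rcases hv' with h | h | h | h
    · left; rw [h]; group
    · right; right; right; rw [h]; exact hyu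
    · right; right; left; rw [h]; exact hyz
    · right; left; rw [h]; exact hyuz
  have hxN : x ∈ N := by
    rw [hN]
    apply Subgroup.mem_normalizer_fintype
    intro v hv
    have hv' := (hV v).mp hv
    show x * v * x⁻¹ ∈ V
    rw [hV]
    rcases hv' with h | h | h | h
    · left; rw [h]; group
    · right; left; rw [h]; exact hxu
    · right; right; right; rw [h]; exact hxz
    · right; right; left; rw [h]; exact hxuz
  have hNV : ∀ n ∈ N, ∀ v ∈ V, n * v * n⁻¹ ∈ V := by
    intro n hn v hv
    rw [hN] at hn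
    exact (Subgroup.mem_normalizer_iff.mp hn v).mp hv
  obtain ⟨act, hact⟩ : ∃ act : MulAction ↥N (G × G), ∀ (n : ↥N) (p : G × G),
      act.smul n p = ((n : G) * p.1 * (n : G)⁻¹, (n : G) * p.2 * (n : G)⁻¹) :=
    ⟨{ smul := fun n p => ((n : G) * p.1 * (n : G)⁻¹, (n : G) * p.2 * (n : G)⁻¹)
       one_smul := by
        intro p
        apply Prod.ext
        · show ((1 : ↥N) : G) * p.1 * ((1 : ↥N) : G)⁻¹ = p.1
          simp
        · show ((1 : ↥N) : G) * p.2 * ((1 : ↥N) : G)⁻¹ = p.2
          simp
       mul_smul := by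
        intro a b p
        apply Prod.ext
        · show ((a * b : ↥N) : G) * p.1 * ((a * b : ↥N) : G)⁻¹ =
            (a : G) * ((b : G) * p.1 * (b : G)⁻¹) * (a : G)⁻¹
          rw [Subgroup.coe_mul]; group
        · show ((a * b : ↥N) : G) * p.2 * ((a * b : ↥N) : G)⁻¹ =
            (a : G) * ((b : G) * p.2 * (b : G)⁻¹) * (a : G)⁻¹
          rw [Subgroup.coe_mul]; group }, fun _ _ => rfl⟩
  have hzV : z ∈ V := (hV z).mpr (Or.inr (Or.inr (Or.inl rfl)))
  have huV : u ∈ V := (hV u).mpr (Or.inr (Or.inl rfl))
  have hstab : @MulAction.stabilizer ↥N (G × G) _ act ((z, u) : G × G) =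
      (Subgroup.centralizer (V : Set G)).subgroupOf N := by
    ext n
    rw [Subgroup.mem_subgroupOf]
    have e0 : n ∈ @MulAction.stabilizer ↥N (G × G) _ act ((z, u) : G × G) ↔
        act.smul n (z, u) = (z, u) := Iff.rfl
    rw [e0, hact]
    constructor
    · intro h
      have h1 : (n : G) * z * (n : G)⁻¹ = z := congrArg Prod.fst h
      have h2 : (n : G) * u * (n : G)⁻¹ = u := congrArg Prod.snd h
      have h1' : z * (n : G) = (n : G) * z := by
        calc z * (n : G) = (n : G) * z * (n : G)⁻¹ * n := by rw [h1]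
          _ = (n : G) * z := by group
      have h2' : u * (n : G) = (n : G) * u := by
        calc u * (n : G) = (n : G) * u * (n : G)⁻¹ * n := by rw [h2]
          _ = (n : G) * u := by group
      rw [Subgroup.mem_centralizer_iff]
      intro v hv
      rcases (hV v).mp hv with e | e | e | e
      · rw [e]; simp
      · rw [e]; exact h2'
      · rw [e]; exact h1'
      · rw [e]
        calc u * z * (n : G) = u * (z * (n : G)) := by group
          _ = u * ((n : G) * z) := by rw [h1']
          _ = (u * (n : G)) * z := by group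
          _ = (n : G) * u * z := by rw [h2']
          _ = (n : G) * (u * z) := by group
    · intro h
      have hc := Subgroup.mem_centralizer_iff.mp h
      have h1 := hc z hzV
      have h2 := hc u huV
      apply Prod.ext
      · show (n : G) * z * (n : G)⁻¹ = z
        calc (n : G) * z * (n : G)⁻¹ = z * (n : G) * (n : G)⁻¹ := by rw [h1]
          _ = z := by group
      · show (n : G) * u * (n : G)⁻¹ = u
        calc (n : G) * u * (n : G)⁻¹ = u * (n : G) * (n : G)⁻¹ := by rw [h2]
          _ = u := by group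
  have huz1 : u * z ≠ 1 := by
    intro h
    apply huz
    calc u = u * (z * z) := by rw [hzz, mul_one]
      _ = u * z * z := by group
      _ = z := by rw [h, one_mul]
  have horb : @MulAction.orbit ↥N (G × G) act.toSMul ((z, u) : G × G) =
      (({(z, u), (z, u * z), (u * z, u), (u * z, z), (u, u * z), (u, z)} :
        Finset (G × G)) : Set (G × G)) := by
    ext p
    have e0 : p ∈ @MulAction.orbit ↥N (G × G) act.toSMul ((z, u) : G × G) ↔
        ∃ n : ↥N, act.smul n (z, u) = p := Iff.rfl
    rw [e0]
    constructor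
    · rintro ⟨n, rfl⟩
      rw [hact]
      have ha := (hV _).mp (hNV n n.2 z hzV)
      have hb := (hV _).mp (hNV n n.2 u huV)
      have ha1 : (n : G) * z * (n : G)⁻¹ ≠ 1 := by
        intro h
        apply hz1
        calc z = (n : G)⁻¹ * ((n : G) * z * (n : G)⁻¹) * n := by group
          _ = 1 := by rw [h]; group
      have hb1 : (n : G) * u * (n : G)⁻¹ ≠ 1 := by
        intro h
        apply hu1
        calc u = (n : G)⁻¹ * ((n : G) * u * (n : G)⁻¹) * n := by group
          _ = 1 := by rw [h]; group
      have hab : (n : G) * z * (n : G)⁻¹ ≠ (n : G) * u * (n : G)⁻¹ := by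
        intro h
        apply huz
        calc u = (n : G)⁻¹ * ((n : G) * u * (n : G)⁻¹) * n := by group
          _ = (n : G)⁻¹ * ((n : G) * z * (n : G)⁻¹) * n := by rw [h]
          _ = z := by group
      show (((n : G) * z * (n : G)⁻¹, (n : G) * u * (n : G)⁻¹) : G × G) ∈ _
      rcases ha with a1 | a1 | a1 | a1
      · exact absurd a1 ha1
      · rcases hb with b1 | b1 | b1 | b1
        · exact absurd b1 hb1
        · exact absurd (a1.trans b1.symm) hab
        · rw [a1, b1]; simp
        · rw [a1, b1]; simp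
      · rcases hb with b1 | b1 | b1 | b1
        · exact absurd b1 hb1
        · rw [a1, b1]; simp
        · exact absurd (a1.trans b1.symm) hab
        · rw [a1, b1]; simp
      · rcases hb with b1 | b1 | b1 | b1
        · exact absurd b1 hb1
        · rw [a1, b1]; simp
        · rw [a1, b1]; simp
        · exact absurd (a1.trans b1.symm) hab
    · intro hp
      have hp' : p = (z, u) ∨ p = (z, u * z) ∨ p = (u * z, u) ∨ p = (u * z, z) ∨
          p = (u, u * z) ∨ p = (u, z) := by
        simpa using hp
      rcases hp' with h | h | h | h | h | h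
      · refine ⟨1, ?_⟩
        rw [h, hact]
        apply Prod.ext
        · show ((1 : ↥N) : G) * z * ((1 : ↥N) : G)⁻¹ = z
          simp
        · show ((1 : ↥N) : G) * u * ((1 : ↥N) : G)⁻¹ = u
          simp
      · refine ⟨⟨y, hyN⟩, ?_⟩
        rw [h, hact]
        exact Prod.ext hyz hyu
      · refine ⟨⟨x, hxN⟩, ?_⟩
        rw [h, hact]
        exact Prod.ext hxz hxu
      · refine ⟨⟨x * y, N.mul_mem hxN hyN⟩, ?_⟩
        rw [h, hact]
        apply Prod.ext
        · show x * y * z * (x * y)⁻¹ = u * z
          calc x * y * z * (x * y)⁻¹ = x * (y * z * y⁻¹) * x⁻¹ := by group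
            _ = u * z := by rw [hyz, hxz]
        · show x * y * u * (x * y)⁻¹ = z
          calc x * y * u * (x * y)⁻¹ = x * (y * u * y⁻¹) * x⁻¹ := by group
            _ = z := by rw [hyu, hxuz]
      · refine ⟨⟨y * x, N.mul_mem hyN hxN⟩, ?_⟩
        rw [h, hact]
        apply Prod.ext
        · show y * x * z * (y * x)⁻¹ = u
          calc y * x * z * (y * x)⁻¹ = y * (x * z * x⁻¹) * y⁻¹ := by group
            _ = u := by rw [hxz, hyuz]
        · show y * x * u * (y * x)⁻¹ = u * z
          calc y * x * u * (y * x)⁻¹ = y * (x * u * x⁻¹) * y⁻¹ := by group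
            _ = u * z := by rw [hxu, hyu]
      · refine ⟨⟨y * x * y, N.mul_mem (N.mul_mem hyN hxN) hyN⟩, ?_⟩
        rw [h, hact]
        apply Prod.ext
        · show y * x * y * z * (y * x * y)⁻¹ = u
          calc y * x * y * z * (y * x * y)⁻¹ = y * (x * (y * z * y⁻¹) * x⁻¹) * y⁻¹ := by group
            _ = u := by rw [hyz, hxz, hyuz]
        · show y * x * y * u * (y * x * y)⁻¹ = z
          calc y * x * y * u * (y * x * y)⁻¹ = y * (x * (y * u * y⁻¹) * x⁻¹) * y⁻¹ := by group
            _ = z := by rw [hyu, hxuz, hyz]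
  have hcard6 : ({(z, u), (z, u * z), (u * z, u), (u * z, z), (u, u * z), (u, z)} :
        Finset (G × G)).card = 6 := by
    have huz' : z ≠ u := fun h => huz h.symm
    rw [Finset.card_insert_of_notMem, Finset.card_insert_of_notMem,
      Finset.card_insert_of_notMem, Finset.card_insert_of_notMem,
      Finset.card_insert_of_notMem, Finset.card_singleton]
    all_goals simp [Prod.ext_iff, hz1, hu1, huz, huz']
  show ((Subgroup.centralizer (V : Set G)).subgroupOf N).index = 6
  rw [← hstab, @MulAction.index_stabilizer ↥N (G × G) _ act (z, u), horb,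
    Set.ncard_coe_finset, hcard6]

end Cfsg.Agent.Helper9
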