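import Mathlib
import Cfsg.Prelude.Def_MonsterType
import Cfsg.Agent.Helper9.LargeES9h

set_option autoImplicit false

namespace Cfsg.Agent.Helper9

theorem les_w2_9 {G : Type*} [Group G] [Finite G] (Q : Subgroup G)
    (hL1 : Cfsg.IsExtraspecial 2 ↥Q)
    (hL2 : Subgroup.centralizer (Q : Set G) = ((Subgroup.center ↥Q).map Q.subtype))
    (hL3 : Subgroup.centralizer (((Subgroup.center ↥Q).map Q.subtype) : Set G) ≤
      Subgroup.normalizer (Q : Set G))
    (w : ℕ) (hw : 2 ≤ w) (hcard : Nat.card ↥Q = 2 ^ (2 * w + 1)) (g : G)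
    (hg : g ∉ Subgroup.normalizer (((Subgroup.center ↥Q).map Q.subtype) : Set G))
    (hZg : (((Subgroup.center ↥Q).map Q.subtype)).map (MulAut.conj g).toMonoidHom ≤ Q) :
    ((Subgroup.center ↥Q).map Q.subtype) ≤ (Q).map (MulAut.conj g).toMonoidHom ∧
    (Subgroup.centralizer ((((Subgroup.center ↥Q).map Q.subtype) ⊔
      (((Subgroup.center ↥Q).map Q.subtype)).map (MulAut.conj g).toMonoidHom : Subgroup G) :
        Set G)).relIndex (Subgroup.normalizer ((((Subgroup.center ↥Q).map Q.subtype) ⊔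
      (((Subgroup.center ↥Q).map Q.subtype)).map (MulAut.conj g).toMonoidHom : Subgroup G) :
        Set G)) = 6 ∧
    Cfsg.IsLargeExtraspecial Q := by
  classical
  haveI : Fact (Nat.Prime 2) := ⟨Nat.prime_two⟩
  obtain ⟨z, hz1, hzz, hzQ, hZ, hzc, P1, PC, hNQ⟩ := les_basic9 Q hL1 hL2 hL3
  obtain ⟨Z, hZdef⟩ : ∃ Z : Subgroup G, Z = (Subgroup.center ↥Q).map Q.subtype := ⟨_, rfl⟩
  rw [← hZdef] at hg hZg hZ ⊢
  obtain ⟨u, hu⟩ : ∃ u, u = g * z * g⁻¹ := ⟨_, rfl⟩
  obtain ⟨Q₁, hQ₁⟩ : ∃ Q₁, Q₁ = Q.map (MulAut.conj g).toMonoidHom := ⟨_, rfl⟩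
  rw [← hQ₁]
  obtain ⟨hmem, huQ₁, huc, P1', PC', hNQ₁⟩ := les_tr9 Q Q₁ z u g hQ₁ hu hzQ hzc P1 PC hNQ
  have hzZ : z ∈ Z := (hZ z).mpr (Or.inr rfl)
  have huQ : u ∈ Q := by
    apply hZg
    refine ⟨z, hzZ, ?_⟩
    rw [hu]; rfl
  have huz : u ≠ z := by
    intro h
    apply hg
    rw [Subgroup.mem_normalizer_iff]
    intro x
    rw [hZ, hZ]
    constructor
    · rintro (e | e)
      · left; rw [e]; group
      · right; rw [e, ← hu, h]
    · rintro (e | e)
      · left
        calc x = g⁻¹ * (g * x * g⁻¹) * g := by group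
          _ = 1 := by rw [e]; group
      · right
        calc x = g⁻¹ * (g * x * g⁻¹) * g := by group
          _ = g⁻¹ * u * g := by rw [e, h]
          _ = z := by rw [hu]; group
  have hu1 : u ≠ 1 := by
    intro h
    apply hz1
    calc z = g⁻¹ * u * g := by rw [hu]; group
      _ = 1 := by rw [h]; group
  have huu : u * u = 1 := by
    rw [hu]
    calc g * z * g⁻¹ * (g * z * g⁻¹) = g * (z * z) * g⁻¹ := by group
      _ = 1 := by rw [hzz]; group
  have hzu : z * u = u * z := hzc u huQ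
  obtain ⟨y, hyQ, hyu⟩ : ∃ y ∈ Q, y * u * y⁻¹ * u⁻¹ = z := by
    by_contra hno
    push Not at hno
    have : u = 1 ∨ u = z := by
      apply PC
      intro b hb
      rcases P1 b hb u huQ with h | h
      · calc u * b = (b * u * b⁻¹ * u⁻¹)⁻¹ * (b * u) := by group
          _ = b * u := by rw [h]; simp
      · exact absurd h (hno b hb)
    rcases this with h | h
    · exact hu1 h
    · exact huz h
  have h32 : 32 ≤ Nat.card Q := by
    rw [hcard]
    calc 32 = 2 ^ 5 := by norm_num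
      _ ≤ 2 ^ (2 * w + 1) := Nat.pow_le_pow_right (by norm_num) (by omega)
  have hd₀ := les_sq9 Q z u hz1 hzz hzQ hzc P1 (fun a _ h => PC a h) huQ y hyQ hyu h32
  have hyu' : y * u * y⁻¹ = u * z := by
    calc y * u * y⁻¹ = y * u * y⁻¹ * u⁻¹ * u := by group
      _ = z * u := by rw [hyu]
      _ = u * z := hzu
  have hyz : y * z * y⁻¹ = z := by
    calc y * z * y⁻¹ = z * y * y⁻¹ := by rw [hzc y hyQ]
      _ = z := by group
  have hB : (∃ x ∈ Q₁, x * z * x⁻¹ = z * u) → z ∈ Q₁ := by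
    rintro ⟨x, hx, hxz⟩
    have hxu : x * u * x⁻¹ = u := by
      calc x * u * x⁻¹ = u * x * x⁻¹ := by rw [huc x hx]
        _ = u := by group
    obtain ⟨k, hk⟩ : ∃ k, k = g⁻¹ * y * x := ⟨_, rfl⟩
    have e0 : z * (u * z) = u * (z * z) := by rw [← mul_assoc, hzu, mul_assoc]
    have hkz : k * z * k⁻¹ = z := by
      calc k * z * k⁻¹ = g⁻¹ * y * (x * z * x⁻¹) * y⁻¹ * g := by rw [hk]; group
        _ = g⁻¹ * y * (z * u) * y⁻¹ * g := by rw [hxz]
        _ = g⁻¹ * ((y * z * y⁻¹) * (y * u * y⁻¹)) * g := by group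
        _ = g⁻¹ * (z * (u * z)) * g := by rw [hyz, hyu']
        _ = g⁻¹ * (u * (z * z)) * g := by rw [e0]
        _ = g⁻¹ * u * g := by rw [hzz, mul_one]
        _ = z := by rw [hu]; group
    have hkz' : k * z = z * k := by
      calc k * z = k * z * k⁻¹ * k := by group
        _ = z * k := by rw [hkz]
    have h1 := hNQ k hkz' u huQ
    have h2 : k * u * k⁻¹ = g⁻¹ * (u * z) * g := by
      calc k * u * k⁻¹ = g⁻¹ * (y * (x * u * x⁻¹) * y⁻¹) * g := by rw [hk]; group
        _ = g⁻¹ * (y * u * y⁻¹) * g := by rw [hxu]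
        _ = g⁻¹ * (u * z) * g := by rw [hyu']
    rw [h2] at h1
    have h3 : u * z ∈ Q₁ := (hmem _).mpr h1
    have h4 := Q₁.mul_mem (Q₁.inv_mem huQ₁) h3
    have e : u⁻¹ * (u * z) = z := by group
    rwa [e] at h4
  have hzQ₁ : z ∈ Q₁ :=
    les_a9 Q Q₁ z u hz1 hzz hzQ hzc P1 (fun a _ h => PC a h) hNQ hu1 huu huQ₁ huc P1' PC' hNQ₁
      huQ huz hB hd₀
  have partA : Z ≤ Q₁ := by
    intro v hv
    rcases (hZ v).mp hv with h | h
    · rw [h]; exact Q₁.one_mem
    · rw [h]; exact hzQ₁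
  have partC : Cfsg.IsLargeExtraspecial Q := by
    apply les_crit9 Q hL1 hL2 hL3 u huQ
    · rw [← hZdef]
      intro h
      rcases (hZ u).mp h with e | e
      · exact hu1 e
      · exact huz e
    · exact orderOf_eq_prime (by rw [pow_two]; exact huu) hu1
    · rw [← hZdef]
      intro v hv
      have hzCu : z ∈ Subgroup.centralizer ({u} : Set G) := by
        rw [Subgroup.mem_centralizer_iff]
        intro t ht
        rw [Set.mem_singleton_iff.mp ht]
        exact hzu.symm
      have hN : (Q₁.subgroupOf (Subgroup.centralizer ({u} : Set G))).Normal := by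
        constructor
        intro n hn c
        rw [Subgroup.mem_subgroupOf] at hn ⊢
        have hc : (c : G) * u = u * (c : G) :=
          (Subgroup.mem_centralizer_iff.mp c.2 u rfl).symm
        exact hNQ₁ (c : G) hc (n : G) hn
      have hP : IsPGroup 2 (Q₁.subgroupOf (Subgroup.centralizer ({u} : Set G))) := by
        have h1 : IsPGroup 2 Q₁ := by rw [hQ₁]; exact hL1.1.1.map _
        exact h1.comap_subtype
      have hle := Cfsg.Agent.Helper5.le_pCore _ hN hP
      rcases (hZ v).mp hv with h | h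
      · rw [h]; exact Subgroup.one_mem _
      · rw [h]
        exact Subgroup.mem_map.mpr ⟨⟨z, hzCu⟩, hle (Subgroup.mem_subgroupOf.mpr hzQ₁), rfl⟩
  refine ⟨partA, ?_, partC⟩
  obtain ⟨A, hA⟩ := four9 z u hzz huu hzu
  have hZ₁ : ∀ v, v ∈ Z.map (MulAut.conj g).toMonoidHom ↔ (v = 1 ∨ v = u) := by
    intro v
    constructor
    · rintro ⟨t, ht, rfl⟩
      rcases (hZ t).mp ht with e | e
      · left; rw [e]; exact map_one _
      · right; rw [e, hu]; rfl
    · rintro (e | e)
      · rw [e]; exact Subgroup.one_mem _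
      · exact ⟨z, hzZ, by rw [e, hu]; rfl⟩
  have hVA : Z ⊔ Z.map (MulAut.conj g).toMonoidHom = A := by
    apply le_antisymm
    · apply sup_le
      · intro v hv
        rw [hA]
        rcases (hZ v).mp hv with e | e
        · left; exact e
        · right; right; left; exact e
      · intro v hv
        rw [hA]
        rcases (hZ₁ v).mp hv with e | e
        · left; exact e
        · right; left; exact e
    · intro v hv
      have hzS : z ∈ Z ⊔ Z.map (MulAut.conj g).toMonoidHom := Subgroup.mem_sup_left hzZ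
      have huS : u ∈ Z ⊔ Z.map (MulAut.conj g).toMonoidHom :=
        Subgroup.mem_sup_right ((hZ₁ u).mpr (Or.inr rfl))
      rcases (hA v).mp hv with e | e | e | e
      · rw [e]; exact Subgroup.one_mem _
      · rw [e]; exact huS
      · rw [e]; exact hzS
      · rw [e]; exact Subgroup.mul_mem _ huS hzS
  rw [hVA]
  obtain ⟨x, hxQ₁, hxz⟩ : ∃ x ∈ Q₁, x * z * x⁻¹ * z⁻¹ = u := by
    by_contra hno
    push Not at hno
    have : z = 1 ∨ z = u := by
      apply PC'
      intro b hb
      rcases P1' b hb z hzQ₁ with h | h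
      · calc z * b = (b * z * b⁻¹ * z⁻¹)⁻¹ * (b * z) := by group
          _ = b * z := by rw [h]; simp
      · exact absurd h (hno b hb)
    rcases this with h | h
    · exact hz1 h
    · exact huz h.symm
  have hxu : x * u * x⁻¹ = u := by
    calc x * u * x⁻¹ = u * x * x⁻¹ := by rw [huc x hxQ₁]
      _ = u := by group
  have hxz' : x * z * x⁻¹ = u * z := by
    calc x * z * x⁻¹ = (x * z * x⁻¹ * z⁻¹) * z := by group
      _ = u * z := by rw [hxz]
  exact les_idx6_9 A z u y x hA hz1 hu1 huz hzz huu hzu hyz hyu' hxu hxz'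

end Cfsg.Agent.Helper9
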