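import Mathlib
import Cfsg.Prelude.Def_MonsterType
import Cfsg.Agent.Helper9.LargeES9i

set_option autoImplicit false

namespace Cfsg.Agent.Helper9

open scoped commutatorElement

theorem sup_ind9 {G : Type*} [Group G] (A B : Subgroup G) (P : G → Prop) (h1 : P 1)
    (hmul : ∀ x y, P x → P y → P (x * y)) (hinv : ∀ x, P x → P x⁻¹)
    (hA : ∀ a ∈ A, P a) (hB : ∀ b ∈ B, P b) : ∀ x ∈ A ⊔ B, P x := by
  intro x hx
  obtain ⟨K, hK⟩ : ∃ K : Subgroup G, ∀ x, x ∈ K ↔ P x :=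
    ⟨{ carrier := {x | P x},
       mul_mem' := fun ha hb => hmul _ _ ha hb,
       one_mem' := h1,
       inv_mem' := fun ha => hinv _ ha }, fun x => Iff.rfl⟩
  have hle : A ⊔ B ≤ K :=
    sup_le (fun a ha => (hK a).mpr (hA a ha)) (fun b hb => (hK b).mpr (hB b hb))
  exact (hK x).mp (hle hx)

theorem comm_sup9 {G : Type*} [Group G] (A B : Subgroup G) (c : G)
    (hA : ∀ a ∈ A, c * a = a * c) (hB : ∀ b ∈ B, c * b = b * c) :
    ∀ x ∈ A ⊔ B, c * x = x * c := by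
  intro x hx
  have hle : A ⊔ B ≤ Subgroup.centralizer ({c} : Set G) :=
    sup_le
      (fun a ha => Subgroup.mem_centralizer_iff.mpr
        (fun h hh => by rw [Set.mem_singleton_iff.mp hh]; exact hA a ha))
      (fun b hb => Subgroup.mem_centralizer_iff.mpr
        (fun h hh => by rw [Set.mem_singleton_iff.mp hh]; exact hB b hb))
  exact Subgroup.mem_centralizer_iff.mp (hle hx) c rfl

theorem comm_ind9 {G : Type*} [Group G] (A B W : Subgroup G) (y : G)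
    (hA : ∀ a ∈ A, a ∈ Subgroup.normalizer (W : Set G) ∧ a * y * a⁻¹ * y⁻¹ ∈ W)
    (hB : ∀ b ∈ B, b ∈ Subgroup.normalizer (W : Set G) ∧ b * y * b⁻¹ * y⁻¹ ∈ W) :
    ∀ x ∈ A ⊔ B, x ∈ Subgroup.normalizer (W : Set G) ∧ x * y * x⁻¹ * y⁻¹ ∈ W := by
  apply sup_ind9 A B (fun x => x ∈ Subgroup.normalizer (W : Set G) ∧ x * y * x⁻¹ * y⁻¹ ∈ W)
  · refine ⟨Subgroup.one_mem _, ?_⟩
    have e : (1 : G) * y * 1⁻¹ * y⁻¹ = 1 := by group
    rw [e]; exact W.one_mem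
  · rintro x x' ⟨hx1, hx2⟩ ⟨hy1, hy2⟩
    refine ⟨Subgroup.mul_mem _ hx1 hy1, ?_⟩
    have h1 : x * (x' * y * x'⁻¹ * y⁻¹) * x⁻¹ ∈ W :=
      (Subgroup.mem_normalizer_iff.mp hx1 _).mp hy2
    have h2 := W.mul_mem h1 hx2
    have e0 : x * (x' * y * x'⁻¹ * y⁻¹) * x⁻¹ * (x * y * x⁻¹ * y⁻¹) =
        x * x' * y * (x * x')⁻¹ * y⁻¹ := by group
    rwa [e0] at h2
  · rintro x ⟨hx1, hx2⟩
    refine ⟨Subgroup.inv_mem _ hx1, ?_⟩
    have h1 : x⁻¹ * (x * y * x⁻¹ * y⁻¹)⁻¹ * x⁻¹⁻¹ ∈ W :=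
      (Subgroup.mem_normalizer_iff.mp (Subgroup.inv_mem _ hx1) _).mp (W.inv_mem hx2)
    have e0 : x⁻¹ * (x * y * x⁻¹ * y⁻¹)⁻¹ * x⁻¹⁻¹ = x⁻¹ * y * x⁻¹⁻¹ * y⁻¹ := by group
    rwa [e0] at h1
  · exact hA
  · exact hB

theorem normV9 {G : Type*} [Group G] (Q V : Subgroup G) (z u : G)
    (hzc : ∀ q ∈ Q, z * q = q * z)
    (P1 : ∀ a ∈ Q, ∀ b ∈ Q, a * b * a⁻¹ * b⁻¹ = 1 ∨ a * b * a⁻¹ * b⁻¹ = z) (huQ : u ∈ Q)
    (hV : V = Subgroup.closure ({z, u} : Set G)) : ∀ q ∈ Q, ∀ v ∈ V, q * v * q⁻¹ ∈ V := by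
  intro q hq v hv
  have hzV : z ∈ V := by rw [hV]; exact Subgroup.subset_closure (Or.inl rfl)
  have huV : u ∈ V := by rw [hV]; exact Subgroup.subset_closure (Or.inr rfl)
  have hle : (Subgroup.closure ({z, u} : Set G)).map (MulAut.conj q).toMonoidHom ≤ V := by
    rw [MonoidHom.map_closure, Subgroup.closure_le]
    rintro _ ⟨s, hs, rfl⟩
    show q * s * q⁻¹ ∈ V
    rcases hs with h | h
    · rw [h]
      have e : q * z * q⁻¹ = z := by
        calc q * z * q⁻¹ = z * q * q⁻¹ := by rw [hzc q hq]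
          _ = z := by group
      rw [e]; exact hzV
    · have h' : s = u := h
      rw [h']
      rcases P1 q hq u huQ with e | e
      · have e' : q * u * q⁻¹ = u := by
          calc q * u * q⁻¹ = q * u * q⁻¹ * u⁻¹ * u := by group
            _ = u := by rw [e, one_mul]
        rw [e']; exact huV
      · have e' : q * u * q⁻¹ = z * u := by
          calc q * u * q⁻¹ = q * u * q⁻¹ * u⁻¹ * u := by group
            _ = z * u := by rw [e]
        rw [e']; exact V.mul_mem hzV huV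
  exact hle ⟨v, hV ▸ hv, rfl⟩

theorem sq9 {G : Type*} [Group G] (Q : Subgroup G) (z : G) (hzz : z * z = 1)
    (hzc : ∀ q ∈ Q, z * q = q * z)
    (P1 : ∀ a ∈ Q, ∀ b ∈ Q, a * b * a⁻¹ * b⁻¹ = 1 ∨ a * b * a⁻¹ * b⁻¹ = z)
    (PC : ∀ a : G, (∀ b ∈ Q, a * b = b * a) → a = 1 ∨ a = z) :
    ∀ a ∈ Q, a * a = 1 ∨ a * a = z := by
  intro a ha
  apply PC
  intro b hb
  have hc := P1 b hb a ha
  have h1 : b * a * b⁻¹ = (b * a * b⁻¹ * a⁻¹) * a := by group
  have h2 : b * (a * a) * b⁻¹ = a * a := by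
    have e : b * (a * a) * b⁻¹ = (b * a * b⁻¹) * (b * a * b⁻¹) := by group
    rw [e, h1]
    rcases hc with h | h
    · rw [h]; simp
    · rw [h]
      calc z * a * (z * a) = z * (a * z) * a := by group
        _ = z * (z * a) * a := by rw [hzc a ha]
        _ = (z * z) * (a * a) := by group
        _ = a * a := by rw [hzz, one_mul]
  calc a * a * b = b * (a * a) * b⁻¹ * b := by rw [h2]
    _ = b * (a * a) := by group

end Cfsg.Agent.Helper9
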