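import Mathlib
import Cfsg.Prelude.Def_MonsterType
import Cfsg.Agent.Helper9.LargeES9j

set_option autoImplicit false

namespace Cfsg.Agent.Helper9

open scoped commutatorElement

theorem les_R9 {G : Type*} [Group G] [Finite G] (Q Q₁ : Subgroup G) (z u : G)
    (hz1 : z ≠ 1) (hzz : z * z = 1) (hzQ : z ∈ Q) (hzc : ∀ q ∈ Q, z * q = q * z)
    (P1 : ∀ a ∈ Q, ∀ b ∈ Q, a * b * a⁻¹ * b⁻¹ = 1 ∨ a * b * a⁻¹ * b⁻¹ = z)
    (PC : ∀ a : G, (∀ b ∈ Q, a * b = b * a) → a = 1 ∨ a = z)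
    (hNQ : ∀ h : G, h * z = z * h → ∀ q ∈ Q, h * q * h⁻¹ ∈ Q)
    (hu1 : u ≠ 1) (huu : u * u = 1) (huQ₁ : u ∈ Q₁) (huc : ∀ q ∈ Q₁, u * q = q * u)
    (P1' : ∀ a ∈ Q₁, ∀ b ∈ Q₁, a * b * a⁻¹ * b⁻¹ = 1 ∨ a * b * a⁻¹ * b⁻¹ = u)
    (PC' : ∀ a : G, (∀ b ∈ Q₁, a * b = b * a) → a = 1 ∨ a = u)
    (hNQ₁ : ∀ h : G, h * u = u * h → ∀ q ∈ Q₁, h * q * h⁻¹ ∈ Q₁)
    (huQ : u ∈ Q) (hzQ₁ : z ∈ Q₁) (huz : u ≠ z)
    (V X R E : Subgroup G) (hV : V = Subgroup.closure ({z, u} : Set G))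
    (hX : X = Q ⊔ Q₁)
    (hR : R = (Q₁ ⊓ Subgroup.centralizer ({z} : Set G)) ⊔
      (Q ⊓ Subgroup.centralizer ({u} : Set G)))
    (hE : E = Q ⊓ Q₁) :
    (Subgroup.center ↥R).map R.subtype = V ∧
    E ≤ (Subgroup.upperCentralSeries ↥R 2).map R.subtype ∧
    Subgroup.upperCentralSeries ↥R 3 = ⊤ ∧
    Cfsg.IsElementaryAbelian 2 E ∧
    (∀ x ∈ R, ∀ y ∈ R, x * y * x⁻¹ * y⁻¹ ∈ E ∧ x ^ 2 ∈ E) ∧
    (Q₁ ⊓ Subgroup.centralizer ({z} : Set G)) ⊓ (Q ⊓ Subgroup.centralizer ({u} : Set G)) = E ∧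
    ⁅X, E⁆ ≤ V := by
  classical
  have hzu : z * u = u * z := hzc u huQ
  have hui : u⁻¹ = u := inv_eq_of_mul_eq_one_right huu
  have hzi : z⁻¹ = z := inv_eq_of_mul_eq_one_right hzz
  obtain ⟨A, hA⟩ := four9 z u hzz huu hzu
  have hVA : V = A := by
    rw [hV]
    apply le_antisymm
    · rw [Subgroup.closure_le]
      intro v hv
      rcases hv with h | h
      · exact (hA v).mpr (Or.inr (Or.inr (Or.inl h)))
      · exact (hA v).mpr (Or.inr (Or.inl h))
    · intro v hv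
      have hzS : z ∈ Subgroup.closure ({z, u} : Set G) := Subgroup.subset_closure (Or.inl rfl)
      have huS : u ∈ Subgroup.closure ({z, u} : Set G) := Subgroup.subset_closure (Or.inr rfl)
      rcases (hA v).mp hv with e | e | e | e
      · rw [e]; exact Subgroup.one_mem _
      · rw [e]; exact huS
      · rw [e]; exact hzS
      · rw [e]; exact Subgroup.mul_mem _ huS hzS
  have hmV : ∀ v, v ∈ V ↔ (v = 1 ∨ v = u ∨ v = z ∨ v = u * z) := by
    intro v; rw [hVA]; exact hA v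
  obtain ⟨D, hD⟩ : ∃ D : Subgroup G, D = Q ⊓ Subgroup.centralizer ({u} : Set G) := ⟨_, rfl⟩
  obtain ⟨D₁, hD₁⟩ : ∃ D₁ : Subgroup G, D₁ = Q₁ ⊓ Subgroup.centralizer ({z} : Set G) :=
    ⟨_, rfl⟩
  rw [← hD, ← hD₁] at hR ⊢
  have hmD : ∀ x, x ∈ D ↔ x ∈ Q ∧ x * u = u * x := by
    intro x
    rw [hD, Subgroup.mem_inf, Subgroup.mem_centralizer_iff]
    constructor
    · rintro ⟨h1, h2⟩; exact ⟨h1, (h2 u rfl).symm⟩
    · rintro ⟨h1, h2⟩
      exact ⟨h1, fun v hv => by rw [Set.mem_singleton_iff.mp hv]; exact h2.symm⟩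
  have hmD₁ : ∀ x, x ∈ D₁ ↔ x ∈ Q₁ ∧ x * z = z * x := by
    intro x
    rw [hD₁, Subgroup.mem_inf, Subgroup.mem_centralizer_iff]
    constructor
    · rintro ⟨h1, h2⟩; exact ⟨h1, (h2 z rfl).symm⟩
    · rintro ⟨h1, h2⟩
      exact ⟨h1, fun v hv => by rw [Set.mem_singleton_iff.mp hv]; exact h2.symm⟩
  have hmE : ∀ x, x ∈ E ↔ x ∈ Q ∧ x ∈ Q₁ := by
    intro x; rw [hE, Subgroup.mem_inf]
  have hzE : z ∈ E := (hmE z).mpr ⟨hzQ, hzQ₁⟩
  have huE : u ∈ E := (hmE u).mpr ⟨huQ, huQ₁⟩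
  have hVE : V ≤ E := by
    intro v hv
    rcases (hmV v).mp hv with e | e | e | e
    · rw [e]; exact E.one_mem
    · rw [e]; exact huE
    · rw [e]; exact hzE
    · rw [e]; exact E.mul_mem huE hzE
  have hED : E ≤ D := fun x hx =>
    (hmD x).mpr ⟨((hmE x).mp hx).1, (huc x ((hmE x).mp hx).2).symm⟩
  have hED₁ : E ≤ D₁ := fun x hx =>
    (hmD₁ x).mpr ⟨((hmE x).mp hx).2, (hzc x ((hmE x).mp hx).1).symm⟩
  have hDR : D ≤ R := by rw [hR]; exact le_sup_right
  have hD₁R : D₁ ≤ R := by rw [hR]; exact le_sup_left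
  have hER : E ≤ R := hED.trans hDR
  have hDQ : D ≤ Q := fun x hx => ((hmD x).mp hx).1
  have hD₁Q₁ : D₁ ≤ Q₁ := fun x hx => ((hmD₁ x).mp hx).1
  have hRX : R ≤ Q ⊔ Q₁ := by
    rw [hR]
    exact sup_le (hD₁Q₁.trans le_sup_right) (hDQ.trans le_sup_left)
  have part6 : D₁ ⊓ D = E := by
    apply le_antisymm
    · intro x hx
      obtain ⟨h1, h2⟩ := Subgroup.mem_inf.mp hx
      exact (hmE x).mpr ⟨((hmD x).mp h2).1, ((hmD₁ x).mp h1).1⟩
    · exact le_inf hED₁ hED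
  have S_Q := sq9 Q z hzz hzc P1 PC
  have S_Q₁ := sq9 Q₁ u huu huc P1' PC'
  have hEsq : ∀ e ∈ E, e * e = 1 := by
    intro e he
    obtain ⟨h1, h2⟩ := (hmE e).mp he
    rcases S_Q e h1 with h | h
    · exact h
    · rcases S_Q₁ e h2 with h' | h'
      · exact h'
      · exact absurd (h'.symm.trans h) huz
  have hEcomm : ∀ a ∈ E, ∀ b ∈ E, a * b = b * a := by
    intro a ha b hb
    have h3 := hEsq (a * b) (E.mul_mem ha hb)
    have h1 := hEsq a ha
    have h2 := hEsq b hb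
    calc a * b = a * (a * b * (a * b)) * b := by rw [h3, mul_one]
      _ = (a * a) * b * a * (b * b) := by group
      _ = b * a := by rw [h1, h2, one_mul, mul_one]
  have part4 : Cfsg.IsElementaryAbelian 2 E := by
    refine ⟨⟨⟨fun a b => Subtype.ext (hEcomm a a.2 b b.2)⟩⟩, fun a ha => ?_⟩
    rw [pow_two]; exact hEsq a ha
  -- normalizing V
  have hQV := normV9 Q V z u hzc P1 huQ hV
  have hV' : V = Subgroup.closure ({u, z} : Set G) := by rw [hV, Set.pair_comm]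
  have hQ₁V := normV9 Q₁ V u z huc P1' hzQ₁ hV'
  have hQN : Q ≤ Subgroup.normalizer (V : Set G) := fun q hq =>
    Subgroup.mem_normalizer_fintype (fun v hv => hQV q hq v hv)
  have hQ₁N : Q₁ ≤ Subgroup.normalizer (V : Set G) := fun q hq =>
    Subgroup.mem_normalizer_fintype (fun v hv => hQ₁V q hq v hv)
  have hXE : ∀ e ∈ E, ∀ x ∈ Q ⊔ Q₁, x * e * x⁻¹ * e⁻¹ ∈ V := by
    intro e he x hx
    refine (comm_ind9 Q Q₁ V e ?_ ?_ x hx).2
    · intro q hq
      refine ⟨hQN hq, ?_⟩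
      rw [hmV]
      rcases P1 q hq e ((hmE e).mp he).1 with h | h
      · left; exact h
      · right; right; left; exact h
    · intro q hq
      refine ⟨hQ₁N hq, ?_⟩
      rw [hmV]
      rcases P1' q hq e ((hmE e).mp he).2 with h | h
      · left; exact h
      · right; left; exact h
  have part7 : ⁅X, E⁆ ≤ V := by
    rw [hX, Subgroup.commutator_le]
    intro x hx e he
    rw [commutatorElement_def]
    exact hXE e he x hx
  have hER' : ∀ e ∈ E, ∀ r ∈ R, e * r * e⁻¹ * r⁻¹ ∈ V := by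
    intro e he r hr
    have h1 := hXE e he r (hRX hr)
    have h2 := V.inv_mem h1
    have e0 : (r * e * r⁻¹ * e⁻¹)⁻¹ = e * r * e⁻¹ * r⁻¹ := by group
    rwa [e0] at h2
  have hzR : ∀ r ∈ R, z * r = r * z := by
    rw [hR]
    exact comm_sup9 D₁ D z (fun a ha => ((hmD₁ a).mp ha).2.symm) (fun b hb => hzc b (hDQ hb))
  have huR : ∀ r ∈ R, u * r = r * u := by
    rw [hR]
    exact comm_sup9 D₁ D u (fun a ha => huc a (hD₁Q₁ ha)) (fun b hb => ((hmD b).mp hb).2.symm)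
  have hVC : ∀ v ∈ V, ∀ r ∈ R, v * r = r * v := by
    intro v hv r hr
    rcases (hmV v).mp hv with e | e | e | e
    · rw [e]; simp
    · rw [e]; exact huR r hr
    · rw [e]; exact hzR r hr
    · rw [e]
      calc u * z * r = u * (z * r) := by group
        _ = u * (r * z) := by rw [hzR r hr]
        _ = (u * r) * z := by group
        _ = r * u * z := by rw [huR r hr]
        _ = r * (u * z) := by group
  -- normalizing E
  have hQE : ∀ q ∈ Q, ∀ e ∈ E, q * e * q⁻¹ ∈ E := by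
    intro q hq e he
    have e0 : q * e * q⁻¹ = (q * e * q⁻¹ * e⁻¹) * e := by group
    rw [e0]
    rcases P1 q hq e ((hmE e).mp he).1 with h | h
    · rw [h, one_mul]; exact he
    · rw [h]; exact E.mul_mem hzE he
  have hQ₁E : ∀ q ∈ Q₁, ∀ e ∈ E, q * e * q⁻¹ ∈ E := by
    intro q hq e he
    have e0 : q * e * q⁻¹ = (q * e * q⁻¹ * e⁻¹) * e := by group
    rw [e0]
    rcases P1' q hq e ((hmE e).mp he).2 with h | h
    · rw [h, one_mul]; exact he
    · rw [h]; exact E.mul_mem huE he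
  have hQNE : Q ≤ Subgroup.normalizer (E : Set G) := fun q hq =>
    Subgroup.mem_normalizer_fintype (fun v hv => hQE q hq v hv)
  have hQ₁NE : Q₁ ≤ Subgroup.normalizer (E : Set G) := fun q hq =>
    Subgroup.mem_normalizer_fintype (fun v hv => hQ₁E q hq v hv)
  -- generator commutators
  have gDD : ∀ x ∈ D, ∀ y ∈ D, x * y * x⁻¹ * y⁻¹ ∈ E := by
    intro x hx y hy
    rcases P1 x (hDQ hx) y (hDQ hy) with h | h
    · rw [h]; exact E.one_mem
    · rw [h]; exact hzE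
  have gD₁D₁ : ∀ x ∈ D₁, ∀ y ∈ D₁, x * y * x⁻¹ * y⁻¹ ∈ E := by
    intro x hx y hy
    rcases P1' x (hD₁Q₁ hx) y (hD₁Q₁ hy) with h | h
    · rw [h]; exact E.one_mem
    · rw [h]; exact huE
  have gD₁D : ∀ x ∈ D₁, ∀ y ∈ D, x * y * x⁻¹ * y⁻¹ ∈ E := by
    intro x hx y hy
    obtain ⟨hxQ₁, hxz⟩ := (hmD₁ x).mp hx
    obtain ⟨hyQ, hyu⟩ := (hmD y).mp hy
    rw [hmE]
    constructor
    · exact Q.mul_mem (hNQ x hxz y hyQ) (Q.inv_mem hyQ)
    · have h1 : y * x⁻¹ * y⁻¹ ∈ Q₁ := hNQ₁ y hyu x⁻¹ (Q₁.inv_mem hxQ₁)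
      have h2 := Q₁.mul_mem hxQ₁ h1
      have e0 : x * (y * x⁻¹ * y⁻¹) = x * y * x⁻¹ * y⁻¹ := by group
      rwa [e0] at h2
  have gDD₁ : ∀ x ∈ D, ∀ y ∈ D₁, x * y * x⁻¹ * y⁻¹ ∈ E := by
    intro x hx y hy
    have h1 := E.inv_mem (gD₁D y hy x hx)
    have e0 : (y * x * y⁻¹ * x⁻¹)⁻¹ = x * y * x⁻¹ * y⁻¹ := by group
    rwa [e0] at h1
  have step2 : ∀ y, (y ∈ D ∨ y ∈ D₁) → ∀ x ∈ R, x * y * x⁻¹ * y⁻¹ ∈ E := by
    intro y hy x hx
    rw [hR] at hx
    refine (comm_ind9 D₁ D E y ?_ ?_ x hx).2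
    · intro a ha
      refine ⟨hQ₁NE (hD₁Q₁ ha), ?_⟩
      rcases hy with hy | hy
      · exact gD₁D a ha y hy
      · exact gD₁D₁ a ha y hy
    · intro b hb
      refine ⟨hQNE (hDQ hb), ?_⟩
      rcases hy with hy | hy
      · exact gDD b hb y hy
      · exact gDD₁ b hb y hy
  have step3 : ∀ x ∈ R, ∀ y ∈ R, y * x * y⁻¹ * x⁻¹ ∈ E := by
    intro x hx y hy
    rw [hR] at hy
    refine (comm_ind9 D₁ D E x ?_ ?_ y hy).2
    · intro a ha
      refine ⟨hQ₁NE (hD₁Q₁ ha), ?_⟩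
      have h1 := E.inv_mem (step2 a (Or.inr ha) x hx)
      have e0 : (x * a * x⁻¹ * a⁻¹)⁻¹ = a * x * a⁻¹ * x⁻¹ := by group
      rwa [e0] at h1
    · intro b hb
      refine ⟨hQNE (hDQ hb), ?_⟩
      have h1 := E.inv_mem (step2 b (Or.inl hb) x hx)
      have e0 : (x * b * x⁻¹ * b⁻¹)⁻¹ = b * x * b⁻¹ * x⁻¹ := by group
      rwa [e0] at h1
  have hsqR : ∀ x ∈ R, x * x ∈ E := by
    intro x hx
    have key : ∀ x ∈ D₁ ⊔ D, x ∈ R ∧ x * x ∈ E := by
      apply sup_ind9 D₁ D (fun x => x ∈ R ∧ x * x ∈ E)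
      · exact ⟨R.one_mem, by rw [one_mul]; exact E.one_mem⟩
      · rintro a b ⟨ha1, ha2⟩ ⟨hb1, hb2⟩
        refine ⟨R.mul_mem ha1 hb1, ?_⟩
        have h1 := step3 b hb1 a⁻¹ (R.inv_mem ha1)
        have h2 := E.mul_mem (E.mul_mem ha2 h1) hb2
        have e0 : a * a * (a⁻¹ * b * a⁻¹⁻¹ * b⁻¹) * (b * b) = a * b * (a * b) := by group
        rwa [e0] at h2
      · rintro a ⟨ha1, ha2⟩
        refine ⟨R.inv_mem ha1, ?_⟩
        have h1 := E.inv_mem ha2
        have e0 : (a * a)⁻¹ = a⁻¹ * a⁻¹ := by group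
        rwa [e0] at h1
      · intro a ha
        refine ⟨hD₁R ha, ?_⟩
        rcases S_Q₁ a (hD₁Q₁ ha) with h | h
        · rw [h]; exact E.one_mem
        · rw [h]; exact huE
      · intro b hb
        refine ⟨hDR hb, ?_⟩
        rcases S_Q b (hDQ hb) with h | h
        · rw [h]; exact E.one_mem
        · rw [h]; exact hzE
    rw [hR] at hx
    exact (key x hx).2
  have part5 : ∀ x ∈ R, ∀ y ∈ R, x * y * x⁻¹ * y⁻¹ ∈ E ∧ x ^ 2 ∈ E := by
    intro x hx y hy
    refine ⟨step3 y hy x hx, ?_⟩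
    rw [pow_two]; exact hsqR x hx
  -- the centre
  have hAQ : A ≤ Q := by
    intro x hx
    rcases (hA x).mp hx with h | h | h | h
    · rw [h]; exact Q.one_mem
    · rw [h]; exact huQ
    · rw [h]; exact hzQ
    · rw [h]; exact Q.mul_mem huQ hzQ
  have hzA : z ∈ A := (hA z).mpr (Or.inr (Or.inr (Or.inl rfl)))
  have huA : u ∈ A := (hA u).mpr (Or.inr (Or.inl rfl))
  obtain ⟨y, hyQ, hyu⟩ : ∃ y ∈ Q, y * u * y⁻¹ * u⁻¹ = z := by
    by_contra hno
    push Not at hno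
    have : u = 1 ∨ u = z := by
      apply PC
      intro b hb
      rcases P1 b hb u huQ with h | h
      · calc u * b = (b * u * b⁻¹ * u⁻¹)⁻¹ * (b * u) := by group
          _ = b * u := by rw [h]; simp
      · exact absurd h (hno b hb)
    rcases this with h | h
    · exact hu1 h
    · exact huz h
  have hyu' : y * u * y⁻¹ = u * z := by
    calc y * u * y⁻¹ = y * u * y⁻¹ * u⁻¹ * u := by group
      _ = z * u := by rw [hyu]
      _ = u * z := hzu
  have hyz : y * z * y⁻¹ = z := by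
    calc y * z * y⁻¹ = z * y * y⁻¹ := by rw [hzc y hyQ]
      _ = z := by group
  have hyuz : y * (u * z) * y⁻¹ = u := by
    calc y * (u * z) * y⁻¹ = (y * u * y⁻¹) * (y * z * y⁻¹) := by group
      _ = u * z * z := by rw [hyu', hyz]
      _ = u := by rw [mul_assoc, hzz, mul_one]
  have hy'u : y⁻¹ * u * y = u * z := by
    calc y⁻¹ * u * y = y⁻¹ * (y * (u * z) * y⁻¹) * y := by rw [hyuz]
      _ = u * z := by group
  have hcent_le : ∀ r₀ ∈ R, (∀ s ∈ R, s * r₀ = r₀ * s) → r₀ ∈ V := by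
    intro r₀ hr₀ hcomm
    have hr_z : r₀ * z = z * r₀ := (hcomm z (hER hzE)).symm
    have hrN := hNQ r₀ hr_z
    have hrD : ∀ d ∈ D, r₀ * d * r₀⁻¹ = d := by
      intro d hd
      calc r₀ * d * r₀⁻¹ = (d * r₀) * r₀⁻¹ := by rw [hcomm d (hDR hd)]
        _ = d := by group
    have hrD' : ∀ d ∈ D, r₀⁻¹ * d * r₀ = d := by
      intro d hd
      calc r₀⁻¹ * d * r₀ = r₀⁻¹ * (d * r₀) := by group
        _ = r₀⁻¹ * (r₀ * d) := by rw [hcomm d (hDR hd)]
        _ = d := by group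
    -- D is normal in Q
    have hDn : ∀ q ∈ Q, ∀ d ∈ D, q * d * q⁻¹ ∈ D := by
      intro q hq d hd
      obtain ⟨hdQ, hdu⟩ := (hmD d).mp hd
      rw [hmD]
      refine ⟨Q.mul_mem (Q.mul_mem hq hdQ) (Q.inv_mem hq), ?_⟩
      obtain ⟨t, ht⟩ : ∃ t, t = q⁻¹ * u * q := ⟨_, rfl⟩
      have hdt : d * t = t * d := by
        have e0 : t = (q⁻¹ * u * q⁻¹⁻¹ * u⁻¹) * u := by rw [ht]; group
        rcases P1 q⁻¹ (Q.inv_mem hq) u huQ with h | h
        · rw [e0, h, one_mul]; exact hdu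
        · rw [e0, h]
          calc d * (z * u) = (d * z) * u := by group
            _ = (z * d) * u := by rw [hzc d hdQ]
            _ = z * (d * u) := by group
            _ = z * (u * d) := by rw [hdu]
            _ = z * u * d := by group
      have hu' : u = q * t * q⁻¹ := by rw [ht]; group
      calc q * d * q⁻¹ * u = q * d * q⁻¹ * (q * t * q⁻¹) := by rw [← hu']
        _ = q * (d * t) * q⁻¹ := by group
        _ = q * (t * d) * q⁻¹ := by rw [hdt]
        _ = (q * t * q⁻¹) * (q * d * q⁻¹) := by group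
        _ = u * (q * d * q⁻¹) := by rw [← hu']
    obtain ⟨c, hc⟩ : ∃ c, c = r₀ * y * r₀⁻¹ * y⁻¹ := ⟨_, rfl⟩
    have hcQ : c ∈ Q := by
      rw [hc]; exact Q.mul_mem (hrN y hyQ) (Q.inv_mem hyQ)
    have hcD : ∀ d' ∈ D, c * d' = d' * c := by
      intro d' hd'
      have hd : y⁻¹ * d' * y ∈ D := by
        have := hDn y⁻¹ (Q.inv_mem hyQ) d' hd'
        rwa [inv_inv] at this
      have h_rd := hrD' _ hd
      have h_rd' := hrD d' hd'
      calc c * d' = (r₀ * y * r₀⁻¹ * y⁻¹) * d' := by rw [hc]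
        _ = r₀ * y * (r₀⁻¹ * (y⁻¹ * d' * y) * r₀) * y⁻¹ * r₀⁻¹ * (r₀ * y * r₀⁻¹ * y⁻¹) := by
          group
        _ = r₀ * y * (y⁻¹ * d' * y) * y⁻¹ * r₀⁻¹ * (r₀ * y * r₀⁻¹ * y⁻¹) := by rw [h_rd]
        _ = (r₀ * d' * r₀⁻¹) * (r₀ * y * r₀⁻¹ * y⁻¹) := by group
        _ = d' * (r₀ * y * r₀⁻¹ * y⁻¹) := by rw [h_rd']
        _ = d' * c := by rw [hc]
    have hcA : c ∈ A := by
      by_contra hcA
      obtain ⟨q, hqQ, hqA, hqc⟩ :=
        les_dc9 Q A hAQ z hzA hz1 hzz hzc P1 (fun a _ h => PC a h) c hcQ hcA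
      have hqD : q ∈ D := (hmD q).mpr ⟨hqQ, (hqA u huA).symm⟩
      have h1 := hcD q hqD
      apply hz1
      rw [← hqc]
      calc q * c * q⁻¹ * c⁻¹ = (c * q)⁻¹⁻¹ * q⁻¹ * c⁻¹ := by rw [h1]; group
        _ = 1 := by group
    -- decomposition of Q
    have hQdec : ∀ q ∈ Q, q ∈ D ∨ y⁻¹ * q ∈ D := by
      intro q hq
      rcases P1 q hq u huQ with h | h
      · left
        rw [hmD]
        refine ⟨hq, ?_⟩
        calc q * u = (q * u * q⁻¹ * u⁻¹) * (u * q) := by group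
          _ = u * q := by rw [h, one_mul]
      · right
        rw [hmD]
        refine ⟨Q.mul_mem (Q.inv_mem hyQ) hq, ?_⟩
        have hqu : q * u * q⁻¹ = z * u := by
          calc q * u * q⁻¹ = (q * u * q⁻¹ * u⁻¹) * u := by group
            _ = z * u := by rw [h]
        have hyz' : y⁻¹ * z * y = z := by
          calc y⁻¹ * z * y = y⁻¹ * (z * y) := by group
            _ = y⁻¹ * (y * z) := by rw [hzc y hyQ]
            _ = z := by group
        have e1 : y⁻¹ * q * u * (y⁻¹ * q)⁻¹ = u := by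
          calc y⁻¹ * q * u * (y⁻¹ * q)⁻¹ = y⁻¹ * (q * u * q⁻¹) * y := by group
            _ = y⁻¹ * (z * u) * y := by rw [hqu]
            _ = (y⁻¹ * z * y) * (y⁻¹ * u * y) := by group
            _ = z * (u * z) := by rw [hyz', hy'u]
            _ = u * (z * z) := by rw [← mul_assoc, hzu, mul_assoc]
            _ = u := by rw [hzz, mul_one]
        calc y⁻¹ * q * u = y⁻¹ * q * u * (y⁻¹ * q)⁻¹ * (y⁻¹ * q) := by group
          _ = u * (y⁻¹ * q) := by rw [e1]
    have star : ∀ t : G, (∀ d ∈ D, t * d = d * t) → t * y = y * t → t = 1 ∨ t = z := by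
      intro t htD hty
      apply PC
      intro q hq
      rcases hQdec q hq with h | h
      · exact htD q h
      · have h1 := htD _ h
        calc t * q = (t * y) * (y⁻¹ * q) := by group
          _ = y * (t * (y⁻¹ * q)) := by rw [hty]; group
          _ = y * ((y⁻¹ * q) * t) := by rw [h1]
          _ = q * t := by group
    have hr₀D : ∀ d ∈ D, r₀ * d = d * r₀ := fun d hd => (hcomm d (hDR hd)).symm
    have hry : r₀ * y * r₀⁻¹ = c * y := by rw [hc]; group
    have bad : ∀ c' : G, r₀ * y * r₀⁻¹ = c' * y → c' * (y * c' * y⁻¹) = z → False := by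
      intro c' h1 h2
      have hyy : r₀ * (y * y) * r₀⁻¹ = y * y := by
        rcases S_Q y hyQ with h | h
        · rw [h]; group
        · rw [h]
          calc r₀ * z * r₀⁻¹ = (z * r₀) * r₀⁻¹ := by rw [hr_z]
            _ = z := by group
      have h3 : r₀ * (y * y) * r₀⁻¹ = z * (y * y) := by
        calc r₀ * (y * y) * r₀⁻¹ = (r₀ * y * r₀⁻¹) * (r₀ * y * r₀⁻¹) := by group
          _ = (c' * y) * (c' * y) := by rw [h1]
          _ = (c' * (y * c' * y⁻¹)) * (y * y) := by group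
          _ = z * (y * y) := by rw [h2]
      apply hz1
      calc z = z * (y * y) * (y * y)⁻¹ := by group
        _ = (y * y) * (y * y)⁻¹ := by rw [← h3, hyy]
        _ = 1 := by group
    rw [hmV]
    rcases (hA c).mp hcA with h | h | h | h
    · -- c = 1
      have hty : r₀ * y = y * r₀ := by
        calc r₀ * y = r₀ * y * r₀⁻¹ * r₀ := by group
          _ = y * r₀ := by rw [hry, h, one_mul]
      rcases star r₀ hr₀D hty with e | e
      · left; exact e
      · right; right; left; exact e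
    · -- c = u
      exfalso
      apply bad u (by rw [hry, h])
      rw [hyu', ← mul_assoc, huu, one_mul]
    · -- c = z
      have htD : ∀ d ∈ D, (u * r₀) * d = d * (u * r₀) := by
        intro d hd
        calc u * r₀ * d = u * (r₀ * d) := by group
          _ = u * (d * r₀) := by rw [hr₀D d hd]
          _ = (u * d) * r₀ := by group
          _ = (d * u) * r₀ := by rw [((hmD d).mp hd).2]
          _ = d * (u * r₀) := by group
      have huy : u * y * u⁻¹ = z * y := by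
        calc u * y * u⁻¹ = (y * u * y⁻¹ * u⁻¹)⁻¹ * y := by group
          _ = z * y := by rw [hyu, hzi]
      have hty : (u * r₀) * y = y * (u * r₀) := by
        have e1 : u * r₀ * y * (u * r₀)⁻¹ = y := by
          calc u * r₀ * y * (u * r₀)⁻¹ = u * (r₀ * y * r₀⁻¹) * u⁻¹ := by group
            _ = u * (z * y) * u⁻¹ := by rw [hry, h]
            _ = (u * z) * y * u⁻¹ := by group
            _ = (z * u) * y * u⁻¹ := by rw [hzu]
            _ = z * (u * y * u⁻¹) := by group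
            _ = z * (z * y) := by rw [huy]
            _ = y := by rw [← mul_assoc, hzz, one_mul]
        calc u * r₀ * y = u * r₀ * y * (u * r₀)⁻¹ * (u * r₀) := by group
          _ = y * (u * r₀) := by rw [e1]
      rcases star (u * r₀) htD hty with e | e
      · right; left
        calc r₀ = u⁻¹ * (u * r₀) := by group
          _ = u := by rw [e, mul_one, hui]
      · right; right; right
        calc r₀ = u⁻¹ * (u * r₀) := by group
          _ = u * z := by rw [e, hui]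
    · -- c = u * z
      exfalso
      apply bad (u * z) (by rw [hry, h])
      rw [hyuz, mul_assoc, hzu, ← mul_assoc, huu, one_mul]
  have part1 : (Subgroup.center ↥R).map R.subtype = V := by
    apply le_antisymm
    · rintro _ ⟨r, hr, rfl⟩
      apply hcent_le (r : G) r.2
      intro s hs
      have := Subgroup.mem_center_iff.mp hr ⟨s, hs⟩
      exact congrArg Subtype.val this
    · intro v hv
      refine Subgroup.mem_map.mpr ⟨⟨v, hER (hVE hv)⟩, ?_, rfl⟩
      rw [Subgroup.mem_center_iff]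
      intro s
      apply Subtype.ext
      exact (hVC v hv s s.2).symm
  have part2 : E ≤ (Subgroup.upperCentralSeries ↥R 2).map R.subtype := by
    intro e he
    refine Subgroup.mem_map.mpr ⟨⟨e, hER he⟩, ?_, rfl⟩
    rw [Subgroup.mem_upperCentralSeries_succ_iff]
    intro y'
    rw [Subgroup.upperCentralSeries_one, Subgroup.mem_center_iff]
    intro s
    apply Subtype.ext
    have hv : e * (y' : G) * e⁻¹ * (y' : G)⁻¹ ∈ V := hER' e he y' y'.2
    exact (hVC _ hv s s.2).symm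
  have part3 : Subgroup.upperCentralSeries ↥R 3 = ⊤ := by
    rw [eq_top_iff]
    intro x _
    rw [Subgroup.mem_upperCentralSeries_succ_iff]
    intro y1
    rw [Subgroup.mem_upperCentralSeries_succ_iff]
    intro y2
    rw [Subgroup.upperCentralSeries_one, Subgroup.mem_center_iff]
    intro s
    apply Subtype.ext
    have h1 : (x : G) * (y1 : G) * (x : G)⁻¹ * (y1 : G)⁻¹ ∈ E := (part5 x x.2 y1 y1.2).1
    have hv := hER' _ h1 y2 y2.2
    exact (hVC _ hv s s.2).symm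
  exact ⟨part1, part2, part3, part4, part5, part6, part7⟩

end Cfsg.Agent.Helper9
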