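import Mathlib
import Cfsg.Prelude.Def_MonsterType
import Cfsg.Agent.Helper9.LargeES9k

set_option autoImplicit false

namespace Cfsg.Agent.Helper9

open scoped commutatorElement

/-- Common setup for the width-two analysis of a large extraspecial subgroup. -/
theorem les_setup9 {G : Type*} [Group G] [Finite G] (Q : Subgroup G)
    (hQ : Cfsg.IsLargeExtraspecial Q) (z : G)
    (hz : ((Subgroup.center ↥Q).map Q.subtype) = Subgroup.zpowers z) (hz2 : orderOf z = 2)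
    (w : ℕ) (hw : 2 ≤ w) (hcard : Nat.card ↥Q = 2 ^ (2 * w + 1)) (g : G)
    (hgH : g ∉ Subgroup.centralizer ({z} : Set G)) (hgQ : g * z * g⁻¹ ∈ Q)
    (Q₁ : Subgroup G) (hQ₁ : Q₁ = Q.map (MulAut.conj g).toMonoidHom) (u : G)
    (hu : u = g * z * g⁻¹) :
    z ≠ 1 ∧ z * z = 1 ∧ z ∈ Q ∧ (∀ q ∈ Q, z * q = q * z) ∧
    (∀ a ∈ Q, ∀ b ∈ Q, a * b * a⁻¹ * b⁻¹ = 1 ∨ a * b * a⁻¹ * b⁻¹ = z) ∧
    (∀ a : G, (∀ b ∈ Q, a * b = b * a) → a = 1 ∨ a = z) ∧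
    (∀ h : G, h * z = z * h → ∀ q ∈ Q, h * q * h⁻¹ ∈ Q) ∧
    u ≠ 1 ∧ u * u = 1 ∧ u ∈ Q₁ ∧ (∀ q ∈ Q₁, u * q = q * u) ∧
    (∀ a ∈ Q₁, ∀ b ∈ Q₁, a * b * a⁻¹ * b⁻¹ = 1 ∨ a * b * a⁻¹ * b⁻¹ = u) ∧
    (∀ a : G, (∀ b ∈ Q₁, a * b = b * a) → a = 1 ∨ a = u) ∧
    (∀ h : G, h * u = u * h → ∀ q ∈ Q₁, h * q * h⁻¹ ∈ Q₁) ∧
    u ∈ Q ∧ z ∈ Q₁ ∧ u ≠ z := by
  obtain ⟨hL1, hL2, hL3, hL4⟩ := hQ
  obtain ⟨z', hz'1, hz'z', hz'Q, hZ, hz'c, P1, PC, hNQ⟩ := les_basic9 Q hL1 hL2 hL3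
  have hzne : z ≠ 1 := by
    intro h
    rw [h, orderOf_one] at hz2
    exact absurd hz2 (by norm_num)
  have hzZ : z ∈ (Subgroup.center ↥Q).map Q.subtype := by
    rw [hz]; exact Subgroup.mem_zpowers z
  have hzz' : z = z' := by
    rcases (hZ z).mp hzZ with h | h
    · exact absurd h hzne
    · exact h
  subst hzz'
  have hcz : g * z * g⁻¹ ≠ z := by
    intro h
    apply hgH
    rw [Subgroup.mem_centralizer_iff]
    intro t ht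
    rw [Set.mem_singleton_iff.mp ht]
    calc z * g = g * z * g⁻¹ * g := by rw [h]
      _ = g * z := by group
  have hg : g ∉ Subgroup.normalizer (((Subgroup.center ↥Q).map Q.subtype) : Set G) := by
    intro h
    have h1 := (Subgroup.mem_normalizer_iff.mp h z).mp hzZ
    rcases (hZ _).mp h1 with e | e
    · apply hzne
      calc z = g⁻¹ * (g * z * g⁻¹) * g := by group
        _ = 1 := by rw [e]; group
    · exact hcz e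
  have hZg : (((Subgroup.center ↥Q).map Q.subtype)).map (MulAut.conj g).toMonoidHom ≤ Q := by
    rintro _ ⟨t, ht, rfl⟩
    rcases (hZ t).mp ht with e | e
    · rw [e, map_one]; exact Q.one_mem
    · rw [e]; exact hgQ
  obtain ⟨hA', -, -⟩ := les_w2_9 Q hL1 hL2 hL3 w hw hcard g hg hZg
  have hzQ₁ : z ∈ Q₁ := by rw [hQ₁]; exact hA' hzZ
  obtain ⟨hmem, huQ₁, huc, P1', PC', hNQ₁⟩ := les_tr9 Q Q₁ z u g hQ₁ hu hz'Q hz'c P1 PC hNQ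
  have hu1 : u ≠ 1 := by
    intro h
    apply hzne
    calc z = g⁻¹ * u * g := by rw [hu]; group
      _ = 1 := by rw [h]; group
  have huu : u * u = 1 := by
    rw [hu]
    calc g * z * g⁻¹ * (g * z * g⁻¹) = g * (z * z) * g⁻¹ := by group
      _ = 1 := by rw [hz'z']; group
  exact ⟨hzne, hz'z', hz'Q, hz'c, P1, PC, hNQ, hu1, huu, huQ₁, huc, P1', PC', hNQ₁,
    hu ▸ hgQ, hzQ₁, hu ▸ hcz⟩

theorem les_S5431_9 {G : Type*} [Group G] [Finite G] (Q : Subgroup G)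
    (hQ : Cfsg.IsLargeExtraspecial Q) (z : G)
    (hz : ((Subgroup.center ↥Q).map Q.subtype) = Subgroup.zpowers z) (hz2 : orderOf z = 2)
    (w : ℕ) (hw : 2 ≤ w) (hcard : Nat.card ↥Q = 2 ^ (2 * w + 1)) (g : G)
    (hgH : g ∉ Subgroup.centralizer ({z} : Set G)) (hgQ : g * z * g⁻¹ ∈ Q)
    (V X R E : Subgroup G) (hV : V = Subgroup.closure ({z, g * z * g⁻¹} : Set G))
    (hX : X = Q ⊔ (Q).map (MulAut.conj g).toMonoidHom)
    (hR : R = ((Q).map (MulAut.conj g).toMonoidHom ⊓ Subgroup.centralizer ({z} : Set G)) ⊔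
      (Q ⊓ Subgroup.centralizer ({g * z * g⁻¹} : Set G)))
    (hE : E = Q ⊓ (Q).map (MulAut.conj g).toMonoidHom) :
    (Subgroup.center ↥R).map R.subtype = V ∧
    E ≤ (Subgroup.upperCentralSeries ↥R 2).map R.subtype ∧
    Subgroup.upperCentralSeries ↥R 3 = ⊤ ∧ Cfsg.IsElementaryAbelian 2 E ∧
    (∀ x ∈ R, ∀ y ∈ R, x * y * x⁻¹ * y⁻¹ ∈ E ∧ x ^ 2 ∈ E) ∧
    ((Q).map (MulAut.conj g).toMonoidHom ⊓ Subgroup.centralizer ({z} : Set G)) ⊓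
      (Q ⊓ Subgroup.centralizer ({g * z * g⁻¹} : Set G)) = E ∧ ⁅X, E⁆ ≤ V := by
  obtain ⟨hz1, hzz, hzQ, hzc, P1, PC, hNQ, hu1, huu, huQ₁, huc, P1', PC', hNQ₁, huQ, hzQ₁,
    huz⟩ := les_setup9 Q hQ z hz hz2 w hw hcard g hgH hgQ _ rfl _ rfl
  exact les_R9 Q _ z _ hz1 hzz hzQ hzc P1 PC hNQ hu1 huu huQ₁ huc P1' PC' hNQ₁ huQ hzQ₁ huz
    V X R E hV hX hR hE

end Cfsg.Agent.Helper9
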