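import Mathlib
import Cfsg.Prelude.Def_MonsterType
import Cfsg.Agent.Helper9.LargeES9l

set_option autoImplicit false

namespace Cfsg.Agent.Helper9

open scoped commutatorElement

theorem s3gen9 : ∀ τ : Equiv.Perm (Fin 3), τ = 1 ∨ τ = Equiv.swap 1 2 ∨ τ = Equiv.swap 0 2 ∨
    τ = Equiv.swap 1 2 * Equiv.swap 0 2 ∨ τ = Equiv.swap 0 2 * Equiv.swap 1 2 ∨
    τ = Equiv.swap 1 2 * Equiv.swap 0 2 * Equiv.swap 1 2 := by decide

set_option maxRecDepth 200000 in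
theorem s3two9 : ∀ σ : Equiv.Perm (Fin 3), σ ≠ 1 → σ ^ 2 ≠ 1 ∨
    ∃ τ : Equiv.Perm (Fin 3), (σ * (τ * σ * τ⁻¹)) ^ 2 ≠ 1 := by decide

theorem s3pow9 : ∀ σ : Equiv.Perm (Fin 3), σ ^ 2 = 1 ∨ σ ^ 3 = 1 := by decide

/-- Induction over a join by left multiplication with elements of the two subgroups. -/
theorem sup_left9 {G : Type*} [Group G] (A B : Subgroup G) (T : G → Prop) (h1 : T 1)
    (hA : ∀ a ∈ A, ∀ t, T t → T (a * t)) (hB : ∀ b ∈ B, ∀ t, T t → T (b * t)) :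
    ∀ x ∈ A ⊔ B, T x := by
  intro x hx
  have hx' : x ∈ Subgroup.closure ((A : Set G) ∪ B) := by
    rw [Subgroup.closure_union, Subgroup.closure_eq, Subgroup.closure_eq]; exact hx
  clear hx
  induction hx' using Subgroup.closure_induction_left with
  | one => exact h1
  | mul_left a ha t _ ht =>
    rcases ha with ha | ha
    · exact hA a ha t ht
    · exact hB a ha t ht
  | inv_mul_cancel a ha t _ ht =>
    rcases ha with ha | ha
    · exact hA a⁻¹ (A.inv_mem ha) t ht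
    · exact hB a⁻¹ (B.inv_mem ha) t ht

theorem conj_sup9 {G : Type*} [Group G] (A B R : Subgroup G) (q : G)
    (hA : ∀ a ∈ A, q * a * q⁻¹ ∈ R) (hB : ∀ b ∈ B, q * b * q⁻¹ ∈ R) :
    ∀ r ∈ A ⊔ B, q * r * q⁻¹ ∈ R := by
  apply sup_ind9 A B (fun r => q * r * q⁻¹ ∈ R)
  · have e : q * 1 * q⁻¹ = 1 := by group
    rw [e]; exact R.one_mem
  · intro a b ha hb
    have e : q * (a * b) * q⁻¹ = (q * a * q⁻¹) * (q * b * q⁻¹) := by group
    rw [e]; exact R.mul_mem ha hb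
  · intro a ha
    have e : q * a⁻¹ * q⁻¹ = (q * a * q⁻¹)⁻¹ := by group
    rw [e]; exact R.inv_mem ha
  · exact hA
  · exact hB

/-- Index-two decomposition of an extraspecial group along a noncentral element. -/
theorem decQ9 {G : Type*} [Group G] (Q : Subgroup G) (z u y : G)
    (P1 : ∀ a ∈ Q, ∀ b ∈ Q, a * b * a⁻¹ * b⁻¹ = 1 ∨ a * b * a⁻¹ * b⁻¹ = z)
    (huQ : u ∈ Q) (hyu : y * u * y⁻¹ * u⁻¹ = z) :
    ∀ q ∈ Q, q * u = u * q ∨ (y⁻¹ * q) * u = u * (y⁻¹ * q) := by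
  intro q hq
  rcases P1 q hq u huQ with h | h
  · left
    calc q * u = (q * u * q⁻¹ * u⁻¹) * (u * q) := by group
      _ = u * q := by rw [h, one_mul]
  · right
    have hqu : q * u * q⁻¹ = z * u := by
      calc q * u * q⁻¹ = (q * u * q⁻¹ * u⁻¹) * u := by group
        _ = z * u := by rw [h]
    have hyu' : y * u * y⁻¹ = z * u := by
      calc y * u * y⁻¹ = (y * u * y⁻¹ * u⁻¹) * u := by group
        _ = z * u := by rw [hyu]
    have e2 : y⁻¹ * (z * u) * y = u := by rw [← hyu']; group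
    have e1 : y⁻¹ * q * u * (y⁻¹ * q)⁻¹ = u := by
      calc y⁻¹ * q * u * (y⁻¹ * q)⁻¹ = y⁻¹ * (q * u * q⁻¹) * y := by group
        _ = y⁻¹ * (z * u) * y := by rw [hqu]
        _ = u := e2
    calc y⁻¹ * q * u = y⁻¹ * q * u * (y⁻¹ * q)⁻¹ * (y⁻¹ * q) := by group
      _ = u * (y⁻¹ * q) := by rw [e1]

/-- The conjugate `q⁻¹ u q` commutes with anything commuting with `z` and `u`. -/
theorem tcomm9 {G : Type*} [Group G] (Q : Subgroup G) (z u : G)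
    (P1 : ∀ a ∈ Q, ∀ b ∈ Q, a * b * a⁻¹ * b⁻¹ = 1 ∨ a * b * a⁻¹ * b⁻¹ = z)
    (huQ : u ∈ Q) (q : G) (hq : q ∈ Q) (a : G) (haz : a * z = z * a) (hau : a * u = u * a) :
    a * (q⁻¹ * u * q) = (q⁻¹ * u * q) * a := by
  have e0 : q⁻¹ * u * q = (q⁻¹ * u * q⁻¹⁻¹ * u⁻¹) * u := by group
  rcases P1 q⁻¹ (Q.inv_mem hq) u huQ with h | h
  · rw [e0, h, one_mul]; exact hau
  · rw [e0, h]
    calc a * (z * u) = (a * z) * u := by group
      _ = (z * a) * u := by rw [haz]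
      _ = z * (a * u) := by group
      _ = z * (u * a) := by rw [hau]
      _ = z * u * a := by group

/-- The centralizer of `u` in `Q` is normal in `Q`. -/
theorem normD9 {G : Type*} [Group G] (Q : Subgroup G) (z u : G)
    (hzc : ∀ q ∈ Q, z * q = q * z)
    (P1 : ∀ a ∈ Q, ∀ b ∈ Q, a * b * a⁻¹ * b⁻¹ = 1 ∨ a * b * a⁻¹ * b⁻¹ = z)
    (huQ : u ∈ Q) :
    ∀ q ∈ Q, ∀ d ∈ Q, d * u = u * d → (q * d * q⁻¹) * u = u * (q * d * q⁻¹) := by
  intro q hq d hd hdu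
  have hdt := tcomm9 Q z u P1 huQ q hq d (hzc d hd).symm hdu
  calc q * d * q⁻¹ * u = q * (d * (q⁻¹ * u * q)) * q⁻¹ := by group
    _ = q * ((q⁻¹ * u * q) * d) * q⁻¹ := by rw [hdt]
    _ = u * (q * d * q⁻¹) := by group

/-- `Q` moves an element centralizing `z` and `u` (and normalizing `Q`) only by an element of
the centralizer of `u` in `Q`. -/
theorem commD9 {G : Type*} [Group G] (Q : Subgroup G) (z u : G)
    (P1 : ∀ a ∈ Q, ∀ b ∈ Q, a * b * a⁻¹ * b⁻¹ = 1 ∨ a * b * a⁻¹ * b⁻¹ = z)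
    (huQ : u ∈ Q)
    (hNQ : ∀ h : G, h * z = z * h → ∀ q ∈ Q, h * q * h⁻¹ ∈ Q)
    (q : G) (hq : q ∈ Q) (a : G) (haz : a * z = z * a) (hau : a * u = u * a) :
    q * a * q⁻¹ * a⁻¹ ∈ Q ∧ (q * a * q⁻¹ * a⁻¹) * u = u * (q * a * q⁻¹ * a⁻¹) := by
  constructor
  · have h1 := hNQ a haz q⁻¹ (Q.inv_mem hq)
    have h2 := Q.mul_mem hq h1
    have e : q * (a * q⁻¹ * a⁻¹) = q * a * q⁻¹ * a⁻¹ := by group
    rwa [e] at h2
  · have hat := tcomm9 Q z u P1 huQ q hq a haz hau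
    have hau' : a * u * a⁻¹ = u := by
      calc a * u * a⁻¹ = (u * a) * a⁻¹ := by rw [hau]
        _ = u := by group
    calc q * a * q⁻¹ * a⁻¹ * u = q * a * q⁻¹ * a⁻¹ * (a * u * a⁻¹) := by rw [hau']
      _ = q * (a * (q⁻¹ * u * q)) * q⁻¹ * a⁻¹ := by group
      _ = q * ((q⁻¹ * u * q) * a) * q⁻¹ * a⁻¹ := by rw [hat]
      _ = u * (q * a * q⁻¹ * a⁻¹) := by group

end Cfsg.Agent.Helper9
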