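import Mathlib
import Cfsg.Prelude.Def_MonsterType
import Cfsg.Agent.Helper9.LargeES9m

set_option autoImplicit false

namespace Cfsg.Agent.Helper9

open scoped commutatorElement

set_option maxHeartbeats 1600000 in
theorem les_X9 {G : Type*} [Group G] [Finite G] (Q Q₁ : Subgroup G) (z u g : G)
    (hz1 : z ≠ 1) (hzz : z * z = 1) (hzQ : z ∈ Q) (hzc : ∀ q ∈ Q, z * q = q * z)
    (P1 : ∀ a ∈ Q, ∀ b ∈ Q, a * b * a⁻¹ * b⁻¹ = 1 ∨ a * b * a⁻¹ * b⁻¹ = z)
    (PC : ∀ a : G, (∀ b ∈ Q, a * b = b * a) → a = 1 ∨ a = z)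
    (hNQ : ∀ h : G, h * z = z * h → ∀ q ∈ Q, h * q * h⁻¹ ∈ Q)
    (hu1 : u ≠ 1) (huu : u * u = 1) (huQ₁ : u ∈ Q₁) (huc : ∀ q ∈ Q₁, u * q = q * u)
    (P1' : ∀ a ∈ Q₁, ∀ b ∈ Q₁, a * b * a⁻¹ * b⁻¹ = 1 ∨ a * b * a⁻¹ * b⁻¹ = u)
    (PC' : ∀ a : G, (∀ b ∈ Q₁, a * b = b * a) → a = 1 ∨ a = u)
    (hNQ₁ : ∀ h : G, h * u = u * h → ∀ q ∈ Q₁, h * q * h⁻¹ ∈ Q₁)
    (huQ : u ∈ Q) (hzQ₁ : z ∈ Q₁) (huz : u ≠ z)
    (hmem : ∀ t, t ∈ Q₁ ↔ g⁻¹ * t * g ∈ Q) (hu : u = g * z * g⁻¹)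
    (V X R : Subgroup G) (hV : V = Subgroup.closure ({z, u} : Set G))
    (hX : X = Q ⊔ Q₁)
    (hR : R = (Q₁ ⊓ Subgroup.centralizer ({z} : Set G)) ⊔
      (Q ⊓ Subgroup.centralizer ({u} : Set G))) :
    R = X ⊓ Subgroup.centralizer (V : Set G) ∧
    R = (Cfsg.pCore 2 ↥X).map X.subtype ∧
    (∃ h : (R.subgroupOf X).Normal, Nonempty (↥X ⧸ R.subgroupOf X ≃* Equiv.Perm (Fin 3))) ∧
    Subgroup.normalizer (V : Set G) =
      X ⊔ (Subgroup.centralizer ({z} : Set G) ⊓ Subgroup.centralizer (V : Set G)) ∧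
    (∀ y ∈ Subgroup.normalizer (V : Set G), ∀ x ∈ X, y * x * y⁻¹ ∈ X) ∧
    R ≤ Subgroup.centralizer ({z} : Set G) ⊓ Subgroup.centralizer (V : Set G) ∧
    (∀ x ∈ X, ∀ c ∈ Subgroup.centralizer ({z} : Set G) ⊓ Subgroup.centralizer (V : Set G),
      x * c * x⁻¹ * c⁻¹ ∈ R) ∧
    X ⊓ (Subgroup.centralizer ({z} : Set G) ⊓ Subgroup.centralizer (V : Set G)) = R := by
  classical
  haveI : Fact (Nat.Prime 2) := ⟨Nat.prime_two⟩
  obtain ⟨p1, -, -, p4, p5, -, -⟩ := les_R9 Q Q₁ z u hz1 hzz hzQ hzc P1 PC hNQ hu1 huu huQ₁ huc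
    P1' PC' hNQ₁ huQ hzQ₁ huz V X R (Q ⊓ Q₁) hV hX hR rfl
  have hzu : z * u = u * z := hzc u huQ
  have hui : u⁻¹ = u := inv_eq_of_mul_eq_one_right huu
  have hzi : z⁻¹ = z := inv_eq_of_mul_eq_one_right hzz
  obtain ⟨A, hA⟩ := four9 z u hzz huu hzu
  have hVA : V = A := by
    rw [hV]
    apply le_antisymm
    · rw [Subgroup.closure_le]
      intro v hv
      rcases hv with h | h
      · exact (hA v).mpr (Or.inr (Or.inr (Or.inl h)))
      · exact (hA v).mpr (Or.inr (Or.inl h))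
    · intro v hv
      have hzS : z ∈ Subgroup.closure ({z, u} : Set G) := Subgroup.subset_closure (Or.inl rfl)
      have huS : u ∈ Subgroup.closure ({z, u} : Set G) := Subgroup.subset_closure (Or.inr rfl)
      rcases (hA v).mp hv with e | e | e | e
      · rw [e]; exact Subgroup.one_mem _
      · rw [e]; exact huS
      · rw [e]; exact hzS
      · rw [e]; exact Subgroup.mul_mem _ huS hzS
  have hmV : ∀ v, v ∈ V ↔ (v = 1 ∨ v = u ∨ v = z ∨ v = u * z) := by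
    intro v; rw [hVA]; exact hA v
  have hzV : z ∈ V := (hmV z).mpr (Or.inr (Or.inr (Or.inl rfl)))
  have huV : u ∈ V := (hmV u).mpr (Or.inr (Or.inl rfl))
  obtain ⟨D, hD⟩ : ∃ D : Subgroup G, D = Q ⊓ Subgroup.centralizer ({u} : Set G) := ⟨_, rfl⟩
  obtain ⟨D₁, hD₁⟩ : ∃ D₁ : Subgroup G, D₁ = Q₁ ⊓ Subgroup.centralizer ({z} : Set G) :=
    ⟨_, rfl⟩
  rw [← hD, ← hD₁] at hR
  have hmD : ∀ x, x ∈ D ↔ x ∈ Q ∧ x * u = u * x := by
    intro x
    rw [hD, Subgroup.mem_inf, Subgroup.mem_centralizer_iff]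
    constructor
    · rintro ⟨h1, h2⟩; exact ⟨h1, (h2 u rfl).symm⟩
    · rintro ⟨h1, h2⟩
      exact ⟨h1, fun v hv => by rw [Set.mem_singleton_iff.mp hv]; exact h2.symm⟩
  have hmD₁ : ∀ x, x ∈ D₁ ↔ x ∈ Q₁ ∧ x * z = z * x := by
    intro x
    rw [hD₁, Subgroup.mem_inf, Subgroup.mem_centralizer_iff]
    constructor
    · rintro ⟨h1, h2⟩; exact ⟨h1, (h2 z rfl).symm⟩
    · rintro ⟨h1, h2⟩
      exact ⟨h1, fun v hv => by rw [Set.mem_singleton_iff.mp hv]; exact h2.symm⟩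
  have hDR : D ≤ R := by rw [hR]; exact le_sup_right
  have hD₁R : D₁ ≤ R := by rw [hR]; exact le_sup_left
  have hDQ : D ≤ Q := fun x hx => ((hmD x).mp hx).1
  have hD₁Q₁ : D₁ ≤ Q₁ := fun x hx => ((hmD₁ x).mp hx).1
  have hQX : Q ≤ X := by rw [hX]; exact le_sup_left
  have hQ₁X : Q₁ ≤ X := by rw [hX]; exact le_sup_right
  have hRX : R ≤ X := by rw [hR]; exact sup_le (hD₁Q₁.trans hQ₁X) (hDQ.trans hQX)
  have hVC : ∀ v ∈ V, ∀ r ∈ R, v * r = r * v := by
    intro v hv r hr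
    rw [← p1] at hv
    obtain ⟨c, hc, rfl⟩ := hv
    have := Subgroup.mem_center_iff.mp hc ⟨r, hr⟩
    exact (congrArg Subtype.val this).symm
  have hzR : ∀ r ∈ R, z * r = r * z := hVC z hzV
  have huR : ∀ r ∈ R, u * r = r * u := hVC u huV
  have hRp : IsPGroup 2 ↥R := by
    intro r
    refine ⟨2, Subtype.ext ?_⟩
    have h := p4.2 _ (p5 (r : G) r.2 (r : G) r.2).2
    rw [← pow_mul] at h
    exact h
  have hQV := normV9 Q V z u hzc P1 huQ hV
  have hV' : V = Subgroup.closure ({u, z} : Set G) := by rw [hV, Set.pair_comm]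
  have hQ₁V := normV9 Q₁ V u z huc P1' hzQ₁ hV'
  have hQN : Q ≤ Subgroup.normalizer (V : Set G) := fun q hq =>
    Subgroup.mem_normalizer_fintype (fun v hv => hQV q hq v hv)
  have hQ₁N : Q₁ ≤ Subgroup.normalizer (V : Set G) := fun q hq =>
    Subgroup.mem_normalizer_fintype (fun v hv => hQ₁V q hq v hv)
  have hXN : X ≤ Subgroup.normalizer (V : Set G) := by rw [hX]; exact sup_le hQN hQ₁N
  obtain ⟨y, hyQ, hyu⟩ : ∃ y ∈ Q, y * u * y⁻¹ * u⁻¹ = z := by
    by_contra hno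
    push Not at hno
    have : u = 1 ∨ u = z := by
      apply PC
      intro b hb
      rcases P1 b hb u huQ with h | h
      · calc u * b = (b * u * b⁻¹ * u⁻¹)⁻¹ * (b * u) := by group
          _ = b * u := by rw [h]; simp
      · exact absurd h (hno b hb)
    rcases this with h | h
    · exact hu1 h
    · exact huz h
  obtain ⟨x, hxQ₁, hxz⟩ : ∃ x ∈ Q₁, x * z * x⁻¹ * z⁻¹ = u := by
    by_contra hno
    push Not at hno
    have : z = 1 ∨ z = u := by
      apply PC'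
      intro b hb
      rcases P1' b hb z hzQ₁ with h | h
      · calc z * b = (b * z * b⁻¹ * z⁻¹)⁻¹ * (b * z) := by group
          _ = b * z := by rw [h]; simp
      · exact absurd h (hno b hb)
    rcases this with h | h
    · exact hz1 h
    · exact huz h.symm
  have hyu' : y * u * y⁻¹ = u * z := by
    calc y * u * y⁻¹ = y * u * y⁻¹ * u⁻¹ * u := by group
      _ = z * u := by rw [hyu]
      _ = u * z := hzu
  have hyz : y * z * y⁻¹ = z := by
    calc y * z * y⁻¹ = z * y * y⁻¹ := by rw [hzc y hyQ]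
      _ = z := by group
  have hyuz : y * (u * z) * y⁻¹ = u := by
    calc y * (u * z) * y⁻¹ = (y * u * y⁻¹) * (y * z * y⁻¹) := by group
      _ = u * z * z := by rw [hyu', hyz]
      _ = u := by rw [mul_assoc, hzz, mul_one]
  have hxu : x * u * x⁻¹ = u := by
    calc x * u * x⁻¹ = u * x * x⁻¹ := by rw [huc x hxQ₁]
      _ = u := by group
  have hxz' : x * z * x⁻¹ = u * z := by
    calc x * z * x⁻¹ = (x * z * x⁻¹ * z⁻¹) * z := by group
      _ = u * z := by rw [hxz]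
  have hxuz : x * (u * z) * x⁻¹ = z := by
    calc x * (u * z) * x⁻¹ = (x * u * x⁻¹) * (x * z * x⁻¹) := by group
      _ = u * (u * z) := by rw [hxu, hxz']
      _ = z := by rw [← mul_assoc, huu, one_mul]
  have hyX : y ∈ X := hQX hyQ
  have hxX : x ∈ X := hQ₁X hxQ₁
  have hQdec : ∀ q ∈ Q, q ∈ D ∨ y⁻¹ * q ∈ D := by
    intro q hq
    rcases decQ9 Q z u y P1 huQ hyu q hq with h | h
    · left; exact (hmD q).mpr ⟨hq, h⟩
    · right; exact (hmD _).mpr ⟨Q.mul_mem (Q.inv_mem hyQ) hq, h⟩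
  have hQ₁dec : ∀ q ∈ Q₁, q ∈ D₁ ∨ x⁻¹ * q ∈ D₁ := by
    intro q hq
    rcases decQ9 Q₁ u z x P1' hzQ₁ hxz q hq with h | h
    · left; exact (hmD₁ q).mpr ⟨hq, h⟩
    · right; exact (hmD₁ _).mpr ⟨Q₁.mul_mem (Q₁.inv_mem hxQ₁) hq, h⟩
  have hQR : ∀ q ∈ Q, ∀ r ∈ R, q * r * q⁻¹ ∈ R := by
    intro q hq r hr
    rw [hR] at hr
    refine conj_sup9 D₁ D R q ?_ ?_ r hr
    · intro a ha
      obtain ⟨haQ₁, haz⟩ := (hmD₁ a).mp ha
      have hau : a * u = u * a := (huc a haQ₁).symm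
      obtain ⟨c1, c2⟩ := commD9 Q z u P1 huQ hNQ q hq a haz hau
      have hcD : q * a * q⁻¹ * a⁻¹ ∈ D := (hmD _).mpr ⟨c1, c2⟩
      have h := R.mul_mem (hDR hcD) (hD₁R ha)
      have e : q * a * q⁻¹ * a⁻¹ * a = q * a * q⁻¹ := by group
      rwa [e] at h
    · intro b hb
      obtain ⟨hbQ, hbu⟩ := (hmD b).mp hb
      exact hDR ((hmD _).mpr ⟨Q.mul_mem (Q.mul_mem hq hbQ) (Q.inv_mem hq),
        normD9 Q z u hzc P1 huQ q hq b hbQ hbu⟩)
  have hQ₁R : ∀ q ∈ Q₁, ∀ r ∈ R, q * r * q⁻¹ ∈ R := by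
    intro q hq r hr
    rw [hR] at hr
    refine conj_sup9 D₁ D R q ?_ ?_ r hr
    · intro b hb
      obtain ⟨hbQ₁, hbz⟩ := (hmD₁ b).mp hb
      exact hD₁R ((hmD₁ _).mpr ⟨Q₁.mul_mem (Q₁.mul_mem hq hbQ₁) (Q₁.inv_mem hq),
        normD9 Q₁ u z huc P1' hzQ₁ q hq b hbQ₁ hbz⟩)
    · intro a ha
      obtain ⟨haQ, hau⟩ := (hmD a).mp ha
      have haz : a * z = z * a := (hzc a haQ).symm
      obtain ⟨c1, c2⟩ := commD9 Q₁ u z P1' hzQ₁ hNQ₁ q hq a hau haz
      have hcD : q * a * q⁻¹ * a⁻¹ ∈ D₁ := (hmD₁ _).mpr ⟨c1, c2⟩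
      have h := R.mul_mem (hD₁R hcD) (hDR ha)
      have e : q * a * q⁻¹ * a⁻¹ * a = q * a * q⁻¹ := by group
      rwa [e] at h
  have hXNR : X ≤ Subgroup.normalizer (R : Set G) := by
    rw [hX]
    exact sup_le (fun q hq => Subgroup.mem_normalizer_fintype (fun r hr => hQR q hq r hr))
      (fun q hq => Subgroup.mem_normalizer_fintype (fun r hr => hQ₁R q hq r hr))
  have hXR : ∀ t ∈ X, ∀ r ∈ R, t * r * t⁻¹ ∈ R := fun t ht r hr =>
    (Subgroup.mem_normalizer_iff.mp (hXNR ht) r).mp hr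
  have hzRm : z ∈ R := hD₁R ((hmD₁ z).mpr ⟨hzQ₁, rfl⟩)
  have huRm : u ∈ R := hDR ((hmD u).mpr ⟨huQ, rfl⟩)
  have hyyR : y * y ∈ R := by
    rcases sq9 Q z hzz hzc P1 PC y hyQ with h | h
    · rw [h]; exact R.one_mem
    · rw [h]; exact hzRm
  have hxxR : x * x ∈ R := by
    rcases sq9 Q₁ u huu huc P1' PC' x hxQ₁ with h | h
    · rw [h]; exact R.one_mem
    · rw [h]; exact huRm
  have hy'u : y⁻¹ * u * y = u * z := by
    calc y⁻¹ * u * y = y⁻¹ * (y * (u * z) * y⁻¹) * y := by rw [hyuz]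
      _ = u * z := by group
  have hx'z : x⁻¹ * z * x = u * z := by
    calc x⁻¹ * z * x = x⁻¹ * (x * (u * z) * x⁻¹) * x := by rw [hxuz]
      _ = u * z := by group
  have hy'uz : y⁻¹ * (u * z) * y = u := by rw [← hyu']; group
  have hx'uz : x⁻¹ * (u * z) * x = z := by rw [← hxz']; group
  have hbraid : ∃ ρ ∈ R, y * x * y = ρ * (x * y * x) := by
    obtain ⟨k, hk⟩ : ∃ k, k = x⁻¹ * y * g := ⟨_, rfl⟩
    have hkz : k * z = z * k := by
      have e : k * z * k⁻¹ = z := by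
        calc k * z * k⁻¹ = x⁻¹ * (y * (g * z * g⁻¹) * y⁻¹) * x := by rw [hk]; group
          _ = x⁻¹ * (y * u * y⁻¹) * x := by rw [← hu]
          _ = x⁻¹ * (u * z) * x := by rw [hyu']
          _ = z := hx'uz
      calc k * z = k * z * k⁻¹ * k := by group
        _ = z * k := by rw [e]
    have hq₀ : g⁻¹ * x * g ∈ Q := (hmem x).mp hxQ₁
    have hb' := hNQ k hkz _ hq₀
    have eb : k * (g⁻¹ * x * g) * k⁻¹ = x⁻¹ * (y * x * y⁻¹) * x := by rw [hk]; group
    rw [eb] at hb'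
    have hdQ : y⁻¹ * (x⁻¹ * (y * x * y⁻¹) * x) ∈ Q := Q.mul_mem (Q.inv_mem hyQ) hb'
    have hdu : y⁻¹ * (x⁻¹ * (y * x * y⁻¹) * x) * u =
        u * (y⁻¹ * (x⁻¹ * (y * x * y⁻¹) * x)) := by
      have e : y⁻¹ * (x⁻¹ * (y * x * y⁻¹) * x) * u *
          (y⁻¹ * (x⁻¹ * (y * x * y⁻¹) * x))⁻¹ = u := by
        calc y⁻¹ * (x⁻¹ * (y * x * y⁻¹) * x) * u * (y⁻¹ * (x⁻¹ * (y * x * y⁻¹) * x))⁻¹
            = y⁻¹ * x⁻¹ * y * x * y⁻¹ * (x * u * x⁻¹) * y * x⁻¹ * y⁻¹ * x * y := by group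
          _ = y⁻¹ * x⁻¹ * y * x * (y⁻¹ * u * y) * x⁻¹ * y⁻¹ * x * y := by rw [hxu]; group
          _ = y⁻¹ * x⁻¹ * y * (x * (u * z) * x⁻¹) * y⁻¹ * x * y := by rw [hy'u]; group
          _ = y⁻¹ * x⁻¹ * (y * z * y⁻¹) * x * y := by rw [hxuz]; group
          _ = y⁻¹ * (x⁻¹ * z * x) * y := by rw [hyz]; group
          _ = y⁻¹ * (u * z) * y := by rw [hx'z]
          _ = u := hy'uz
      calc y⁻¹ * (x⁻¹ * (y * x * y⁻¹) * x) * u
          = y⁻¹ * (x⁻¹ * (y * x * y⁻¹) * x) * u * (y⁻¹ * (x⁻¹ * (y * x * y⁻¹) * x))⁻¹ *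
            (y⁻¹ * (x⁻¹ * (y * x * y⁻¹) * x)) := by group
        _ = u * (y⁻¹ * (x⁻¹ * (y * x * y⁻¹) * x)) := by rw [e]
    have hdR : y⁻¹ * (x⁻¹ * (y * x * y⁻¹) * x) ∈ R := hDR ((hmD _).mpr ⟨hdQ, hdu⟩)
    have htR := hXR x hxX _ hdR
    have hr' : (x * x)⁻¹ * (x * (y⁻¹ * (x⁻¹ * (y * x * y⁻¹) * x)) * x⁻¹) * (y * y) ∈ R :=
      R.mul_mem (R.mul_mem (R.inv_mem hxxR) htR) hyyR
    have hxyxX : x * y * x ∈ X := X.mul_mem (X.mul_mem hxX hyX) hxX
    refine ⟨_, hXR _ hxyxX _ hr', ?_⟩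
    group
  obtain ⟨ρ, hρR, hbr⟩ := hbraid
  obtain ⟨W, hW⟩ : ∃ W : G → Prop, ∀ w, W w ↔
      (w = 1 ∨ w = y ∨ w = x ∨ w = x * y ∨ w = y * x ∨ w = x * y * x) :=
    ⟨_, fun w => Iff.rfl⟩
  obtain ⟨T, hT⟩ : ∃ T : G → Prop, ∀ t, T t ↔ ∃ r ∈ R, ∃ w, W w ∧ t = r * w :=
    ⟨_, fun t => Iff.rfl⟩
  have mkT : ∀ r ∈ R, ∀ w, W w → ∀ t, t = r * w → T t := fun r hr w hw t ht =>
    (hT t).mpr ⟨r, hr, w, hw, ht⟩
  have w1 : W 1 := (hW 1).mpr (Or.inl rfl)
  have wy : W y := (hW y).mpr (Or.inr (Or.inl rfl))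
  have wx : W x := (hW x).mpr (Or.inr (Or.inr (Or.inl rfl)))
  have wxy : W (x * y) := (hW _).mpr (Or.inr (Or.inr (Or.inr (Or.inl rfl))))
  have wyx : W (y * x) := (hW _).mpr (Or.inr (Or.inr (Or.inr (Or.inr (Or.inl rfl)))))
  have wxyx : W (x * y * x) := (hW _).mpr (Or.inr (Or.inr (Or.inr (Or.inr (Or.inr rfl)))))
  have hT_R : ∀ r' ∈ R, ∀ t, T t → T (r' * t) := by
    intro r' hr' t ht
    obtain ⟨r, hr, w, hw, rfl⟩ := (hT t).mp ht
    exact mkT (r' * r) (R.mul_mem hr' hr) w hw _ (by group)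
  have hT_y : ∀ t, T t → T (y * t) := by
    intro t ht
    obtain ⟨r, hr, w, hw, rfl⟩ := (hT t).mp ht
    have h1 : y * (r * w) = (y * r * y⁻¹) * (y * w) := by group
    rw [h1]
    apply hT_R _ (hXR y hyX r hr)
    rcases (hW w).mp hw with h | h | h | h | h | h
    · exact mkT 1 R.one_mem y wy _ (by rw [h]; group)
    · exact mkT (y * y) hyyR 1 w1 _ (by rw [h]; group)
    · exact mkT 1 R.one_mem (y * x) wyx _ (by rw [h]; group)
    · exact mkT ρ hρR (x * y * x) wxyx _ (by rw [h, ← hbr]; group)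
    · exact mkT (y * y) hyyR x wx _ (by rw [h]; group)
    · have hr2 : ρ * (x * y * (x * x) * (x * y)⁻¹) ∈ R :=
        R.mul_mem hρR (hXR _ (X.mul_mem hxX hyX) _ hxxR)
      refine mkT _ hr2 (x * y) wxy _ ?_
      rw [h]
      calc y * (x * y * x) = (y * x * y) * x := by group
        _ = ρ * (x * y * x) * x := by rw [hbr]
        _ = ρ * (x * y * (x * x) * (x * y)⁻¹) * (x * y) := by group
  have hT_x : ∀ t, T t → T (x * t) := by
    intro t ht
    obtain ⟨r, hr, w, hw, rfl⟩ := (hT t).mp ht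
    have h1 : x * (r * w) = (x * r * x⁻¹) * (x * w) := by group
    rw [h1]
    apply hT_R _ (hXR x hxX r hr)
    rcases (hW w).mp hw with h | h | h | h | h | h
    · exact mkT 1 R.one_mem x wx _ (by rw [h]; group)
    · exact mkT 1 R.one_mem (x * y) wxy _ (by rw [h]; group)
    · exact mkT (x * x) hxxR 1 w1 _ (by rw [h]; group)
    · exact mkT (x * x) hxxR y wy _ (by rw [h]; group)
    · exact mkT 1 R.one_mem (x * y * x) wxyx _ (by rw [h]; group)
    · exact mkT (x * x) hxxR (y * x) wyx _ (by rw [h]; group)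
  have hT_Q : ∀ q ∈ Q, ∀ t, T t → T (q * t) := by
    intro q hq t ht
    rcases hQdec q hq with h | h
    · exact hT_R q (hDR h) t ht
    · have e : q * t = y * ((y⁻¹ * q) * t) := by group
      rw [e]; exact hT_y _ (hT_R _ (hDR h) t ht)
  have hT_Q₁ : ∀ q ∈ Q₁, ∀ t, T t → T (q * t) := by
    intro q hq t ht
    rcases hQ₁dec q hq with h | h
    · exact hT_R q (hD₁R h) t ht
    · have e : q * t = x * ((x⁻¹ * q) * t) := by group
      rw [e]; exact hT_x _ (hT_R _ (hD₁R h) t ht)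
  have hXT : ∀ t ∈ X, T t := by
    rw [hX]
    exact sup_left9 Q Q₁ T (mkT 1 R.one_mem 1 w1 _ (by group)) hT_Q hT_Q₁
  have hF2 : ∀ c ∈ X, c * z = z * c → c * u = u * c → c ∈ R := by
    intro c hc hcz hcu
    obtain ⟨r, hr, w, hw, rfl⟩ := (hT c).mp (hXT c hc)
    have hrz : r⁻¹ * z * r = z := by
      calc r⁻¹ * z * r = r⁻¹ * (z * r) := by group
        _ = r⁻¹ * (r * z) := by rw [hzR r hr]
        _ = z := by group
    have hru : r⁻¹ * u * r = u := by
      calc r⁻¹ * u * r = r⁻¹ * (u * r) := by group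
        _ = r⁻¹ * (r * u) := by rw [huR r hr]
        _ = u := by group
    have hwz : w * z * w⁻¹ = z := by
      calc w * z * w⁻¹ = r⁻¹ * ((r * w) * z) * w⁻¹ := by group
        _ = r⁻¹ * (z * (r * w)) * w⁻¹ := by rw [hcz]
        _ = r⁻¹ * z * r := by group
        _ = z := hrz
    have hwu : w * u * w⁻¹ = u := by
      calc w * u * w⁻¹ = r⁻¹ * ((r * w) * u) * w⁻¹ := by group
        _ = r⁻¹ * (u * (r * w)) * w⁻¹ := by rw [hcu]
        _ = r⁻¹ * u * r := by group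
        _ = u := hru
    rcases (hW w).mp hw with h | h | h | h | h | h
    · rw [h, mul_one]; exact hr
    · exfalso
      rw [h, hyu'] at hwu
      apply hz1
      calc z = u⁻¹ * (u * z) := by group
        _ = 1 := by rw [hwu]; group
    · exfalso
      rw [h, hxz'] at hwz
      apply hu1
      calc u = (u * z) * z⁻¹ := by group
        _ = 1 := by rw [hwz]; group
    · exfalso
      rw [h] at hwz
      have e : x * y * z * (x * y)⁻¹ = u * z := by
        calc x * y * z * (x * y)⁻¹ = x * (y * z * y⁻¹) * x⁻¹ := by group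
          _ = u * z := by rw [hyz, hxz']
      rw [e] at hwz
      apply hu1
      calc u = (u * z) * z⁻¹ := by group
        _ = 1 := by rw [hwz]; group
    · exfalso
      rw [h] at hwz
      have e : y * x * z * (y * x)⁻¹ = u := by
        calc y * x * z * (y * x)⁻¹ = y * (x * z * x⁻¹) * y⁻¹ := by group
          _ = u := by rw [hxz', hyuz]
      rw [e] at hwz
      exact huz hwz
    · exfalso
      rw [h] at hwz
      have e : x * y * x * z * (x * y * x)⁻¹ = u := by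
        calc x * y * x * z * (x * y * x)⁻¹ = x * (y * (x * z * x⁻¹) * y⁻¹) * x⁻¹ := by group
          _ = u := by rw [hxz', hyuz, hxu]
      rw [e] at hwz
      exact huz hwz
  have hCV : ∀ c : G, c * z = z * c → c * u = u * c →
      c ∈ Subgroup.centralizer (V : Set G) := by
    intro c hcz hcu
    rw [Subgroup.mem_centralizer_iff]
    intro v hv
    rcases (hmV v).mp hv with e | e | e | e
    · rw [e]; simp
    · rw [e]; exact hcu.symm
    · rw [e]; exact hcz.symm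
    · rw [e]
      calc u * z * c = u * (z * c) := by group
        _ = u * (c * z) := by rw [hcz]
        _ = (u * c) * z := by group
        _ = (c * u) * z := by rw [hcu]
        _ = c * (u * z) := by group
  have hCVz : ∀ c ∈ Subgroup.centralizer (V : Set G), c * z = z * c := fun c hc =>
    (Subgroup.mem_centralizer_iff.mp hc z hzV).symm
  have hCVu : ∀ c ∈ Subgroup.centralizer (V : Set G), c * u = u * c := fun c hc =>
    (Subgroup.mem_centralizer_iff.mp hc u huV).symm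
  have part1 : R = X ⊓ Subgroup.centralizer (V : Set G) := by
    apply le_antisymm
    · intro r hr
      exact Subgroup.mem_inf.mpr ⟨hRX hr, hCV r (hzR r hr).symm (huR r hr).symm⟩
    · intro c hc
      obtain ⟨h1, h2⟩ := Subgroup.mem_inf.mp hc
      exact hF2 c h1 (hCVz c h2) (hCVu c h2)
  have part6 : R ≤ Subgroup.centralizer ({z} : Set G) ⊓ Subgroup.centralizer (V : Set G) := by
    intro r hr
    refine Subgroup.mem_inf.mpr ⟨?_, hCV r (hzR r hr).symm (huR r hr).symm⟩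
    rw [Subgroup.mem_centralizer_iff]
    intro t ht
    rw [Set.mem_singleton_iff.mp ht]
    exact hzR r hr
  have part8 : X ⊓ (Subgroup.centralizer ({z} : Set G) ⊓ Subgroup.centralizer (V : Set G)) =
      R := by
    apply le_antisymm
    · intro c hc
      obtain ⟨h1, h2⟩ := Subgroup.mem_inf.mp hc
      have h3 := (Subgroup.mem_inf.mp h2).2
      exact hF2 c h1 (hCVz c h3) (hCVu c h3)
    · intro r hr
      exact Subgroup.mem_inf.mpr ⟨hRX hr, part6 hr⟩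
  have hNV : ∀ n ∈ Subgroup.normalizer (V : Set G), ∀ v ∈ V, n * v * n⁻¹ ∈ V :=
    fun n hn v hv => (Subgroup.mem_normalizer_iff.mp hn v).mp hv
  have hV3 : ∀ v ∈ V, v ≠ 1 → v = z ∨ v = u ∨ v = u * z := by
    intro v hv hv1
    rcases (hmV v).mp hv with e | e | e | e
    · exact absurd e hv1
    · right; left; exact e
    · left; exact e
    · right; right; exact e
  have hconj1 : ∀ (n v : G), v ≠ 1 → n * v * n⁻¹ ≠ 1 := by
    intro n v hv h
    apply hv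
    calc v = n⁻¹ * (n * v * n⁻¹) * n := by group
      _ = 1 := by rw [h]; group
  have GC : ∀ k : G, (k * z * k⁻¹ = z ∨ k * z * k⁻¹ = u ∨ k * z * k⁻¹ = u * z) →
      ∀ q ∈ Q, k * q * k⁻¹ ∈ X := by
    intro k hk q hq
    rcases hk with h | h | h
    · have hkz : k * z = z * k := by
        calc k * z = k * z * k⁻¹ * k := by group
          _ = z * k := by rw [h]
      exact hQX (hNQ k hkz q hq)
    · have hkz : (g⁻¹ * k) * z = z * (g⁻¹ * k) := by
        have e : g⁻¹ * k * z * (g⁻¹ * k)⁻¹ = z := by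
          calc g⁻¹ * k * z * (g⁻¹ * k)⁻¹ = g⁻¹ * (k * z * k⁻¹) * g := by group
            _ = g⁻¹ * (g * z * g⁻¹) * g := by rw [h, hu]
            _ = z := by group
        calc g⁻¹ * k * z = g⁻¹ * k * z * (g⁻¹ * k)⁻¹ * (g⁻¹ * k) := by group
          _ = z * (g⁻¹ * k) := by rw [e]
      have h1 := hNQ _ hkz q hq
      apply hQ₁X
      rw [hmem]
      have e : g⁻¹ * (k * q * k⁻¹) * g = g⁻¹ * k * q * (g⁻¹ * k)⁻¹ := by group
      rw [e]; exact h1
    · have hkz : (x⁻¹ * k) * z = z * (x⁻¹ * k) := by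
        have e : x⁻¹ * k * z * (x⁻¹ * k)⁻¹ = z := by
          calc x⁻¹ * k * z * (x⁻¹ * k)⁻¹ = x⁻¹ * (k * z * k⁻¹) * x := by group
            _ = x⁻¹ * (u * z) * x := by rw [h]
            _ = z := hx'uz
        calc x⁻¹ * k * z = x⁻¹ * k * z * (x⁻¹ * k)⁻¹ * (x⁻¹ * k) := by group
          _ = z * (x⁻¹ * k) := by rw [e]
      have h1 := hQX (hNQ _ hkz q hq)
      have h2 := X.mul_mem (X.mul_mem hxX h1) (X.inv_mem hxX)
      have e : x * (x⁻¹ * k * q * (x⁻¹ * k)⁻¹) * x⁻¹ = k * q * k⁻¹ := by group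
      rwa [e] at h2
  have part5 : ∀ n ∈ Subgroup.normalizer (V : Set G), ∀ t ∈ X, n * t * n⁻¹ ∈ X := by
    intro n hn t ht
    rw [hX] at ht
    refine conj_sup9 Q Q₁ X n ?_ ?_ t ht
    · intro q hq
      exact GC n (hV3 _ (hNV n hn z hzV) (hconj1 n z hz1)) q hq
    · intro q hq
      have hq' : g⁻¹ * q * g ∈ Q := (hmem q).mp hq
      have hk : (n * g) * z * (n * g)⁻¹ = n * u * n⁻¹ := by rw [hu]; group
      have h1 := GC (n * g) (by rw [hk]; exact hV3 _ (hNV n hn u huV) (hconj1 n u hu1)) _ hq'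
      have e : n * g * (g⁻¹ * q * g) * (n * g)⁻¹ = n * q * n⁻¹ := by group
      rwa [e] at h1
  have hCN : ∀ c ∈ Subgroup.centralizer (V : Set G), c ∈ Subgroup.normalizer (V : Set G) := by
    intro c hc
    apply Subgroup.mem_normalizer_fintype
    intro v hv
    have hcv : v * c = c * v := Subgroup.mem_centralizer_iff.mp hc v hv
    have e : c * v * c⁻¹ = v := by
      calc c * v * c⁻¹ = v * c * c⁻¹ := by rw [hcv]
        _ = v := by group
    rw [e]; exact hv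
  have part7 : ∀ t ∈ X, ∀ c ∈ Subgroup.centralizer ({z} : Set G) ⊓
      Subgroup.centralizer (V : Set G), t * c * t⁻¹ * c⁻¹ ∈ R := by
    intro t ht c hc
    have hcV := (Subgroup.mem_inf.mp hc).2
    have hcN := hCN c hcV
    have hX1 : t * c * t⁻¹ * c⁻¹ ∈ X := by
      have h1 := part5 c hcN t⁻¹ (X.inv_mem ht)
      have h2 := X.mul_mem ht h1
      have e : t * (c * t⁻¹ * c⁻¹) = t * c * t⁻¹ * c⁻¹ := by group
      rwa [e] at h2
    have key : ∀ v ∈ V, (t * c * t⁻¹ * c⁻¹) * v = v * (t * c * t⁻¹ * c⁻¹) := by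
      intro v hv
      have hc1 : v * c = c * v := Subgroup.mem_centralizer_iff.mp hcV v hv
      have hv' : t⁻¹ * v * t ∈ V := by
        have := hNV t⁻¹ (hXN (X.inv_mem ht)) v hv
        rwa [inv_inv] at this
      have hc2 : (t⁻¹ * v * t) * c = c * (t⁻¹ * v * t) :=
        Subgroup.mem_centralizer_iff.mp hcV _ hv'
      have hc1' : c⁻¹ * v = v * c⁻¹ := by
        calc c⁻¹ * v = c⁻¹ * (v * c) * c⁻¹ := by group
          _ = c⁻¹ * (c * v) * c⁻¹ := by rw [hc1]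
          _ = v * c⁻¹ := by group
      calc t * c * t⁻¹ * c⁻¹ * v = t * c * t⁻¹ * (c⁻¹ * v) := by group
        _ = t * c * t⁻¹ * (v * c⁻¹) := by rw [hc1']
        _ = t * (c * (t⁻¹ * v * t)) * t⁻¹ * c⁻¹ := by group
        _ = t * ((t⁻¹ * v * t) * c) * t⁻¹ * c⁻¹ := by rw [hc2]
        _ = v * (t * c * t⁻¹ * c⁻¹) := by group
    exact hF2 _ hX1 (key z hzV) (key u huV)
  -- the homomorphism to the symmetric group
  obtain ⟨N, hN⟩ : ∃ N : Subgroup G, N = Subgroup.normalizer (V : Set G) := ⟨_, rfl⟩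
  have hXN' : X ≤ N := by rw [hN]; exact hXN
  have hNV' : ∀ n ∈ N, ∀ v ∈ V, n * v * n⁻¹ ∈ V := by rw [hN]; exact hNV
  obtain ⟨e, he0, he1, he2⟩ : ∃ e : Fin 3 → G, e 0 = z ∧ e 1 = u ∧ e 2 = u * z :=
    ⟨![z, u, u * z], rfl, rfl, rfl⟩
  have hecases : ∀ i : Fin 3, i = 0 ∨ i = 1 ∨ i = 2 := by decide
  have huz1 : u * z ≠ z := fun h' => hu1 (by simpa using h')
  have huz2 : u * z ≠ u := fun h' => hz1 (by simpa using h')
  have huz3 : u * z ≠ 1 := by
    intro h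
    apply huz
    calc u = u * (z * z) := by rw [hzz, mul_one]
      _ = u * z * z := by group
      _ = z := by rw [h, one_mul]
  have hinj : ∀ i j : Fin 3, e i = e j → i = j := by
    intro i j h
    rcases hecases i with rfl | rfl | rfl <;> rcases hecases j with rfl | rfl | rfl <;>
      first
        | rfl
        | (exfalso; rw [he0, he1] at h; exact huz h.symm)
        | (exfalso; rw [he0, he2] at h; exact huz1 h.symm)
        | (exfalso; rw [he1, he0] at h; exact huz h)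
        | (exfalso; rw [he1, he2] at h; exact huz2 h.symm)
        | (exfalso; rw [he2, he0] at h; exact huz1 h)
        | (exfalso; rw [he2, he1] at h; exact huz2 h)
  have heV : ∀ i, e i ∈ V ∧ e i ≠ 1 := by
    intro i
    rcases hecases i with rfl | rfl | rfl
    · rw [he0]; exact ⟨hzV, hz1⟩
    · rw [he1]; exact ⟨huV, hu1⟩
    · rw [he2]; exact ⟨V.mul_mem huV hzV, huz3⟩
  have hex : ∀ (n : ↥N) (i : Fin 3), ∃ j : Fin 3, (n : G) * e i * (n : G)⁻¹ = e j := by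
    intro n i
    have h1 := hNV' n n.2 _ (heV i).1
    have h2 := hconj1 n _ (heV i).2
    rcases hV3 _ h1 h2 with h | h | h
    · exact ⟨0, by rw [h, he0]⟩
    · exact ⟨1, by rw [h, he1]⟩
    · exact ⟨2, by rw [h, he2]⟩
  choose σ hσ using hex
  obtain ⟨act, hact⟩ : ∃ act : MulAction ↥N (Fin 3), ∀ n i, act.smul n i = σ n i :=
    ⟨{ smul := σ,
       one_smul := by
         intro i
         apply hinj
         show e (σ 1 i) = e i
         rw [← hσ]
         show ((1 : ↥N) : G) * e i * ((1 : ↥N) : G)⁻¹ = e i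
         simp,
       mul_smul := by
         intro a b i
         apply hinj
         show e (σ (a * b) i) = e (σ a (σ b i))
         rw [← hσ, ← hσ, ← hσ]
         show ((a * b : ↥N) : G) * e i * ((a * b : ↥N) : G)⁻¹ =
           (a : G) * ((b : G) * e i * (b : G)⁻¹) * (a : G)⁻¹
         rw [Subgroup.coe_mul]; group }, fun _ _ => rfl⟩
  obtain ⟨ψ₀, hψ₀⟩ : ∃ ψ₀ : ↥N →* Equiv.Perm (Fin 3), ∀ n i, ψ₀ n i = σ n i :=
    ⟨@MulAction.toPermHom ↥N (Fin 3) _ act, fun n i => hact n i⟩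
  have hψval : ∀ (n : ↥N) (i j : Fin 3), (n : G) * e i * (n : G)⁻¹ = e j → ψ₀ n i = j := by
    intro n i j h
    rw [hψ₀]
    exact hinj _ _ ((hσ n i).symm.trans h)
  have hψker : ∀ n : ↥N, ψ₀ n = 1 →
      (n : G) * z = z * (n : G) ∧ (n : G) * u = u * (n : G) := by
    intro n hn
    have h0 : σ n 0 = 0 := by rw [← hψ₀, hn]; rfl
    have h1 : σ n 1 = 1 := by rw [← hψ₀, hn]; rfl
    have e0 := hσ n 0
    rw [h0, he0] at e0
    have e1 := hσ n 1
    rw [h1, he1] at e1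
    constructor
    · calc (n : G) * z = (n : G) * z * (n : G)⁻¹ * n := by group
        _ = z * n := by rw [e0]
    · calc (n : G) * u = (n : G) * u * (n : G)⁻¹ * n := by group
        _ = u * n := by rw [e1]
  have hψone : ∀ n : ↥N, (n : G) * z = z * (n : G) → (n : G) * u = u * (n : G) →
      ψ₀ n = 1 := by
    intro n hz' hu'
    refine Equiv.ext (fun i => ?_)
    rw [Equiv.Perm.one_apply]
    apply hψval
    have hc := hCV (n : G) hz' hu'
    have h := Subgroup.mem_centralizer_iff.mp hc (e i) (heV i).1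
    calc (n : G) * e i * (n : G)⁻¹ = (e i * n) * (n : G)⁻¹ := by rw [h]
      _ = e i := by group
  obtain ⟨ψ, hψ⟩ : ∃ ψ : ↥X →* Equiv.Perm (Fin 3),
      ∀ t : ↥X, ψ t = ψ₀ ⟨(t : G), hXN' t.2⟩ :=
    ⟨ψ₀.comp (Subgroup.inclusion hXN'), fun t => rfl⟩
  have hψy : ψ ⟨y, hyX⟩ = Equiv.swap 1 2 := by
    refine Equiv.ext (fun i => ?_)
    rw [hψ]
    rcases hecases i with rfl | rfl | rfl
    · rw [show (Equiv.swap (1 : Fin 3) 2) 0 = 0 from by decide]
      exact hψval _ 0 0 (by rw [he0]; exact hyz)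
    · rw [show (Equiv.swap (1 : Fin 3) 2) 1 = 2 from by decide]
      exact hψval _ 1 2 (by rw [he1, he2]; exact hyu')
    · rw [show (Equiv.swap (1 : Fin 3) 2) 2 = 1 from by decide]
      exact hψval _ 2 1 (by rw [he2, he1]; exact hyuz)
  have hψx : ψ ⟨x, hxX⟩ = Equiv.swap 0 2 := by
    refine Equiv.ext (fun i => ?_)
    rw [hψ]
    rcases hecases i with rfl | rfl | rfl
    · rw [show (Equiv.swap (0 : Fin 3) 2) 0 = 2 from by decide]
      exact hψval _ 0 2 (by rw [he0, he2]; exact hxz')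
    · rw [show (Equiv.swap (0 : Fin 3) 2) 1 = 1 from by decide]
      exact hψval _ 1 1 (by rw [he1]; exact hxu)
    · rw [show (Equiv.swap (0 : Fin 3) 2) 2 = 0 from by decide]
      exact hψval _ 2 0 (by rw [he2, he0]; exact hxuz)
  have hsurj : Function.Surjective ψ := by
    intro τ
    rcases s3gen9 τ with h | h | h | h | h | h
    · exact ⟨1, by rw [map_one, h]⟩
    · exact ⟨⟨y, hyX⟩, by rw [hψy, h]⟩
    · exact ⟨⟨x, hxX⟩, by rw [hψx, h]⟩
    · exact ⟨⟨y, hyX⟩ * ⟨x, hxX⟩, by rw [map_mul, hψy, hψx, h]⟩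
    · exact ⟨⟨x, hxX⟩ * ⟨y, hyX⟩, by rw [map_mul, hψx, hψy, h]⟩
    · exact ⟨⟨y, hyX⟩ * ⟨x, hxX⟩ * ⟨y, hyX⟩, by rw [map_mul, map_mul, hψy, hψx, h]⟩
  have hker : ψ.ker = R.subgroupOf X := by
    ext t
    rw [MonoidHom.mem_ker, Subgroup.mem_subgroupOf, hψ]
    constructor
    · intro h
      obtain ⟨h1, h2⟩ := hψker _ h
      exact hF2 (t : G) t.2 h1 h2
    · intro h
      exact hψone _ (hzR _ h).symm (huR _ h).symm
  haveI hn : (R.subgroupOf X).Normal := by rw [← hker]; exact MonoidHom.normal_ker ψ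
  have part3 : ∃ h : (R.subgroupOf X).Normal,
      Nonempty (↥X ⧸ R.subgroupOf X ≃* Equiv.Perm (Fin 3)) :=
    ⟨hn, ⟨(QuotientGroup.quotientMulEquivOfEq hker.symm).trans
      (QuotientGroup.quotientKerEquivOfSurjective ψ hsurj)⟩⟩
  have part2 : R = (Cfsg.pCore 2 ↥X).map X.subtype := by
    apply le_antisymm
    · intro r hr
      have hP : IsPGroup 2 ↥(R.subgroupOf X) := hRp.comap_subtype
      have hle := Cfsg.Agent.Helper5.le_pCore _ hn hP
      exact Subgroup.mem_map.mpr ⟨⟨r, hRX hr⟩, hle (Subgroup.mem_subgroupOf.mpr hr), rfl⟩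
    · rintro _ ⟨t, ht, rfl⟩
      show (t : G) ∈ R
      have hPn := Cfsg.Agent.Helper5.pCore_normal 2 ↥X
      have hPp := Cfsg.Agent.Helper3.pCore_isPGroup 2 ↥X
      have hsq : ∀ p ∈ Cfsg.pCore 2 ↥X, (ψ p) ^ 2 = 1 := by
        intro p hp
        obtain ⟨k, hk⟩ := hPp ⟨p, hp⟩
        have hk' : p ^ 2 ^ k = 1 := by simpa using congrArg Subtype.val hk
        have h1 : (ψ p) ^ 2 ^ k = 1 := by rw [← map_pow, hk', map_one]
        rcases s3pow9 (ψ p) with h | h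
        · exact h
        · have h2 : orderOf (ψ p) ∣ 2 ^ k := orderOf_dvd_of_pow_eq_one h1
          have h3 : orderOf (ψ p) ∣ 3 := orderOf_dvd_of_pow_eq_one h
          have h4 : Nat.Coprime (2 ^ k) 3 := Nat.Coprime.pow_left k (by norm_num)
          have h5 : orderOf (ψ p) = 1 := Nat.eq_one_of_dvd_coprimes h4 h2 h3
          rw [orderOf_eq_one_iff.mp h5]; simp
      have hψt : ψ t = 1 := by
        by_contra hne
        rcases s3two9 (ψ t) hne with h | ⟨τ, hτ⟩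
        · exact h (hsq t ht)
        · obtain ⟨s, rfl⟩ := hsurj τ
          apply hτ
          have hmem' : t * (s * t * s⁻¹) ∈ Cfsg.pCore 2 ↥X :=
            Subgroup.mul_mem _ ht (hPn.conj_mem t ht s)
          have h6 := hsq _ hmem'
          rw [map_mul, map_mul, map_mul, map_inv] at h6
          exact h6
      have h7 : t ∈ ψ.ker := hψt
      rw [hker] at h7
      exact Subgroup.mem_subgroupOf.mp h7
  have part4 : Subgroup.normalizer (V : Set G) =
      X ⊔ (Subgroup.centralizer ({z} : Set G) ⊓ Subgroup.centralizer (V : Set G)) := by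
    apply le_antisymm
    · intro n hn'
      have hnN : n ∈ N := by rw [hN]; exact hn'
      obtain ⟨s, hs⟩ := hsurj (ψ₀ ⟨n, hnN⟩)
      rw [hψ] at hs
      have hm : ψ₀ (⟨(s : G), hXN' s.2⟩⁻¹ * ⟨n, hnN⟩) = 1 := by
        rw [map_mul, map_inv, hs]; group
      obtain ⟨h1, h2⟩ := hψker _ hm
      have hc : (s : G)⁻¹ * n ∈ Subgroup.centralizer ({z} : Set G) ⊓
          Subgroup.centralizer (V : Set G) := by
        refine Subgroup.mem_inf.mpr ⟨?_, hCV _ h1 h2⟩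
        rw [Subgroup.mem_centralizer_iff]
        intro t ht
        rw [Set.mem_singleton_iff.mp ht]
        exact h1.symm
      have h8 := Subgroup.mul_mem_sup s.2 hc
      have e8 : (s : G) * ((s : G)⁻¹ * n) = n := by group
      rwa [e8] at h8
    · exact sup_le hXN (fun c hc => hCN c (Subgroup.mem_inf.mp hc).2)
  exact ⟨part1, part2, part3, part4, part5, part6, part7, part8⟩

end Cfsg.Agent.Helper9
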