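import Mathlib
import Cfsg.Prelude.Def_MonsterType
import Cfsg.Agent.Helper9.LargeES9n

set_option autoImplicit false

namespace Cfsg.Agent.Helper9

theorem les_S5430_9 {G : Type*} [Group G] [Finite G] (Q : Subgroup G)
    (hQ : Cfsg.IsLargeExtraspecial Q) (z : G)
    (hz : ((Subgroup.center ↥Q).map Q.subtype) = Subgroup.zpowers z) (hz2 : orderOf z = 2)
    (w : ℕ) (hw : 2 ≤ w) (hcard : Nat.card ↥Q = 2 ^ (2 * w + 1)) (g : G)
    (hgH : g ∉ Subgroup.centralizer ({z} : Set G)) (hgQ : g * z * g⁻¹ ∈ Q)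
    (V X R : Subgroup G) (hV : V = Subgroup.closure ({z, g * z * g⁻¹} : Set G))
    (hX : X = Q ⊔ (Q).map (MulAut.conj g).toMonoidHom)
    (hR : R = ((Q).map (MulAut.conj g).toMonoidHom ⊓ Subgroup.centralizer ({z} : Set G)) ⊔
      (Q ⊓ Subgroup.centralizer ({g * z * g⁻¹} : Set G))) :
    R = X ⊓ Subgroup.centralizer (V : Set G) ∧
    R = (Cfsg.pCore 2 ↥X).map X.subtype ∧
    (∃ h : (R.subgroupOf X).Normal, Nonempty (↥X ⧸ R.subgroupOf X ≃* Equiv.Perm (Fin 3))) ∧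
    Subgroup.normalizer (V : Set G) =
      X ⊔ (Subgroup.centralizer ({z} : Set G) ⊓ Subgroup.centralizer (V : Set G)) ∧
    (∀ y ∈ Subgroup.normalizer (V : Set G), ∀ x ∈ X, y * x * y⁻¹ ∈ X) ∧
    R ≤ Subgroup.centralizer ({z} : Set G) ⊓ Subgroup.centralizer (V : Set G) ∧
    (∀ x ∈ X, ∀ c ∈ Subgroup.centralizer ({z} : Set G) ⊓ Subgroup.centralizer (V : Set G),
      x * c * x⁻¹ * c⁻¹ ∈ R) ∧
    X ⊓ (Subgroup.centralizer ({z} : Set G) ⊓ Subgroup.centralizer (V : Set G)) = R := by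
  obtain ⟨hz1, hzz, hzQ, hzc, P1, PC, hNQ, hu1, huu, huQ₁, huc, P1', PC', hNQ₁, huQ, hzQ₁,
    huz⟩ := les_setup9 Q hQ z hz hz2 w hw hcard g hgH hgQ _ rfl _ rfl
  have hmem := (les_tr9 Q _ z _ g rfl rfl hzQ hzc P1 PC hNQ).1
  exact les_X9 Q _ z _ g hz1 hzz hzQ hzc P1 PC hNQ hu1 huu huQ₁ huc P1' PC' hNQ₁ huQ hzQ₁ huz
    hmem rfl V X R hV hX hR

end Cfsg.Agent.Helper9
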