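import Mathlib
import Cfsg.Prelude.Def_MonsterType
import Cfsg.Agent.Helper9.LargeES9o
import Cfsg.Agent.Helper5.Frattini
import Cfsg.Agent.Lead.PGroupFrattini

set_option autoImplicit false

namespace Cfsg.Agent.Helper9

open scoped commutatorElement

/-- A nonabelian subgroup of an extraspecial-like 2-group whose centre is `{1, z}` is
extraspecial. -/

theorem cz_frat9b (X : Type*) [Group X] [Finite X] :
    Subgroup.center X ⊓ commutator X ≤ frattini X := by
  rintro z ⟨hzc, hzd⟩
  rw [Cfsg.Agent.Lead.mem_frattini_iff]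
  intro M hM
  by_contra hzM
  have hsup : M ⊔ Subgroup.center X = ⊤ := by
    apply hM.2
    refine lt_of_le_of_ne le_sup_left (fun h => hzM ?_)
    rw [h]
    exact (le_sup_right : Subgroup.center X ≤ M ⊔ Subgroup.center X) hzc
  haveI hMn : M.Normal := by
    rw [← Subgroup.normalizer_eq_top_iff, eq_top_iff, ← hsup]
    exact sup_le Subgroup.le_normalizer (Subgroup.center_le_normalizer _)
  have h1 := Subgroup.Normal.commutator_le_of_self_sup_commutative_eq_top hsup
    (inferInstance : IsMulCommutative (Subgroup.center X))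
  exact hzM (h1 hzd)

theorem es_sub9b {G : Type*} [Group G] [Finite G] (H : Subgroup G) (z : G) (hz1 : z ≠ 1)
    (hsq : ∀ h ∈ H, h * h = 1 ∨ h * h = z)
    (hcomm : ∀ a ∈ H, ∀ b ∈ H, a * b * a⁻¹ * b⁻¹ = 1 ∨ a * b * a⁻¹ * b⁻¹ = z)
    (hzc : ∀ h ∈ H, z * h = h * z)
    (hnonab : ∃ a ∈ H, ∃ b ∈ H, a * b ≠ b * a)
    (hcen : ∀ h ∈ H, (∀ h' ∈ H, h * h' = h' * h) → h = 1 ∨ h = z)
    (h2 : IsPGroup 2 ↥H) :
    Cfsg.IsExtraspecial 2 ↥H := by
  obtain ⟨a, ha, b, hb, hab⟩ := hnonab
  have hzab : a * b * a⁻¹ * b⁻¹ = z := by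
    rcases hcomm a ha b hb with h | h
    · exfalso
      apply hab
      calc a * b = (a * b * a⁻¹ * b⁻¹) * (b * a) := by group
        _ = b * a := by rw [h, one_mul]
    · exact h
  have hzH : z ∈ H := by
    rw [← hzab]
    exact H.mul_mem (H.mul_mem (H.mul_mem ha hb) (H.inv_mem ha)) (H.inv_mem hb)
  have hcenter : ∀ k : ↥H, k ∈ Subgroup.center ↥H ↔ ((k : G) = 1 ∨ (k : G) = z) := by
    intro k
    rw [Subgroup.mem_center_iff]
    constructor
    · intro h
      apply hcen k k.2
      intro h' hh'
      have := h ⟨h', hh'⟩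
      exact (congrArg Subtype.val this).symm
    · rintro (h | h) g
      · apply Subtype.ext
        show (g : G) * (k : G) = (k : G) * (g : G)
        rw [h]; simp
      · apply Subtype.ext
        show (g : G) * (k : G) = (k : G) * (g : G)
        rw [h]; exact (hzc g g.2).symm
  have hcard : Nat.card (Subgroup.center ↥H) = 2 := by
    rw [Nat.card_eq_two_iff]
    refine ⟨⟨1, Subgroup.one_mem _⟩, ⟨⟨z, hzH⟩, (hcenter _).mpr (Or.inr rfl)⟩, ?_, ?_⟩
    · intro h
      apply hz1
      have := congrArg (fun t : ↥(Subgroup.center ↥H) => ((t : ↥H) : G)) h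
      exact this.symm
    · ext t
      simp only [Set.mem_insert_iff, Set.mem_singleton_iff, Set.mem_univ, iff_true]
      rcases (hcenter t.1).mp t.2 with h | h
      · left; apply Subtype.ext; apply Subtype.ext; exact h
      · right; apply Subtype.ext; apply Subtype.ext; exact h
  have hcommEq : commutator ↥H = Subgroup.center ↥H := by
    apply le_antisymm
    · rw [commutator_def, Subgroup.commutator_le]
      intro x _ y _
      rw [hcenter]
      exact hcomm x x.2 y y.2
    · intro k hk
      rcases (hcenter k).mp hk with h | h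
      · have : k = 1 := Subtype.ext h
        rw [this]; exact Subgroup.one_mem _
      · have : k = ⁅(⟨a, ha⟩ : ↥H), ⟨b, hb⟩⁆ := Subtype.ext (by rw [h, ← hzab]; rfl)
        rw [this, commutator_def]
        exact Subgroup.commutator_mem_commutator (Subgroup.mem_top _) (Subgroup.mem_top _)
  have hfrat : frattini ↥H = Subgroup.center ↥H := by
    apply le_antisymm
    · apply Cfsg.Agent.Helper5.frattini_le_of_elementary_quotient Nat.prime_two
      · intro x y
        rw [hcenter]
        exact hcomm x x.2 y y.2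
      · intro x
        rw [hcenter, pow_two]
        exact hsq x x.2
    · have := cz_frat9b ↥H
      rw [hcommEq, inf_idem] at this
      exact this
  exact ⟨⟨h2, hfrat, hcommEq⟩, hcard⟩

/-- An element of odd order that moves `N` at most by the central involution `z` fixes `N`. -/
theorem odd_fix9b {G : Type*} [Group G] (b N z : G) (hbodd : Odd (orderOf b)) (hz1 : z ≠ 1)
    (hzz : z * z = 1) (hbz : b * z * b⁻¹ = z)
    (h : b * N * b⁻¹ = N ∨ b * N * b⁻¹ = N * z) : b * N = N * b := by
  rcases h with h | h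
  · calc b * N = b * N * b⁻¹ * b := by group
      _ = N * b := by rw [h]
  · exfalso
    have h2 : Commute (b * b) N := by
      show b * b * N = N * (b * b)
      calc b * b * N = b * (b * N * b⁻¹) * b⁻¹ * (b * b) := by group
        _ = b * (N * z) * b⁻¹ * (b * b) := by rw [h]
        _ = (b * N * b⁻¹) * (b * z * b⁻¹) * (b * b) := by group
        _ = N * z * z * (b * b) := by rw [h, hbz]
        _ = N * (b * b) := by rw [mul_assoc N z z, hzz, mul_one]
    obtain ⟨m, hm⟩ := hbodd
    have h3 : b ^ (2 * m + 1) = 1 := by rw [← hm]; exact pow_orderOf_eq_one b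
    have h4 : (b * b) ^ m * b = 1 := by
      rw [← pow_two, ← pow_mul, ← pow_succ]; exact h3
    have h5 : b = ((b * b) ^ m)⁻¹ := eq_inv_of_mul_eq_one_right h4
    have h6 : Commute b N := by
      rw [h5]; exact (h2.pow_left m).inv_left
    have h7 : b * N * b⁻¹ = N := by
      calc b * N * b⁻¹ = N * b * b⁻¹ := by rw [h6.eq]
        _ = N := by group
    apply hz1
    calc z = N⁻¹ * (N * z) := by group
      _ = N⁻¹ * N := by rw [← h, h7]
      _ = 1 := by group

end Cfsg.Agent.Helper9
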