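import Mathlib
import Cfsg.Prelude.Def_MonsterType
import Cfsg.Agent.Helper9.LargeES9s

set_option autoImplicit false

namespace Cfsg.Agent.Helper9

open scoped commutatorElement

theorem conj_list9b {G : Type*} [Group G] (b : G) :
    ∀ l : List G, b * l.prod * b⁻¹ = (l.map (fun x => b * x * b⁻¹)).prod := by
  intro l
  induction l with
  | nil => simp
  | cons x l ih =>
    simp only [List.prod_cons, List.map_cons]
    rw [← ih]; group

set_option maxHeartbeats 1600000 in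
theorem les_A9b {G : Type*} [Group G] [Finite G] (Q : Subgroup G) (z : G)
    (hz1 : z ≠ 1) (hzz : z * z = 1) (hzQ : z ∈ Q) (hzc : ∀ q ∈ Q, z * q = q * z)
    (P1 : ∀ a ∈ Q, ∀ b ∈ Q, a * b * a⁻¹ * b⁻¹ = 1 ∨ a * b * a⁻¹ * b⁻¹ = z)
    (PC : ∀ a : G, (∀ b ∈ Q, a * b = b * a) → a = 1 ∨ a = z)
    (hQ2 : IsPGroup 2 ↥Q)
    (A : Subgroup G) (hA : A ≤ Subgroup.normalizer (Q : Set G)) (hAodd : Odd (Nat.card ↥A))
    (hA1 : A ≠ ⊥) :
    (Q ⊓ Subgroup.centralizer (A : Set G)) ⊔ ⁅Q, A⁆ = Q ∧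
    (∀ x ∈ Q ⊓ Subgroup.centralizer (A : Set G), ∀ y ∈ ⁅Q, A⁆, x * y = y * x) ∧
    Cfsg.IsExtraspecial 2 ↥⁅Q, A⁆ ∧
    ((∀ x, x ∈ Q ⊓ Subgroup.centralizer (A : Set G) ↔ (x = 1 ∨ x = z)) ∨
      Cfsg.IsExtraspecial 2 ↥(Q ⊓ Subgroup.centralizer (A : Set G))) := by
  classical
  haveI := Fintype.ofFinite G
  obtain ⟨C, hC⟩ : ∃ C : Subgroup G, C = Q ⊓ Subgroup.centralizer (A : Set G) := ⟨_, rfl⟩
  obtain ⟨K, hK⟩ : ∃ K : Subgroup G, K = ⁅Q, A⁆ := ⟨_, rfl⟩
  rw [← hC, ← hK]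
  have hmC : ∀ x, x ∈ C ↔ x ∈ Q ∧ ∀ a ∈ A, a * x = x * a := by
    intro x; rw [hC, Subgroup.mem_inf, Subgroup.mem_centralizer_iff]; rfl
  have hCQ : C ≤ Q := fun x hx => ((hmC x).mp hx).1
  have hAQ : ∀ a ∈ A, ∀ q ∈ Q, a * q * a⁻¹ ∈ Q := fun a ha q hq =>
    (Subgroup.mem_normalizer_iff.mp (hA ha) q).mp hq
  have hAz : ∀ a ∈ A, a * z * a⁻¹ = z := by
    intro a ha
    have h1 : a * z * a⁻¹ = 1 ∨ a * z * a⁻¹ = z := by
      apply PC
      intro b hb
      have hb' : a⁻¹ * b * a ∈ Q := by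
        have := hAQ a⁻¹ (A.inv_mem ha) b hb
        rwa [inv_inv] at this
      have h2 := hzc _ hb'
      calc a * z * a⁻¹ * b = a * (z * (a⁻¹ * b * a)) * a⁻¹ := by group
        _ = a * ((a⁻¹ * b * a) * z) * a⁻¹ := by rw [h2]
        _ = b * (a * z * a⁻¹) := by group
    rcases h1 with h | h
    · exfalso
      apply hz1
      calc z = a⁻¹ * (a * z * a⁻¹) * a := by group
        _ = 1 := by rw [h]; group
    · exact h
  have hAz' : ∀ a ∈ A, a * z = z * a := by
    intro a ha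
    calc a * z = a * z * a⁻¹ * a := by group
      _ = z * a := by rw [hAz a ha]
  have hzC : z ∈ C := (hmC z).mpr ⟨hzQ, fun a ha => hAz' a ha⟩
  have hKQ : K ≤ Q := by
    rw [hK, Subgroup.commutator_le]
    intro q hq a ha
    rw [commutatorElement_def]
    have h1 := hAQ a ha q⁻¹ (Q.inv_mem hq)
    have h2 := Q.mul_mem hq h1
    have e : q * (a * q⁻¹ * a⁻¹) = q * a * q⁻¹ * a⁻¹ := by group
    rwa [e] at h2
  have hKgen : ∀ q ∈ Q, ∀ a ∈ A, q * a * q⁻¹ * a⁻¹ ∈ K := by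
    intro q hq a ha
    rw [hK, ← commutatorElement_def]
    exact Subgroup.commutator_mem_commutator hq ha
  have S_Q := sq9 Q z hzz hzc P1 PC
  have hAodd' : ∀ a ∈ A, Odd (orderOf a) := by
    intro a ha
    have h1 := orderOf_dvd_natCard (⟨a, ha⟩ : ↥A)
    rw [Subgroup.orderOf_mk] at h1
    exact Odd.of_dvd_nat hAodd h1
  -- (b)
  have partb : ∀ x ∈ C, ∀ y ∈ K, x * y = y * x := by
    intro c hc
    obtain ⟨hcQ, hcA⟩ := (hmC c).mp hc
    have hle : K ≤ Subgroup.centralizer ({c} : Set G) := by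
      rw [hK, Subgroup.commutator_le]
      intro q hq a ha
      rw [commutatorElement_def, Subgroup.mem_centralizer_iff]
      intro t ht
      rw [Set.mem_singleton_iff.mp ht]
      have hca : c * a = a * c := (hcA a ha).symm
      obtain ⟨ε, hε⟩ : ∃ ε, ε = c * q * c⁻¹ * q⁻¹ := ⟨_, rfl⟩
      have hεZ : ε = 1 ∨ ε = z := hε ▸ P1 c hcQ q hq
      have hεa : a * ε⁻¹ * a⁻¹ = ε⁻¹ := by
        rcases hεZ with h | h
        · rw [h]; group
        · rw [h]
          calc a * z⁻¹ * a⁻¹ = (a * z * a⁻¹)⁻¹ := by group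
            _ = z⁻¹ := by rw [hAz a ha]
      have hεk : ε * (q * a * q⁻¹ * a⁻¹) = (q * a * q⁻¹ * a⁻¹) * ε := by
        rcases hεZ with h | h
        · rw [h]; simp
        · rw [h]; exact hzc _ (hKQ (hKgen q hq a ha))
      have hcq : c * q * c⁻¹ = ε * q := by rw [hε]; group
      have hcac : c * a * c⁻¹ = a := by
        calc c * a * c⁻¹ = (a * c) * c⁻¹ := by rw [hca]
          _ = a := by group
      have key : c * (q * a * q⁻¹ * a⁻¹) * c⁻¹ = q * a * q⁻¹ * a⁻¹ := by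
        calc c * (q * a * q⁻¹ * a⁻¹) * c⁻¹
            = (c * q * c⁻¹) * (c * a * c⁻¹) * (c * q * c⁻¹)⁻¹ * (c * a * c⁻¹)⁻¹ := by group
          _ = (ε * q) * a * (ε * q)⁻¹ * a⁻¹ := by rw [hcq, hcac]
          _ = ε * (q * a * q⁻¹ * a⁻¹) * (a * ε⁻¹ * a⁻¹) := by group
          _ = ε * (q * a * q⁻¹ * a⁻¹) * ε⁻¹ := by rw [hεa]
          _ = (q * a * q⁻¹ * a⁻¹) * ε * ε⁻¹ := by rw [hεk]
          _ = q * a * q⁻¹ * a⁻¹ := by group
      calc c * (q * a * q⁻¹ * a⁻¹) = c * (q * a * q⁻¹ * a⁻¹) * c⁻¹ * c := by group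
        _ = (q * a * q⁻¹ * a⁻¹) * c := by rw [key]
    intro y hy
    exact Subgroup.mem_centralizer_iff.mp (hle hy) c rfl
  -- (a)
  have hMQ : C ⊔ K ≤ Q := sup_le hCQ hKQ
  have hMn : ∀ q ∈ Q, ∀ m ∈ C ⊔ K, q * m * q⁻¹ ∈ C ⊔ K := by
    intro q hq m hm
    have e : q * m * q⁻¹ = (q * m * q⁻¹ * m⁻¹) * m := by group
    rw [e]
    rcases P1 q hq m (hMQ hm) with h | h
    · rw [h, one_mul]; exact hm
    · rw [h]; exact Subgroup.mul_mem _ (Subgroup.mem_sup_left hzC) hm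
  have claim1 : ∀ L : List G, (∀ a ∈ L, a ∈ A) → ∀ q ∈ Q,
      (L.map (fun a => a * q * a⁻¹)).prod ∈ Q ∧
      (L.map (fun a => a * q * a⁻¹)).prod * (q ^ L.length)⁻¹ ∈ C ⊔ K := by
    intro L
    induction L with
    | nil =>
      intro _ q hq
      simp only [List.map_nil, List.prod_nil, List.length_nil, pow_zero, inv_one, mul_one]
      exact ⟨Q.one_mem, Subgroup.one_mem _⟩
    | cons a L ih =>
      intro hL q hq
      have haA : a ∈ A := hL a (by simp)
      obtain ⟨ih1, ih2⟩ := ih (fun b hb => hL b (List.mem_cons_of_mem _ hb)) q hq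
      simp only [List.map_cons, List.prod_cons, List.length_cons]
      obtain ⟨P, hP⟩ : ∃ P, P = (L.map (fun a => a * q * a⁻¹)).prod := ⟨_, rfl⟩
      rw [← hP] at ih1 ih2 ⊢
      refine ⟨Q.mul_mem (hAQ a haA q hq) ih1, ?_⟩
      have e : a * q * a⁻¹ * P * (q ^ (L.length + 1))⁻¹ =
          (a * q * a⁻¹ * q⁻¹) * (q * (P * (q ^ L.length)⁻¹) * q⁻¹) := by
        rw [pow_succ']
        generalize q ^ L.length = r
        group
      rw [e]
      have hk : a * q * a⁻¹ * q⁻¹ ∈ K := by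
        have h1 := K.inv_mem (hKgen q hq a haA)
        have e1 : (q * a * q⁻¹ * a⁻¹)⁻¹ = a * q * a⁻¹ * q⁻¹ := by group
        rwa [e1] at h1
      exact Subgroup.mul_mem _ (Subgroup.mem_sup_right hk) (hMn q hq _ ih2)
  have hperm : ∀ (L₁ L₂ : List G), L₁.Perm L₂ → (∀ x ∈ L₁, x ∈ Q) →
      (L₁.prod = L₂.prod ∨ L₁.prod = L₂.prod * z) := by
    intro L₁ L₂ h
    induction h with
    | nil => intro _; left; rfl
    | cons x h ih =>
      intro hQ'
      rcases ih (fun y hy => hQ' y (List.mem_cons_of_mem _ hy)) with e | e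
      · left; simp only [List.prod_cons]; rw [e]
      · right; simp only [List.prod_cons]; rw [e, mul_assoc]
    | swap x y l =>
      intro hQ'
      simp only [List.prod_cons]
      have hy : y ∈ Q := hQ' y (by simp)
      have hx : x ∈ Q := hQ' x (by simp)
      have hl : l.prod ∈ Q := Subgroup.list_prod_mem _ (fun t ht => hQ' t (by simp [ht]))
      rcases P1 y hy x hx with e | e
      · left
        calc y * (x * l.prod) = (y * x * y⁻¹ * x⁻¹) * (x * (y * l.prod)) := by group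
          _ = x * (y * l.prod) := by rw [e, one_mul]
      · right
        calc y * (x * l.prod) = (y * x * y⁻¹ * x⁻¹) * (x * (y * l.prod)) := by group
          _ = z * (x * (y * l.prod)) := by rw [e]
          _ = x * (y * l.prod) * z := hzc _ (Q.mul_mem hx (Q.mul_mem hy hl))
    | trans h₁ h₂ ih₁ ih₂ =>
      intro hQ'
      have c1 := ih₁ hQ'
      have c2 := ih₂ (fun y hy => hQ' y (h₁.mem_iff.mpr hy))
      rcases c1 with e1 | e1 <;> rcases c2 with e2 | e2
      · left; rw [e1, e2]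
      · right; rw [e1, e2]
      · right; rw [e1, e2]
      · left; rw [e1, e2, mul_assoc, hzz, mul_one]
  obtain ⟨L, hL⟩ : ∃ L : List G, L = (Finset.univ.filter (fun a : G => a ∈ A)).toList :=
    ⟨_, rfl⟩
  have hLmem : ∀ a, a ∈ L ↔ a ∈ A := by
    intro a; rw [hL, Finset.mem_toList, Finset.mem_filter]; simp
  have hLnd : L.Nodup := by rw [hL]; exact Finset.nodup_toList _
  have hLlen : L.length = Nat.card ↥A := by
    rw [hL, Finset.length_toList, Nat.card_eq_fintype_card, ← Fintype.card_subtype]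
  have hnorm : ∀ q ∈ Q, (L.map (fun a => a * q * a⁻¹)).prod ∈ C := by
    intro q hq
    obtain ⟨N, hN⟩ : ∃ N, N = (L.map (fun a => a * q * a⁻¹)).prod := ⟨_, rfl⟩
    have hNQ' : N ∈ Q := hN ▸ (claim1 L (fun a ha => (hLmem a).mp ha) q hq).1
    rw [← hN]
    rw [hmC]
    refine ⟨hNQ', ?_⟩
    intro b hb
    apply odd_fix9b b N z (hAodd' b hb) hz1 hzz (hAz b hb)
    rw [hN, conj_list9b, List.map_map]
    have hfun : ((fun x => b * x * b⁻¹) ∘ fun a => a * q * a⁻¹) =
        ((fun a => a * q * a⁻¹) ∘ fun a => b * a) := by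
      funext a
      show b * (a * q * a⁻¹) * b⁻¹ = (b * a) * q * (b * a)⁻¹
      group
    rw [hfun, ← List.map_map]
    have hp : (L.map (fun a => b * a)).Perm L := by
      rw [List.perm_ext_iff_of_nodup (hLnd.map (mul_right_injective b)) hLnd]
      intro x
      rw [List.mem_map]
      constructor
      · rintro ⟨a, ha, rfl⟩
        exact (hLmem _).mpr (A.mul_mem hb ((hLmem a).mp ha))
      · intro hx
        refine ⟨b⁻¹ * x, (hLmem _).mpr (A.mul_mem (A.inv_mem hb) ((hLmem x).mp hx)), ?_⟩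
        group
    apply hperm _ _ (hp.map _)
    intro x hx
    rw [List.mem_map] at hx
    obtain ⟨a, ha, rfl⟩ := hx
    rw [List.mem_map] at ha
    obtain ⟨a', ha', rfl⟩ := ha
    exact hAQ _ (A.mul_mem hb ((hLmem a').mp ha')) q hq
  have parta : C ⊔ K = Q := by
    apply le_antisymm hMQ
    intro q hq
    obtain ⟨m, hm⟩ := hAodd
    have h1 := (claim1 L (fun a ha => (hLmem a).mp ha) q hq).2
    have h2 := hnorm q hq
    rw [hLlen, hm] at h1
    have h3 : q ^ (2 * m + 1) = (q * q) ^ m * q := by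
      rw [← pow_two, ← pow_mul, ← pow_succ]
    have h4 : (q * q) ^ m ∈ C := by
      apply Subgroup.pow_mem
      rcases S_Q q hq with h | h
      · rw [h]; exact C.one_mem
      · rw [h]; exact hzC
    obtain ⟨N, hN⟩ : ∃ N, N = (L.map (fun a => a * q * a⁻¹)).prod := ⟨_, rfl⟩
    rw [← hN] at h1 h2
    rw [h3] at h1
    have h5 : ((q * q) ^ m)⁻¹ * ((N * ((q * q) ^ m * q)⁻¹)⁻¹ * N) ∈ C ⊔ K :=
      Subgroup.mul_mem _ (Subgroup.mem_sup_left (C.inv_mem h4))
        (Subgroup.mul_mem _ (Subgroup.inv_mem _ h1) (Subgroup.mem_sup_left h2))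
    have e : ((q * q) ^ m)⁻¹ * ((N * ((q * q) ^ m * q)⁻¹)⁻¹ * N) = q := by
      generalize (q * q) ^ m = r
      group
    rwa [e] at h5
  -- centre arguments
  have hcenQ : ∀ k : G, (∀ c ∈ C, k * c = c * k) → (∀ k' ∈ K, k * k' = k' * k) →
      k = 1 ∨ k = z := by
    intro k h1 h2
    apply PC
    intro q hq
    rw [← parta] at hq
    exact comm_sup9 C K k h1 h2 q hq
  have hnonabK : ∃ a ∈ K, ∃ b ∈ K, a * b ≠ b * a := by
    by_contra hno
    push Not at hno
    have hKZ : ∀ k ∈ K, k = 1 ∨ k = z := fun k hk =>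
      hcenQ k (fun c hc => (partb c hc k hk).symm) (fun k' hk' => hno k hk k' hk')
    apply hA1
    rw [Subgroup.eq_bot_iff_forall]
    intro a ha
    have hcomm : ∀ q ∈ Q, a * q = q * a := by
      intro q hq
      have h1 : a * q⁻¹ * a⁻¹ = q⁻¹ ∨ a * q⁻¹ * a⁻¹ = q⁻¹ * z := by
        have e : a * q⁻¹ * a⁻¹ = q⁻¹ * (q * a * q⁻¹ * a⁻¹) := by group
        rcases hKZ _ (hKgen q hq a ha) with h | h
        · left; rw [e, h, mul_one]
        · right; rw [e, h]
      have h2 := odd_fix9b a q⁻¹ z (hAodd' a ha) hz1 hzz (hAz a ha) h1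
      calc a * q = q * (q⁻¹ * a) * q := by group
        _ = q * (a * q⁻¹) * q := by rw [h2]
        _ = q * a := by group
    rcases PC a hcomm with h | h
    · exact h
    · exfalso
      have hodd := hAodd' a ha
      rw [h] at hodd
      have h2 : orderOf z = 2 := orderOf_eq_prime (by rw [pow_two]; exact hzz) hz1
      rw [h2] at hodd
      exact absurd hodd (by decide)
  have partc : Cfsg.IsExtraspecial 2 ↥K :=
    es_sub9b K z hz1 (fun h hh => S_Q h (hKQ hh))
      (fun a ha b hb => P1 a (hKQ ha) b (hKQ hb)) (fun h hh => hzc h (hKQ hh)) hnonabK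
      (fun k hk hk' => hcenQ k (fun c hc => (partb c hc k hk).symm) hk') (hQ2.to_le hKQ)
  have partd : (∀ x, x ∈ C ↔ (x = 1 ∨ x = z)) ∨ Cfsg.IsExtraspecial 2 ↥C := by
    by_cases hCab : ∀ a ∈ C, ∀ b ∈ C, a * b = b * a
    · left
      intro x
      constructor
      · intro hx
        exact hcenQ x (fun c hc => hCab x hx c hc) (fun k hk => partb x hx k hk)
      · rintro (h | h)
        · rw [h]; exact C.one_mem
        · rw [h]; exact hzC
    · right
      push Not at hCab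
      obtain ⟨a, ha, b, hb, hab⟩ := hCab
      exact es_sub9b C z hz1 (fun h hh => S_Q h (hCQ hh))
        (fun a ha b hb => P1 a (hCQ ha) b (hCQ hb)) (fun h hh => hzc h (hCQ hh))
        ⟨a, ha, b, hb, hab⟩
        (fun c hc hc' => hcenQ c hc' (fun k hk => partb c hc k hk)) (hQ2.to_le hCQ)
  exact ⟨parta, partb, partc, partd⟩

end Cfsg.Agent.Helper9
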