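import Mathlib
import Cfsg.Prelude.Def_MonsterType
import Cfsg.Agent.Helper9.LargeES9g
import Cfsg.Agent.Helper9.LargeES9t

set_option autoImplicit false

namespace Cfsg.Agent.Helper9

open scoped commutatorElement

theorem les_S5434_9b {G : Type*} [Group G] [Finite G] (Q : Subgroup G)
    (hQ : Cfsg.IsLargeExtraspecial Q) (A : Subgroup G)
    (hA : A ≤ Subgroup.normalizer (Q : Set G)) (hAodd : Odd (Nat.card ↥A)) (hA1 : A ≠ ⊥) :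
    (Q ⊓ Subgroup.centralizer (A : Set G)) ⊔ ⁅Q, A⁆ = Q ∧
    (∀ x ∈ Q ⊓ Subgroup.centralizer (A : Set G), ∀ y ∈ ⁅Q, A⁆, x * y = y * x) ∧
    Cfsg.IsExtraspecial 2 ↥⁅Q, A⁆ ∧
    (Q ⊓ Subgroup.centralizer (A : Set G) = ((Subgroup.center ↥Q).map Q.subtype) ∨
      Cfsg.IsExtraspecial 2 ↥(Q ⊓ Subgroup.centralizer (A : Set G))) := by
  obtain ⟨hL1, hL2, hL3, hL4⟩ := hQ
  obtain ⟨z, hz1, hzz, hzQ, hZ, hzc, P1, PC, hNQ⟩ := les_basic9 Q hL1 hL2 hL3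
  obtain ⟨h1, h2, h3, h4⟩ := les_A9b Q z hz1 hzz hzQ hzc P1 PC hL1.1.1 A hA hAodd hA1
  refine ⟨h1, h2, h3, ?_⟩
  rcases h4 with h4 | h4
  · left
    ext x
    rw [h4 x, hZ x]
  · right
    exact h4

end Cfsg.Agent.Helper9
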