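import Mathlib
import Cfsg.Agent.Helper1.Golay2

set_option autoImplicit false

namespace Cfsg.Agent.Helper9

open Cfsg

/-- The word marking the coordinates congruent to `k` modulo 4. -/
def lvl (z : GolayPt → ℤ) (k : ℤ) : GolayPt → ZMod 2 := fun i => if z i % 4 = k % 4 then 1 else 0

/-- An invariant of the vectors of the Leech lattice. -/
def LeechInv (z : GolayPt → ℤ) : Prop :=
  ∃ m : ℤ, (∀ i, z i % 2 = m % 2) ∧ (∑ i, z i) % 8 = (4 * m) % 8 ∧ lvl z m ∈ golayCode

theorem one_mem_golay : (1 : GolayPt → ZMod 2) ∈ golayCode := Submodule.subset_span (Or.inr rfl)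

theorem leechSet_inv {z : GolayPt → ℤ} (hz : z ∈ leechSet) : LeechInv z := by
  obtain ⟨m, h1, h2, h3⟩ := hz
  refine ⟨m, h1, h2, ?_⟩
  obtain ⟨w, hw, hsupp⟩ := h3 m
  have hwl : w = lvl z m := by
    funext i
    have hi : i ∈ support₂ w ↔ z i % 4 = m % 4 := by
      rw [hsupp, Finset.mem_filter]
      exact ⟨fun h => h.2, fun h => ⟨Finset.mem_univ _, h⟩⟩
    rw [support₂, Finset.mem_filter] at hi
    unfold lvl
    by_cases h : z i % 4 = m % 4
    · rw [if_pos h]
      exact (by decide : ∀ a : ZMod 2, a ≠ 0 → a = 1) _ (hi.mpr h).2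
    · rw [if_neg h]
      by_contra hne
      exact h (hi.mp ⟨Finset.mem_univ _, hne⟩)
  rw [← hwl]
  exact hw

theorem leechInv_zero : LeechInv 0 := by
  refine ⟨0, fun i => rfl, by simp, ?_⟩
  have h : lvl 0 0 = 1 := by
    funext i
    simp [lvl]
  rw [h]
  exact one_mem_golay

theorem leechInv_neg {z : GolayPt → ℤ} (hz : LeechInv z) : LeechInv (-z) := by
  obtain ⟨m, h1, h2, h3⟩ := hz
  refine ⟨-m, fun i => ?_, ?_, ?_⟩
  · have := h1 i
    simp only [Pi.neg_apply]
    omega
  · have h : ∑ i, (-z) i = -∑ i, z i := by simp [Finset.sum_neg_distrib]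
    rw [h]
    omega
  · have h : lvl (-z) (-m) = lvl z m := by
      funext i
      unfold lvl
      simp only [Pi.neg_apply]
      have hiff : (-z i) % 4 = (-m) % 4 ↔ z i % 4 = m % 4 := by omega
      by_cases h : z i % 4 = m % 4
      · rw [if_pos h, if_pos (hiff.mpr h)]
      · rw [if_neg h, if_neg (fun h' => h (hiff.mp h'))]
    rw [h]
    exact h3

theorem leechInv_add {x y : GolayPt → ℤ} (hx : LeechInv x) (hy : LeechInv y) :
    LeechInv (x + y) := by
  obtain ⟨m, h1, h2, h3⟩ := hx
  obtain ⟨m', h1', h2', h3'⟩ := hy
  refine ⟨m + m', fun i => ?_, ?_, ?_⟩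
  · have := h1 i
    have := h1' i
    simp only [Pi.add_apply]
    omega
  · have h : ∑ i, (x + y) i = ∑ i, x i + ∑ i, y i := by simp [Finset.sum_add_distrib]
    rw [h]
    omega
  · have h : lvl (x + y) (m + m') = lvl x m + lvl y m' + 1 := by
      funext i
      have a := h1 i
      have b := h1' i
      simp only [lvl, Pi.add_apply, Pi.one_apply]
      by_cases hx : x i % 4 = m % 4 <;> by_cases hy : y i % 4 = m' % 4
      · have : (x i + y i) % 4 = (m + m') % 4 := by omega
        rw [if_pos hx, if_pos hy, if_pos this]
        decide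
      · have : ¬ (x i + y i) % 4 = (m + m') % 4 := by omega
        rw [if_pos hx, if_neg hy, if_neg this]
        decide
      · have : ¬ (x i + y i) % 4 = (m + m') % 4 := by omega
        rw [if_neg hx, if_pos hy, if_neg this]
        decide
      · have : (x i + y i) % 4 = (m + m') % 4 := by omega
        rw [if_neg hx, if_neg hy, if_pos this]
        decide
    rw [h]
    exact golayCode.add_mem (golayCode.add_mem h3 h3') one_mem_golay

theorem leechLattice_inv {z : GolayPt → ℤ} (hz : z ∈ leechLattice) : LeechInv z := by
  unfold leechLattice at hz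
  induction hz using AddSubgroup.closure_induction with
  | mem x hx => exact leechSet_inv hx
  | zero => exact leechInv_zero
  | add x y _ _ hx hy => exact leechInv_add hx hy
  | neg x _ hx => exact leechInv_neg hx

/-- The minimal squared length of the Leech lattice (in the integral normalisation) is 32. -/
theorem leech_min_norm {z : GolayPt → ℤ} (hz : z ∈ leechLattice) (h0 : z ≠ 0) :
    32 ≤ sqNorm z := by
  obtain ⟨m, h1, h2, h3⟩ := leechLattice_inv hz
  unfold sqNorm
  have hcard : (Finset.univ : Finset GolayPt).card = 24 := by decide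
  have hw := Cfsg.Agent.Helper1.Golay.hammingNorm_eq _ h3
  have hT : hammingNorm (lvl z m) = (Finset.univ.filter (fun i => z i % 4 = m % 4)).card := by
    unfold hammingNorm
    congr 1
    apply Finset.filter_congr
    intro i _
    unfold lvl
    by_cases h : z i % 4 = m % 4
    · simp [h]
    · simp [h]
  rw [hT] at hw
  rcases Int.emod_two_eq_zero_or_one m with hm | hm
  · have hT2 : (Finset.univ.filter (fun i => z i % 4 = 2)).card = 0 ∨
        8 ≤ (Finset.univ.filter (fun i => z i % 4 = 2)).card := by
      rcases (by omega : m % 4 = 0 ∨ m % 4 = 2) with hm4 | hm4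
      · have hcompl : (Finset.univ.filter (fun i => z i % 4 = m % 4)).card +
            (Finset.univ.filter (fun i => z i % 4 = 2)).card = 24 := by
          have e := Finset.card_filter_add_card_filter_not (s := (Finset.univ : Finset GolayPt))
            (fun i => z i % 4 = m % 4)
          rw [hcard] at e
          have hB : Finset.univ.filter (fun i => z i % 4 = 2) =
              Finset.univ.filter (fun i => ¬ z i % 4 = m % 4) := by
            apply Finset.filter_congr
            intro i _
            have := h1 i
            omega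
          rw [hB]
          exact e
        omega
      · have heq : Finset.univ.filter (fun i => z i % 4 = 2) =
            Finset.univ.filter (fun i => z i % 4 = m % 4) := by
          apply Finset.filter_congr
          intro i _
          omega
        rw [heq]
        omega
    rcases hT2 with h20 | h28
    · have hall : ∀ i, z i % 4 = 0 := by
        intro i
        have hi : i ∉ Finset.univ.filter (fun i => z i % 4 = 2) := by
          rw [Finset.card_eq_zero.mp h20]
          exact Finset.notMem_empty i
        rw [Finset.mem_filter] at hi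
        have := h1 i
        have : ¬ z i % 4 = 2 := fun h => hi ⟨Finset.mem_univ _, h⟩
        omega
      obtain ⟨j, hj⟩ : ∃ j, z j ≠ 0 := by
        by_contra hne
        push_neg at hne
        exact h0 (funext hne)
      have h16 : ∀ l, z l ≠ 0 → 16 ≤ z l ^ 2 := by
        intro l hl
        have := hall l
        have h4 : 4 ≤ z l ∨ z l ≤ -4 := by omega
        rcases h4 with h4 | h4 <;> nlinarith
      by_cases hother : ∃ l, l ≠ j ∧ z l ≠ 0
      · obtain ⟨l, hlj, hl⟩ := hother
        have hle : z j ^ 2 + z l ^ 2 ≤ ∑ i, z i ^ 2 := by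
          have hsub : ({j, l} : Finset GolayPt) ⊆ Finset.univ := Finset.subset_univ _
          have := Finset.sum_le_sum_of_subset_of_nonneg hsub (f := fun i => z i ^ 2)
            (fun i _ _ => sq_nonneg _)
          rw [Finset.sum_pair hlj.symm] at this
          exact this
        have ha := h16 j hj
        have hb := h16 l hl
        linarith
      · push_neg at hother
        have hsum : ∑ i, z i = z j := by
          rw [Finset.sum_eq_single j]
          · intro b _ hb
            exact hother b hb
          · intro h
            exact absurd (Finset.mem_univ j) h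
        rw [hsum] at h2
        have h8 : 8 ≤ z j ∨ z j ≤ -8 := by omega
        have h64 : 64 ≤ z j ^ 2 := by rcases h8 with h8 | h8 <;> nlinarith
        have hle : z j ^ 2 ≤ ∑ i, z i ^ 2 :=
          Finset.single_le_sum (f := fun i => z i ^ 2) (fun i _ => sq_nonneg _) (Finset.mem_univ j)
        linarith
    · have hge : (Finset.univ.filter (fun i => z i % 4 = 2)).card • (4 : ℤ) ≤
          ∑ i ∈ Finset.univ.filter (fun i => z i % 4 = 2), z i ^ 2 := by
        apply Finset.card_nsmul_le_sum
        intro i hi
        rw [Finset.mem_filter] at hi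
        have h2' : 2 ≤ z i ∨ z i ≤ -2 := by omega
        rcases h2' with h2' | h2' <;> nlinarith
      have h4 : ∑ i ∈ Finset.univ.filter (fun i => z i % 4 = 2), z i ^ 2 ≤ ∑ i, z i ^ 2 :=
        Finset.sum_le_sum_of_subset_of_nonneg (Finset.filter_subset _ _) (fun i _ _ => sq_nonneg _)
      rw [nsmul_eq_mul] at hge
      have h5 : (8 : ℤ) ≤ ((Finset.univ.filter (fun i => z i % 4 = 2)).card : ℤ) := by
        exact_mod_cast h28
      linarith
  · by_contra hlt
    push_neg at hlt
    have hodd : ∀ i, z i % 2 = 1 := fun i => by
      have := h1 i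
      omega
    have hge1 : ∀ i, 1 ≤ z i ^ 2 := by
      intro i
      have := hodd i
      have h1' : 1 ≤ z i ∨ z i ≤ -1 := by omega
      rcases h1' with h1' | h1' <;> nlinarith
    have hpm : ∀ j, z j = 1 ∨ z j = -1 := by
      intro j
      by_contra hne
      push_neg at hne
      have := hodd j
      have h3' : 3 ≤ z j ∨ z j ≤ -3 := by omega
      have h9 : 9 ≤ z j ^ 2 := by rcases h3' with h3' | h3' <;> nlinarith
      have hsplit : ∑ i, z i ^ 2 = z j ^ 2 + ∑ i ∈ Finset.univ.erase j, z i ^ 2 := by
        exact (Finset.add_sum_erase Finset.univ (fun i => z i ^ 2) (Finset.mem_univ j)).symm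
      have h23 : (23 : ℤ) ≤ ∑ i ∈ Finset.univ.erase j, z i ^ 2 := by
        have h := Finset.card_nsmul_le_sum (Finset.univ.erase j) (fun i => z i ^ 2) (1 : ℤ)
          (fun i _ => hge1 i)
        rw [Finset.card_erase_of_mem (Finset.mem_univ j), hcard] at h
        simpa using h
      linarith
    rcases (by omega : m % 4 = 1 ∨ m % 4 = 3) with hm4 | hm4
    · have hval : ∀ i, z i = 2 * (if z i % 4 = m % 4 then 1 else 0) - 1 := by
        intro i
        rcases hpm i with h | h
        · have hc : z i % 4 = m % 4 := by omega
          rw [if_pos hc, h]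
          norm_num
        · have hc : ¬ z i % 4 = m % 4 := by omega
          rw [if_neg hc, h]
          norm_num
      have hsum : ∑ i, z i =
          2 * ((Finset.univ.filter (fun i => z i % 4 = m % 4)).card : ℤ) - 24 := by
        rw [Finset.sum_congr rfl (fun i _ => hval i)]
        rw [Finset.sum_sub_distrib, ← Finset.mul_sum, Finset.sum_boole, Finset.sum_const, hcard]
        simp
      rw [hsum] at h2
      rcases hw with h | h | h | h | h <;> rw [h] at h2 <;> omega
    · have hval : ∀ i, z i = 1 - 2 * (if z i % 4 = m % 4 then 1 else 0) := by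
        intro i
        rcases hpm i with h | h
        · have hc : ¬ z i % 4 = m % 4 := by omega
          rw [if_neg hc, h]
          norm_num
        · have hc : z i % 4 = m % 4 := by omega
          rw [if_pos hc, h]
          norm_num
      have hsum : ∑ i, z i =
          24 - 2 * ((Finset.univ.filter (fun i => z i % 4 = m % 4)).card : ℤ) := by
        rw [Finset.sum_congr rfl (fun i _ => hval i)]
        rw [Finset.sum_sub_distrib, ← Finset.mul_sum, Finset.sum_boole, Finset.sum_const, hcard]
        simp
      rw [hsum] at h2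
      rcases hw with h | h | h | h | h <;> rw [h] at h2 <;> omega

theorem sqNorm_two_smul9 (z : GolayPt → ℤ) : sqNorm (2 • z) = 4 * sqNorm z := by
  unfold sqNorm
  rw [Finset.mul_sum]
  apply Finset.sum_congr rfl
  intro i _
  simp only [Pi.smul_apply, smul_eq_mul]
  ring

theorem sqNorm_sub9 (x y : GolayPt → ℤ) :
    sqNorm (x - y) = sqNorm x + sqNorm y - 2 * dotInt x y := by
  unfold sqNorm dotInt
  rw [Finset.mul_sum, ← Finset.sum_add_distrib, ← Finset.sum_sub_distrib]
  apply Finset.sum_congr rfl
  intro i _
  simp only [Pi.sub_apply]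
  ring

theorem sqNorm_add9 (x y : GolayPt → ℤ) :
    sqNorm (x + y) = sqNorm x + sqNorm y + 2 * dotInt x y := by
  unfold sqNorm dotInt
  rw [Finset.mul_sum, ← Finset.sum_add_distrib, ← Finset.sum_add_distrib]
  apply Finset.sum_congr rfl
  intro i _
  simp only [Pi.add_apply]
  ring

/-- Two distinct short vectors of the Leech lattice congruent modulo twice the lattice are
opposite, or both of squared length 64 and orthogonal. -/
theorem leech_congr_mod_two (x y : GolayPt → ℤ) (hx : x ∈ leechLattice) (hy : y ∈ leechLattice)
    (hxy : x ≠ y) (hxn : sqNorm x ≤ 64) (hyn : sqNorm y ≤ 64)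
    (hc : ∃ z ∈ leechLattice, x - y = 2 • z) :
    x = -y ∨ (sqNorm x = 64 ∧ sqNorm y = 64 ∧ dotInt x y = 0) := by
  obtain ⟨z, hz, hxyz⟩ := hc
  by_cases hneg : x = -y
  · exact Or.inl hneg
  right
  have hz0 : z ≠ 0 := by
    rintro rfl
    apply hxy
    have : x - y = 0 := by rw [hxyz]; simp
    exact sub_eq_zero.mp this
  have hzy : z + y ∈ leechLattice := leechLattice.add_mem hz hy
  have hsum : x + y = 2 • (z + y) := by
    have : x = 2 • z + y := by rw [← hxyz]; abel
    rw [this]
    simp only [two_smul]
    abel
  have hzy0 : z + y ≠ 0 := by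
    intro h
    apply hneg
    rw [h] at hsum
    have : x + y = 0 := by rw [hsum]; simp
    exact eq_neg_of_add_eq_zero_left this
  have a1 := leech_min_norm hz hz0
  have a2 := leech_min_norm hzy hzy0
  have b1 : sqNorm (x - y) = 4 * sqNorm z := by rw [hxyz, sqNorm_two_smul9]
  have b2 : sqNorm (x + y) = 4 * sqNorm (z + y) := by rw [hsum, sqNorm_two_smul9]
  have c1 := sqNorm_sub9 x y
  have c2 := sqNorm_add9 x y
  refine ⟨by linarith, by linarith, by linarith⟩

end Cfsg.Agent.Helper9
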