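import Mathlib
import Cfsg.Agent.Helper1.Leech2

set_option autoImplicit false

namespace Cfsg.Agent.Helper9

open Cfsg Cfsg.Agent.Helper1.Golay
open scoped Pointwise

theorem smul_mem_supports9 {σ : Equiv.Perm GolayPt} (hσ : σ ∈ M24) {s : Finset GolayPt}
    (hs : s ∈ supports (golayCode : Set (GolayPt → ZMod 2))) :
    σ • s ∈ supports (golayCode : Set (GolayPt → ZMod 2)) := by
  rw [M24, setSystemAut, MulAction.mem_stabilizer_set' (Set.toFinite _)] at hσ
  exact hσ hs

/-- Coordinate permutations in `M24` preserve the Leech lattice. -/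
theorem leech_perm9 {σ : Equiv.Perm GolayPt} (hσ : σ ∈ M24) {x : GolayPt → ℤ}
    (hx : x ∈ leechSet) : (fun i => x (σ.symm i)) ∈ leechSet := by
  obtain ⟨m, h1, h2, h3⟩ := hx
  refine ⟨m, fun i => h1 _, ?_, fun k => ?_⟩
  · rw [Equiv.sum_comp σ.symm x]
    exact h2
  · have e : (Finset.univ.filter fun i => x (σ.symm i) ≡ k [ZMOD 4])
        = σ • (Finset.univ.filter fun i => x i ≡ k [ZMOD 4]) := by
      ext i
      rw [← Finset.inv_smul_mem_iff, Finset.mem_filter, Finset.mem_filter]
      simp only [Finset.mem_univ, true_and]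
      rfl
    rw [e]
    exact smul_mem_supports9 hσ (h3 k)

/-- The sign vector of a set of coordinates. -/
def sgn9 (S : Finset GolayPt) (i : GolayPt) : ℤ := if i ∈ S then -1 else 1

/-- Sign changes on the support of a codeword preserve the Leech lattice. -/
theorem leech_sign9 {S : Finset GolayPt}
    (hS : S ∈ supports (golayCode : Set (GolayPt → ZMod 2))) {x : GolayPt → ℤ}
    (hx : x ∈ leechSet) : (fun i => sgn9 S i * x i) ∈ leechSet := by
  classical
  obtain ⟨m, h1, h2, h3⟩ := hx
  refine ⟨m, fun i => ?_, ?_, fun k => ?_⟩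
  · have h := h1 i
    show sgn9 S i * x i ≡ m [ZMOD 2]
    unfold sgn9
    by_cases hi : i ∈ S
    · rw [if_pos hi]
      simp only [Int.ModEq] at h ⊢
      omega
    · rw [if_neg hi]
      simp only [Int.ModEq] at h ⊢
      omega
  · have hsum : ∑ i, sgn9 S i * x i = ∑ i, x i - 2 * ∑ i ∈ S, x i := by
      have e : ∀ i, sgn9 S i * x i = x i - 2 * (if i ∈ S then x i else 0) := by
        intro i
        unfold sgn9
        by_cases hi : i ∈ S
        · rw [if_pos hi, if_pos hi]
          ring
        · rw [if_neg hi, if_neg hi]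
          ring
      simp only [e]
      rw [Finset.sum_sub_distrib, ← Finset.mul_sum, Finset.sum_ite_mem, Finset.univ_inter]
    rw [hsum]
    have h4 := sum_supports_modEq h1 (h3 (m + 2)) hS
    simp only [Int.ModEq] at h2 h4 ⊢
    omega
  · by_cases hk : k % 2 = m % 2
    · by_cases hm : m % 2 = 0
      · have e : (Finset.univ.filter fun i => sgn9 S i * x i ≡ k [ZMOD 4])
            = (Finset.univ.filter fun i => x i ≡ k [ZMOD 4]) := by
          ext i
          simp only [Finset.mem_filter, Finset.mem_univ, true_and]
          have h := h1 i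
          unfold sgn9
          by_cases hi : i ∈ S
          · rw [if_pos hi]
            simp only [Int.ModEq] at h ⊢
            omega
          · rw [if_neg hi, one_mul]
        rw [e]
        exact h3 k
      · have e : (Finset.univ.filter fun i => sgn9 S i * x i ≡ k [ZMOD 4])
            = symmDiff S (Finset.univ.filter fun i => x i ≡ k [ZMOD 4]) := by
          ext i
          simp only [Finset.mem_symmDiff, Finset.mem_filter, Finset.mem_univ, true_and]
          have h := h1 i
          unfold sgn9
          by_cases hi : i ∈ S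
          · rw [if_pos hi]
            simp only [hi, true_and, not_true, and_false, or_false]
            simp only [Int.ModEq] at h ⊢
            omega
          · rw [if_neg hi]
            simp only [hi, false_and, false_or, not_false_iff, and_true, one_mul]
        rw [e]
        exact symmDiff_mem_supports hS (h3 k)
    · have e : (Finset.univ.filter fun i => sgn9 S i * x i ≡ k [ZMOD 4]) = ∅ := by
        ext i
        simp only [Finset.mem_filter, Finset.mem_univ, true_and, Finset.notMem_empty, iff_false]
        have h := h1 i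
        unfold sgn9
        by_cases hi : i ∈ S
        · rw [if_pos hi]
          simp only [Int.ModEq] at h ⊢
          omega
        · rw [if_neg hi]
          simp only [Int.ModEq] at h ⊢
          omega
      rw [e]
      exact supports_empty

/-- The monomial map attached to a coordinate permutation and a sign set. -/
def mono9 (σ : Equiv.Perm GolayPt) (S : Finset GolayPt) (x : GolayPt → ℤ) : GolayPt → ℤ :=
  fun i => sgn9 S i * x (σ.symm i)

theorem mono9_mem {σ : Equiv.Perm GolayPt} (hσ : σ ∈ M24) {S : Finset GolayPt}
    (hS : S ∈ supports (golayCode : Set (GolayPt → ZMod 2))) {x : GolayPt → ℤ}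
    (hx : x ∈ leechLattice) : mono9 σ S x ∈ leechLattice := by
  rw [mem_leechLattice_iff] at hx ⊢
  exact leech_sign9 hS (leech_perm9 hσ hx)

theorem sqNorm_mono9 (σ : Equiv.Perm GolayPt) (S : Finset GolayPt) (x : GolayPt → ℤ) :
    sqNorm (mono9 σ S x) = sqNorm x := by
  unfold sqNorm mono9
  have e : ∀ i, (sgn9 S i * x (σ.symm i)) ^ 2 = x (σ.symm i) ^ 2 := by
    intro i
    unfold sgn9
    split_ifs <;> ring
  simp only [e]
  exact Equiv.sum_comp σ.symm (fun i => x i ^ 2)

theorem mono9_add (σ : Equiv.Perm GolayPt) (S : Finset GolayPt) (x y : GolayPt → ℤ) :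
    mono9 σ S (x + y) = mono9 σ S x + mono9 σ S y := by
  funext i
  simp [mono9, mul_add]

theorem mono9_neg (σ : Equiv.Perm GolayPt) (S : Finset GolayPt) (x : GolayPt → ℤ) :
    mono9 σ S (-x) = -mono9 σ S x := by
  funext i
  simp [mono9]

theorem four_mem_leech : (fun _ : GolayPt => (4 : ℤ)) ∈ leechLattice := by
  rw [mem_leechLattice_iff]
  refine ⟨0, fun i => (by decide : (4 : ℤ) ≡ 0 [ZMOD 2]), ?_, fun k => ?_⟩
  · rw [Finset.sum_const, Finset.card_univ, card_golayPt]
    decide
  · by_cases hk : (4 : ℤ) ≡ k [ZMOD 4]
    · rw [Finset.filter_true_of_mem (fun i _ => hk)]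
      exact supports_univ
    · rw [Finset.filter_false_of_mem (fun i _ => hk)]
      exact supports_empty

end Cfsg.Agent.Helper9
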