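import Mathlib
import Cfsg.Agent.Helper1.Golay6
import Cfsg.Agent.Helper9.LeechMono
import Cfsg.Agent.Helper9.M24Dodecad

set_option autoImplicit false

namespace Cfsg.Agent.Helper9

open Cfsg Cfsg.Agent.Helper1.Golay
open scoped Pointwise

theorem projInv_mem_M24 : projInv ∈ M24 := genGroup_le projInv_mem

theorem squareDodecad_supports :
    Spor.squareDodecad ∈ supports (golayCode : Set (GolayPt → ZMod 2)) := squareDodecad_mem.1

theorem projInv_symm_symm : ∀ i : GolayPt, projInv.symm (projInv.symm i) = i := by decide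

theorem sgn9_projInv : ∀ i : GolayPt,
    sgn9 Spor.squareDodecad i * sgn9 Spor.squareDodecad (projInv.symm i) = -1 := by
  decide +kernel

/-- The monomial map of order 4 squares to negation. -/
theorem mono9_sq (x : GolayPt → ℤ) :
    mono9 projInv Spor.squareDodecad (mono9 projInv Spor.squareDodecad x) = -x := by
  funext i
  simp only [mono9, Pi.neg_apply]
  rw [projInv_symm_symm, ← mul_assoc, sgn9_projInv]
  ring

/-- An automorphism of the Leech lattice whose square is negation. -/
def quarter9 : Equiv.Perm ↥leechLattice where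
  toFun v := ⟨mono9 projInv Spor.squareDodecad v.1,
    mono9_mem projInv_mem_M24 squareDodecad_supports v.2⟩
  invFun v := ⟨-mono9 projInv Spor.squareDodecad v.1,
    neg_mem (mono9_mem projInv_mem_M24 squareDodecad_supports v.2)⟩
  left_inv v := by
    apply Subtype.ext
    simp only
    rw [mono9_sq, neg_neg]
  right_inv v := by
    apply Subtype.ext
    simp only
    rw [mono9_neg, mono9_sq, neg_neg]

theorem quarter9_mem : quarter9 ∈ Co0 := by
  refine ⟨fun v w => ?_, fun v => ?_⟩
  · apply Subtype.ext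
    exact mono9_add _ _ _ _
  · exact sqNorm_mono9 _ _ _

theorem neg_mem_Co0 : Equiv.neg ↥leechLattice ∈ Co0 := by
  refine ⟨fun v w => ?_, fun v => ?_⟩
  · exact neg_add v w
  · show sqNorm (-(v : GolayPt → ℤ)) = sqNorm (v : GolayPt → ℤ)
    unfold sqNorm
    simp

theorem co0_nonsplit :
    ∃ n : ↥Co0, (∀ v : ↥leechLattice,
        ((n • v : ↥leechLattice) : GolayPt → ℤ) = -(v : GolayPt → ℤ)) ∧
      ∀ K : Subgroup ↥Co0, ¬ (Subgroup.zpowers n).IsComplement' K := by
  refine ⟨⟨Equiv.neg ↥leechLattice, neg_mem_Co0⟩, fun v => rfl, ?_⟩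
  intro K hK
  set n : ↥Co0 := ⟨Equiv.neg ↥leechLattice, neg_mem_Co0⟩ with hn
  set g : ↥Co0 := ⟨quarter9, quarter9_mem⟩ with hg
  have hgg : g * g = n := by
    apply Subtype.ext
    apply Equiv.ext
    intro v
    apply Subtype.ext
    exact mono9_sq v.1
  have hnn : n * n = 1 := by
    apply Subtype.ext
    apply Equiv.ext
    intro v
    exact neg_neg v
  have hcent : ∀ y : ↥Co0, Commute n y := by
    intro y
    apply Subtype.ext
    apply Equiv.ext
    intro v
    show -(y.1 v) = y.1 (-v)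
    have h1 := y.2.1 v (-v)
    rw [add_neg_cancel] at h1
    have h0 := y.2.1 0 0
    rw [add_zero] at h0
    have h00 : y.1 0 = 0 := by
      have := h0
      exact left_eq_add.mp this
    rw [h00] at h1
    exact (neg_eq_of_add_eq_zero_right h1.symm)
  have hn1 : n ≠ 1 := by
    intro h
    have h1 := congrArg (fun f : ↥Co0 => ((f.1 ⟨_, four_mem_leech⟩ : ↥leechLattice) :
      GolayPt → ℤ) none) h
    simp only [hn] at h1
    revert h1
    decide
  obtain ⟨⟨h, k⟩, hhk⟩ := hK.2 g
  simp only at hhk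
  have hh : h.1 * h.1 = 1 := by
    obtain ⟨j, hj⟩ := Subgroup.mem_zpowers_iff.mp h.2
    rw [← hj, ← zpow_add, ← two_mul, zpow_mul, zpow_ofNat, pow_two, hnn, one_zpow]
  have hcomm : Commute h.1 k.1 := by
    obtain ⟨j, hj⟩ := Subgroup.mem_zpowers_iff.mp h.2
    rw [← hj]
    exact (hcent k.1).zpow_left j
  have hkk : n = k.1 * k.1 := by
    rw [← hgg, ← hhk]
    calc h.1 * k.1 * (h.1 * k.1) = h.1 * (k.1 * h.1) * k.1 := by group
      _ = h.1 * (h.1 * k.1) * k.1 := by rw [hcomm.eq]
      _ = (h.1 * h.1) * (k.1 * k.1) := by group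
      _ = k.1 * k.1 := by rw [hh, one_mul]
  have hnK : n ∈ K := by
    rw [hkk]
    exact K.mul_mem k.2 k.2
  have hdis := hK.disjoint
  have hbot : n ∈ (⊥ : Subgroup ↥Co0) := by
    rw [← disjoint_iff.mp hdis]
    exact ⟨Subgroup.mem_zpowers n, hnK⟩
  exact hn1 (Subgroup.mem_bot.mp hbot)

end Cfsg.Agent.Helper9
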