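import Mathlib
import Cfsg.Agent.Helper1.Leech3

set_option autoImplicit false

namespace Cfsg.Agent.Helper9

open Cfsg Cfsg.Agent.Helper1.Golay

/-- The relative index of the kernel of a surjective homomorphism. -/
theorem relIndex_of_hom9 {G M : Type*} [AddGroup G] [AddGroup M] (H K : AddSubgroup G)
    (f : ↥K →+ M) (hf : Function.Surjective f) (hker : ∀ x : ↥K, f x = 0 ↔ (x : G) ∈ H) :
    H.relIndex K = Nat.card M := by
  have e : H.addSubgroupOf K = f.ker := by
    ext x
    rw [AddSubgroup.mem_addSubgroupOf, AddMonoidHom.mem_ker, hker]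
  rw [AddSubgroup.relIndex, e, AddSubgroup.index_ker, AddMonoidHom.range_eq_top.mpr hf,
    AddSubgroup.card_top]

/-- The lattice vectors with even coordinates. -/
def leechEven : AddSubgroup (GolayPt → ℤ) where
  carrier := {x | x ∈ leechLattice ∧ ∀ i, x i % 2 = 0}
  zero_mem' := ⟨zero_mem _, fun i => rfl⟩
  add_mem' := fun {a b} ha hb => ⟨add_mem ha.1 hb.1, fun i => by
    have h1 := ha.2 i
    have h2 := hb.2 i
    simp only [Pi.add_apply]
    omega⟩
  neg_mem' := fun {a} ha => ⟨neg_mem ha.1, fun i => by
    have h1 := ha.2 i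
    simp only [Pi.neg_apply]
    omega⟩

/-- The lattice vectors with coordinates divisible by 4. -/
def leechFour : AddSubgroup (GolayPt → ℤ) where
  carrier := {x | x ∈ leechLattice ∧ ∀ i, x i % 4 = 0}
  zero_mem' := ⟨zero_mem _, fun i => rfl⟩
  add_mem' := fun {a b} ha hb => ⟨add_mem ha.1 hb.1, fun i => by
    have h1 := ha.2 i
    have h2 := hb.2 i
    simp only [Pi.add_apply]
    omega⟩
  neg_mem' := fun {a} ha => ⟨neg_mem ha.1, fun i => by
    have h1 := ha.2 i
    simp only [Pi.neg_apply]
    omega⟩

/-- The lattice vectors whose coordinates are all divisible by 4 or all congruent to 2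
modulo 4. -/
def leechSing : AddSubgroup (GolayPt → ℤ) where
  carrier := {x | x ∈ leechLattice ∧ ((∀ i, x i % 4 = 0) ∨ (∀ i, x i % 4 = 2))}
  zero_mem' := ⟨zero_mem _, Or.inl fun i => rfl⟩
  add_mem' := fun {a b} ha hb => ⟨add_mem ha.1 hb.1, by
    rcases ha.2 with h1 | h1 <;> rcases hb.2 with h2 | h2
    · left
      intro i
      have h3 := h1 i
      have h4 := h2 i
      simp only [Pi.add_apply]
      omega
    · right
      intro i
      have h3 := h1 i
      have h4 := h2 i
      simp only [Pi.add_apply]
      omega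
    · right
      intro i
      have h3 := h1 i
      have h4 := h2 i
      simp only [Pi.add_apply]
      omega
    · left
      intro i
      have h3 := h1 i
      have h4 := h2 i
      simp only [Pi.add_apply]
      omega⟩
  neg_mem' := fun {a} ha => ⟨neg_mem ha.1, by
    rcases ha.2 with h1 | h1
    · left
      intro i
      have h3 := h1 i
      simp only [Pi.neg_apply]
      omega
    · right
      intro i
      have h3 := h1 i
      simp only [Pi.neg_apply]
      omega⟩

theorem leechEven_le : leechEven ≤ leechLattice := fun _ hx => hx.1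

theorem leechSing_le_even : leechSing ≤ leechEven := fun x hx => ⟨hx.1, fun i => by
  rcases hx.2 with h | h
  · have := h i
    omega
  · have := h i
    omega⟩

theorem leechFour_le_sing : leechFour ≤ leechSing := fun _ hx => ⟨hx.1, Or.inl hx.2⟩

/-- The word of halved coordinates modulo 2. -/
def halfWord (x : GolayPt → ℤ) : GolayPt → ZMod 2 := fun i => ((x i / 2 : ℤ) : ZMod 2)

theorem halfWord_add {x y : GolayPt → ℤ} (hx : ∀ i, x i % 2 = 0) (hy : ∀ i, y i % 2 = 0) :
    halfWord (x + y) = halfWord x + halfWord y := by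
  funext i
  simp only [halfWord, Pi.add_apply]
  rw [← Int.cast_add]
  congr 1
  have h1 := hx i
  have h2 := hy i
  omega

theorem halfWord_ne_zero_iff {x : GolayPt → ℤ} (hx : ∀ i, x i % 2 = 0) (i : GolayPt) :
    halfWord x i ≠ 0 ↔ x i % 4 = 2 := by
  unfold halfWord
  rw [Ne, ZMod.intCast_zmod_eq_zero_iff_dvd]
  have h1 := hx i
  omega

theorem halfWord_mem {x : GolayPt → ℤ} (hx : x ∈ leechLattice) (he : ∀ i, x i % 2 = 0) :
    halfWord x ∈ golayCode := by
  rw [mem_leechLattice_iff] at hx
  obtain ⟨m, h1, h2, h3⟩ := hx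
  obtain ⟨w, hw, hs⟩ := h3 2
  have e : w = halfWord x := by
    apply support₂_injective
    rw [hs]
    ext i
    rw [Finset.mem_filter, mem_support₂, halfWord_ne_zero_iff he]
    simp only [Finset.mem_univ, true_and, Int.ModEq]
    omega
  rw [← e]
  exact hw

/-- Twice a codeword, as an integer vector. -/
def twice9 (c : GolayPt → ZMod 2) : GolayPt → ℤ := fun i => if c i = 0 then 0 else 2

theorem twice9_mem {c : GolayPt → ZMod 2} (hc : c ∈ golayCode) : twice9 c ∈ leechLattice := by
  classical
  rw [mem_leechLattice_iff]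
  refine ⟨0, fun i => ?_, ?_, fun k => ?_⟩
  · show twice9 c i ≡ 0 [ZMOD 2]
    unfold twice9
    split_ifs <;> decide
  · have hsum : ∑ i, twice9 c i = 2 * ((support₂ c).card : ℤ) := by
      have e : ∀ i, twice9 c i = 2 * (if c i ≠ 0 then (1 : ℤ) else 0) := by
        intro i
        unfold twice9
        by_cases h : c i = 0
        · simp [h]
        · simp [h]
      simp only [e]
      rw [← Finset.mul_sum, Finset.sum_boole]
      rfl
    rw [hsum, card_support₂]
    rcases hammingNorm_eq c hc with h | h | h | h | h <;> rw [h] <;> decide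
  · by_cases h0 : k % 4 = 0
    · have e : (Finset.univ.filter fun i => twice9 c i ≡ k [ZMOD 4]) = (support₂ c)ᶜ := by
        ext i
        rw [Finset.mem_filter, Finset.mem_compl, mem_support₂]
        simp only [Finset.mem_univ, true_and, Int.ModEq]
        unfold twice9
        by_cases h : c i = 0
        · rw [if_pos h]
          simp only [h, ne_eq, not_true, not_false_iff, iff_true]
          omega
        · rw [if_neg h]
          simp only [h, ne_eq, not_false_iff, not_true, iff_false]
          omega
      rw [e]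
      exact supports_compl ⟨c, hc, rfl⟩
    · by_cases h2 : k % 4 = 2
      · have e : (Finset.univ.filter fun i => twice9 c i ≡ k [ZMOD 4]) = support₂ c := by
          ext i
          rw [Finset.mem_filter, mem_support₂]
          simp only [Finset.mem_univ, true_and, Int.ModEq]
          unfold twice9
          by_cases h : c i = 0
          · rw [if_pos h]
            simp only [h, ne_eq, not_true, iff_false]
            omega
          · rw [if_neg h]
            simp only [h, ne_eq, not_false_iff, iff_true]
            omega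
        rw [e]
        exact ⟨c, hc, rfl⟩
      · have e : (Finset.univ.filter fun i => twice9 c i ≡ k [ZMOD 4]) = ∅ := by
          ext i
          rw [Finset.mem_filter]
          simp only [Finset.mem_univ, true_and, Finset.notMem_empty, iff_false, Int.ModEq]
          unfold twice9
          split_ifs <;> omega
        rw [e]
        exact supports_empty

theorem twice9_even (c : GolayPt → ZMod 2) (i : GolayPt) : twice9 c i % 2 = 0 := by
  unfold twice9
  split_ifs <;> rfl

theorem halfWord_twice9 (c : GolayPt → ZMod 2) : halfWord (twice9 c) = c := by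
  funext i
  unfold halfWord twice9
  by_cases h : c i = 0
  · rw [if_pos h, h]
    rfl
  · rw [if_neg h]
    have h1 : c i = 1 := (by decide : ∀ a : ZMod 2, a ≠ 0 → a = 1) _ h
    rw [h1]
    rfl

/-- The odd vector `(-3, 1, …, 1)`. -/
def oddVec9 : GolayPt → ℤ := fun i => if i = none then -3 else 1

theorem oddVec9_mem : oddVec9 ∈ leechLattice := by
  rw [mem_leechLattice_iff]
  refine ⟨1, fun i => ?_, by decide +kernel, fun k => ?_⟩
  · show oddVec9 i ≡ 1 [ZMOD 2]
    unfold oddVec9
    split_ifs <;> decide
  · by_cases h1 : k % 4 = 1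
    · have e : (Finset.univ.filter fun i => oddVec9 i ≡ k [ZMOD 4]) = Finset.univ := by
        apply Finset.filter_true_of_mem
        intro i _
        unfold oddVec9
        simp only [Int.ModEq]
        split_ifs <;> omega
      rw [e]
      exact supports_univ
    · have e : (Finset.univ.filter fun i => oddVec9 i ≡ k [ZMOD 4]) = ∅ := by
        apply Finset.filter_false_of_mem
        intro i _
        unfold oddVec9
        simp only [Int.ModEq]
        split_ifs <;> omega
      rw [e]
      exact supports_empty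

theorem two_mem_leech : (fun _ : GolayPt => (2 : ℤ)) ∈ leechLattice := by
  rw [mem_leechLattice_iff]
  refine ⟨0, fun i => (by decide : (2 : ℤ) ≡ 0 [ZMOD 2]), ?_, fun k => ?_⟩
  · rw [Finset.sum_const, Finset.card_univ, card_golayPt]
    decide
  · by_cases hk : (2 : ℤ) ≡ k [ZMOD 4]
    · rw [Finset.filter_true_of_mem (fun i _ => hk)]
      exact supports_univ
    · rw [Finset.filter_false_of_mem (fun i _ => hk)]
      exact supports_empty

theorem leech_parity {x : GolayPt → ℤ} (hx : x ∈ leechLattice) (i j : GolayPt) :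
    x i % 2 = x j % 2 := by
  rw [mem_leechLattice_iff] at hx
  obtain ⟨m, h1, -, -⟩ := hx
  have h2 := h1 i
  have h3 := h1 j
  simp only [Int.ModEq] at h2 h3
  omega

theorem relIndex_even : leechEven.relIndex leechLattice = 2 := by
  have h := relIndex_of_hom9 leechEven leechLattice
    ({ toFun := fun v => ((v.1 none : ℤ) : ZMod 2)
       map_zero' := by simp
       map_add' := by intro a b; simp } : ↥leechLattice →+ ZMod 2) ?_ ?_
  · rw [h, Nat.card_eq_fintype_card, ZMod.card]
  · intro a
    rcases (by decide : ∀ a : ZMod 2, a = 0 ∨ a = 1) a with rfl | rfl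
    · exact ⟨0, by simp⟩
    · refine ⟨⟨oddVec9, oddVec9_mem⟩, ?_⟩
      show ((oddVec9 none : ℤ) : ZMod 2) = 1
      decide
  · intro x
    show ((x.1 none : ℤ) : ZMod 2) = 0 ↔ x.1 ∈ leechEven
    rw [ZMod.intCast_zmod_eq_zero_iff_dvd]
    constructor
    · intro h
      refine ⟨x.2, fun i => ?_⟩
      have := leech_parity x.2 i none
      omega
    · intro h
      have := h.2 none
      omega

theorem relIndex_four_even : leechFour.relIndex leechEven = 4096 := by
  have h := relIndex_of_hom9 leechFour leechEven
    ({ toFun := fun v => ⟨halfWord v.1, halfWord_mem v.2.1 v.2.2⟩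
       map_zero' := by
         apply Subtype.ext
         funext i
         simp [halfWord]
       map_add' := by
         intro a b
         apply Subtype.ext
         exact halfWord_add a.2.2 b.2.2 } : ↥leechEven →+ ↥golayCode) ?_ ?_
  · rw [h, card_golayCode]
  · intro c
    refine ⟨⟨twice9 c.1, twice9_mem c.2, twice9_even c.1⟩, ?_⟩
    apply Subtype.ext
    exact halfWord_twice9 c.1
  · intro x
    show (⟨halfWord x.1, halfWord_mem x.2.1 x.2.2⟩ : ↥golayCode) = 0 ↔ x.1 ∈ leechFour
    rw [Subtype.ext_iff]
    show halfWord x.1 = 0 ↔ x.1 ∈ leechFour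
    constructor
    · intro h
      refine ⟨x.2.1, fun i => ?_⟩
      have h1 := (halfWord_ne_zero_iff x.2.2 i).not
      rw [h] at h1
      have h2 := x.2.2 i
      have h3 : ¬ x.1 i % 4 = 2 := h1.mp (by simp)
      omega
    · intro h
      funext i
      by_contra hne
      have h1 := (halfWord_ne_zero_iff x.2.2 i).mp hne
      have h2 := h.2 i
      omega

theorem relIndex_four_sing : leechFour.relIndex leechSing = 2 := by
  have hev : ∀ v : ↥leechSing, ∀ i, v.1 i % 2 = 0 := fun v => (leechSing_le_even v.2).2
  have h := relIndex_of_hom9 leechFour leechSing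
    ({ toFun := fun v => halfWord v.1 none
       map_zero' := by simp [halfWord]
       map_add' := by
         intro a b
         show halfWord (a.1 + b.1) none = halfWord a.1 none + halfWord b.1 none
         rw [halfWord_add (hev a) (hev b)]
         rfl } : ↥leechSing →+ ZMod 2) ?_ ?_
  · rw [h, Nat.card_eq_fintype_card, ZMod.card]
  · intro a
    rcases (by decide : ∀ a : ZMod 2, a = 0 ∨ a = 1) a with rfl | rfl
    · exact ⟨0, by simp [halfWord]⟩
    · refine ⟨⟨fun _ => 2, two_mem_leech, Or.inr fun i => rfl⟩, ?_⟩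
      show halfWord (fun _ => 2) none = 1
      unfold halfWord
      decide
  · intro x
    show halfWord x.1 none = 0 ↔ x.1 ∈ leechFour
    have h1 := (halfWord_ne_zero_iff (hev x) none).not
    rw [not_not] at h1
    rw [h1]
    constructor
    · intro h
      refine ⟨x.2.1, ?_⟩
      rcases x.2.2 with h2 | h2
      · exact h2
      · exact absurd (h2 none) h
    · intro h
      have := h.2 none
      omega

theorem relIndex_sing : leechSing.relIndex leechLattice = 2 ^ 12 := by
  have h1 := AddSubgroup.relIndex_mul_relIndex leechFour leechSing leechEven leechFour_le_sing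
    leechSing_le_even
  have h2 := AddSubgroup.relIndex_mul_relIndex leechSing leechEven leechLattice leechSing_le_even
    leechEven_le
  rw [relIndex_four_sing, relIndex_four_even] at h1
  rw [relIndex_even] at h2
  omega

theorem sq_mod_32_of_four (a : ℤ) (ha : a % 4 = 0) : a ^ 2 ≡ 4 * a [ZMOD 32] := by
  obtain ⟨t, ht⟩ : ∃ t, a = 4 * t := ⟨a / 4, by omega⟩
  rw [Int.modEq_iff_dvd]
  rcases Int.even_or_odd' t with ⟨s, hs | hs⟩
  · exact ⟨s - 2 * s ^ 2, by rw [ht, hs]; ring⟩
  · exact ⟨-(2 * s ^ 2 + s), by rw [ht, hs]; ring⟩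

theorem sq_mod_32_of_two (a : ℤ) (ha : a % 4 = 2) : a ^ 2 ≡ 4 [ZMOD 32] := by
  obtain ⟨t, ht⟩ : ∃ t, a = 4 * t + 2 := ⟨a / 4, by omega⟩
  rw [Int.modEq_iff_dvd]
  rcases Int.even_or_odd' t with ⟨s, hs | hs⟩
  · exact ⟨-(2 * s ^ 2 + s), by rw [ht, hs]; ring⟩
  · exact ⟨-(2 * s ^ 2 + 3 * s + 1), by rw [ht, hs]; ring⟩

theorem sqNorm_sing {v : GolayPt → ℤ} (hv : v ∈ leechSing) : (32 : ℤ) ∣ sqNorm v := by
  have hv1 := hv.1
  rw [mem_leechLattice_iff] at hv1
  obtain ⟨m, h1, h2, -⟩ := hv1
  rw [sqNorm]
  apply Int.dvd_of_emod_eq_zero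
  have hm : m % 2 = 0 := by
    have h3 := h1 none
    have h4 := (leechSing_le_even hv).2 none
    simp only [Int.ModEq] at h3
    omega
  rcases hv.2 with h | h
  · have h5 : ∑ i, v i ^ 2 ≡ ∑ i, 4 * v i [ZMOD 32] := by
      apply Int.ModEq.sum
      intro i _
      exact sq_mod_32_of_four _ (h i)
    rw [← Finset.mul_sum] at h5
    simp only [Int.ModEq] at h5 h2
    omega
  · have h5 : ∑ i, v i ^ 2 ≡ ∑ i : GolayPt, (4 : ℤ) [ZMOD 32] := by
      apply Int.ModEq.sum
      intro i _
      exact sq_mod_32_of_two _ (h i)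
    rw [Finset.sum_const, Finset.card_univ, card_golayPt] at h5
    have h6 : ((24 : ℕ) • (4 : ℤ)) = 96 := by norm_num
    rw [h6] at h5
    simp only [Int.ModEq] at h5
    omega

theorem two_smul_mem_sing {v : GolayPt → ℤ} (hv : v ∈ leechLattice) :
    (2 : ℤ) • v ∈ leechSing := by
  refine ⟨zsmul_mem hv 2, ?_⟩
  by_cases h : v none % 2 = 0
  · left
    intro i
    have := leech_parity hv i none
    simp only [Pi.smul_apply, smul_eq_mul]
    omega
  · right
    intro i
    have := leech_parity hv i none
    simp only [Pi.smul_apply, smul_eq_mul]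
    omega

theorem leech_sing_exists :
    ∃ A : AddSubgroup (GolayPt → ℤ), A ≤ leechLattice ∧
      (∀ v ∈ leechLattice, (2 : ℤ) • v ∈ A) ∧
      (A.addSubgroupOf leechLattice).index = 2 ^ 12 ∧ ∀ v ∈ A, (32 : ℤ) ∣ sqNorm v :=
  ⟨leechSing, fun _ hx => hx.1, fun _ hv => two_smul_mem_sing hv, relIndex_sing,
    fun _ hv => sqNorm_sing hv⟩

end Cfsg.Agent.Helper9
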