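import Mathlib
import Cfsg.Agent.Helper1.Golay8

set_option autoImplicit false

namespace Cfsg.Agent.Helper9

open Cfsg Cfsg.Agent.Helper1.Golay

theorem nodup4 {α : Type*} {a b c d : α} (hab : a ≠ b) (hac : a ≠ c) (had : a ≠ d)
    (hbc : b ≠ c) (hbd : b ≠ d) (hcd : c ≠ d) : [a, b, c, d].Nodup := by
  simp [*]

theorem nodup5 {α : Type*} {a b c d e : α} (hab : a ≠ b) (hac : a ≠ c) (had : a ≠ d)
    (hae : a ≠ e) (hbc : b ≠ c) (hbd : b ≠ d) (hbe : b ≠ e) (hcd : c ≠ d) (hce : c ≠ e)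
    (hde : d ≠ e) : [a, b, c, d, e].Nodup := by
  simp [*]

/-- `M24` is 4-transitive, in element form. -/
theorem m24_exists_map4 {a b c d a' b' c' d' : GolayPt} (h : [a, b, c, d].Nodup)
    (h' : [a', b', c', d'].Nodup) :
    ∃ g ∈ M24, g a = a' ∧ g b = b' ∧ g c = c' ∧ g d = d' := by
  have := M24_five_transitive
  have h4 : MulAction.IsMultiplyPretransitive M24 GolayPt 4 :=
    MulAction.isMultiplyPretransitive_of_le (n := 5) (by norm_num)
      (by rw [Nat.card_eq_fintype_card, card_golayPt]; norm_num)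
  let x : Fin 4 ↪ GolayPt := ⟨[a, b, c, d].get, List.nodup_iff_injective_get.mp h⟩
  let y : Fin 4 ↪ GolayPt := ⟨[a', b', c', d'].get, List.nodup_iff_injective_get.mp h'⟩
  obtain ⟨g, hg⟩ := MulAction.isMultiplyPretransitive_iff.mp h4 x y
  exact ⟨g.1, g.2, DFunLike.congr_fun hg 0, DFunLike.congr_fun hg 1, DFunLike.congr_fun hg 2,
    DFunLike.congr_fun hg 3⟩

/-- `M24` is 5-transitive, in element form. -/
theorem m24_exists_map5 {a b c d e a' b' c' d' e' : GolayPt} (h : [a, b, c, d, e].Nodup)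
    (h' : [a', b', c', d', e'].Nodup) :
    ∃ g ∈ M24, g a = a' ∧ g b = b' ∧ g c = c' ∧ g d = d' ∧ g e = e' := by
  have h5 := M24_five_transitive
  let x : Fin 5 ↪ GolayPt := ⟨[a, b, c, d, e].get, List.nodup_iff_injective_get.mp h⟩
  let y : Fin 5 ↪ GolayPt := ⟨[a', b', c', d', e'].get, List.nodup_iff_injective_get.mp h'⟩
  obtain ⟨g, hg⟩ := MulAction.isMultiplyPretransitive_iff.mp h5 x y
  exact ⟨g.1, g.2, DFunLike.congr_fun hg 0, DFunLike.congr_fun hg 1, DFunLike.congr_fun hg 2,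
    DFunLike.congr_fun hg 3, DFunLike.congr_fun hg 4⟩

/-- `M24` is 2-transitive, in element form. -/
theorem m24_exists_map2 {a b a' b' : GolayPt} (h : a ≠ b) (h' : a' ≠ b') :
    ∃ g ∈ M24, g a = a' ∧ g b = b' := by
  have h2 := M24_two_transitive
  let x : Fin 2 ↪ GolayPt := ⟨[a, b].get, List.nodup_iff_injective_get.mp (by simp [h])⟩
  let y : Fin 2 ↪ GolayPt := ⟨[a', b'].get, List.nodup_iff_injective_get.mp (by simp [h'])⟩
  obtain ⟨g, hg⟩ := MulAction.isMultiplyPretransitive_iff.mp h2 x y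
  exact ⟨g.1, g.2, DFunLike.congr_fun hg 0, DFunLike.congr_fun hg 1⟩

theorem nonbase_ne : ∀ i < 7, bp i ≠ unpos 3 ∧ bp i ≠ unpos 4 := by decide +kernel

/-- No transposition lies in `M24`. -/
theorem swap_notMem_M24 {a b : GolayPt} (hab : a ≠ b) : Equiv.swap a b ∉ M24 := by
  intro hmem
  have huv : unpos 3 ≠ unpos 4 := by decide +kernel
  obtain ⟨g, hg, hga, hgb⟩ := m24_exists_map2 hab huv
  have h1 : Equiv.swap (unpos 3) (unpos 4) ∈ M24 := by
    rw [← hga, ← hgb, Equiv.swap_apply_apply]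
    exact mul_mem (mul_mem hg hmem) (inv_mem hg)
  have h2 : Equiv.swap (unpos 3) (unpos 4) = 1 := by
    apply rigid h1
    intro i hi
    exact Equiv.swap_apply_of_ne_of_ne (nonbase_ne i hi).1 (nonbase_ne i hi).2
  have h3 := congrArg (fun f : Equiv.Perm GolayPt => f (unpos 3)) h2
  simp only [Equiv.swap_apply_left, Equiv.Perm.coe_one, id_eq] at h3
  exact huv h3.symm

end Cfsg.Agent.Helper9
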