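import Mathlib
import Cfsg.Agent.Helper1.Golay10
import Cfsg.Agent.Helper9.M24Aux

set_option autoImplicit false

namespace Cfsg.Agent.Helper9

open Cfsg Cfsg.Agent.Helper1.Golay
open scoped Pointwise

/-- The point-stabilizer step for pointwise stabilizers. -/
theorem fixGrp_inf_stab (s : Finset GolayPt) (a : GolayPt) :
    fixGrp s ⊓ MulAction.stabilizer (Equiv.Perm GolayPt) a = fixGrp (insert a s) := by
  ext g
  rw [Subgroup.mem_inf, mem_fixGrp, mem_fixGrp, MulAction.mem_stabilizer_iff]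
  constructor
  · rintro ⟨⟨h1, h2⟩, h3⟩
    refine ⟨h1, fun p hp => ?_⟩
    rcases Finset.mem_insert.mp hp with rfl | hp
    · exact h3
    · exact h2 p hp
  · rintro ⟨h1, h2⟩
    exact ⟨⟨h1, fun p hp => h2 p (Finset.mem_insert_of_mem hp)⟩,
      h2 a (Finset.mem_insert_self _ _)⟩

theorem card_fixGrp_step (s : Finset GolayPt) (a : GolayPt) :
    Nat.card (fixGrp s)
      = {x | ∃ g ∈ fixGrp s, g a = x}.ncard * Nat.card (fixGrp (insert a s)) := by
  rw [← fixGrp_inf_stab]
  exact card_eq_orbit_mul (fixGrp s) a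

theorem fixGrp_mono {s t : Finset GolayPt} (h : s ⊆ t) : fixGrp t ≤ fixGrp s := by
  intro g hg
  rw [mem_fixGrp] at hg ⊢
  exact ⟨hg.1, fun p hp => hg.2 p (h hp)⟩

/-- 5-transitivity of `M24` for an arbitrary injection of a 5-set. -/
theorem m24_exists_map_on (F : Finset GolayPt) (hF : F.card = 5) (f : GolayPt → GolayPt)
    (hf : Set.InjOn f F) : ∃ t ∈ M24, ∀ p ∈ F, t p = f p := by
  classical
  let e : Fin 5 ≃ F := (Finset.equivFinOfCardEq hF).symm
  let x : Fin 5 ↪ GolayPt := e.toEmbedding.trans (Function.Embedding.subtype _)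
  let y : Fin 5 ↪ GolayPt := ⟨fun i => f (x i), fun i j hij => by
    have h1 : x i ∈ F := (e i).2
    have h2 : x j ∈ F := (e j).2
    exact x.injective (hf h1 h2 hij)⟩
  obtain ⟨g, hg⟩ := MulAction.isMultiplyPretransitive_iff.mp M24_five_transitive x y
  refine ⟨g.1, g.2, fun p hp => ?_⟩
  have h3 : g.1 (x (e.symm ⟨p, hp⟩)) = f (x (e.symm ⟨p, hp⟩)) :=
    DFunLike.congr_fun hg (e.symm ⟨p, hp⟩)
  have hx : x (e.symm ⟨p, hp⟩) = p := by simp [x]
  rw [hx] at h3
  exact h3

/-- The pointwise stabilizer of five points in `M24` has order 48. -/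
theorem card_fixGrp_five (F : Finset GolayPt) (hF : F.card = 5) : Nat.card (fixGrp F) = 48 := by
  classical
  let e : Fin 5 ≃ F := (Finset.equivFinOfCardEq hF).symm
  let x : Fin 5 ↪ GolayPt := e.toEmbedding.trans (Function.Embedding.subtype _)
  have h1 := Subgroup.card_mul_index (MulAction.stabilizer ↥M24 x)
  have hidx : (MulAction.stabilizer ↥M24 x).index = Nat.card (Fin 5 ↪ GolayPt) :=
    @MulAction.index_stabilizer_of_transitive _ _ _ _ x M24_five_transitive
  rw [hidx, card_M24] at h1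
  have h2 : Nat.card (Fin 5 ↪ GolayPt) = 5100480 := by
    rw [Nat.card_eq_fintype_card, Fintype.card_embedding_eq]
    decide
  have h3 : Nat.card (MulAction.stabilizer ↥M24 x) = Nat.card (fixGrp F) := by
    apply Nat.card_congr
    exact
      { toFun := fun g => ⟨g.1.1, (mem_fixGrp _ _).mpr ⟨g.1.2, fun p hp => by
          have h4 : g.1.1 (x (e.symm ⟨p, hp⟩)) = x (e.symm ⟨p, hp⟩) :=
            DFunLike.congr_fun (MulAction.mem_stabilizer_iff.mp g.2) (e.symm ⟨p, hp⟩)
          have hx : x (e.symm ⟨p, hp⟩) = p := by simp [x]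
          rw [hx] at h4
          exact h4⟩⟩
        invFun := fun g => ⟨⟨g.1, ((mem_fixGrp _ _).mp g.2).1⟩,
          MulAction.mem_stabilizer_iff.mpr (Function.Embedding.ext fun i =>
            ((mem_fixGrp _ _).mp g.2).2 _ (e i).2)⟩
        left_inv := fun g => rfl
        right_inv := fun g => rfl }
  rw [h3, h2] at h1
  omega

/-- The pointwise stabilizer of an octad is transitive on the 16 points outside it. -/
theorem fixGrp_octad_trans {o : Finset GolayPt} (ho : o ∈ octads) {q q' : GolayPt}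
    (hq : q ∉ o) (hq' : q' ∉ o) : ∃ g ∈ fixGrp o, g q = q' := by
  obtain ⟨t, ht⟩ := octads_transitive _ o baseOctad_mem ho
  have ht' : (t : Equiv.Perm GolayPt) • support₂ (ofBits (comb 15)) = o := ht
  have hout : ∀ r : GolayPt, r ∉ o →
      (t : Equiv.Perm GolayPt)⁻¹ r ∉ support₂ (ofBits (comb 15)) := by
    intro r hr h
    apply hr
    rw [← ht']
    have h1 := Finset.smul_mem_smul_finset (a := (t : Equiv.Perm GolayPt)) h
    simpa using h1
  obtain ⟨a, ha, a1, a2, a3⟩ := oct_sound _ (hout q hq)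
  obtain ⟨b, hb, b1, b2, b3⟩ := oct_sound _ (hout q' hq')
  refine ⟨(t : Equiv.Perm GolayPt) * (b * a) * (t : Equiv.Perm GolayPt)⁻¹, ?_, ?_⟩
  · rw [← ht']
    have hba : b * a ∈ fixGrp ((t : Equiv.Perm GolayPt)⁻¹ •
        ((t : Equiv.Perm GolayPt) • support₂ (ofBits (comb 15)))) := by
      rw [inv_smul_smul]
      exact (mem_fixGrp _ _).mpr ⟨mul_mem (genGroup_le hb) (genGroup_le ha), fun p hp => by
        rw [Equiv.Perm.mul_apply, a3 p hp, b3 p hp]⟩
    have h1 := conj_mem_fixGrp (inv_mem t.2) hba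
    rw [inv_inv] at h1
    exact h1
  · simp only [Equiv.Perm.mul_apply]
    rw [a1, b2]
    simp

/-- An element fixing five points of an octad maps the octad to itself. -/
theorem fixGrp_smul_octad {F o : Finset GolayPt} (ho : o ∈ octads) (hFo : F ⊆ o)
    (hF : 5 ≤ F.card) {g : Equiv.Perm GolayPt} (hg : g ∈ fixGrp F) : g • o = o := by
  rw [mem_fixGrp] at hg
  apply octads_unique (smul_octad_mem hg.1 ho) ho
  refine le_trans hF (Finset.card_le_card ?_)
  intro p hp
  rw [Finset.mem_inter]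
  refine ⟨?_, hFo hp⟩
  have h1 := Finset.smul_mem_smul_finset (a := g) (hFo hp)
  rwa [Equiv.Perm.smul_def, hg.2 p hp] at h1

theorem fixGrp_apply_mem_iff {F o : Finset GolayPt} (ho : o ∈ octads) (hFo : F ⊆ o)
    (hF : 5 ≤ F.card) {g : Equiv.Perm GolayPt} (hg : g ∈ fixGrp F) (p : GolayPt) :
    g p ∈ o ↔ p ∈ o := by
  have h := fixGrp_smul_octad ho hFo hF hg
  constructor
  · intro hp
    rw [← h] at hp
    obtain ⟨q, hq, hqp⟩ := Finset.mem_smul_finset.mp hp
    have h1 : q = p := g.injective hqp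
    rwa [← h1]
  · intro hp
    rw [← h]
    exact Finset.smul_mem_smul_finset hp

/-- The pointwise stabilizer of a 6-set not contained in an octad has order 3. -/
theorem card_fixGrp_six_out {F o : Finset GolayPt} (ho : o ∈ octads) (hFo : F ⊆ o)
    (hF : F.card = 5) {q : GolayPt} (hq : q ∉ o) : Nat.card (fixGrp (insert q F)) = 3 := by
  have h := card_fixGrp_step F q
  rw [card_fixGrp_five F hF] at h
  have e : {x | ∃ g ∈ fixGrp F, g q = x} = ↑(oᶜ) := by
    ext x
    rw [Finset.coe_compl, Set.mem_compl_iff, Finset.mem_coe]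
    constructor
    · rintro ⟨g, hg, rfl⟩
      rw [fixGrp_apply_mem_iff ho hFo (le_of_eq hF.symm) hg]
      exact hq
    · intro hx
      obtain ⟨g, hg, hgq⟩ := fixGrp_octad_trans ho hq hx
      exact ⟨g, fixGrp_mono hFo hg, hgq⟩
  have hc : o.card = 8 := ho.2
  rw [e, Set.ncard_coe_finset, Finset.card_compl, hc, card_golayPt] at h
  omega

/-- The pointwise stabilizer of a 6-set contained in an octad has order 16. -/
theorem card_fixGrp_six_in {F o : Finset GolayPt} (ho : o ∈ octads) (hFo : F ⊆ o)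
    (hF : F.card = 5) {q : GolayPt} (hq : q ∈ o) (hqF : q ∉ F) :
    Nat.card (fixGrp (insert q F)) = 16 := by
  have hE : (insert q F).card = 6 := by rw [Finset.card_insert_of_notMem hqF, hF]
  have hEo : insert q F ⊆ o := Finset.insert_subset hq hFo
  have hdiff : (o \ insert q F).card = 2 := by
    rw [Finset.card_sdiff_of_subset hEo, ho.2, hE]
  obtain ⟨r, hr⟩ : (o \ insert q F).Nonempty := Finset.card_pos.mp (by omega)
  have hr' := Finset.mem_sdiff.mp hr
  have h1 := card_fixGrp_step (insert q F) r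
  have h2 : fixGrp (insert r (insert q F)) = fixGrp o := by
    apply le_antisymm
    · intro g hg
      have hg' := (mem_fixGrp _ _).mp hg
      rw [mem_fixGrp]
      refine ⟨hg'.1, fun p hp => ?_⟩
      by_cases hpE : p ∈ insert r (insert q F)
      · exact hg'.2 p hpE
      · have hgF : g ∈ fixGrp F := fixGrp_mono (fun x hx =>
          Finset.mem_insert_of_mem (Finset.mem_insert_of_mem hx)) hg
        have hgp : g p ∈ o := (fixGrp_apply_mem_iff ho hFo (le_of_eq hF.symm) hgF p).mpr hp
        have hgp' : g p ∉ insert r (insert q F) := by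
          intro hmem
          have h3 := hg'.2 (g p) hmem
          have h4 := g.injective h3
          rw [h4] at hmem
          exact hpE hmem
        have hcard : (o \ insert r (insert q F)).card = 1 := by
          rw [Finset.card_sdiff_of_subset (Finset.insert_subset hr'.1 hEo), ho.2,
            Finset.card_insert_of_notMem hr'.2, hE]
        exact Finset.card_le_one.mp (le_of_eq hcard) _ (Finset.mem_sdiff.mpr ⟨hgp, hgp'⟩) _
          (Finset.mem_sdiff.mpr ⟨hp, hpE⟩)
    · exact fixGrp_mono (Finset.insert_subset hr'.1 hEo)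
  rw [h2, (octad_fixGrp o ho).1] at h1
  have h3 : {x | ∃ g ∈ fixGrp (insert q F), g r = x}.ncard ≤ 2 := by
    have hsub : {x | ∃ g ∈ fixGrp (insert q F), g r = x} ⊆ ↑(o \ insert q F) := by
      rintro x ⟨g, hg, rfl⟩
      have hg' := (mem_fixGrp _ _).mp hg
      have hgF : g ∈ fixGrp F := fixGrp_mono (Finset.subset_insert _ _) hg
      rw [Finset.mem_coe, Finset.mem_sdiff]
      refine ⟨(fixGrp_apply_mem_iff ho hFo (le_of_eq hF.symm) hgF r).mpr hr'.1, ?_⟩
      intro hmem
      have h3 := hg'.2 (g r) hmem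
      have h4 := g.injective h3
      rw [h4] at hmem
      exact hr'.2 hmem
    have h5 := Set.ncard_le_ncard hsub (Finset.finite_toSet _)
    rwa [Set.ncard_coe_finset, hdiff] at h5
  have h4 : 0 < {x | ∃ g ∈ fixGrp (insert q F), g r = x}.ncard := by
    rw [Set.ncard_pos (Set.toFinite _)]
    exact ⟨r, 1, one_mem _, rfl⟩
  have h5 := card_fixGrp_step F q
  rw [card_fixGrp_five F hF] at h5
  generalize {x | ∃ g ∈ fixGrp (insert q F), g r = x}.ncard = n at h1 h3 h4
  generalize {x | ∃ g ∈ fixGrp F, g q = x}.ncard = m at h5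
  interval_cases n
  · omega
  · rw [h1] at h5
    omega

/-- The pointwise stabilizer of five points is transitive on the other three points of their
octad. -/
theorem fixGrp_five_trans_in {F o : Finset GolayPt} (ho : o ∈ octads) (hFo : F ⊆ o)
    (hF : F.card = 5) {q q' : GolayPt} (hq : q ∈ o) (hqF : q ∉ F) (hq' : q' ∈ o)
    (hq'F : q' ∉ F) : ∃ g ∈ fixGrp F, g q = q' := by
  have h5 := card_fixGrp_step F q
  rw [card_fixGrp_five F hF, card_fixGrp_six_in ho hFo hF hq hqF] at h5
  have hn : {x | ∃ g ∈ fixGrp F, g q = x}.ncard = 3 := by omega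
  have hsub : {x | ∃ g ∈ fixGrp F, g q = x} ⊆ ↑(o \ F) := by
    rintro x ⟨g, hg, rfl⟩
    rw [Finset.mem_coe, Finset.mem_sdiff]
    refine ⟨(fixGrp_apply_mem_iff ho hFo (le_of_eq hF.symm) hg q).mpr hq, ?_⟩
    intro hmem
    have h3 := ((mem_fixGrp _ _).mp hg).2 (g q) hmem
    have h4 := g.injective h3
    rw [h4] at hmem
    exact hqF hmem
  have hcard : (o \ F).card = 3 := by rw [Finset.card_sdiff_of_subset hFo, ho.2, hF]
  have heq := Set.eq_of_subset_of_ncard_le hsub
    (by rw [Set.ncard_coe_finset, hcard, hn]) (Finset.finite_toSet _)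
  have h6 : q' ∈ (↑(o \ F) : Set GolayPt) :=
    Finset.mem_coe.mpr (Finset.mem_sdiff.mpr ⟨hq', hq'F⟩)
  rw [← heq] at h6
  exact h6

/-- A permutation mapping a finite set onto itself restricts to a permutation of it. -/
theorem exists_perm_of_smul_eq {E : Finset GolayPt} {g : Equiv.Perm GolayPt} (hg : g • E = E) :
    ∃ σ : Equiv.Perm ↥E, ∀ p : ↥E, (σ p : GolayPt) = g p := by
  have h1 : ∀ p ∈ E, g p ∈ E := fun p hp => by
    have h := Finset.smul_mem_smul_finset (a := g) hp
    rwa [hg] at h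
  have h2 : ∀ p ∈ E, g⁻¹ p ∈ E := fun p hp => by
    have hg' : g⁻¹ • E = E := by rw [inv_smul_eq_iff, hg]
    have h := Finset.smul_mem_smul_finset (a := g⁻¹) hp
    rwa [hg'] at h
  exact ⟨⟨fun p => ⟨g p.1, h1 _ p.2⟩, fun p => ⟨g⁻¹ p.1, h2 _ p.2⟩,
    fun p => Subtype.ext (by simp), fun p => Subtype.ext (by simp)⟩, fun p => rfl⟩

end Cfsg.Agent.Helper9
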