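import Mathlib
import Cfsg.Agent.Helper1.Leech2
import Cfsg.Agent.Helper9.M24Six
import Cfsg.Agent.Helper9.M24Fix2

set_option autoImplicit false

namespace Cfsg.Agent.Helper9

open Cfsg Cfsg.Agent.Helper1.Golay
open scoped Pointwise

/-- An element fixing six points of an octad fixes the octad pointwise. -/
theorem fix_octad_of_six {g : Equiv.Perm GolayPt} (hg : g ∈ M24) {F O : Finset GolayPt}
    (hO : O ∈ octads) (hFO : F ⊆ O) (hF : F.card = 5) (hgF : ∀ p ∈ F, g p = p) {q : GolayPt}
    (hqO : q ∈ O) (hqF : q ∉ F) (hgq : g q = q) : g ∈ fixGrp O := by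
  have h1 : g ∈ fixGrp (insert q F) := by
    rw [mem_fixGrp]
    refine ⟨hg, fun p hp => ?_⟩
    rcases Finset.mem_insert.mp hp with rfl | hp
    · exact hgq
    · exact hgF p hp
  have hle : fixGrp O ≤ fixGrp (insert q F) := fixGrp_mono (Finset.insert_subset hqO hFO)
  have hcard : Nat.card (fixGrp (insert q F)) ≤ Nat.card (fixGrp O) := by
    rw [card_fixGrp_six_in hO hFO hF hqO hqF, (octad_fixGrp O hO).1]
  have heq := Subgroup.eq_of_le_of_card_ge hle hcard
  rw [heq]
  exact h1

/-- An element fixing five points of an octad and a point outside it has order dividing 3. -/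
theorem pow_three_of_six_out {g : Equiv.Perm GolayPt} (hg : g ∈ M24) {F O : Finset GolayPt}
    (hO : O ∈ octads) (hFO : F ⊆ O) (hF : F.card = 5) (hgF : ∀ p ∈ F, g p = p) {q : GolayPt}
    (hqO : q ∉ O) (hgq : g q = q) : g ^ 3 = 1 := by
  have h1 : g ∈ fixGrp (insert q F) := by
    rw [mem_fixGrp]
    refine ⟨hg, fun p hp => ?_⟩
    rcases Finset.mem_insert.mp hp with rfl | hp
    · exact hgq
    · exact hgF p hp
  have h2 := card_fixGrp_six_out hO hFO hF hqO
  have h3 : (⟨g, h1⟩ : fixGrp (insert q F)) ^ 3 = 1 := by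
    rw [← h2]
    exact pow_card_eq_one'
  exact congrArg Subtype.val h3

/-- The fixed points of an involution of `M24` form the empty set or an octad. -/
theorem invol_fix {g : Equiv.Perm GolayPt} (hg : g ∈ M24) (h2 : g ^ 2 = 1) (h1 : g ≠ 1) :
    (Finset.univ.filter fun a => g a = a) = ∅ ∨
      (Finset.univ.filter fun a => g a = a) ∈ octads := by
  classical
  have : Fact (Nat.Prime 2) := ⟨by norm_num⟩
  set Fx := Finset.univ.filter fun a => g a = a with hFx
  have hmem : ∀ a, a ∈ Fx ↔ g a = a := fun a => by simp [hFx]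
  have hgg : ∀ a, g (g a) = a := fun a => by
    have h := congrArg (fun f : Equiv.Perm GolayPt => f a) h2
    simpa [pow_two] using h
  have hdvd := card_moved_dvd g Finset.univ (fun a => by simp) 2 h2
  have hsum : Fx.card + (Finset.univ.filter (fun a => g a ≠ a)).card = 24 := by
    have h := Finset.card_filter_add_card_filter_not (s := (Finset.univ : Finset GolayPt))
      (fun a => g a = a)
    rw [Finset.card_univ, card_golayPt] at h
    exact h
  by_cases h5 : Fx.card < 5
  · left
    rw [← Finset.card_eq_zero]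
    have hn2 : Fx.card ≠ 2 := fun h => no_two_fixed hg h2 h
    have hn4 : Fx.card ≠ 4 := fun h => no_four_fixed hg h2 h
    omega
  · right
    obtain ⟨F, hFsub, hF5⟩ := Finset.exists_subset_card_eq (show 5 ≤ Fx.card by omega)
    obtain ⟨O, ⟨hO, hFO⟩, -⟩ := octads_steiner.2 F hF5
    have hgF : ∀ p ∈ F, g p = p := fun p hp => (hmem p).mp (hFsub hp)
    have hgO : g • O = O := inv_octad_of_five hg hO hFO (by omega)
      (fun a ha => by rw [hgF a ha]; exact ha)
    have hsubO : Fx ⊆ O := by
      intro r hr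
      by_contra hrO
      have h3 := pow_three_of_six_out hg hO hFO hF5 hgF hrO ((hmem r).mp hr)
      apply h1
      calc g = g ^ 3 * (g ^ 2)⁻¹ := by group
        _ = 1 := by rw [h3, h2]; simp
    have hinv : ∀ a, g a ∈ O \ F ↔ a ∈ O \ F := by
      intro a
      rw [Finset.mem_sdiff, Finset.mem_sdiff, mem_iff_of_smul_eq hgO]
      constructor
      · rintro ⟨h3, h4⟩
        refine ⟨h3, fun h => h4 ?_⟩
        rw [hgF a h]
        exact h
      · rintro ⟨h3, h4⟩
        refine ⟨h3, fun h => h4 ?_⟩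
        have h6 := hgF _ h
        rw [hgg] at h6
        rw [h6]
        exact h
    have hd := card_moved_dvd g (O \ F) hinv 2 h2
    have hc3 : (O \ F).card = 3 := by rw [Finset.card_sdiff_of_subset hFO, hO.2, hF5]
    have hex : ∃ q ∈ O \ F, g q = q := by
      by_contra hcon
      push_neg at hcon
      have h6 : (O \ F).filter (fun a => g a ≠ a) = O \ F := Finset.filter_true_of_mem hcon
      rw [h6, hc3] at hd
      omega
    obtain ⟨q, hq, hgq⟩ := hex
    have hfix := fix_octad_of_six hg hO hFO hF5 hgF (Finset.mem_sdiff.mp hq).1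
      (Finset.mem_sdiff.mp hq).2 hgq
    rw [mem_fixGrp] at hfix
    have h6 : Fx = O := Finset.Subset.antisymm hsubO (fun p hp => (hmem p).mpr (hfix.2 p hp))
    rw [h6]
    exact hO

/-- An element of order 3 of `M24` has no fixed points or exactly six. -/
theorem ord3_fix {g : Equiv.Perm GolayPt} (hg : g ∈ M24) (h3 : g ^ 3 = 1) (h1 : g ≠ 1) :
    (Finset.univ.filter fun a => g a = a).card = 0 ∨
      (Finset.univ.filter fun a => g a = a).card = 6 := by
  classical
  have : Fact (Nat.Prime 3) := ⟨by norm_num⟩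
  set Fx := Finset.univ.filter fun a => g a = a with hFx
  have hmem : ∀ a, a ∈ Fx ↔ g a = a := fun a => by simp [hFx]
  have hdvd := card_moved_dvd g Finset.univ (fun a => by simp) 3 h3
  have hsum : Fx.card + (Finset.univ.filter (fun a => g a ≠ a)).card = 24 := by
    have h := Finset.card_filter_add_card_filter_not (s := (Finset.univ : Finset GolayPt))
      (fun a => g a = a)
    rw [Finset.card_univ, card_golayPt] at h
    exact h
  have hn3 : Fx.card ≠ 3 := fun h => no_three_fixed hg h3 h
  have hle : Fx.card ≤ 6 := by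
    by_contra hcon
    have C1 : ∀ F : Finset GolayPt, F ⊆ Fx → F.card = 5 → ∀ O ∈ octads, F ⊆ O →
        ∀ q ∈ O, g q = q → q ∈ F := by
      intro F hF hF5 O hO hFO q hqO hgq
      by_contra hqF
      have hfix := fix_octad_of_six hg hO hFO hF5 (fun p hp => (hmem p).mp (hF hp)) hqO hqF hgq
      have hsq := (octad_fixGrp O hO).2 g hfix
      apply h1
      calc g = g ^ 3 * (g * g)⁻¹ := by group
        _ = 1 := by rw [h3, hsq]; simp
    obtain ⟨T, hT, hT3⟩ := Finset.exists_subset_card_eq (show 3 ≤ Fx.card by omega)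
    obtain ⟨U1, hU1, hU12⟩ := Finset.exists_subset_card_eq
      (show 2 ≤ (Fx \ T).card by rw [Finset.card_sdiff_of_subset hT]; omega)
    obtain ⟨U2, hU2, hU22⟩ := Finset.exists_subset_card_eq
      (show 2 ≤ ((Fx \ T) \ U1).card by
        rw [Finset.card_sdiff_of_subset hU1, Finset.card_sdiff_of_subset hT]; omega)
    have hd1 : Disjoint T U1 := by
      rw [Finset.disjoint_left]
      intro a haT haU
      exact (Finset.mem_sdiff.mp (hU1 haU)).2 haT
    have hd2 : Disjoint T U2 := by
      rw [Finset.disjoint_left]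
      intro a haT haU
      exact (Finset.mem_sdiff.mp (Finset.mem_sdiff.mp (hU2 haU)).1).2 haT
    have hF1 : (T ∪ U1).card = 5 := by rw [Finset.card_union_of_disjoint hd1, hT3, hU12]
    have hF2 : (T ∪ U2).card = 5 := by rw [Finset.card_union_of_disjoint hd2, hT3, hU22]
    have hF1s : T ∪ U1 ⊆ Fx :=
      Finset.union_subset hT (fun a ha => (Finset.mem_sdiff.mp (hU1 ha)).1)
    have hF2s : T ∪ U2 ⊆ Fx :=
      Finset.union_subset hT
        (fun a ha => (Finset.mem_sdiff.mp (Finset.mem_sdiff.mp (hU2 ha)).1).1)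
    obtain ⟨O1, ⟨hO1, hFO1⟩, -⟩ := octads_steiner.2 _ hF1
    obtain ⟨O2, ⟨hO2, hFO2⟩, -⟩ := octads_steiner.2 _ hF2
    have hgO1 : g • O1 = O1 := inv_octad_of_five hg hO1 hFO1 (by omega)
      (fun a ha => by rw [(hmem a).mp (hF1s ha)]; exact ha)
    have hgO2 : g • O2 = O2 := inv_octad_of_five hg hO2 hFO2 (by omega)
      (fun a ha => by rw [(hmem a).mp (hF2s ha)]; exact ha)
    obtain ⟨u, hu⟩ : U2.Nonempty := Finset.card_pos.mp (by omega)
    have huF1 : u ∉ T ∪ U1 := by
      intro h
      rcases Finset.mem_union.mp h with h | h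
      · exact (Finset.disjoint_left.mp hd2 h) hu
      · exact (Finset.mem_sdiff.mp (hU2 hu)).2 h
    have hne : O1 ≠ O2 := by
      intro h
      apply huF1
      exact C1 _ hF1s hF1 O1 hO1 hFO1 u (by rw [h]; exact hFO2 (Finset.mem_union_right _ hu))
        ((hmem u).mp (hF2s (Finset.mem_union_right _ hu)))
    have hTsub : T ⊆ O1 ∩ O2 := fun a ha =>
      Finset.mem_inter.mpr ⟨hFO1 (Finset.mem_union_left _ ha), hFO2 (Finset.mem_union_left _ ha)⟩
    have hc4 : (O1 ∩ O2).card = 4 := by
      have hev := card_inter_supports_even hO1.1 hO2.1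
      have hge : 3 ≤ (O1 ∩ O2).card := by
        rw [← hT3]
        exact Finset.card_le_card hTsub
      have hle4 : (O1 ∩ O2).card ≤ 4 := by
        by_contra h
        exact hne (octads_unique hO1 hO2 (by omega))
      omega
    have hc1 : ((O1 ∩ O2) \ T).card = 1 := by
      rw [Finset.card_sdiff_of_subset hTsub, hc4, hT3]
    obtain ⟨p, hp⟩ := Finset.card_eq_one.mp hc1
    have hpm : p ∈ (O1 ∩ O2) \ T := by
      rw [hp]
      exact Finset.mem_singleton_self p
    have hgp : g p = p := by
      have h6 : g p ∈ (O1 ∩ O2) \ T := by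
        rw [Finset.mem_sdiff, Finset.mem_inter] at hpm ⊢
        refine ⟨⟨(mem_iff_of_smul_eq hgO1 p).mpr hpm.1.1, (mem_iff_of_smul_eq hgO2 p).mpr hpm.1.2⟩,
          fun h => hpm.2 ?_⟩
        have h4 := (hmem _).mp (hT h)
        have h5 := g.injective h4
        rw [← h5]
        exact h
      rw [hp] at h6
      exact Finset.mem_singleton.mp h6
    rw [Finset.mem_sdiff, Finset.mem_inter] at hpm
    have hp1 := C1 _ hF1s hF1 O1 hO1 hFO1 p hpm.1.1 hgp
    have hp2 := C1 _ hF2s hF2 O2 hO2 hFO2 p hpm.1.2 hgp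
    rcases Finset.mem_union.mp hp1 with h | h
    · exact hpm.2 h
    · rcases Finset.mem_union.mp hp2 with h' | h'
      · exact hpm.2 h'
      · exact (Finset.mem_sdiff.mp (hU2 h')).2 h
  omega

end Cfsg.Agent.Helper9
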