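import Mathlib
import Cfsg.Agent.Helper9.M24Fix3
import Cfsg.Agent.S5600

set_option autoImplicit false

namespace Cfsg.Agent.Helper9

open Cfsg Cfsg.Agent.Helper1.Golay
open scoped Pointwise

/-- A fixed-point-free element of order 3 does not commute with an involution having exactly
8 fixed points. -/
theorem no_commute_fpf3_inv8 {x s : Equiv.Perm GolayPt} (hx3 : x ^ 3 = 1) (hc : Commute x s)
    (hx0 : ∀ p, x p ≠ p) (hs8 : (Finset.univ.filter fun p => s p = p).card = 8) : False := by
  classical
  have f3 : Fact (Nat.Prime 3) := ⟨by norm_num⟩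
  have hinv : ∀ a, x a ∈ (Finset.univ.filter fun p => s p = p)
      ↔ a ∈ (Finset.univ.filter fun p => s p = p) := by
    intro a
    simp only [Finset.mem_filter, Finset.mem_univ, true_and]
    have h1 : s (x a) = x (s a) := by
      have h := congrArg (fun f : Equiv.Perm GolayPt => f a) hc.eq
      simpa using h.symm
    rw [h1]
    exact ⟨fun h => x.injective h, fun h => by rw [h]⟩
  have hd := card_moved_dvd x _ hinv 3 hx3
  rw [Finset.filter_true_of_mem (fun a _ => hx0 a), hs8] at hd
  omega

/-- An element of order 3 with six fixed points does not commute with a fixed-point-free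
involution. -/
theorem no_commute_six_fpf {x s : Equiv.Perm GolayPt} (hx : x ∈ M24) (hs : s ∈ M24)
    (hx3 : x ^ 3 = 1) (hx1 : x ≠ 1) (hs2 : s ^ 2 = 1) (hc : Commute x s)
    (h6 : (Finset.univ.filter fun p => x p = p).card = 6) (h0 : ∀ p, s p ≠ p) : False := by
  classical
  have f3 : Fact (Nat.Prime 3) := ⟨by norm_num⟩
  set E := Finset.univ.filter fun p => x p = p with hE
  have hmemE : ∀ a, a ∈ E ↔ x a = a := fun a => by simp [hE]
  have hxx : ∀ a, x (x (x a)) = a := fun a => by
    have h := congrArg (fun f : Equiv.Perm GolayPt => f a) hx3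
    simpa [pow_succ, Equiv.Perm.mul_apply] using h
  have hss : ∀ a, s (s a) = a := fun a => by
    have h := congrArg (fun f : Equiv.Perm GolayPt => f a) hs2
    simpa [pow_succ, Equiv.Perm.mul_apply] using h
  have hxs : ∀ a, x (s a) = s (x a) := fun a => by
    have h := congrArg (fun f : Equiv.Perm GolayPt => f a) hc.eq
    simpa using h
  have hxne : ∀ a, a ∉ E → x a ≠ a := fun a ha h => ha ((hmemE a).mpr h)
  have hxE : ∀ a, a ∉ E → x a ∉ E := fun a ha h => ha ((hmemE a).mpr (x.injective ((hmemE _).mp h)))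
  -- `E` lies in no octad
  have hEoct : ¬ ∃ o ∈ octads, E ⊆ o := by
    rintro ⟨o, ho, hEo⟩
    obtain ⟨F, hFE, hF5⟩ := Finset.exists_subset_card_eq (show 5 ≤ E.card by omega)
    obtain ⟨q, hq⟩ : (E \ F).Nonempty :=
      Finset.card_pos.mp (by rw [Finset.card_sdiff_of_subset hFE]; omega)
    have hq' := Finset.mem_sdiff.mp hq
    have hfix := fix_octad_of_six hx ho (hFE.trans hEo) hF5
      (fun p hp => (hmemE p).mp (hFE hp)) (hEo hq'.1) hq'.2 ((hmemE q).mp hq'.1)
    have hsq := (octad_fixGrp o ho).2 x hfix
    apply hx1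
    calc x = x ^ 3 * (x * x)⁻¹ := by group
      _ = 1 := by rw [hx3, hsq]; simp
  obtain ⟨hsym, -, hout⟩ := Cfsg.Agent.S5600.result E h6
  have hcard3 := (hout hEoct).1
  -- the pointwise stabilizer of `E` is generated by `x`
  have hN : ∀ g : Equiv.Perm GolayPt, g ∈ M24 → (∀ p ∈ E, g p = p) →
      g ∈ Subgroup.zpowers x := by
    intro g hg hgE
    have hc3 : Nat.card (fixGrp E) = 3 := by
      rw [← hcard3]
      exact Nat.card_congr (Equiv.subtypeEquivRight (fun g => mem_fixGrp E g))
    have hxN : x ∈ fixGrp E := (mem_fixGrp E x).mpr ⟨hx, fun p hp => (hmemE p).mp hp⟩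
    have hle : Subgroup.zpowers x ≤ fixGrp E := by
      rw [Subgroup.zpowers_le]
      exact hxN
    have hord : orderOf x = 3 := orderOf_eq_prime hx3 hx1
    have hcz : Nat.card (Subgroup.zpowers x) = 3 := by rw [Nat.card_zpowers, hord]
    have heq := Subgroup.eq_of_le_of_card_ge hle (by rw [hc3, hcz])
    rw [heq]
    exact (mem_fixGrp E g).mpr ⟨hg, hgE⟩
  have hZ3 : ∀ g ∈ Subgroup.zpowers x, g ^ 3 = 1 := by
    intro g hg
    obtain ⟨j, rfl⟩ := Subgroup.mem_zpowers_iff.mp hg
    rw [← zpow_natCast, ← zpow_mul, mul_comm, zpow_mul, zpow_natCast, hx3, one_zpow]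
  -- the transposition
  obtain ⟨e1, he1⟩ : E.Nonempty := Finset.card_pos.mp (by omega)
  have he2 : s e1 ∈ E := by
    rw [hmemE, hxs, (hmemE e1).mp he1]
  have hne12 : s e1 ≠ e1 := h0 e1
  obtain ⟨h, hh, hσ⟩ := hsym (Equiv.swap (⟨e1, he1⟩ : ↥E) ⟨s e1, he2⟩)
  have hh1 : h e1 = s e1 := by
    have h1 := hσ ⟨e1, he1⟩
    rw [Equiv.swap_apply_left] at h1
    exact h1
  have hh2 : h (s e1) = e1 := by
    have h1 := hσ ⟨s e1, he2⟩
    rw [Equiv.swap_apply_right] at h1
    exact h1
  have hh3 : ∀ p ∈ E, p ≠ e1 → p ≠ s e1 → h p = p := by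
    intro p hp hp1 hp2
    have h1 := hσ ⟨p, hp⟩
    rw [Equiv.swap_apply_of_ne_of_ne (fun h => hp1 (congrArg Subtype.val h))
      (fun h => hp2 (congrArg Subtype.val h))] at h1
    exact h1
  have hhE : ∀ p ∈ E, h p ∈ E := by
    intro p hp
    by_cases hp1 : p = e1
    · rw [hp1, hh1]
      exact he2
    · by_cases hp2 : p = s e1
      · rw [hp2, hh2]
        exact he1
      · rw [hh3 p hp hp1 hp2]
        exact hp
  have hhh : ∀ p ∈ E, h (h p) = p := by
    intro p hp
    by_cases hp1 : p = e1
    · rw [hp1, hh1, hh2]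
    · by_cases hp2 : p = s e1
      · rw [hp2, hh2, hh1]
      · rw [hh3 p hp hp1 hp2, hh3 p hp hp1 hp2]
  have hhinvE : ∀ p ∈ E, h⁻¹ p ∈ E := by
    intro p hp
    have h1 : h⁻¹ p = h p := by
      rw [Equiv.Perm.inv_eq_iff_eq, hhh p hp]
    rw [h1]
    exact hhE p hp
  obtain ⟨e3, he3⟩ : (E \ {e1, s e1}).Nonempty := by
    apply Finset.card_pos.mp
    have h1 := Finset.card_sdiff_add_card_inter E {e1, s e1}
    have h2 : (E ∩ {e1, s e1}).card ≤ 2 :=
      le_trans (Finset.card_le_card Finset.inter_subset_right) Finset.card_le_two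
    omega
  have he3E : e3 ∈ E := (Finset.mem_sdiff.mp he3).1
  have he31 : e3 ≠ e1 := fun h => (Finset.mem_sdiff.mp he3).2 (by rw [h]; simp)
  have he32 : e3 ≠ s e1 := fun h => (Finset.mem_sdiff.mp he3).2 (by rw [h]; simp)
  have hcardE2 : (E \ {e1, s e1}).card = 4 := by
    rw [Finset.card_sdiff_of_subset (by
      intro a ha
      rcases Finset.mem_insert.mp ha with rfl | ha
      · exact he1
      · rw [Finset.mem_singleton.mp ha]
        exact he2), Finset.card_pair hne12.symm]
    omega
  -- conjugating `x` by `h`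
  have hy : h * x * h⁻¹ ∈ Subgroup.zpowers x := by
    apply hN _ (mul_mem (mul_mem hh hx) (inv_mem hh))
    intro p hp
    rw [Equiv.Perm.mul_apply, Equiv.Perm.mul_apply, (hmemE _).mp (hhinvE p hp)]
    exact h.apply_symm_apply p
  obtain ⟨j, hj⟩ := Subgroup.mem_zpowers_iff.mp hy
  have hord : orderOf x = 3 := orderOf_eq_prime hx3 hx1
  have hj' : x ^ (j % 3) = h * x * h⁻¹ := by
    rw [← hj]
    have h1 := zpow_mod_orderOf x j
    rw [hord] at h1
    exact h1
  have hcases : j % 3 = 0 ∨ j % 3 = 1 ∨ j % 3 = 2 := by omega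
  have hdich : h * x * h⁻¹ = x ∨ h * x * h⁻¹ = x⁻¹ := by
    rcases hcases with h1 | h1 | h1
    · exfalso
      rw [h1, zpow_zero] at hj'
      apply hx1
      have h2 : x = h⁻¹ * (h * x * h⁻¹) * h := by group
      rw [h2, ← hj']
      group
    · left
      rw [← hj', h1, zpow_one]
    · right
      rw [← hj', h1]
      have h2 : x ^ (2 : ℤ) * x = 1 := by
        have h3 : x ^ (2 : ℤ) * x = x ^ 3 := by
          rw [show (2 : ℤ) = ((2 : ℕ) : ℤ) from rfl, zpow_natCast]
          group
        rw [h3, hx3]
      exact eq_inv_of_mul_eq_one_left h2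
  rcases hdich with hcomm | hinvx
  · -- `h` commutes with `x`
    have hcm : Commute h x := by
      have h1 : h * x = x * h := by
        calc h * x = h * x * h⁻¹ * h := by group
          _ = x * h := by rw [hcomm]
      exact h1
    have hsq : (h * h) ^ 3 = 1 := by
      apply hZ3
      apply hN _ (mul_mem hh hh)
      intro p hp
      rw [Equiv.Perm.mul_apply]
      exact hhh p hp
    have hh'2 : (h ^ 3) ^ 2 = 1 := by
      have h1 : (h ^ 3) ^ 2 = (h * h) ^ 3 := by
        rw [← pow_two, ← pow_mul, ← pow_mul]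
      rw [h1, hsq]
    have hh'E : ∀ p ∈ E, (h ^ 3) p = h p := by
      intro p hp
      have h1 : (h ^ 3) p = h (h (h p)) := by
        simp [pow_succ, Equiv.Perm.mul_apply]
      rw [h1, hhh p hp]
    have hh'1 : h ^ 3 ≠ 1 := by
      intro h1
      have h2 := hh'E e1 he1
      rw [h1, hh1] at h2
      exact hne12 h2.symm
    have hh'M : h ^ 3 ∈ M24 := pow_mem hh 3
    rcases invol_fix hh'M hh'2 hh'1 with hemp | hoct
    · have h1 : e3 ∈ (Finset.univ.filter fun a => (h ^ 3) a = a) := by
        rw [Finset.mem_filter]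
        exact ⟨Finset.mem_univ _, by rw [hh'E e3 he3E, hh3 e3 he3E he31 he32]⟩
      rw [hemp] at h1
      exact absurd h1 (Finset.notMem_empty _)
    · set P := Finset.univ.filter fun a => (h ^ 3) a = a with hP
      have hmemP : ∀ a, a ∈ P ↔ (h ^ 3) a = a := fun a => by simp [hP]
      have hcm3 : ∀ a, (h ^ 3) (x a) = x ((h ^ 3) a) := by
        intro a
        have h1 := congrArg (fun f : Equiv.Perm GolayPt => f a) (hcm.pow_left 3).eq
        simpa using h1
      have hinvP : ∀ a, x a ∈ P ↔ a ∈ P := by
        intro a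
        rw [hmemP, hmemP, hcm3]
        exact ⟨fun h => x.injective h, fun h => by rw [h]⟩
      have hd := card_moved_dvd x P hinvP 3 hx3
      have hfixP : P.filter (fun a => x a = a) = E \ {e1, s e1} := by
        ext a
        rw [Finset.mem_filter, Finset.mem_sdiff, hmemP, hmemE, Finset.mem_insert,
          Finset.mem_singleton]
        constructor
        · rintro ⟨h1, h2⟩
          refine ⟨h2, ?_⟩
          rintro (rfl | rfl)
          · rw [hh'E _ he1, hh1] at h1
            exact hne12 h1
          · rw [hh'E _ he2, hh2] at h1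
            exact hne12 h1.symm
        · rintro ⟨h1, h2⟩
          push_neg at h2
          have haE : a ∈ E := (hmemE a).mpr h1
          exact ⟨by rw [hh'E a haE, hh3 a haE h2.1 h2.2], h1⟩
      have hsum := Finset.card_filter_add_card_filter_not (s := P) (fun a => x a = a)
      rw [hfixP, hcardE2, hoct.2] at hsum
      have hd' : 3 ∣ (P.filter (fun a => ¬ x a = a)).card := hd
      omega
  · -- `h` inverts `x`
    have hxinv : ∀ a, x⁻¹ a = x (x a) := by
      intro a
      rw [Equiv.Perm.inv_eq_iff_eq, hxx]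
    set k := s * h with hk
    have hkM : k ∈ M24 := mul_mem hs hh
    have hkconj : k * x * k⁻¹ = x⁻¹ := by
      have h1 : k * x * k⁻¹ = s * (h * x * h⁻¹) * s⁻¹ := by
        rw [hk]
        group
      rw [h1, hinvx]
      have h2 : s * x⁻¹ = x⁻¹ * s := (hc.inv_left).eq.symm
      rw [h2]
      group
    have hkx : ∀ a, k (x a) = x (x (k a)) := by
      intro a
      have h1 : k * x = x⁻¹ * k := by
        calc k * x = k * x * k⁻¹ * k := by group
          _ = x⁻¹ * k := by rw [hkconj]
      have h2 := congrArg (fun f : Equiv.Perm GolayPt => f a) h1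
      simp only [Equiv.Perm.mul_apply] at h2
      rw [h2, hxinv]
    have hk1 : k e1 = e1 := by
      rw [hk, Equiv.Perm.mul_apply, hh1, hss]
    have hk2 : k (s e1) = s e1 := by
      rw [hk, Equiv.Perm.mul_apply, hh2]
    have hk3 : ∀ p ∈ E, p ≠ e1 → p ≠ s e1 → k p = s p := by
      intro p hp hp1 hp2
      rw [hk, Equiv.Perm.mul_apply, hh3 p hp hp1 hp2]
    have hsE : ∀ p ∈ E, s p ∈ E := by
      intro p hp
      rw [hmemE, hxs, (hmemE p).mp hp]
    have hkkE : ∀ p ∈ E, k (k p) = p := by
      intro p hp
      by_cases hp1 : p = e1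
      · rw [hp1, hk1, hk1]
      · by_cases hp2 : p = s e1
        · rw [hp2, hk2, hk2]
        · rw [hk3 p hp hp1 hp2, hk3 (s p) (hsE p hp) (fun h => hp2 (by rw [← h, hss]))
            (fun h => hp1 (s.injective h)), hss]
    have hkkZ : k * k ∈ Subgroup.zpowers x := by
      apply hN _ (mul_mem hkM hkM)
      intro p hp
      rw [Equiv.Perm.mul_apply]
      exact hkkE p hp
    have hkk1 : k * k = 1 := by
      obtain ⟨i, hi⟩ := Subgroup.mem_zpowers_iff.mp hkkZ
      have h1 : k * x ^ i * k⁻¹ = (x ^ i)⁻¹ := by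
        rw [← conj_zpow, hkconj, inv_zpow]
      rw [hi] at h1
      have h2 : k * (k * k) * k⁻¹ = k * k := by group
      rw [h2] at h1
      have h3 : (k * k) * (k * k) = 1 := by
        nth_rewrite 1 [h1]
        exact inv_mul_cancel _
      have h4 := hZ3 _ hkkZ
      have h5 : (k * k) ^ 3 = (k * k) * (k * k) * (k * k) := by rw [pow_succ, pow_two]
      rw [h5, h3, one_mul] at h4
      exact h4
    have hk2' : k ^ 2 = 1 := by rw [pow_two, hkk1]
    have hkne : k ≠ 1 := by
      intro h1
      have h2 := hk3 e3 he3E he31 he32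
      rw [h1] at h2
      exact h0 e3 h2.symm
    rcases invol_fix hkM hk2' hkne with hemp | hoct
    · have h1 : e1 ∈ (Finset.univ.filter fun a => k a = a) := by
        rw [Finset.mem_filter]
        exact ⟨Finset.mem_univ _, hk1⟩
      rw [hemp] at h1
      exact absurd h1 (Finset.notMem_empty _)
    · set P := Finset.univ.filter fun a => k a = a with hP
      have hmemP : ∀ a, a ∈ P ↔ k a = a := fun a => by simp [hP]
      have hPE : ∀ a ∈ E, a ∈ P → a = e1 ∨ a = s e1 := by
        intro a haE haP
        by_contra hcon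
        push_neg at hcon
        have h1 := hk3 a haE hcon.1 hcon.2
        rw [(hmemP a).mp haP] at h1
        exact h0 a h1.symm
      have key : ∀ c, k c = c → c ∉ E → k (x c) ≠ x c ∧ k (x (x c)) ≠ x (x c) := by
        intro c hkc hcE
        constructor
        · rw [hkx, hkc]
          intro h1
          exact hxne c hcE (x.injective h1)
        · rw [hkx, hkx, hkc, hxx]
          intro h1
          exact hxne c hcE (x.injective h1).symm
      -- the three translates of `P \ E`
      set A0 := P \ E with hA0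
      have hA0card : A0.card = 6 := by
        have h1 : A0 = P \ {e1, s e1} := by
          ext a
          rw [hA0, Finset.mem_sdiff, Finset.mem_sdiff, Finset.mem_insert, Finset.mem_singleton]
          constructor
          · rintro ⟨h1, h2⟩
            refine ⟨h1, ?_⟩
            rintro (rfl | rfl)
            · exact h2 he1
            · exact h2 he2
          · rintro ⟨h1, h2⟩
            exact ⟨h1, fun haE => h2 (hPE a haE h1)⟩
        rw [h1, Finset.card_sdiff_of_subset (by
          intro a ha
          rcases Finset.mem_insert.mp ha with rfl | ha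
          · exact (hmemP _).mpr hk1
          · rw [Finset.mem_singleton.mp ha]
            exact (hmemP _).mpr hk2), Finset.card_pair hne12.symm, hoct.2]
      have hA0mem : ∀ c ∈ A0, k c = c ∧ c ∉ E := fun c hc =>
        ⟨(hmemP c).mp (Finset.mem_sdiff.mp hc).1, (Finset.mem_sdiff.mp hc).2⟩
      set A1 := A0.image x with hA1
      set A2 := A1.image x with hA2
      have hA1card : A1.card = 6 := by
        rw [hA1, Finset.card_image_of_injective _ x.injective, hA0card]
      have hA2card : A2.card = 6 := by
        rw [hA2, Finset.card_image_of_injective _ x.injective, hA1card]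
      have hA1mem : ∀ a ∈ A1, ∃ c ∈ A0, a = x c := by
        intro a ha
        obtain ⟨c, hc, rfl⟩ := Finset.mem_image.mp ha
        exact ⟨c, hc, rfl⟩
      have hA2mem : ∀ a ∈ A2, ∃ c ∈ A0, a = x (x c) := by
        intro a ha
        obtain ⟨b, hb, rfl⟩ := Finset.mem_image.mp ha
        obtain ⟨c, hc, rfl⟩ := hA1mem b hb
        exact ⟨c, hc, rfl⟩
      have hd01 : Disjoint A0 A1 := by
        rw [Finset.disjoint_left]
        intro a ha0 ha1
        obtain ⟨c, hc, rfl⟩ := hA1mem a ha1
        exact (key c (hA0mem c hc).1 (hA0mem c hc).2).1 (hA0mem _ ha0).1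
      have hd02 : Disjoint A0 A2 := by
        rw [Finset.disjoint_left]
        intro a ha0 ha2
        obtain ⟨c, hc, rfl⟩ := hA2mem a ha2
        exact (key c (hA0mem c hc).1 (hA0mem c hc).2).2 (hA0mem _ ha0).1
      have hd12 : Disjoint A1 A2 := by
        rw [Finset.disjoint_left]
        intro a ha1 ha2
        obtain ⟨c, hc, rfl⟩ := hA1mem a ha1
        obtain ⟨c', hc', h1⟩ := hA2mem _ ha2
        have h2 : c = x c' := x.injective h1
        have h3 := (key c' (hA0mem c' hc').1 (hA0mem c' hc').2).1
        rw [← h2] at h3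
        exact h3 (hA0mem c hc).1
      have hsubE : A0 ∪ A1 ∪ A2 ⊆ Eᶜ := by
        intro a ha
        rw [Finset.mem_compl]
        rcases Finset.mem_union.mp ha with ha | ha
        · rcases Finset.mem_union.mp ha with ha | ha
          · exact (hA0mem a ha).2
          · obtain ⟨c, hc, rfl⟩ := hA1mem a ha
            exact hxE c (hA0mem c hc).2
        · obtain ⟨c, hc, rfl⟩ := hA2mem a ha
          exact hxE _ (hxE c (hA0mem c hc).2)
      have hunion : A0 ∪ A1 ∪ A2 = Eᶜ := by
        apply Finset.eq_of_subset_of_card_le hsubE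
        rw [Finset.card_union_of_disjoint (Finset.disjoint_union_left.mpr ⟨hd02, hd12⟩),
          Finset.card_union_of_disjoint hd01, hA0card, hA1card, hA2card, Finset.card_compl,
          card_golayPt, h6]
      -- the octad through `E` without `e3`
      have hF3 : (E.erase e3).card = 5 := by rw [Finset.card_erase_of_mem he3E, h6]
      obtain ⟨O3, ⟨hO3, hFO3⟩, -⟩ := octads_steiner.2 _ hF3
      have he3O : e3 ∉ O3 := by
        intro h1
        apply hEoct
        refine ⟨O3, hO3, fun a ha => ?_⟩
        by_cases h2 : a = e3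
        · rw [h2]
          exact h1
        · exact hFO3 (Finset.mem_erase.mpr ⟨h2, ha⟩)
      have hxO3 : x • O3 = O3 := inv_octad_of_five hx hO3 hFO3 (by omega)
        (fun a ha => by
          rw [(hmemE a).mp (Finset.mem_of_mem_erase ha)]
          exact ha)
      have hBeq : O3 \ E = O3 \ E.erase e3 := by
        ext a
        rw [Finset.mem_sdiff, Finset.mem_sdiff]
        constructor
        · rintro ⟨h1, h2⟩
          exact ⟨h1, fun h => h2 (Finset.mem_of_mem_erase h)⟩
        · rintro ⟨h1, h2⟩
          refine ⟨h1, fun h => h2 (Finset.mem_erase.mpr ⟨?_, h⟩)⟩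
          rintro rfl
          exact he3O h1
      have hBcard : (O3 \ E).card = 3 := by
        rw [hBeq, Finset.card_sdiff_of_subset hFO3, hO3.2, hF3]
      obtain ⟨b, hb⟩ : (O3 \ E).Nonempty := Finset.card_pos.mp (by omega)
      have hb' := Finset.mem_sdiff.mp hb
      have hbU : b ∈ A0 ∪ A1 ∪ A2 := by
        rw [hunion, Finset.mem_compl]
        exact hb'.2
      have hex : ∃ c, c ∈ O3 ∧ c ∉ E ∧ k c = c := by
        rcases Finset.mem_union.mp hbU with hb0 | hb2
        · rcases Finset.mem_union.mp hb0 with hb0 | hb1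
          · exact ⟨b, hb'.1, hb'.2, (hA0mem b hb0).1⟩
          · obtain ⟨c, hc, rfl⟩ := hA1mem b hb1
            exact ⟨c, (mem_iff_of_smul_eq hxO3 c).mp hb'.1, (hA0mem c hc).2, (hA0mem c hc).1⟩
        · obtain ⟨c, hc, rfl⟩ := hA2mem b hb2
          exact ⟨c, (mem_iff_of_smul_eq hxO3 c).mp ((mem_iff_of_smul_eq hxO3 _).mp hb'.1),
            (hA0mem c hc).2, (hA0mem c hc).1⟩
      obtain ⟨c, hcO, hcE, hkc⟩ := hex
      have hxc : x c ≠ c := hxne c hcE
      have hB3 : ({c, x c, x (x c)} : Finset GolayPt) = O3 \ E := by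
        apply Finset.eq_of_subset_of_card_le
        · intro a ha
          rw [Finset.mem_insert, Finset.mem_insert, Finset.mem_singleton] at ha
          rw [Finset.mem_sdiff]
          rcases ha with rfl | rfl | rfl
          · exact ⟨hcO, hcE⟩
          · exact ⟨(mem_iff_of_smul_eq hxO3 c).mpr hcO, hxE c hcE⟩
          · exact ⟨(mem_iff_of_smul_eq hxO3 _).mpr ((mem_iff_of_smul_eq hxO3 c).mpr hcO),
              hxE _ (hxE c hcE)⟩
        · rw [hBcard, Finset.card_insert_of_notMem, Finset.card_pair]
          · intro h1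
            exact hxc (x.injective h1).symm
          · rw [Finset.mem_insert, Finset.mem_singleton]
            rintro (h1 | h1)
            · exact hxc h1.symm
            · have h2 : x c = x (x (x c)) := congrArg x h1
              rw [hxx] at h2
              exact hxc h2
      have hPO : P ∩ O3 = {e1, s e1, c} := by
        ext a
        rw [Finset.mem_inter, Finset.mem_insert, Finset.mem_insert, Finset.mem_singleton]
        constructor
        · rintro ⟨haP, haO⟩
          by_cases haE : a ∈ E
          · rcases hPE a haE haP with h1 | h1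
            · exact Or.inl h1
            · exact Or.inr (Or.inl h1)
          · have h1 : a ∈ ({c, x c, x (x c)} : Finset GolayPt) := by
              rw [hB3, Finset.mem_sdiff]
              exact ⟨haO, haE⟩
            rw [Finset.mem_insert, Finset.mem_insert, Finset.mem_singleton] at h1
            rcases h1 with h1 | h1 | h1
            · exact Or.inr (Or.inr h1)
            · rw [h1] at haP
              exact absurd ((hmemP _).mp haP) (key c hkc hcE).1
            · rw [h1] at haP
              exact absurd ((hmemP _).mp haP) (key c hkc hcE).2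
        · rintro (rfl | rfl | rfl)
          · exact ⟨(hmemP _).mpr hk1, hFO3 (Finset.mem_erase.mpr ⟨he31.symm, he1⟩)⟩
          · exact ⟨(hmemP _).mpr hk2, hFO3 (Finset.mem_erase.mpr ⟨he32.symm, he2⟩)⟩
          · exact ⟨(hmemP _).mpr hkc, hcO⟩
      have hev := card_inter_supports_even hoct.1 hO3.1
      rw [hPO, Finset.card_insert_of_notMem, Finset.card_pair] at hev
      · omega
      · intro h1
        exact hcE (h1 ▸ he2)
      · rw [Finset.mem_insert, Finset.mem_singleton]
        rintro (h1 | h1)
        · exact hne12 h1.symm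
        · exact hcE (h1 ▸ he1)

end Cfsg.Agent.Helper9
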