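import Mathlib
import Cfsg.Agent.Helper1.Leech2
import Cfsg.Agent.Helper1.Golay10

set_option autoImplicit false

namespace Cfsg.Agent.Helper9

open Cfsg Cfsg.Agent.Helper1.Golay

theorem octad_inter_cases {o o' : Finset GolayPt} (ho : o ∈ octads) (ho' : o' ∈ octads)
    (hne : o ≠ o') : (o ∩ o').card = 0 ∨ (o ∩ o').card = 2 ∨ (o ∩ o').card = 4 := by
  have hev := card_inter_supports_even ho.1 ho'.1
  have hle : (o ∩ o').card ≤ 4 := by
    by_contra h
    exact hne (octads_unique ho ho' (by omega))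
  omega

theorem card_symmDiff_octads {o o' : Finset GolayPt} (ho : o ∈ octads) (ho' : o' ∈ octads) :
    (symmDiff o o').card + 2 * (o ∩ o').card = 16 := by
  obtain ⟨⟨v, hv, rfl⟩, hc1⟩ := ho
  obtain ⟨⟨w, hw, rfl⟩, hc2⟩ := ho'
  have h := hammingNorm_add_supports v w
  rw [← support₂_add, card_support₂]
  omega

theorem octad_symmDiff {o o' : Finset GolayPt} (ho : o ∈ octads) (ho' : o' ∈ octads)
    (h4 : (o ∩ o').card = 4) : symmDiff o o' ∈ octads := by
  refine ⟨symmDiff_mem_supports ho.1 ho'.1, ?_⟩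
  have h := card_symmDiff_octads ho ho'
  omega

/-- Two octads meeting in four points have a common disjoint octad. -/
theorem exists_disjoint_of_four {o o' : Finset GolayPt} (ho : o ∈ octads) (ho' : o' ∈ octads)
    (h4 : (o ∩ o').card = 4) : ∃ a ∈ octads, Disjoint a o ∧ Disjoint a o' := by
  classical
  have hU : (o ∪ o').card = 12 := by
    have h := Finset.card_union_add_card_inter o o'
    rw [ho.2, ho'.2] at h
    omega
  set T := o ∩ o' with hT
  obtain ⟨p, hp⟩ : ((o ∪ o')ᶜ).Nonempty :=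
    Finset.card_pos.mp (by rw [Finset.card_compl, card_golayPt, hU]; norm_num)
  rw [Finset.mem_compl, Finset.mem_union, not_or] at hp
  have hTo : T ⊆ o := Finset.inter_subset_left
  have hTo' : T ⊆ o' := Finset.inter_subset_right
  have hpT : p ∉ T := fun h => hp.1 (hTo h)
  obtain ⟨o4, ⟨ho4, hs4⟩, -⟩ := octads_steiner.2 (insert p T)
    (by rw [Finset.card_insert_of_notMem hpT, h4])
  have hT4 : T ⊆ o4 := fun a ha => hs4 (Finset.mem_insert_of_mem ha)
  have hp4 : p ∈ o4 := hs4 (Finset.mem_insert_self p T)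
  have hmeet : ∀ q ∈ octads, T ⊆ q → ∀ r ∈ octads, T ⊆ r → q ≠ r → q ∩ r = T := by
    intro q hq hTq r hr hTr hqr
    apply (Finset.eq_of_subset_of_card_le (Finset.subset_inter hTq hTr) ?_).symm
    rw [h4]
    by_contra h
    exact hqr (octads_unique hq hr (by omega))
  have h4o : o4 ∩ o = T := hmeet o4 ho4 hT4 o ho hTo (fun h => hp.1 (h ▸ hp4))
  have h4o' : o4 ∩ o' = T := hmeet o4 ho4 hT4 o' ho' hTo' (fun h => hp.2 (h ▸ hp4))
  have hU2 : (o ∪ o' ∪ o4).card ≤ 20 := by
    calc (o ∪ o' ∪ o4).card ≤ (o ∪ o').card + o4.card := Finset.card_union_le _ _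
      _ = 20 := by rw [hU, ho4.2]
  obtain ⟨p', hp'⟩ : ((o ∪ o' ∪ o4)ᶜ).Nonempty :=
    Finset.card_pos.mp (by rw [Finset.card_compl, card_golayPt]; omega)
  rw [Finset.mem_compl, Finset.mem_union, Finset.mem_union, not_or, not_or] at hp'
  have hp'T : p' ∉ T := fun h => hp'.1.1 (hTo h)
  obtain ⟨o5, ⟨ho5, hs5⟩, -⟩ := octads_steiner.2 (insert p' T)
    (by rw [Finset.card_insert_of_notMem hp'T, h4])
  have hT5 : T ⊆ o5 := fun a ha => hs5 (Finset.mem_insert_of_mem ha)
  have hp5 : p' ∈ o5 := hs5 (Finset.mem_insert_self p' T)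
  have h5o : o5 ∩ o = T := hmeet o5 ho5 hT5 o ho hTo (fun h => hp'.1.1 (h ▸ hp5))
  have h5o' : o5 ∩ o' = T := hmeet o5 ho5 hT5 o' ho' hTo' (fun h => hp'.1.2 (h ▸ hp5))
  have h54 : o5 ∩ o4 = T := hmeet o5 ho5 hT5 o4 ho4 hT4 (fun h => hp'.2 (h ▸ hp5))
  refine ⟨symmDiff o4 o5, octad_symmDiff ho4 ho5 (by rw [Finset.inter_comm, h54, h4]), ?_, ?_⟩
  · rw [Finset.disjoint_left]
    intro a ha hao
    rcases Finset.mem_symmDiff.mp ha with ⟨h1, h2⟩ | ⟨h1, h2⟩
    · have h3 : a ∈ T := by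
        rw [← h4o]
        exact Finset.mem_inter.mpr ⟨h1, hao⟩
      exact h2 (hT5 h3)
    · have h3 : a ∈ T := by
        rw [← h5o]
        exact Finset.mem_inter.mpr ⟨h1, hao⟩
      exact h2 (hT4 h3)
  · rw [Finset.disjoint_left]
    intro a ha hao
    rcases Finset.mem_symmDiff.mp ha with ⟨h1, h2⟩ | ⟨h1, h2⟩
    · have h3 : a ∈ T := by
        rw [← h4o']
        exact Finset.mem_inter.mpr ⟨h1, hao⟩
      exact h2 (hT5 h3)
    · have h3 : a ∈ T := by
        rw [← h5o']
        exact Finset.mem_inter.mpr ⟨h1, hao⟩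
      exact h2 (hT4 h3)

/-- Two octads meeting in two points have no common disjoint octad. -/
theorem no_common_disjoint {o o' a : Finset GolayPt} (ho : o ∈ octads) (ho' : o' ∈ octads)
    (ha : a ∈ octads) (h2 : (o ∩ o').card = 2) (h1 : Disjoint a o) (h1' : Disjoint a o') :
    False := by
  classical
  have hs := symmDiff_mem_supports ho.1 ho'.1
  have hs2 := symmDiff_mem_supports ha.1 hs
  have hc := card_supports hs2
  have hd : Disjoint a (symmDiff o o') := by
    rw [Finset.disjoint_left]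
    intro x hx hx2
    rcases Finset.mem_symmDiff.mp hx2 with ⟨h, _⟩ | ⟨h, _⟩
    · exact Finset.disjoint_left.mp h1 hx h
    · exact Finset.disjoint_left.mp h1' hx h
  have e : symmDiff a (symmDiff o o') = a ∪ symmDiff o o' := hd.symmDiff_eq_sup
  rw [e, Finset.card_union_of_disjoint hd, ha.2] at hc
  have h12 := card_symmDiff_octads ho ho'
  omega

theorem octad_compl_union {o a : Finset GolayPt} (ho : o ∈ octads) (ha : a ∈ octads)
    (hd : Disjoint o a) : (o ∪ a)ᶜ ∈ octads := by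
  classical
  have hs := symmDiff_mem_supports ho.1 ha.1
  have e : symmDiff o a = o ∪ a := hd.symmDiff_eq_sup
  rw [e] at hs
  refine ⟨supports_compl hs, ?_⟩
  rw [Finset.card_compl, card_golayPt, Finset.card_union_of_disjoint hd, ho.2, ha.2]

/-- Two octads meeting in two points are joined by a path of length three. -/
theorem exists_path3 {o o' : Finset GolayPt} (ho : o ∈ octads) (ho' : o' ∈ octads)
    (h2 : (o ∩ o').card = 2) :
    ∃ a ∈ octads, ∃ b ∈ octads, Disjoint o a ∧ Disjoint a b ∧ Disjoint b o' := by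
  classical
  obtain ⟨T, hT, hT4⟩ := Finset.exists_subset_card_eq (show 4 ≤ o.card by rw [ho.2]; norm_num)
  obtain ⟨p, hp⟩ : (oᶜ).Nonempty :=
    Finset.card_pos.mp (by rw [Finset.card_compl, card_golayPt, ho.2]; norm_num)
  rw [Finset.mem_compl] at hp
  obtain ⟨o1, ⟨ho1, hs1⟩, -⟩ := octads_steiner.2 (insert p T)
    (by rw [Finset.card_insert_of_notMem (fun h => hp (hT h)), hT4])
  have hne1 : o ≠ o1 := fun h => hp (h ▸ hs1 (Finset.mem_insert_self p T))
  have hTsub : T ⊆ o ∩ o1 := fun x hx =>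
    Finset.mem_inter.mpr ⟨hT hx, hs1 (Finset.mem_insert_of_mem hx)⟩
  have hge : 4 ≤ (o ∩ o1).card := by
    rw [← hT4]
    exact Finset.card_le_card hTsub
  have h41 : (o ∩ o1).card = 4 := by
    rcases octad_inter_cases ho ho1 hne1 with h | h | h
    · omega
    · omega
    · exact h
  obtain ⟨a, ha, hao, -⟩ := exists_disjoint_of_four ho ho1 h41
  have hane : a ≠ o' := by
    rintro rfl
    rw [Finset.disjoint_iff_inter_eq_empty, Finset.inter_comm] at hao
    rw [hao] at h2
    simp at h2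
  rcases octad_inter_cases ha ho' hane with h | h | h
  · exfalso
    exact no_common_disjoint ho ho' ha h2 hao
      (Finset.disjoint_iff_inter_eq_empty.mpr (Finset.card_eq_zero.mp h))
  · have hb := octad_compl_union ho ha hao.symm
    have hb4 : ((o ∪ a)ᶜ ∩ o').card = 4 := by
      have h1 : (o' \ (o ∪ a)).card + (o' ∩ (o ∪ a)).card = o'.card :=
        Finset.card_sdiff_add_card_inter o' (o ∪ a)
      have h2' : (o' ∩ (o ∪ a)).card = (o' ∩ o).card + (o' ∩ a).card := by
        rw [Finset.inter_union_distrib_left, Finset.card_union_of_disjoint]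
        exact Finset.disjoint_of_subset_left Finset.inter_subset_right
          (Finset.disjoint_of_subset_right Finset.inter_subset_right hao.symm)
      have h3 : (o ∪ a)ᶜ ∩ o' = o' \ (o ∪ a) := by
        ext x
        simp only [Finset.mem_inter, Finset.mem_compl, Finset.mem_sdiff]
        exact and_comm
      rw [h3]
      rw [ho'.2, h2', Finset.inter_comm o' o, Finset.inter_comm o' a, h2, h] at h1
      omega
    obtain ⟨c, hc, hcb, hco'⟩ := exists_disjoint_of_four hb ho' hb4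
    refine ⟨(o ∪ a)ᶜ, hb, c, hc, ?_, hcb.symm, hco'⟩
    rw [Finset.disjoint_left]
    intro x hx hx2
    exact (Finset.mem_compl.mp hx2) (Finset.mem_union_left _ hx)
  · obtain ⟨b, hb, hba, hbo'⟩ := exists_disjoint_of_four ha ho' h
    exact ⟨a, ha, b, hb, hao.symm, hba.symm, hbo'⟩

theorem blockGraph_adj_iff {a b : Finset GolayPt} (ha : a ∈ octads) (hb : b ∈ octads) :
    (blockGraph octads).Adj ⟨a, ha⟩ ⟨b, hb⟩ ↔ Disjoint a b := by
  unfold blockGraph
  rw [SimpleGraph.fromRel_adj]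
  constructor
  · rintro ⟨-, h | h⟩
    · exact h
    · exact h.symm
  · intro h
    refine ⟨fun heq => ?_, Or.inl h⟩
    have e : a = b := congrArg Subtype.val heq
    subst e
    rw [disjoint_self] at h
    have h8 := ha.2
    rw [h] at h8
    simp at h8

theorem walk_two9 {V : Type*} {G : SimpleGraph V} {u v : V} (p : G.Walk u v)
    (hp : p.length = 2) : ∃ w, G.Adj u w ∧ G.Adj w v := by
  cases p with
  | nil => simp at hp
  | cons h1 q =>
    cases q with
    | nil => simp at hp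
    | cons h2 r =>
      cases r with
      | nil => exact ⟨_, h1, h2⟩
      | cons h3 r' => simp at hp

theorem octad_graph (o o' : Finset GolayPt) (ho : o ∈ octads) (ho' : o' ∈ octads)
    (hne : o ≠ o') :
    (blockGraph octads).Connected ∧
      ((blockGraph octads).dist ⟨o, ho⟩ ⟨o', ho'⟩ = 1 ↔ (o ∩ o').card = 0) ∧
      ((blockGraph octads).dist ⟨o, ho⟩ ⟨o', ho'⟩ = 2 ↔ (o ∩ o').card = 4) ∧
      ((blockGraph octads).dist ⟨o, ho⟩ ⟨o', ho'⟩ = 3 ↔ (o ∩ o').card = 2) := by
  have hw2 : ∀ (u v : Finset GolayPt) (hu : u ∈ octads) (hv : v ∈ octads),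
      (u ∩ v).card = 4 → ∃ p : (blockGraph octads).Walk ⟨u, hu⟩ ⟨v, hv⟩, p.length = 2 := by
    intro u v hu hv h4
    obtain ⟨a, ha, hau, hav⟩ := exists_disjoint_of_four hu hv h4
    exact ⟨SimpleGraph.Walk.cons ((blockGraph_adj_iff hu ha).mpr hau.symm)
      (SimpleGraph.Walk.cons ((blockGraph_adj_iff ha hv).mpr hav) SimpleGraph.Walk.nil), rfl⟩
  have hw3 : ∀ (u v : Finset GolayPt) (hu : u ∈ octads) (hv : v ∈ octads),
      (u ∩ v).card = 2 → ∃ p : (blockGraph octads).Walk ⟨u, hu⟩ ⟨v, hv⟩, p.length = 3 := by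
    intro u v hu hv h2
    obtain ⟨a, ha, b, hb, h1, h3, h4⟩ := exists_path3 hu hv h2
    exact ⟨SimpleGraph.Walk.cons ((blockGraph_adj_iff hu ha).mpr h1)
      (SimpleGraph.Walk.cons ((blockGraph_adj_iff ha hb).mpr h3)
        (SimpleGraph.Walk.cons ((blockGraph_adj_iff hb hv).mpr h4) SimpleGraph.Walk.nil)), rfl⟩
  have hreach : ∀ (u v : ↥octads), (blockGraph octads).Reachable u v := by
    rintro ⟨u, hu⟩ ⟨v, hv⟩
    by_cases huv : u = v
    · subst huv
      exact SimpleGraph.Reachable.refl _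
    · rcases octad_inter_cases hu hv huv with h | h | h
      · exact ((blockGraph_adj_iff hu hv).mpr
          (Finset.disjoint_iff_inter_eq_empty.mpr (Finset.card_eq_zero.mp h))).reachable
      · obtain ⟨p, -⟩ := hw3 u v hu hv h
        exact p.reachable
      · obtain ⟨p, -⟩ := hw2 u v hu hv h
        exact p.reachable
  have hconn : (blockGraph octads).Connected :=
    { preconnected := hreach, nonempty := ⟨⟨o, ho⟩⟩ }
  have hvne : (⟨o, ho⟩ : ↥octads) ≠ ⟨o', ho'⟩ := fun h => hne (congrArg Subtype.val h)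
  have hd1 : (blockGraph octads).dist ⟨o, ho⟩ ⟨o', ho'⟩ = 1 ↔ (o ∩ o').card = 0 := by
    rw [SimpleGraph.dist_eq_one_iff_adj, blockGraph_adj_iff ho ho', Finset.card_eq_zero,
      Finset.disjoint_iff_inter_eq_empty]
  have hpos : 0 < (blockGraph octads).dist ⟨o, ho⟩ ⟨o', ho'⟩ :=
    (hreach _ _).pos_dist_of_ne hvne
  have hdist : ((o ∩ o').card = 0 ∧ (blockGraph octads).dist ⟨o, ho⟩ ⟨o', ho'⟩ = 1) ∨
      ((o ∩ o').card = 2 ∧ (blockGraph octads).dist ⟨o, ho⟩ ⟨o', ho'⟩ = 3) ∨
      ((o ∩ o').card = 4 ∧ (blockGraph octads).dist ⟨o, ho⟩ ⟨o', ho'⟩ = 2) := by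
    rcases octad_inter_cases ho ho' hne with h | h | h
    · exact Or.inl ⟨h, hd1.mpr h⟩
    · right
      left
      refine ⟨h, ?_⟩
      obtain ⟨p, hp⟩ := hw3 o o' ho ho' h
      have hle := SimpleGraph.dist_le p
      rw [hp] at hle
      have hn1 : (blockGraph octads).dist ⟨o, ho⟩ ⟨o', ho'⟩ ≠ 1 := fun h1 => by
        have := hd1.mp h1
        omega
      have hn2 : (blockGraph octads).dist ⟨o, ho⟩ ⟨o', ho'⟩ ≠ 2 := by
        intro h2
        obtain ⟨q, hq⟩ := (hreach ⟨o, ho⟩ ⟨o', ho'⟩).exists_walk_length_eq_dist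
        rw [h2] at hq
        obtain ⟨⟨a, ha⟩, h3, h4⟩ := walk_two9 q hq
        rw [blockGraph_adj_iff ho ha] at h3
        rw [blockGraph_adj_iff ha ho'] at h4
        exact no_common_disjoint ho ho' ha h h3.symm h4
      omega
    · right
      right
      refine ⟨h, ?_⟩
      obtain ⟨p, hp⟩ := hw2 o o' ho ho' h
      have hle := SimpleGraph.dist_le p
      rw [hp] at hle
      have hn1 : (blockGraph octads).dist ⟨o, ho⟩ ⟨o', ho'⟩ ≠ 1 := fun h1 => by
        have := hd1.mp h1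
        omega
      omega
  refine ⟨hconn, hd1, ?_, ?_⟩
  · rcases hdist with ⟨h1, h2⟩ | ⟨h1, h2⟩ | ⟨h1, h2⟩ <;> rw [h1, h2] <;> decide
  · rcases hdist with ⟨h1, h2⟩ | ⟨h1, h2⟩ | ⟨h1, h2⟩ <;> rw [h1, h2] <;> decide

end Cfsg.Agent.Helper9
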