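import Mathlib
import Cfsg.Agent.Helper1.Steiner2
import Cfsg.Agent.Helper9.M24Fix3
import Cfsg.Agent.Helper9.OctadGraph
import Cfsg.Agent.S0354

set_option autoImplicit false

namespace Cfsg.Agent.Helper9

open Cfsg Cfsg.Agent.Helper1.Golay
open scoped Pointwise

theorem card_stab_octad {o : Finset GolayPt} (ho : o ∈ octads) :
    Nat.card (MulAction.stabilizer ↥M24 o) = 322560 := by
  have h := Subgroup.card_mul_index (MulAction.stabilizer ↥M24 o)
  rw [MulAction.index_stabilizer] at h
  have horb : MulAction.orbit ↥M24 o = octads := by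
    ext c
    constructor
    · rintro ⟨g, rfl⟩
      exact smul_octad_mem g.2 ho
    · intro hc
      obtain ⟨g, hg⟩ := octads_transitive o c ho hc
      exact ⟨g, hg⟩
  have hn : octads.ncard = 759 := by
    rw [octads, ncard_wordsOfWeight]
    exact count8
  rw [horb, hn, card_M24] at h
  omega

theorem octad_interNums {o : Finset GolayPt} (ho : o ∈ octads) :
    Cfsg.Agent.Helper1.interNum octads o 0 = 30 ∧ Cfsg.Agent.Helper1.interNum octads o 2 = 448 ∧
      Cfsg.Agent.Helper1.interNum octads o 4 = 280 := by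
  have hB := octads_steiner
  have hm := fun j hj => Cfsg.Agent.Helper1.steiner_moment hB ho j hj
  have h8 := Cfsg.Agent.Helper1.interNum_self hB ho
  have h5 := Cfsg.Agent.Helper1.interNum_eq_zero hB ho (i := 5) (by norm_num) (by norm_num)
  have h6 := Cfsg.Agent.Helper1.interNum_eq_zero hB ho (i := 6) (by norm_num) (by norm_num)
  have h7 := Cfsg.Agent.Helper1.interNum_eq_zero hB ho (i := 7) (by norm_num) (by norm_num)
  have m4 := hm 4 (by norm_num)
  have m3 := hm 3 (by norm_num)
  have m2 := hm 2 (by norm_num)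
  have m1 := hm 1 (by norm_num)
  have m0 := hm 0 (by norm_num)
  simp only [Finset.sum_range_succ, Finset.sum_range_zero, h5, h6, h7, h8, card_golayPt]
    at m4 m3 m2 m1 m0
  norm_num [Nat.choose] at m4 m3 m2 m1 m0
  omega

theorem fixGrp_smul_self {o : Finset GolayPt} {g : Equiv.Perm GolayPt} (hg : g ∈ fixGrp o) :
    g • o = o := by
  rw [mem_fixGrp] at hg
  apply Finset.eq_of_subset_of_card_le
  · intro x hx
    obtain ⟨y, hy, rfl⟩ := Finset.mem_smul_finset.mp hx
    have e : g • y = y := hg.2 y hy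
    rw [e]
    exact hy
  · rw [Finset.card_smul_finset]

/-- The stabilizer of an octad is transitive on the octads meeting it in four points. -/
theorem stab_octad_trans_four {o c c' : Finset GolayPt} (ho : o ∈ octads) (hc : c ∈ octads)
    (hc' : c' ∈ octads) (h4 : (o ∩ c).card = 4) (h4' : (o ∩ c').card = 4) :
    ∃ g ∈ M24, g • o = o ∧ g • c = c' := by
  classical
  have hTo : o ∩ c ⊆ o := Finset.inter_subset_left
  have hT'o : o ∩ c' ⊆ o := Finset.inter_subset_left
  obtain ⟨a, ha⟩ : (o \ (o ∩ c)).Nonempty :=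
    Finset.card_pos.mp (by rw [Finset.card_sdiff_of_subset hTo, ho.2, h4]; norm_num)
  obtain ⟨a', ha'⟩ : (o \ (o ∩ c')).Nonempty :=
    Finset.card_pos.mp (by rw [Finset.card_sdiff_of_subset hT'o, ho.2, h4']; norm_num)
  have ha1 := Finset.mem_sdiff.mp ha
  have ha1' := Finset.mem_sdiff.mp ha'
  obtain ⟨p, hp⟩ : (c \ o).Nonempty := by
    apply Finset.card_pos.mp
    have h := Finset.card_sdiff_add_card_inter c o
    rw [hc.2, Finset.inter_comm, h4] at h
    omega
  obtain ⟨p', hp'⟩ : (c' \ o).Nonempty := by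
    apply Finset.card_pos.mp
    have h := Finset.card_sdiff_add_card_inter c' o
    rw [hc'.2, Finset.inter_comm, h4'] at h
    omega
  have hp1 := Finset.mem_sdiff.mp hp
  have hp1' := Finset.mem_sdiff.mp hp'
  let e : ↥(o ∩ c) ≃ ↥(o ∩ c') := Finset.equivOfCardEq (h4.trans h4'.symm)
  let f : GolayPt → GolayPt := fun x => if h : x ∈ o ∩ c then ((e ⟨x, h⟩ : ↥(o ∩ c')) : GolayPt) else a'
  have hfT : ∀ x (hx : x ∈ o ∩ c), f x = ((e ⟨x, hx⟩ : ↥(o ∩ c')) : GolayPt) := fun x hx => dif_pos hx
  have hfa : f a = a' := dif_neg ha1.2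
  have hinj : Set.InjOn f ↑(insert a (o ∩ c)) := by
    intro x hx y hy hxy
    rw [Finset.mem_coe, Finset.mem_insert] at hx hy
    rcases hx with rfl | hxT
    · rcases hy with rfl | hyT
      · rfl
      · exfalso
        rw [hfa, hfT y hyT] at hxy
        exact ha1'.2 (hxy ▸ (e ⟨y, hyT⟩).2)
    · rcases hy with rfl | hyT
      · exfalso
        rw [hfa, hfT x hxT] at hxy
        exact ha1'.2 (hxy ▸ (e ⟨x, hxT⟩).2)
      · rw [hfT x hxT, hfT y hyT] at hxy
        have h1 := e.injective (Subtype.ext hxy)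
        exact congrArg Subtype.val h1
  have hF5 : (insert a (o ∩ c)).card = 5 := by
    rw [Finset.card_insert_of_notMem ha1.2, h4]
  obtain ⟨g1, hg1, hg1F⟩ := m24_exists_map_on (insert a (o ∩ c)) hF5 f hinj
  have hg1T : ∀ x ∈ o ∩ c, g1 x ∈ o ∩ c' := by
    intro x hx
    rw [hg1F x (Finset.mem_insert_of_mem hx), hfT x hx]
    exact (e ⟨x, hx⟩).2
  have hg1a : g1 a = a' := by rw [hg1F a (Finset.mem_insert_self _ _), hfa]
  have hg1o : g1 • o = o := by
    apply octads_unique (smul_octad_mem hg1 ho) ho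
    have hsub : (insert a (o ∩ c)).image g1 ⊆ g1 • o ∩ o := by
      intro y hy
      obtain ⟨x, hx, rfl⟩ := Finset.mem_image.mp hy
      rw [Finset.mem_inter]
      rcases Finset.mem_insert.mp hx with rfl | hxT
      · exact ⟨Finset.smul_mem_smul_finset ha1.1, by rw [hg1a]; exact ha1'.1⟩
      · exact ⟨Finset.smul_mem_smul_finset (hTo hxT), hT'o (hg1T x hxT)⟩
    calc 5 = ((insert a (o ∩ c)).image g1).card := by
          rw [Finset.card_image_of_injective _ g1.injective, hF5]
      _ ≤ (g1 • o ∩ o).card := Finset.card_le_card hsub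
  have hg1p : g1 p ∉ o := fun h => hp1.2 ((mem_iff_of_smul_eq hg1o p).mp h)
  obtain ⟨g2, hg2, hg2p⟩ := fixGrp_octad_trans ho hg1p hp1'.2
  have hg2' := (mem_fixGrp o g2).mp hg2
  refine ⟨g2 * g1, mul_mem hg2'.1 hg1, ?_, ?_⟩
  · rw [mul_smul, hg1o, fixGrp_smul_self hg2]
  · apply octads_unique (smul_octad_mem (mul_mem hg2'.1 hg1) hc) hc'
    have hpT : p ∉ o ∩ c := fun h => hp1.2 (hTo h)
    have hsub : (insert p (o ∩ c)).image (g2 * g1) ⊆ (g2 * g1) • c ∩ c' := by
      intro y hy
      obtain ⟨x, hx, rfl⟩ := Finset.mem_image.mp hy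
      rw [Finset.mem_inter]
      rcases Finset.mem_insert.mp hx with rfl | hxT
      · refine ⟨Finset.smul_mem_smul_finset hp1.1, ?_⟩
        rw [Equiv.Perm.mul_apply, hg2p]
        exact hp1'.1
      · refine ⟨Finset.smul_mem_smul_finset (Finset.mem_of_mem_inter_right hxT), ?_⟩
        rw [Equiv.Perm.mul_apply, hg2'.2 _ (hT'o (hg1T x hxT))]
        exact Finset.mem_of_mem_inter_right (hg1T x hxT)
    calc 5 = ((insert p (o ∩ c)).image (g2 * g1)).card := by
          rw [Finset.card_image_of_injective _ (g2 * g1).injective,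
            Finset.card_insert_of_notMem hpT, h4]
      _ ≤ ((g2 * g1) • c ∩ c').card := Finset.card_le_card hsub

/-- A permutation of prime order acting without fixed points on an invariant family of sets. -/
theorem family_card_dvd {g : Equiv.Perm GolayPt} (s : Finset (Finset GolayPt))
    (hs : ∀ c, g • c ∈ s ↔ c ∈ s) (p : ℕ) [Fact p.Prime] (hg : g ^ p = 1)
    (hfree : ∀ c ∈ s, g • c ≠ c) : p ∣ s.card := by
  classical
  have h := card_moved_dvd (MulAction.toPermHom (Equiv.Perm GolayPt) (Finset GolayPt) g) s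
    (fun c => hs c) p (by rw [← map_pow, hg, map_one])
  have e : s.filter (fun a => (MulAction.toPermHom (Equiv.Perm GolayPt) (Finset GolayPt) g) a ≠ a)
      = s := Finset.filter_true_of_mem (fun c hc => hfree c hc)
  rwa [e] at h

/-- A 2-group acting on an invariant finite family without fixed members. -/
theorem family_card_even {G α : Type*} [Group G] [MulAction G α] (V : Subgroup G) [Finite V]
    (hV : IsPGroup 2 V) (s : Finset α) (hinv : ∀ v ∈ V, ∀ c ∈ s, v • c ∈ s)
    (hfix : ∀ c ∈ s, ∃ v ∈ V, v • c ≠ c) : 2 ∣ s.card := by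
  have f2 : Fact (Nat.Prime 2) := ⟨Nat.prime_two⟩
  let _ : MulAction V {c // c ∈ s} :=
    { smul := fun v c => ⟨v.1 • c.1, hinv v.1 v.2 c.1 c.2⟩
      one_smul := fun c => Subtype.ext (one_smul G c.1)
      mul_smul := fun v w c => Subtype.ext (mul_smul v.1 w.1 c.1) }
  have h := hV.card_modEq_card_fixedPoints {c // c ∈ s}
  have hempty : MulAction.fixedPoints V {c // c ∈ s} = ∅ := by
    ext c
    simp only [MulAction.mem_fixedPoints, Set.mem_empty_iff_false, iff_false]
    intro hc
    obtain ⟨v, hv, hne⟩ := hfix c.1 c.2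
    exact hne (congrArg Subtype.val (hc ⟨v, hv⟩))
  rw [hempty] at h
  simp only [Nat.card_eq_fintype_card, Fintype.card_coe] at h
  exact (Nat.modEq_zero_iff_dvd).mp h

/-- The stabilizer of an octad is transitive on the octads disjoint from it. -/
theorem stab_octad_trans_zero {o a a' : Finset GolayPt} (ho : o ∈ octads) (ha : a ∈ octads)
    (ha' : a' ∈ octads) (hd : Disjoint o a) (hd' : Disjoint o a') :
    ∃ g ∈ M24, g • o = o ∧ g • a = a' := by
  classical
  have f3 : Fact (Nat.Prime 3) := ⟨by norm_num⟩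
  have f5 : Fact (Nat.Prime 5) := ⟨by norm_num⟩
  set D : Finset (Finset GolayPt) :=
    Finset.univ.filter (fun c => c ∈ octads ∧ Disjoint o c) with hD
  have hDmem : ∀ c, c ∈ D ↔ c ∈ octads ∧ Disjoint o c := fun c => by simp [hD]
  have hDcard : D.card = 30 := by
    have h30 := Cfsg.Agent.S0354.result card_golayPt octads_steiner ho
    have e : {c : Finset GolayPt | c ∈ octads ∧ Disjoint o c} = ↑D := by
      ext c
      rw [Finset.mem_coe, hDmem]
      rfl
    rw [e, Set.ncard_coe_finset] at h30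
    exact h30
  set O : Finset (Finset GolayPt) :=
    Finset.univ.filter (fun x => ∃ g ∈ M24, g • o = o ∧ g • a = x) with hO
  have hOmem : ∀ x, x ∈ O ↔ ∃ g ∈ M24, g • o = o ∧ g • a = x := fun x => by simp [hO]
  have hdisj : ∀ g : Equiv.Perm GolayPt, g • o = o → ∀ c, Disjoint o c → Disjoint o (g • c) := by
    intro g hgo c hc
    rw [Finset.disjoint_left]
    intro x hx hx2
    obtain ⟨y, hy, rfl⟩ := Finset.mem_smul_finset.mp hx2
    exact Finset.disjoint_left.mp hc ((mem_iff_of_smul_eq hgo y).mp hx) hy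
  have hOD : O ⊆ D := by
    intro x hx
    obtain ⟨g, hg, hgo, rfl⟩ := (hOmem x).mp hx
    exact (hDmem _).mpr ⟨smul_octad_mem hg ha, hdisj g hgo a hd⟩
  have haO : a ∈ O := (hOmem a).mpr ⟨1, one_mem _, one_smul _ _, one_smul _ _⟩
  have hOinv : ∀ g ∈ M24, g • o = o → ∀ x, g • x ∈ O ↔ x ∈ O := by
    intro g hg hgo x
    rw [hOmem, hOmem]
    constructor
    · rintro ⟨h, hh, hho, hha⟩
      refine ⟨g⁻¹ * h, mul_mem (inv_mem hg) hh, ?_, ?_⟩
      · rw [mul_smul, hho, inv_smul_eq_iff, hgo]
      · rw [mul_smul, hha, inv_smul_smul]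
    · rintro ⟨h, hh, hho, rfl⟩
      exact ⟨g * h, mul_mem hg hh, by rw [mul_smul, hho, hgo], mul_smul _ _ _⟩
  -- a 5-subset of `o`
  obtain ⟨F, hFo, hF5⟩ := Finset.exists_subset_card_eq (show 5 ≤ o.card by rw [ho.2]; norm_num)
  -- divisibility by 3
  have h3 : 3 ∣ O.card := by
    obtain ⟨p, hp⟩ : a.Nonempty := Finset.card_pos.mp (by rw [ha.2]; norm_num)
    have hpo : p ∉ o := fun h => Finset.disjoint_left.mp hd h hp
    have hc3 := card_fixGrp_six_out ho hFo hF5 hpo
    have hnt : Nontrivial ↥(fixGrp (insert p F)) := by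
      rw [← Finite.one_lt_card_iff_nontrivial, hc3]
      norm_num
    obtain ⟨⟨x, hx⟩, hx1⟩ := exists_ne (1 : ↥(fixGrp (insert p F)))
    have hx1' : x ≠ 1 := fun h => hx1 (Subtype.ext h)
    have hx' := (mem_fixGrp _ x).mp hx
    have hx3 : x ^ 3 = 1 := by
      have h : (⟨x, hx⟩ : ↥(fixGrp (insert p F))) ^ 3 = 1 := by
        rw [← hc3]
        exact pow_card_eq_one'
      exact congrArg Subtype.val h
    have hxF : ∀ q ∈ F, x q = q := fun q hq => hx'.2 q (Finset.mem_insert_of_mem hq)
    have hxo : x • o = o := inv_octad_of_five hx'.1 ho hFo (by omega)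
      (fun q hq => by rw [hxF q hq]; exact hq)
    apply family_card_dvd O (hOinv x hx'.1 hxo) 3 hx3
    intro c hcO hxc
    have hcD := (hDmem c).mp (hOD hcO)
    have hdv := card_moved_dvd x c (mem_iff_of_smul_eq hxc) 3 hx3
    have hsum := Finset.card_filter_add_card_filter_not (s := c) (fun q => x q = q)
    rw [hcD.1.2] at hsum
    have hdv' : 3 ∣ (c.filter (fun q => ¬ x q = q)).card := hdv
    have h2 : 2 ≤ (c.filter (fun q => x q = q)).card := by omega
    have hsub : F ∪ c.filter (fun q => x q = q) ⊆ Finset.univ.filter (fun q => x q = q) := by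
      intro q hq
      rw [Finset.mem_filter]
      refine ⟨Finset.mem_univ _, ?_⟩
      rcases Finset.mem_union.mp hq with h | h
      · exact hxF q h
      · exact (Finset.mem_filter.mp h).2
    have hdisjF : Disjoint F (c.filter (fun q => x q = q)) := by
      rw [Finset.disjoint_left]
      intro q hqF hqc
      exact Finset.disjoint_left.mp hcD.2 (hFo hqF) (Finset.mem_filter.mp hqc).1
    have hge : 7 ≤ (Finset.univ.filter (fun q => x q = q)).card := by
      refine le_trans ?_ (Finset.card_le_card hsub)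
      rw [Finset.card_union_of_disjoint hdisjF, hF5]
      omega
    rcases ord3_fix hx'.1 hx3 hx1' with h | h <;> omega
  -- divisibility by 5
  have h5 : 5 ∣ O.card := by
    have hcard := card_stab_octad ho
    have hdvd : 5 ∣ Nat.card (MulAction.stabilizer ↥M24 o) := by
      rw [hcard]
      norm_num
    obtain ⟨z, hz⟩ := exists_prime_orderOf_dvd_card' 5 hdvd
    have hzM : (z.1.1 : Equiv.Perm GolayPt) ∈ M24 := z.1.2
    have hzo : (z.1.1 : Equiv.Perm GolayPt) • o = o := z.2
    set y : Equiv.Perm GolayPt := z.1.1 with hy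
    have hy5 : y ^ 5 = 1 := by
      have h := pow_orderOf_eq_one z
      rw [hz] at h
      have h' := congrArg (fun w : ↥(MulAction.stabilizer ↥M24 o) => ((w.1 : ↥M24) : Equiv.Perm GolayPt)) h
      simpa using h'
    have hy1 : y ≠ 1 := by
      intro h
      have h1 : z = 1 := by
        apply Subtype.ext
        apply Subtype.ext
        exact h
      rw [h1, orderOf_one] at hz
      omega
    apply family_card_dvd O (hOinv y hzM hzo) 5 hy5
    intro c hcO hyc
    have hcD := (hDmem c).mp (hOD hcO)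
    have hdv1 := card_moved_dvd y c (mem_iff_of_smul_eq hyc) 5 hy5
    have hsum1 := Finset.card_filter_add_card_filter_not (s := c) (fun q => y q = q)
    rw [hcD.1.2] at hsum1
    have hdv1' : 5 ∣ (c.filter (fun q => ¬ y q = q)).card := hdv1
    have hdv2 := card_moved_dvd y o (mem_iff_of_smul_eq hzo) 5 hy5
    have hsum2 := Finset.card_filter_add_card_filter_not (s := o) (fun q => y q = q)
    rw [ho.2] at hsum2
    have hdv2' : 5 ∣ (o.filter (fun q => ¬ y q = q)).card := hdv2
    have hdisjF : Disjoint (o.filter (fun q => y q = q)) (c.filter (fun q => y q = q)) := by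
      rw [Finset.disjoint_left]
      intro q hqo hqc
      exact Finset.disjoint_left.mp hcD.2 (Finset.mem_filter.mp hqo).1 (Finset.mem_filter.mp hqc).1
    have hge : 5 ≤ (o.filter (fun q => y q = q) ∪ c.filter (fun q => y q = q)).card := by
      rw [Finset.card_union_of_disjoint hdisjF]
      omega
    obtain ⟨F5, hF5sub, hF5card⟩ := Finset.exists_subset_card_eq hge
    have hyF : y ∈ fixGrp F5 := by
      rw [mem_fixGrp]
      refine ⟨hzM, fun q hq => ?_⟩
      rcases Finset.mem_union.mp (hF5sub hq) with h | h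
      · exact (Finset.mem_filter.mp h).2
      · exact (Finset.mem_filter.mp h).2
    have h48 : y ^ 48 = 1 := by
      have h : (⟨y, hyF⟩ : ↥(fixGrp F5)) ^ 48 = 1 := by
        rw [← card_fixGrp_five F5 hF5card]
        exact pow_card_eq_one'
      exact congrArg Subtype.val h
    apply hy1
    calc y = (y ^ 5) ^ 29 * ((y ^ 48) ^ 3)⁻¹ := by group
      _ = 1 := by rw [hy5, h48]; simp
  -- divisibility by 2
  have h2 : 2 ∣ O.card := by
    have hV16 := (octad_fixGrp o ho).1
    have hVp : IsPGroup 2 ↥(fixGrp o) := IsPGroup.of_card (n := 4) (by rw [hV16]; norm_num)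
    apply family_card_even (fixGrp o) hVp O
    · intro v hv c hc
      exact (hOinv v ((mem_fixGrp o v).mp hv).1 (fixGrp_smul_self hv) c).mpr hc
    · intro c hcO
      by_contra hcon
      push_neg at hcon
      have hcD := (hDmem c).mp (hOD hcO)
      obtain ⟨p, hp⟩ : c.Nonempty := Finset.card_pos.mp (by rw [hcD.1.2]; norm_num)
      have hpo : p ∉ o := fun h => Finset.disjoint_left.mp hcD.2 h hp
      have hinj : Function.Injective (fun v : ↥(fixGrp o) =>
          (⟨v.1 p, (mem_iff_of_smul_eq (hcon v.1 v.2) p).mpr hp⟩ : ↥c)) := by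
        intro v w hvw
        have h1 : v.1 p = w.1 p := congrArg Subtype.val hvw
        have hu : v.1⁻¹ * w.1 ∈ fixGrp o := mul_mem (inv_mem v.2) w.2
        have hu' := (mem_fixGrp o _).mp hu
        have hup : (v.1⁻¹ * w.1) p = p := by
          rw [Equiv.Perm.mul_apply, ← h1]
          exact v.1.symm_apply_apply p
        have hu3 := pow_three_of_six_out hu'.1 ho hFo hF5
          (fun q hq => hu'.2 q (hFo hq)) hpo hup
        have hu2 := (octad_fixGrp o ho).2 _ hu
        have hu1 : v.1⁻¹ * w.1 = 1 := by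
          have h5 : (v.1⁻¹ * w.1) ^ 3 = (v.1⁻¹ * w.1) * (v.1⁻¹ * w.1) * (v.1⁻¹ * w.1) := by
            rw [pow_succ, pow_two]
          rw [h5, hu2, one_mul] at hu3
          exact hu3
        apply Subtype.ext
        exact (inv_mul_eq_one.mp hu1)
      have hle := Nat.card_le_card_of_injective _ hinj
      rw [hV16, Nat.card_eq_fintype_card, Fintype.card_coe, hcD.1.2] at hle
      omega
  have hOcard : O.card = 30 := by
    have hle : O.card ≤ 30 := by
      rw [← hDcard]
      exact Finset.card_le_card hOD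
    have hpos : 0 < O.card := Finset.card_pos.mpr ⟨a, haO⟩
    omega
  have hOeq : O = D := Finset.eq_of_subset_of_card_le hOD (by rw [hOcard, hDcard])
  have ha'O : a' ∈ O := by
    rw [hOeq, hDmem]
    exact ⟨ha', hd'⟩
  exact (hOmem a').mp ha'O

end Cfsg.Agent.Helper9
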