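import Mathlib
import Cfsg.Agent.Helper1.Golay12
import Cfsg.Agent.Helper9.M24Pair

set_option autoImplicit false

namespace Cfsg.Agent.Helper9

open Cfsg Cfsg.Agent.Helper1.Golay
open scoped Pointwise

/-- An element of `M24` fixing five points has order dividing 48. -/
theorem pow_48_of_five_fixed {z : Equiv.Perm GolayPt} (hz : z ∈ M24) (S : Finset GolayPt)
    (hS : ∀ q ∈ S, z q = q) (h5 : 5 ≤ S.card) : z ^ 48 = 1 := by
  obtain ⟨F5, hF5sub, hF5card⟩ := Finset.exists_subset_card_eq h5
  have hzF : z ∈ fixGrp F5 := by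
    rw [mem_fixGrp]
    exact ⟨hz, fun q hq => hS q (hF5sub hq)⟩
  have h : (⟨z, hzF⟩ : ↥(fixGrp F5)) ^ 48 = 1 := by
    rw [← card_fixGrp_five F5 hF5card]
    exact pow_card_eq_one'
  exact congrArg Subtype.val h

/-- The stabilizer of an octad is 2-transitive on the octad. -/
theorem stab_octad_two_trans_in {O : Finset GolayPt} (hO : O ∈ octads) {x x' y : GolayPt}
    (hx : x ∈ O) (hx' : x' ∈ O) (hy : y ∈ O) (h1 : x ≠ x') (h2 : y ≠ x) (_h3 : y ≠ x') :
    ∃ σ ∈ M24, σ • O = O ∧ σ x = x ∧ σ x' = y := by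
  classical
  obtain ⟨F, hsF, hFO, hF5⟩ := Finset.exists_subsuperset_card_eq (s := {x, x', y}) (t := O)
    (n := 5) (by
      intro a ha
      rw [Finset.mem_insert, Finset.mem_insert, Finset.mem_singleton] at ha
      rcases ha with rfl | rfl | rfl
      · exact hx
      · exact hx'
      · exact hy)
    (le_trans Finset.card_le_three (by norm_num)) (by rw [hO.2]; norm_num)
  have hxF : x ∈ F := hsF (by simp)
  have hx'F : x' ∈ F := hsF (by simp)
  have hyF : y ∈ F := hsF (by simp)
  obtain ⟨g, hg, hgF⟩ := m24_exists_map_on F hF5 (Equiv.swap x' y)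
    ((Equiv.swap x' y).injective.injOn)
  have hgmem : ∀ a ∈ F, g a ∈ F := by
    intro a ha
    rw [hgF a ha]
    by_cases h : a = x'
    · rw [h, Equiv.swap_apply_left]
      exact hyF
    · by_cases h' : a = y
      · rw [h', Equiv.swap_apply_right]
        exact hx'F
      · rw [Equiv.swap_apply_of_ne_of_ne h h']
        exact ha
  refine ⟨g, hg, inv_octad_of_five hg hO hFO (by omega) hgmem, ?_, ?_⟩
  · rw [hgF x hxF, Equiv.swap_apply_of_ne_of_ne h1 h2.symm]
  · rw [hgF x' hx'F, Equiv.swap_apply_left]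

/-- The stabilizer of an octad is 2-transitive on the complement of the octad. -/
theorem stab_octad_two_trans_out {O : Finset GolayPt} (hO : O ∈ octads) {x x' y : GolayPt}
    (hx : x ∉ O) (hx' : x' ∉ O) (hy : y ∉ O) (h1 : x ≠ x') (h2 : y ≠ x) (_h3 : y ≠ x') :
    ∃ σ ∈ M24, σ • O = O ∧ σ x = x ∧ σ x' = y := by
  classical
  have f3 : Fact (Nat.Prime 3) := ⟨by norm_num⟩
  have f5 : Fact (Nat.Prime 5) := ⟨by norm_num⟩
  set Y : Finset GolayPt := Oᶜ.erase x with hY
  have hYcard : Y.card = 15 := by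
    rw [hY, Finset.card_erase_of_mem (Finset.mem_compl.mpr hx), Finset.card_compl, card_golayPt,
      hO.2]
  set Q : Finset GolayPt :=
    Finset.univ.filter (fun q => ∃ σ ∈ M24, σ • O = O ∧ σ x = x ∧ σ x' = q) with hQ
  have hQmem : ∀ q, q ∈ Q ↔ ∃ σ ∈ M24, σ • O = O ∧ σ x = x ∧ σ x' = q := fun q => by simp [hQ]
  have hQY : Q ⊆ Y := by
    intro q hq
    obtain ⟨σ, hσ, hσO, hσx, rfl⟩ := (hQmem q).mp hq
    rw [hY, Finset.mem_erase, Finset.mem_compl]
    refine ⟨fun h => h1 ?_, fun h => hx' ((mem_iff_of_smul_eq hσO x').mp h)⟩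
    apply σ.injective
    rw [hσx, h]
  have hx'Q : x' ∈ Q := (hQmem x').mpr ⟨1, one_mem _, one_smul _ _, rfl, rfl⟩
  have hQinv : ∀ g ∈ M24, g • O = O → g x = x → ∀ q, g q ∈ Q ↔ q ∈ Q := by
    intro g hg hgO hgx q
    rw [hQmem, hQmem]
    constructor
    · rintro ⟨σ, hσ, hσO, hσx, hσq⟩
      refine ⟨g⁻¹ * σ, mul_mem (inv_mem hg) hσ, ?_, ?_, ?_⟩
      · rw [mul_smul, hσO, inv_smul_eq_iff, hgO]
      · rw [Equiv.Perm.mul_apply, hσx, Equiv.Perm.inv_eq_iff_eq, hgx]
      · rw [Equiv.Perm.mul_apply, hσq, Equiv.Perm.inv_eq_iff_eq]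
    · rintro ⟨σ, hσ, hσO, hσx, rfl⟩
      exact ⟨g * σ, mul_mem hg hσ, by rw [mul_smul, hσO, hgO],
        by rw [Equiv.Perm.mul_apply, hσx, hgx], rfl⟩
  obtain ⟨F, hFO, hF5⟩ := Finset.exists_subset_card_eq (show 5 ≤ O.card by rw [hO.2]; norm_num)
  have h3 : 3 ∣ Q.card := by
    have hc3 := card_fixGrp_six_out hO hFO hF5 hx
    have hnt : Nontrivial ↥(fixGrp (insert x F)) := by
      rw [← Finite.one_lt_card_iff_nontrivial, hc3]
      norm_num
    obtain ⟨⟨t, ht⟩, ht1⟩ := exists_ne (1 : ↥(fixGrp (insert x F)))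
    have ht1' : t ≠ 1 := fun h => ht1 (Subtype.ext h)
    have ht' := (mem_fixGrp _ t).mp ht
    have ht3 : t ^ 3 = 1 := by
      have h : (⟨t, ht⟩ : ↥(fixGrp (insert x F))) ^ 3 = 1 := by
        rw [← hc3]
        exact pow_card_eq_one'
      exact congrArg Subtype.val h
    have htF : ∀ q ∈ F, t q = q := fun q hq => ht'.2 q (Finset.mem_insert_of_mem hq)
    have htx : t x = x := ht'.2 x (Finset.mem_insert_self _ _)
    have htO : t • O = O := inv_octad_of_five ht'.1 hO hFO (by omega)
      (fun q hq => by rw [htF q hq]; exact hq)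
    have hdv := card_moved_dvd t Q (hQinv t ht'.1 htO htx) 3 ht3
    have hall : Q.filter (fun q => t q ≠ q) = Q := by
      apply Finset.filter_true_of_mem
      intro q hq htq
      have hqY := hQY hq
      rw [hY, Finset.mem_erase, Finset.mem_compl] at hqY
      have hsub : insert q (insert x F) ⊆ Finset.univ.filter (fun a => t a = a) := by
        intro a ha
        rw [Finset.mem_filter]
        refine ⟨Finset.mem_univ _, ?_⟩
        rcases Finset.mem_insert.mp ha with rfl | ha
        · exact htq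
        · exact ht'.2 a ha
      have hc7 : (insert q (insert x F)).card = 7 := by
        rw [Finset.card_insert_of_notMem, Finset.card_insert_of_notMem (fun h => hx (hFO h)), hF5]
        rw [Finset.mem_insert]
        rintro (h | h)
        · exact hqY.1 h
        · exact hqY.2 (hFO h)
      have hge : 7 ≤ (Finset.univ.filter (fun a => t a = a)).card := by
        rw [← hc7]
        exact Finset.card_le_card hsub
      rcases ord3_fix ht'.1 ht3 ht1' with h | h <;> omega
    rwa [hall] at hdv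
  have h5 : 5 ∣ Q.card := by
    have hcard := card_stab_octad hO
    have hdvd : 5 ∣ Nat.card (MulAction.stabilizer ↥M24 O) := by
      rw [hcard]
      norm_num
    obtain ⟨z0, hz0⟩ := exists_prime_orderOf_dvd_card' 5 hdvd
    have hyM : (z0.1.1 : Equiv.Perm GolayPt) ∈ M24 := z0.1.2
    have hyO : (z0.1.1 : Equiv.Perm GolayPt) • O = O := z0.2
    set y0 : Equiv.Perm GolayPt := z0.1.1 with hy0
    have hy5 : y0 ^ 5 = 1 := by
      have h := pow_orderOf_eq_one z0
      rw [hz0] at h
      have h' := congrArg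
        (fun w : ↥(MulAction.stabilizer ↥M24 O) => ((w.1 : ↥M24) : Equiv.Perm GolayPt)) h
      simpa using h'
    have hy1 : y0 ≠ 1 := by
      intro h
      have h1 : z0 = 1 := by
        apply Subtype.ext
        apply Subtype.ext
        exact h
      rw [h1, orderOf_one] at hz0
      omega
    -- a fixed point outside the octad
    have hinvc : ∀ a, y0 a ∈ Oᶜ ↔ a ∈ Oᶜ := by
      intro a
      rw [Finset.mem_compl, Finset.mem_compl, mem_iff_of_smul_eq hyO]
    have hdvc := card_moved_dvd y0 Oᶜ hinvc 5 hy5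
    have hsumc := Finset.card_filter_add_card_filter_not (s := Oᶜ) (fun q => y0 q = q)
    rw [Finset.card_compl, card_golayPt, hO.2] at hsumc
    have hdvc' : 5 ∣ (Oᶜ.filter (fun q => ¬ y0 q = q)).card := hdvc
    obtain ⟨x0, hx0⟩ : (Oᶜ.filter (fun q => y0 q = q)).Nonempty := by
      apply Finset.card_pos.mp
      omega
    rw [Finset.mem_filter, Finset.mem_compl] at hx0
    obtain ⟨v, hv, hvx⟩ := fixGrp_octad_trans hO hx0.1 hx
    have hv' := (mem_fixGrp O v).mp hv
    have hvO : v • O = O := fixGrp_smul_self hv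
    set z : Equiv.Perm GolayPt := v * y0 * v⁻¹ with hz
    have hzM : z ∈ M24 := mul_mem (mul_mem hv'.1 hyM) (inv_mem hv'.1)
    have hz5 : z ^ 5 = 1 := by
      rw [hz, conj_pow, hy5]
      group
    have hz1 : z ≠ 1 := by
      intro h
      apply hy1
      have h2 : y0 = v⁻¹ * z * v := by
        rw [hz]
        group
      rw [h2, h]
      group
    have hzO : z • O = O := by
      rw [hz, mul_smul, mul_smul, inv_smul_eq_iff.mpr hvO.symm, hyO, hvO]
    have hzx : z x = x := by
      rw [hz, Equiv.Perm.mul_apply, Equiv.Perm.mul_apply]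
      have h1 : v⁻¹ x = x0 := by
        rw [Equiv.Perm.inv_eq_iff_eq, hvx]
      rw [h1, hx0.2, hvx]
    have hdv := card_moved_dvd z Q (hQinv z hzM hzO hzx) 5 hz5
    have hall : Q.filter (fun q => z q ≠ q) = Q := by
      apply Finset.filter_true_of_mem
      intro q hq hzq
      have hqY := hQY hq
      rw [hY, Finset.mem_erase, Finset.mem_compl] at hqY
      have hdvo := card_moved_dvd z O (mem_iff_of_smul_eq hzO) 5 hz5
      have hsumo := Finset.card_filter_add_card_filter_not (s := O) (fun a => z a = a)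
      rw [hO.2] at hsumo
      have hdvo' : 5 ∣ (O.filter (fun a => ¬ z a = a)).card := hdvo
      have hc : 5 ≤ (insert q (insert x (O.filter (fun a => z a = a)))).card := by
        rw [Finset.card_insert_of_notMem, Finset.card_insert_of_notMem]
        · omega
        · intro h
          exact hx (Finset.mem_filter.mp h).1
        · rw [Finset.mem_insert]
          rintro (h | h)
          · exact hqY.1 h
          · exact hqY.2 (Finset.mem_filter.mp h).1
      have h48 := pow_48_of_five_fixed hzM _ (by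
        intro a ha
        rcases Finset.mem_insert.mp ha with rfl | ha
        · exact hzq
        · rcases Finset.mem_insert.mp ha with rfl | ha
          · exact hzx
          · exact (Finset.mem_filter.mp ha).2) hc
      apply hz1
      calc z = (z ^ 5) ^ 29 * ((z ^ 48) ^ 3)⁻¹ := by group
        _ = 1 := by rw [hz5, h48]; simp
    rwa [hall] at hdv
  have hQcard : Q.card = 15 := by
    have hle : Q.card ≤ 15 := by
      rw [← hYcard]
      exact Finset.card_le_card hQY
    have hpos : 0 < Q.card := Finset.card_pos.mpr ⟨x', hx'Q⟩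
    omega
  have hQeq : Q = Y := Finset.eq_of_subset_of_card_le hQY (by rw [hQcard, hYcard])
  have hyQ : y ∈ Q := by
    rw [hQeq, hY, Finset.mem_erase, Finset.mem_compl]
    exact ⟨h2, hy⟩
  exact (hQmem y).mp hyQ

/-- The stabilizer of a dodecad is 2-transitive on the dodecad. -/
theorem stab_dodecad_two_trans {d : Finset GolayPt} (hd : d ∈ dodecads) {x x' y : GolayPt}
    (hx : x ∈ d) (hx' : x' ∈ d) (hy : y ∈ d) (h1 : x ≠ x') (h2 : y ≠ x) (h3 : y ≠ x') :
    ∃ σ ∈ M24, σ • d = d ∧ σ x = x ∧ σ x' = y := by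
  classical
  have hsub : ({x, x', y} : Finset GolayPt) ⊆ d := by
    intro a ha
    rw [Finset.mem_insert, Finset.mem_insert, Finset.mem_singleton] at ha
    rcases ha with rfl | rfl | rfl
    · exact hx
    · exact hx'
    · exact hy
  obtain ⟨F, hsF, hFd, hF5⟩ := Finset.exists_subsuperset_card_eq (s := {x, x', y}) (t := d)
    (n := 5) hsub (le_trans Finset.card_le_three (by norm_num)) (by rw [hd.2]; norm_num)
  have h3c : ({x, x', y} : Finset GolayPt).card = 3 := by
    rw [Finset.card_insert_of_notMem, Finset.card_pair h3.symm]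
    rw [Finset.mem_insert, Finset.mem_singleton]
    rintro (h | h)
    · exact h1 h
    · exact h2 h.symm
  have h2c : (F \ {x, x', y}).card = 2 := by
    rw [Finset.card_sdiff_of_subset hsF, hF5, h3c]
  obtain ⟨a, b, hab, hFab⟩ := Finset.card_eq_two.mp h2c
  have ha : a ∈ F \ {x, x', y} := by
    rw [hFab]
    simp
  have hb : b ∈ F \ {x, x', y} := by
    rw [hFab]
    simp
  simp only [Finset.mem_sdiff, Finset.mem_insert, Finset.mem_singleton, not_or] at ha hb
  have had : a ∈ d := hFd ha.1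
  have hbd : b ∈ d := hFd hb.1
  let e1 : Fin 5 ↪ GolayPt := ⟨[x, x', y, a, b].get, List.nodup_iff_injective_get.mp
    (nodup5 h1 h2.symm (Ne.symm ha.2.1) (Ne.symm hb.2.1) h3.symm (Ne.symm ha.2.2.1)
      (Ne.symm hb.2.2.1) (Ne.symm ha.2.2.2) (Ne.symm hb.2.2.2) hab)⟩
  let e2 : Fin 5 ↪ GolayPt := ⟨[x, y, x', a, b].get, List.nodup_iff_injective_get.mp
    (nodup5 h2.symm h1 (Ne.symm ha.2.1) (Ne.symm hb.2.1) h3 (Ne.symm ha.2.2.2)
      (Ne.symm hb.2.2.2) (Ne.symm ha.2.2.1) (Ne.symm hb.2.2.1) hab)⟩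
  have he1 : ∀ i, e1 i ∈ d := by
    intro i
    fin_cases i
    · exact hx
    · exact hx'
    · exact hy
    · exact had
    · exact hbd
  have he2 : ∀ i, e2 i ∈ d := by
    intro i
    fin_cases i
    · exact hx
    · exact hy
    · exact hx'
    · exact had
    · exact hbd
  obtain ⟨g, hg, hgd, hgi⟩ := m12_exists d hd e1 e2 he1 he2
  exact ⟨g, hg, hgd, hgi 0, hgi 1⟩

end Cfsg.Agent.Helper9
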