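import Mathlib
import Cfsg.Agent.Helper1.Steiner
import Cfsg.Agent.Helper9.M24Two
import Cfsg.Agent.Helper9.LeechNeg

set_option autoImplicit false

namespace Cfsg.Agent.Helper9

open Cfsg Cfsg.Agent.Helper1.Golay
open scoped Pointwise

/-- Exactly five octads contain a given 4-set. -/
theorem card_octads_through_four (T : Finset GolayPt) (hT : T.card = 4) :
    ((Cfsg.Agent.Helper1.blocks octads).filter (fun b => T ⊆ b)).card = 5 := by
  have h := Cfsg.Agent.Helper1.steiner_lam octads_steiner T (by omega)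
  rw [hT, card_golayPt] at h
  have h1 : Nat.choose (8 - 4) (5 - 4) = 4 := by decide
  have h2 : Nat.choose (24 - 4) (5 - 4) = 20 := by decide
  rw [h1, h2] at h
  omega

theorem smul_eq_of_forall_mem9 {g : Equiv.Perm GolayPt} {O : Finset GolayPt}
    (h : ∀ a ∈ O, g a ∈ O) : g • O = O := by
  apply Finset.eq_of_subset_of_card_le
  · intro x hx
    obtain ⟨a, ha, rfl⟩ := Finset.mem_smul_finset.mp hx
    exact h a ha
  · rw [Finset.card_smul_finset]

/-- A fixed-point-free involution of `M24` has three transposition pairs not in a common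
octad. -/
theorem fpf_out_triple {t : Equiv.Perm GolayPt} (h2 : t * t = 1) (h0 : ∀ p, t p ≠ p) :
    ∃ (a c e : GolayPt) (O : Finset GolayPt), O ∈ octads ∧ [a, t a, c, t c, e].Nodup ∧
      a ∈ O ∧ t a ∈ O ∧ c ∈ O ∧ t c ∈ O ∧ e ∈ O ∧ t e ∉ O := by
  classical
  by_contra hcon
  have htt : ∀ p, t (t p) = p := fun p => by
    have := congrArg (fun f : Equiv.Perm GolayPt => f p) h2
    simpa using this
  obtain ⟨a⟩ : Nonempty GolayPt := ⟨none⟩
  have hinv : ∀ O ∈ octads, a ∈ O → t a ∈ O → ∀ c ∈ O, c ≠ a → c ≠ t a → t c ∈ O →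
      t • O = O := by
    intro O hO haO htaO c hcO hca hcta htcO
    apply smul_eq_of_forall_mem9
    intro e heO
    by_contra hte
    by_cases he : e = a ∨ e = t a ∨ e = c ∨ e = t c
    · rcases he with rfl | rfl | rfl | rfl
      · exact hte htaO
      · rw [htt] at hte
        exact hte haO
      · exact hte htcO
      · rw [htt] at hte
        exact hte hcO
    · rw [not_or, not_or, not_or] at he
      apply hcon
      refine ⟨a, c, e, O, hO, nodup5 (h0 a).symm hca.symm ?_ (Ne.symm he.1) hcta.symm ?_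
        (Ne.symm he.2.1) (h0 c).symm (Ne.symm he.2.2.1) (Ne.symm he.2.2.2),
        haO, htaO, hcO, htcO, heO, hte⟩
      · intro h
        apply hcta
        rw [h, htt]
      · intro h
        exact hca (t.injective h).symm
  set A : Finset (Finset GolayPt) := (Cfsg.Agent.Helper1.blocks octads).filter
    (fun O => a ∈ O ∧ t a ∈ O ∧ t • O = O) with hA
  set Q : Finset GolayPt := (Finset.univ.erase a).erase (t a) with hQ
  have hQcard : Q.card = 22 := by
    rw [hQ, Finset.card_erase_of_mem, Finset.card_erase_of_mem (Finset.mem_univ _),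
      Finset.card_univ, card_golayPt]
    rw [Finset.mem_erase]
    exact ⟨h0 a, Finset.mem_univ _⟩
  have hdc := Finset.sum_card_bipartiteAbove_eq_sum_card_bipartiteBelow (s := Q) (t := A)
    (fun (p : GolayPt) (O : Finset GolayPt) => p ∈ O)
  have hL : ∀ p ∈ Q,
      (A.bipartiteAbove (fun (p : GolayPt) (O : Finset GolayPt) => p ∈ O) p).card = 5 := by
    intro p hp
    rw [hQ, Finset.mem_erase, Finset.mem_erase] at hp
    have hpa : p ≠ a := hp.2.1
    have hpta : p ≠ t a := hp.1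
    have hT : ({a, t a, p, t p} : Finset GolayPt).card = 4 := by
      rw [Finset.card_insert_of_notMem, Finset.card_insert_of_notMem,
        Finset.card_insert_of_notMem, Finset.card_singleton]
      · rw [Finset.mem_singleton]
        exact (h0 p).symm
      · rw [Finset.mem_insert, Finset.mem_singleton, not_or]
        exact ⟨hpta.symm, fun h => hpa (t.injective h).symm⟩
      · rw [Finset.mem_insert, Finset.mem_insert, Finset.mem_singleton, not_or, not_or]
        refine ⟨(h0 a).symm, hpa.symm, fun h => hpta ?_⟩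
        rw [h, htt]
    have hEq : A.bipartiteAbove (fun (p : GolayPt) (O : Finset GolayPt) => p ∈ O) p
        = (Cfsg.Agent.Helper1.blocks octads).filter
          (fun b => ({a, t a, p, t p} : Finset GolayPt) ⊆ b) := by
      ext O
      rw [Finset.bipartiteAbove, Finset.mem_filter, hA, Finset.mem_filter, Finset.mem_filter,
        Cfsg.Agent.Helper1.mem_blocks]
      constructor
      · rintro ⟨⟨hO, haO, htaO, htO⟩, hpO⟩
        refine ⟨hO, ?_⟩
        intro x hx
        simp only [Finset.mem_insert, Finset.mem_singleton] at hx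
        rcases hx with rfl | rfl | rfl | rfl
        · exact haO
        · exact htaO
        · exact hpO
        · exact (mem_iff_of_smul_eq htO p).mpr hpO
      · rintro ⟨hO, hsub⟩
        have haO : a ∈ O := hsub (by simp)
        have htaO : t a ∈ O := hsub (by simp)
        have hpO : p ∈ O := hsub (by simp)
        have htpO : t p ∈ O := hsub (by simp)
        exact ⟨⟨hO, haO, htaO, hinv O hO haO htaO p hpO hpa hpta htpO⟩, hpO⟩
    rw [hEq]
    exact card_octads_through_four _ hT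
  have hR : ∀ O ∈ A,
      (Q.bipartiteBelow (fun (p : GolayPt) (O : Finset GolayPt) => p ∈ O) O).card = 6 := by
    intro O hO
    rw [hA, Finset.mem_filter, Cfsg.Agent.Helper1.mem_blocks] at hO
    obtain ⟨hO, haO, htaO, -⟩ := hO
    have hEq : Q.bipartiteBelow (fun (p : GolayPt) (O : Finset GolayPt) => p ∈ O) O
        = (O.erase a).erase (t a) := by
      ext x
      rw [Finset.bipartiteBelow, Finset.mem_filter, hQ]
      simp only [Finset.mem_erase, Finset.mem_univ, and_true]
      rw [and_assoc]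
    rw [hEq, Finset.card_erase_of_mem, Finset.card_erase_of_mem haO, hO.2]
    rw [Finset.mem_erase]
    exact ⟨h0 a, htaO⟩
  rw [Finset.sum_congr rfl hL, Finset.sum_congr rfl hR, Finset.sum_const, Finset.sum_const,
    hQcard] at hdc
  simp only [smul_eq_mul] at hdc
  omega

/-- `M24` is transitive on ordered 6-tuples consisting of five points of an octad and a point
outside it. -/
theorem m24_out_trans {O O' : Finset GolayPt} (hO : O ∈ octads) (hO' : O' ∈ octads)
    {a b c d e f a' b' c' d' e' f' : GolayPt} (hnd : [a, b, c, d, e].Nodup)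
    (hnd' : [a', b', c', d', e'].Nodup) (ha : a ∈ O) (hb : b ∈ O) (hc : c ∈ O) (hd : d ∈ O)
    (he : e ∈ O) (hf : f ∉ O) (ha' : a' ∈ O') (hb' : b' ∈ O') (hc' : c' ∈ O') (hd' : d' ∈ O')
    (he' : e' ∈ O') (hf' : f' ∉ O') :
    ∃ σ ∈ M24, σ a = a' ∧ σ b = b' ∧ σ c = c' ∧ σ d = d' ∧ σ e = e' ∧ σ f = f' := by
  classical
  obtain ⟨σ0, hσ0, h1, h2, h3, h4, h5⟩ := m24_exists_map5 hnd hnd'
  have hσO : σ0 • O = O' := by
    apply octads_unique (smul_octad_mem hσ0 hO) hO'
    have hsub : ([a', b', c', d', e'].toFinset) ⊆ σ0 • O ∩ O' := by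
      intro x hx
      simp only [List.toFinset_cons, List.toFinset_nil, Finset.mem_insert,
        insert_empty_eq, Finset.mem_singleton] at hx
      rw [Finset.mem_inter]
      rcases hx with rfl | rfl | rfl | rfl | rfl
      · exact ⟨by rw [← h1]; exact Finset.smul_mem_smul_finset ha, ha'⟩
      · exact ⟨by rw [← h2]; exact Finset.smul_mem_smul_finset hb, hb'⟩
      · exact ⟨by rw [← h3]; exact Finset.smul_mem_smul_finset hc, hc'⟩
      · exact ⟨by rw [← h4]; exact Finset.smul_mem_smul_finset hd, hd'⟩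
      · exact ⟨by rw [← h5]; exact Finset.smul_mem_smul_finset he, he'⟩
    calc 5 = [a', b', c', d', e'].toFinset.card := by
          rw [List.toFinset_card_of_nodup hnd']
          rfl
      _ ≤ _ := Finset.card_le_card hsub
  have hf0 : σ0 f ∉ O' := by
    rw [← hσO]
    intro h
    rw [← Equiv.Perm.smul_def, Finset.smul_mem_smul_finset_iff] at h
    exact hf h
  obtain ⟨g, hg, hgf⟩ := fixGrp_octad_trans hO' hf0 hf'
  rw [mem_fixGrp] at hg
  refine ⟨g * σ0, mul_mem hg.1 hσ0, ?_, ?_, ?_, ?_, ?_, ?_⟩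
  · rw [Equiv.Perm.mul_apply, h1, hg.2 _ ha']
  · rw [Equiv.Perm.mul_apply, h2, hg.2 _ hb']
  · rw [Equiv.Perm.mul_apply, h3, hg.2 _ hc']
  · rw [Equiv.Perm.mul_apply, h4, hg.2 _ hd']
  · rw [Equiv.Perm.mul_apply, h5, hg.2 _ he']
  · rw [Equiv.Perm.mul_apply, hgf]

/-- Two involutions of `M24` that agree on three transposition pairs not in a common octad
are conjugate. -/
theorem conj_of_agree_out {t t' : Equiv.Perm GolayPt} (ht : t ∈ M24) (ht' : t' ∈ M24)
    (h2 : t * t = 1) (h2' : t' * t' = 1) {O : Finset GolayPt} (hO : O ∈ octads)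
    {a c e : GolayPt} (hnd : [a, t a, c, t c, e].Nodup) (ha : a ∈ O) (hta : t a ∈ O)
    (hc : c ∈ O) (htc : t c ∈ O) (he : e ∈ O) (hte : t e ∉ O) (hat : t' a = t a)
    (hct : t' c = t c) (het : t' e = t e) : ∃ k ∈ M24, k * t * k⁻¹ = t' := by
  classical
  have htt : ∀ p, t (t p) = p := fun p => by
    have := congrArg (fun f : Equiv.Perm GolayPt => f p) h2
    simpa using this
  have htt' : ∀ p, t' (t' p) = p := fun p => by
    have := congrArg (fun f : Equiv.Perm GolayPt => f p) h2'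
    simpa using this
  have hzM : t * t' ∈ M24 := mul_mem ht ht'
  have hFcard : ([a, t a, c, t c, e].toFinset).card = 5 := by
    rw [List.toFinset_card_of_nodup hnd]
    rfl
  have hFO : [a, t a, c, t c, e].toFinset ⊆ O := by
    intro x hx
    simp only [List.toFinset_cons, List.toFinset_nil, Finset.mem_insert,
      insert_empty_eq, Finset.mem_singleton] at hx
    rcases hx with rfl | rfl | rfl | rfl | rfl <;> assumption
  have hzF : ∀ p ∈ [a, t a, c, t c, e].toFinset, (t * t') p = p := by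
    intro p hp
    simp only [List.toFinset_cons, List.toFinset_nil, Finset.mem_insert,
      insert_empty_eq, Finset.mem_singleton] at hp
    rw [Equiv.Perm.mul_apply]
    rcases hp with rfl | rfl | rfl | rfl | rfl
    · rw [hat, htt]
    · rw [← hat, htt', hat]
    · rw [hct, htt]
    · rw [← hct, htt', hct]
    · rw [het, htt]
  have hzq : (t * t') (t e) = t e := by
    rw [Equiv.Perm.mul_apply, ← het, htt', het]
  have hz3 : (t * t') ^ 3 = 1 := pow_three_of_six_out hzM hO hFO hFcard hzF hte hzq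
  refine ⟨t * t', hzM, ?_⟩
  have hzinv : (t * t')⁻¹ = t' * t := by
    apply inv_eq_of_mul_eq_one_right
    calc t * t' * (t' * t) = t * (t' * t') * t := by simp only [mul_assoc]
      _ = 1 := by rw [h2', mul_one, h2]
  rw [hzinv]
  have h3 : t * t' * (t * t') * (t * t') = 1 := by
    have := hz3
    rw [pow_succ, pow_two] at this
    exact this
  calc t * t' * t * (t' * t) = t * t' * t * t' * t * (t' * t') := by
        rw [h2', mul_one]
        simp only [mul_assoc]
    _ = (t * t' * (t * t') * (t * t')) * t' := by simp only [mul_assoc]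
    _ = t' := by rw [h3, one_mul]

/-- Two elements of the pointwise stabilizer of an octad agreeing at a point outside the octad
are equal. -/
theorem fixGrp_eq_of_apply_eq {O : Finset GolayPt} (hO : O ∈ octads) {g h : Equiv.Perm GolayPt}
    (hg : g ∈ fixGrp O) (hh : h ∈ fixGrp O) {a : GolayPt} (ha : a ∉ O) (hgh : g a = h a) :
    g = h := by
  classical
  have hk : g⁻¹ * h ∈ fixGrp O := mul_mem (inv_mem hg) hh
  have hsq := (octad_fixGrp O hO).2 _ hk
  obtain ⟨F, hFO, hF5⟩ := Finset.exists_subset_card_eq (show 5 ≤ O.card by rw [hO.2]; norm_num)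
  have hk' := (mem_fixGrp _ _).mp hk
  have h3 : (g⁻¹ * h) ^ 3 = 1 := pow_three_of_six_out hk'.1 hO hFO hF5
    (fun p hp => hk'.2 p (hFO hp)) ha
    (by rw [Equiv.Perm.mul_apply, ← hgh, Equiv.Perm.inv_def, Equiv.symm_apply_apply])
  rw [pow_succ, pow_two, hsq, one_mul] at h3
  exact inv_mul_eq_one.mp h3

/-- Two non-identity elements of `M24` fixing octads pointwise are conjugate in `M24`. -/
theorem conj_octad_invol {g h : Equiv.Perm GolayPt} (hg : g ∈ M24) (hh : h ∈ M24)
    (hg1 : g ≠ 1) (hh1 : h ≠ 1) {Og Oh : Finset GolayPt} (hOg : Og ∈ octads)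
    (hOh : Oh ∈ octads) (hgO : ∀ p ∈ Og, g p = p) (hhO : ∀ p ∈ Oh, h p = p) :
    ∃ k ∈ M24, k * g * k⁻¹ = h := by
  classical
  obtain ⟨τ, hτ⟩ := octads_transitive Og Oh hOg hOh
  have hτ' : (τ : Equiv.Perm GolayPt) • Og = Oh := hτ
  obtain ⟨τ0, hτ0⟩ := τ
  simp only at hτ'
  have hg'M : τ0 * g * τ0⁻¹ ∈ M24 := mul_mem (mul_mem hτ0 hg) (inv_mem hτ0)
  have hg'fix : τ0 * g * τ0⁻¹ ∈ fixGrp Oh := by
    rw [mem_fixGrp]
    refine ⟨hg'M, fun p hp => ?_⟩
    rw [← hτ'] at hp
    obtain ⟨q, hq, rfl⟩ := Finset.mem_smul_finset.mp hp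
    rw [Equiv.Perm.mul_apply, Equiv.Perm.mul_apply, Equiv.Perm.smul_def, Equiv.Perm.inv_def,
      Equiv.symm_apply_apply, hgO q hq]
  have hg'1 : τ0 * g * τ0⁻¹ ≠ 1 := by
    intro h
    apply hg1
    have h' := congrArg (fun x => τ0⁻¹ * x * τ0) h
    simp only [mul_assoc, inv_mul_cancel, mul_one, inv_mul_cancel_left] at h'
    exact h'
  have hhfix : h ∈ fixGrp Oh := (mem_fixGrp _ _).mpr ⟨hh, hhO⟩
  obtain ⟨a, ha⟩ : ∃ a, a ∉ Oh := by
    by_contra hcon
    rw [not_exists] at hcon
    have hU : Oh = Finset.univ := Finset.eq_univ_iff_forall.mpr (fun x => not_not.mp (hcon x))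
    have h8 := hOh.2
    rw [hU, Finset.card_univ, card_golayPt] at h8
    norm_num at h8
  have hmove : ∀ x ∈ fixGrp Oh, x ≠ 1 → x a ∉ Oh ∧ x a ≠ a := by
    intro x hx hx1
    have hx' := (mem_fixGrp _ _).mp hx
    constructor
    · intro hxa
      have h1 := hx'.2 _ hxa
      have h2 : x a = a := x.injective h1
      rw [h2] at hxa
      exact ha hxa
    · intro hxa
      exact hx1 (fixGrp_eq_of_apply_eq hOh hx (one_mem _) ha (by rw [hxa]; rfl))
  obtain ⟨hb, hba⟩ := hmove _ hg'fix hg'1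
  obtain ⟨hb', hb'a⟩ := hmove h hhfix hh1
  by_cases hbb : (τ0 * g * τ0⁻¹) a = h a
  · exact ⟨τ0, hτ0, fixGrp_eq_of_apply_eq hOh hg'fix hhfix ha hbb⟩
  · obtain ⟨σ, hσ, hσO, hσa, hσb⟩ :=
      stab_octad_two_trans_out hOh ha hb hb' (Ne.symm hba) hb'a (Ne.symm hbb)
    have hfix2 : σ * (τ0 * g * τ0⁻¹) * σ⁻¹ ∈ fixGrp Oh := by
      rw [mem_fixGrp]
      refine ⟨mul_mem (mul_mem hσ hg'M) (inv_mem hσ), fun p hp => ?_⟩
      rw [Equiv.Perm.mul_apply, Equiv.Perm.mul_apply]
      have hp' : σ⁻¹ p ∈ Oh := by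
        have h1 := mem_iff_of_smul_eq hσO (σ⁻¹ p)
        rw [Equiv.Perm.inv_def, Equiv.apply_symm_apply] at h1
        rw [Equiv.Perm.inv_def]
        exact h1.mp hp
      rw [((mem_fixGrp _ _).mp hg'fix).2 _ hp', Equiv.Perm.inv_def, Equiv.apply_symm_apply]
    have hval : (σ * (τ0 * g * τ0⁻¹) * σ⁻¹) a = h a := by
      rw [Equiv.Perm.mul_apply, Equiv.Perm.mul_apply]
      have h1 : σ⁻¹ a = a := by
        rw [Equiv.Perm.inv_def, Equiv.symm_apply_eq, hσa]
      rw [h1, hσb]
    have hfin := fixGrp_eq_of_apply_eq hOh hfix2 hhfix ha hval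
    refine ⟨σ * τ0, mul_mem hσ hτ0, ?_⟩
    rw [← hfin]
    simp only [mul_inv_rev, mul_assoc]

/-- Two fixed-point-free involutions of `M24` are conjugate in `M24`. -/
theorem conj_fpf_invol {t t' : Equiv.Perm GolayPt} (ht : t ∈ M24) (ht' : t' ∈ M24)
    (h2 : t * t = 1) (h2' : t' * t' = 1) (h0 : ∀ p, t p ≠ p) (h0' : ∀ p, t' p ≠ p) :
    ∃ k ∈ M24, k * t * k⁻¹ = t' := by
  classical
  obtain ⟨a, c, e, O, hO, hnd, ha, hta, hc, htc, he, hte⟩ := fpf_out_triple h2 h0
  obtain ⟨a', c', e', O', hO', hnd', ha', hta', hc', htc', he', hte'⟩ := fpf_out_triple h2' h0'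
  obtain ⟨σ, hσ, h1, h2a, h3, h4, h5, h6⟩ :=
    m24_out_trans hO hO' hnd hnd' ha hta hc htc he hte ha' hta' hc' htc' he' hte'
  have hinv : ∀ x y : GolayPt, σ x = y → σ⁻¹ y = x := by
    intro x y hxy
    rw [Equiv.Perm.inv_def, Equiv.symm_apply_eq, hxy]
  have hsM : σ * t * σ⁻¹ ∈ M24 := mul_mem (mul_mem hσ ht) (inv_mem hσ)
  have hs2 : (σ * t * σ⁻¹) * (σ * t * σ⁻¹) = 1 := by
    calc (σ * t * σ⁻¹) * (σ * t * σ⁻¹) = σ * (t * t) * σ⁻¹ := by
          simp only [mul_assoc, inv_mul_cancel_left]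
      _ = 1 := by rw [h2, mul_one, mul_inv_cancel]
  obtain ⟨k, hk, hkc⟩ := conj_of_agree_out ht' hsM h2' hs2 hO' hnd' ha' hta' hc' htc' he' hte'
    (by rw [Equiv.Perm.mul_apply, Equiv.Perm.mul_apply, hinv _ _ h1, h2a])
    (by rw [Equiv.Perm.mul_apply, Equiv.Perm.mul_apply, hinv _ _ h3, h4])
    (by rw [Equiv.Perm.mul_apply, Equiv.Perm.mul_apply, hinv _ _ h5, h6])
  -- k * t' * k⁻¹ = σ * t * σ⁻¹
  refine ⟨k⁻¹ * σ, mul_mem (inv_mem hk) hσ, ?_⟩
  have e1 : k⁻¹ * σ * t * (k⁻¹ * σ)⁻¹ = k⁻¹ * (σ * t * σ⁻¹) * k := by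
    simp only [mul_inv_rev, inv_inv, mul_assoc]
  rw [e1, ← hkc]
  simp only [mul_assoc, inv_mul_cancel_left, inv_mul_cancel, mul_one]

end Cfsg.Agent.Helper9
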