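import Mathlib
import Cfsg.Agent.Helper9.OctadGraph
import Cfsg.Agent.Helper9.M24Fix
import Cfsg.Agent.Helper9.M24Invol
import Cfsg.Prelude.Def_SporadicCombinatorics

set_option autoImplicit false

namespace Cfsg.Agent.Helper9

open Cfsg Cfsg.Agent.Helper1 Cfsg.Agent.Helper1.Golay
open scoped Pointwise

theorem smul_compl9 (g : Equiv.Perm GolayPt) (s : Finset GolayPt) : g • sᶜ = (g • s)ᶜ := by
  ext x
  rw [Finset.mem_compl, ← Finset.inv_smul_mem_iff, Finset.mem_compl, Finset.inv_smul_mem_iff]

theorem smul_disjoint9 (g : Equiv.Perm GolayPt) {a b : Finset GolayPt} (h : Disjoint a b) :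
    Disjoint (g • a) (g • b) := by
  rw [Finset.disjoint_iff_inter_eq_empty] at h ⊢
  rw [← Finset.smul_finset_inter, h, Finset.smul_finset_empty]

theorem octad_ne_of_disjoint {a b : Finset GolayPt} (ha : a ∈ octads) (hd : Disjoint a b) :
    a ≠ b := by
  rintro rfl
  have h0 := (Finset.disjoint_self_iff_empty a).mp hd
  have h8 := ha.2
  rw [h0] at h8
  simp at h8

/-- The third octad of a trio is the complement of the union of the other two. -/
theorem compl_union_eq9 {a b c : Finset GolayPt} (ha : a ∈ octads) (hb : b ∈ octads)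
    (hc : c ∈ octads) (hab : Disjoint a b) (hca : Disjoint c a) (hcb : Disjoint c b) :
    c = (a ∪ b)ᶜ := by
  apply Finset.eq_of_subset_of_card_le
  · intro x hx
    rw [Finset.mem_compl, Finset.mem_union]
    rintro (h | h)
    · exact Finset.disjoint_left.mp hca hx h
    · exact Finset.disjoint_left.mp hcb hx h
  · rw [Finset.card_compl, card_golayPt, Finset.card_union_of_disjoint hab, ha.2, hb.2, hc.2]

/-- The trio through two disjoint octads. -/
def trioOf (a b : Finset GolayPt) : Finset (Finset GolayPt) := {a, b, (a ∪ b)ᶜ}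

theorem mem_trioOf {a b x : Finset GolayPt} :
    x ∈ trioOf a b ↔ x = a ∨ x = b ∨ x = (a ∪ b)ᶜ := by
  unfold trioOf
  rw [Finset.mem_insert, Finset.mem_insert, Finset.mem_singleton]

theorem trioOf_mem {a b : Finset GolayPt} (ha : a ∈ octads) (hb : b ∈ octads)
    (hd : Disjoint a b) : trioOf a b ∈ trios := by
  have hc := octad_compl_union ha hb hd
  have hac : Disjoint a (a ∪ b)ᶜ := by
    rw [Finset.disjoint_left]
    intro x hx
    rw [Finset.mem_compl, Finset.mem_union]
    exact fun h => h (Or.inl hx)
  have hbc : Disjoint b (a ∪ b)ᶜ := by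
    rw [Finset.disjoint_left]
    intro x hx
    rw [Finset.mem_compl, Finset.mem_union]
    exact fun h => h (Or.inr hx)
  have hab' := octad_ne_of_disjoint ha hd
  have hac' := octad_ne_of_disjoint ha hac
  have hbc' := octad_ne_of_disjoint hb hbc
  refine ⟨?_, ?_, ?_⟩
  · unfold trioOf
    rw [Finset.card_insert_of_notMem, Finset.card_insert_of_notMem, Finset.card_singleton]
    · rw [Finset.mem_singleton]
      exact hbc'
    · rw [Finset.mem_insert, Finset.mem_singleton]
      rintro (h | h)
      · exact hab' h
      · exact hac' h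
  · intro o ho
    rcases mem_trioOf.mp ho with rfl | rfl | rfl
    · exact ha
    · exact hb
    · exact hc
  · intro o ho o' ho' hne
    rcases mem_trioOf.mp ho with rfl | rfl | rfl <;> rcases mem_trioOf.mp ho' with rfl | rfl | rfl
    · exact absurd rfl hne
    · exact hd
    · exact hac
    · exact hd.symm
    · exact absurd rfl hne
    · exact hbc
    · exact hac.symm
    · exact hbc.symm
    · exact absurd rfl hne

theorem trio_eq {T : Finset (Finset GolayPt)} (hT : T ∈ trios) {a b : Finset GolayPt}
    (ha : a ∈ T) (hb : b ∈ T) (hab : a ≠ b) : T = trioOf a b := by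
  obtain ⟨h3, ho, hdis⟩ := hT
  have hd : Disjoint a b := hdis a ha b hb hab
  have h1 : ((T.erase a).erase b).card = 1 := by
    rw [Finset.card_erase_of_mem (Finset.mem_erase.mpr ⟨fun h => hab h.symm, hb⟩),
      Finset.card_erase_of_mem ha, h3]
  obtain ⟨c, hc⟩ := Finset.card_eq_one.mp h1
  have hcm : c ∈ (T.erase a).erase b := by
    rw [hc]
    exact Finset.mem_singleton_self c
  rw [Finset.mem_erase, Finset.mem_erase] at hcm
  obtain ⟨hcb, hca, hcT⟩ := hcm
  have hceq : c = (a ∪ b)ᶜ :=
    compl_union_eq9 (ho a ha) (ho b hb) (ho c hcT) hd (hdis c hcT a ha hca) (hdis c hcT b hb hcb)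
  ext x
  rw [mem_trioOf]
  constructor
  · intro hx
    by_cases hxa : x = a
    · exact Or.inl hxa
    by_cases hxb : x = b
    · exact Or.inr (Or.inl hxb)
    right
    right
    have hxm : x ∈ (T.erase a).erase b := by
      rw [Finset.mem_erase, Finset.mem_erase]
      exact ⟨hxb, hxa, hx⟩
    rw [hc, Finset.mem_singleton] at hxm
    rw [hxm, hceq]
  · rintro (rfl | rfl | rfl)
    · exact ha
    · exact hb
    · rw [← hceq]
      exact hcT

theorem smul_trio_mem {g : Equiv.Perm GolayPt} (hg : g ∈ M24) {T : Finset (Finset GolayPt)}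
    (hT : T ∈ trios) : g • T ∈ trios := by
  obtain ⟨h3, ho, hdis⟩ := hT
  refine ⟨?_, ?_, ?_⟩
  · rw [Finset.card_smul_finset, h3]
  · intro o hmem
    obtain ⟨o', ho', rfl⟩ := Finset.mem_smul_finset.mp hmem
    exact smul_octad_mem hg (ho o' ho')
  · intro o hmem u humem hne
    obtain ⟨o', ho', rfl⟩ := Finset.mem_smul_finset.mp hmem
    obtain ⟨u', hu', rfl⟩ := Finset.mem_smul_finset.mp humem
    exact smul_disjoint9 g (hdis o' ho' u' hu' (fun h => hne (by rw [h])))

/-- Counting the trios invariant under an element of order 2 or 3. -/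
theorem trio_count {g : Equiv.Perm GolayPt} (hg : g ∈ M24) (p : ℕ) (hp : p = 2 ∨ p = 3)
    (hgp : g ^ p = 1) :
    6 * p * {T : Finset (Finset GolayPt) | T ∈ trios ∧ g • T = T}.ncard =
      p * ((((blocks octads).filter (fun o => g • o = o)) ×ˢ
          ((blocks octads).filter (fun o => g • o = o))).filter
            (fun x => Disjoint x.1 x.2)).card
      + 6 * ((blocks octads).filter (fun o => Disjoint o (g • o))).card := by
  classical
  have hprime : Fact p.Prime := ⟨by rcases hp with rfl | rfl <;> norm_num⟩
  set I := (blocks octads).filter (fun o => g • o = o) with hI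
  set TT := (blocks trios).filter (fun T => g • T = T) with hTT
  have hmI : ∀ o, o ∈ I ↔ o ∈ octads ∧ g • o = o := fun o => by
    rw [hI, Finset.mem_filter, mem_blocks]
  have hmTT : ∀ T, T ∈ TT ↔ T ∈ trios ∧ g • T = T := fun T => by
    rw [hTT, Finset.mem_filter, mem_blocks]
  have hn : {T : Finset (Finset GolayPt) | T ∈ trios ∧ g • T = T}.ncard = TT.card := by
    rw [← Set.ncard_coe_finset]
    congr 1
    ext T
    rw [Set.mem_setOf_eq, Finset.mem_coe, hmTT]
  have hsplit : (TT.filter (fun T => ∀ o ∈ T, g • o = o)).card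
      + (TT.filter (fun T => ¬ ∀ o ∈ T, g • o = o)).card = TT.card :=
    Finset.card_filter_add_card_filter_not _
  -- a trio two of whose members are mapped into it is invariant
  have hinv : ∀ T ∈ trios, ∀ a ∈ T, ∀ b ∈ T, a ≠ b → g • a ∈ T → g • b ∈ T → g • T = T := by
    intro T hT a ha b hb hab hga hgb
    have hne : g • a ≠ g • b := fun h => hab (smul_left_cancel g h)
    exact (trio_eq (smul_trio_mem hg hT) (Finset.smul_mem_smul_finset ha)
      (Finset.smul_mem_smul_finset hb) hne).trans (trio_eq hT hga hgb hne).symm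
  have hA : ((I ×ˢ I).filter (fun x => Disjoint x.1 x.2)).card
      = 6 * (TT.filter (fun T => ∀ o ∈ T, g • o = o)).card := by
    rw [Finset.card_eq_sum_card_fiberwise (f := fun x => trioOf x.1 x.2)
      (t := TT.filter (fun T => ∀ o ∈ T, g • o = o))]
    · rw [Finset.sum_const_nat (m := 6), mul_comm]
      intro T hT
      rw [Finset.mem_filter, hmTT] at hT
      obtain ⟨⟨hT3, hTg⟩, hall⟩ := hT
      have hfib : ((I ×ˢ I).filter (fun x => Disjoint x.1 x.2)).filter
          (fun x => trioOf x.1 x.2 = T) = T.offDiag := by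
        ext ⟨a, b⟩
        simp only [Finset.mem_filter, Finset.mem_product, Finset.mem_offDiag]
        constructor
        · rintro ⟨⟨⟨ha, hb⟩, hd⟩, rfl⟩
          exact ⟨mem_trioOf.mpr (Or.inl rfl), mem_trioOf.mpr (Or.inr (Or.inl rfl)),
            octad_ne_of_disjoint ((hmI a).mp ha).1 hd⟩
        · rintro ⟨ha, hb, hab⟩
          exact ⟨⟨⟨(hmI a).mpr ⟨hT3.2.1 a ha, hall a ha⟩, (hmI b).mpr ⟨hT3.2.1 b hb, hall b hb⟩⟩,
            hT3.2.2 a ha b hb hab⟩, (trio_eq hT3 ha hb hab).symm⟩
      rw [hfib, Finset.offDiag_card, hT3.1]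
    · intro x hx
      rw [Finset.mem_coe, Finset.mem_filter, Finset.mem_product, hmI, hmI] at hx
      obtain ⟨⟨⟨ha, hga⟩, hb, hgb⟩, hd⟩ := hx
      have hT := trioOf_mem ha hb hd
      have hab := octad_ne_of_disjoint ha hd
      have hma : x.1 ∈ trioOf x.1 x.2 := mem_trioOf.mpr (Or.inl rfl)
      have hmb : x.2 ∈ trioOf x.1 x.2 := mem_trioOf.mpr (Or.inr (Or.inl rfl))
      have hTg : g • trioOf x.1 x.2 = trioOf x.1 x.2 :=
        hinv _ hT _ hma _ hmb hab (by rw [hga]; exact hma) (by rw [hgb]; exact hmb)
      rw [Finset.mem_coe, Finset.mem_filter, hmTT]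
      refine ⟨⟨hT, hTg⟩, ?_⟩
      intro o ho
      rcases mem_trioOf.mp ho with rfl | rfl | rfl
      · exact hga
      · exact hgb
      · rw [smul_compl9, Finset.smul_finset_union, hga, hgb]
  have hB : ((blocks octads).filter (fun o => Disjoint o (g • o))).card
      = p * (TT.filter (fun T => ¬ ∀ o ∈ T, g • o = o)).card := by
    rw [Finset.card_eq_sum_card_fiberwise (f := fun o => trioOf o (g • o))
      (t := TT.filter (fun T => ¬ ∀ o ∈ T, g • o = o))]
    · rw [Finset.sum_const_nat (m := p), mul_comm]
      intro T hT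
      rw [Finset.mem_filter, hmTT] at hT
      obtain ⟨⟨hT3, hTg⟩, hnall⟩ := hT
      have hfib : ((blocks octads).filter (fun o => Disjoint o (g • o))).filter
          (fun o => trioOf o (g • o) = T) = T.filter (fun o => g • o ≠ o) := by
        ext o
        simp only [Finset.mem_filter, mem_blocks]
        constructor
        · rintro ⟨⟨ho, hd⟩, rfl⟩
          exact ⟨mem_trioOf.mpr (Or.inl rfl), (octad_ne_of_disjoint ho hd).symm⟩
        · rintro ⟨ho, hne⟩
          have hgo : g • o ∈ T := by
            rw [← hTg]
            exact Finset.smul_mem_smul_finset ho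
          exact ⟨⟨hT3.2.1 o ho, hT3.2.2 o ho _ hgo (Ne.symm hne)⟩,
            (trio_eq hT3 ho hgo (Ne.symm hne)).symm⟩
      rw [hfib]
      have hdvd := card_moved_dvd (MulAction.toPerm g : Equiv.Perm (Finset GolayPt)) T
        (fun a => by
          show g • a ∈ T ↔ a ∈ T
          constructor
          · intro h
            rw [← hTg] at h
            exact Finset.smul_mem_smul_finset_iff g |>.mp h
          · intro h
            rw [← hTg]
            exact Finset.smul_mem_smul_finset h) p
        (by
          ext a : 1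
          show ((MulAction.toPerm g : Equiv.Perm (Finset GolayPt)) ^ p) a = a
          have h1 : (MulAction.toPerm g : Equiv.Perm (Finset GolayPt)) ^ p
              = MulAction.toPerm (g ^ p) := by
            rw [← MulAction.toPermHom_apply, ← map_pow]
            rfl
          rw [h1, hgp]
          show (1 : Equiv.Perm GolayPt) • a = a
          exact one_smul _ a)
      have hle : (T.filter (fun o => g • o ≠ o)).card ≤ 3 := by
        rw [← hT3.1]
        exact Finset.card_filter_le _ _
      have hpos : 0 < (T.filter (fun o => g • o ≠ o)).card := by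
        rw [Finset.card_pos]
        by_contra hemp
        rw [Finset.not_nonempty_iff_eq_empty] at hemp
        apply hnall
        intro o ho
        by_contra hne
        have : o ∈ T.filter (fun o => g • o ≠ o) := Finset.mem_filter.mpr ⟨ho, hne⟩
        rw [hemp] at this
        exact absurd this (Finset.notMem_empty _)
      have hdvd' : p ∣ (T.filter (fun o => g • o ≠ o)).card := hdvd
      obtain ⟨k, hk⟩ := hdvd'
      rcases hp with rfl | rfl <;> omega
    · intro o ho
      rw [Finset.mem_coe, Finset.mem_filter, mem_blocks] at ho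
      obtain ⟨ho, hd⟩ := ho
      have hgo := smul_octad_mem hg ho
      have hT := trioOf_mem ho hgo hd
      have hne := octad_ne_of_disjoint ho hd
      have hma : o ∈ trioOf o (g • o) := mem_trioOf.mpr (Or.inl rfl)
      have hmb : g • o ∈ trioOf o (g • o) := mem_trioOf.mpr (Or.inr (Or.inl rfl))
      have hggo : g • g • o ∈ trioOf o (g • o) := by
        rcases hp with rfl | rfl
        · have : g • g • o = o := by
            rw [← mul_smul, ← pow_two, hgp, one_smul]
          rw [this]
          exact hma
        · have h3 : g • g • g • o = o := by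
            rw [← mul_smul, ← mul_smul, ← pow_two, ← pow_succ, hgp, one_smul]
          have hd1 : Disjoint (g • o) (g • g • o) := smul_disjoint9 g hd
          have hd2 : Disjoint (g • g • o) o := by
            have := smul_disjoint9 g hd1
            rw [h3] at this
            exact this
          refine mem_trioOf.mpr (Or.inr (Or.inr ?_))
          exact compl_union_eq9 ho hgo (smul_octad_mem hg hgo) hd hd2 hd1.symm
      have hTg : g • trioOf o (g • o) = trioOf o (g • o) :=
        hinv _ hT _ hma _ hmb hne hmb hggo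
      rw [Finset.mem_coe, Finset.mem_filter, hmTT]
      exact ⟨⟨hT, hTg⟩, fun hall => hne (hall o hma).symm⟩
  rw [hn, ← hsplit, hA, hB]
  ring

end Cfsg.Agent.Helper9
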