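import Mathlib
import Cfsg.Agent.Helper9.M24Trio

set_option autoImplicit false

namespace Cfsg.Agent.Helper9

open Cfsg Cfsg.Agent.Helper1 Cfsg.Agent.Helper1.Golay
open scoped Pointwise

/-- The sextet through a 4-set. -/
noncomputable def sextetOf (t : Finset GolayPt) : Finset (Finset GolayPt) :=
  insert t (((blocks octads).filter (fun o => t ⊆ o)).image (fun o => o \ t))

theorem mem_sextetOf {t u : Finset GolayPt} :
    u ∈ sextetOf t ↔ u = t ∨ (Disjoint t u ∧ t ∪ u ∈ octads) := by
  unfold sextetOf
  rw [Finset.mem_insert, Finset.mem_image]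
  constructor
  · rintro (h | ⟨o, ho, rfl⟩)
    · exact Or.inl h
    · rw [Finset.mem_filter, mem_blocks] at ho
      right
      refine ⟨Finset.disjoint_sdiff, ?_⟩
      rw [Finset.union_sdiff_of_subset ho.2]
      exact ho.1
  · rintro (h | ⟨hd, ho⟩)
    · exact Or.inl h
    · right
      refine ⟨t ∪ u, ?_, ?_⟩
      · rw [Finset.mem_filter, mem_blocks]
        exact ⟨ho, Finset.subset_union_left⟩
      · exact Finset.union_sdiff_cancel_left hd

theorem self_mem_sextetOf (t : Finset GolayPt) : t ∈ sextetOf t :=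
  mem_sextetOf.mpr (Or.inl rfl)

theorem sextetOf_mem {t : Finset GolayPt} (ht : t.card = 4) : sextetOf t ∈ sextets := by
  classical
  have hne : t.Nonempty := by
    rw [← Finset.card_pos, ht]
    norm_num
  obtain ⟨x0, hx0⟩ := hne
  have hinj : Set.InjOn (fun o : Finset GolayPt => o \ t)
      ((blocks octads).filter (fun o => t ⊆ o) : Finset (Finset GolayPt)) := by
    intro o ho o' ho' h
    rw [Finset.mem_coe, Finset.mem_filter] at ho ho'
    have h' : o \ t = o' \ t := h
    calc o = o \ t ∪ t := (Finset.sdiff_union_of_subset ho.2).symm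
      _ = o' \ t ∪ t := by rw [h']
      _ = o' := Finset.sdiff_union_of_subset ho'.2
  have hnot : t ∉ ((blocks octads).filter (fun o => t ⊆ o)).image (fun o => o \ t) := by
    intro h
    obtain ⟨o, _, ho⟩ := Finset.mem_image.mp h
    have : x0 ∈ o \ t := by
      rw [ho]
      exact hx0
    exact (Finset.mem_sdiff.mp this).2 hx0
  refine ⟨?_, ?_, ?_⟩
  · unfold sextetOf
    rw [Finset.card_insert_of_notMem hnot, Finset.card_image_of_injOn hinj,
      card_octads_through_four t ht]
  · intro u hu
    unfold sextetOf at hu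
    rcases Finset.mem_insert.mp hu with rfl | hu
    · exact ht
    · obtain ⟨o, ho, rfl⟩ := Finset.mem_image.mp hu
      rw [Finset.mem_filter, mem_blocks] at ho
      rw [Finset.card_sdiff_of_subset ho.2, ho.1.2, ht]
  · intro u hu v hv huv
    unfold sextetOf at hu hv
    rcases Finset.mem_insert.mp hu with rfl | hu
    · rcases Finset.mem_insert.mp hv with rfl | hv
      · exact absurd rfl huv
      · obtain ⟨o, ho, rfl⟩ := Finset.mem_image.mp hv
        rw [Finset.mem_filter, mem_blocks] at ho
        rw [Finset.union_sdiff_of_subset ho.2]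
        exact ho.1
    · obtain ⟨o, ho, rfl⟩ := Finset.mem_image.mp hu
      rw [Finset.mem_filter, mem_blocks] at ho
      rcases Finset.mem_insert.mp hv with rfl | hv
      · rw [Finset.union_comm, Finset.union_sdiff_of_subset ho.2]
        exact ho.1
      · obtain ⟨o', ho', rfl⟩ := Finset.mem_image.mp hv
        rw [Finset.mem_filter, mem_blocks] at ho'
        have hoo : o ≠ o' := fun h => huv (by rw [h])
        have hsub : t ⊆ o ∩ o' := Finset.subset_inter ho.2 ho'.2
        have hle := Finset.card_le_card hsub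
        have h4 : (o ∩ o').card = 4 := by
          rcases octad_inter_cases ho.1 ho'.1 hoo with h | h | h <;> omega
        have hteq : t = o ∩ o' := Finset.eq_of_subset_of_card_le hsub (by rw [h4, ht])
        have hsd : o \ t ∪ o' \ t = symmDiff o o' := by
          rw [hteq, Finset.sdiff_inter_self_left, Finset.inter_comm, Finset.sdiff_inter_self_left]
          rfl
        rw [hsd]
        exact octad_symmDiff ho.1 ho'.1 h4

theorem sextet_eq {S : Finset (Finset GolayPt)} (hS : S ∈ sextets) {t : Finset GolayPt}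
    (ht : t ∈ S) : S = sextetOf t := by
  obtain ⟨h6, h4, hun⟩ := hS
  have hsub : S ⊆ sextetOf t := by
    intro u hu
    rw [mem_sextetOf]
    by_cases hut : u = t
    · exact Or.inl hut
    · right
      have ho := hun t ht u hu (Ne.symm hut)
      refine ⟨?_, ho⟩
      rw [← Finset.card_union_eq_card_add_card, ho.2, h4 t ht, h4 u hu]
  exact Finset.eq_of_subset_of_card_le hsub (by rw [(sextetOf_mem (h4 t ht)).1, h6])

theorem smul_sextet_mem {g : Equiv.Perm GolayPt} (hg : g ∈ M24) {S : Finset (Finset GolayPt)}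
    (hS : S ∈ sextets) : g • S ∈ sextets := by
  obtain ⟨h6, h4, hun⟩ := hS
  refine ⟨?_, ?_, ?_⟩
  · rw [Finset.card_smul_finset, h6]
  · intro u hmem
    obtain ⟨u', hu', rfl⟩ := Finset.mem_smul_finset.mp hmem
    rw [Finset.card_smul_finset]
    exact h4 u' hu'
  · intro u hmem v hvmem hne
    obtain ⟨u', hu', rfl⟩ := Finset.mem_smul_finset.mp hmem
    obtain ⟨v', hv', rfl⟩ := Finset.mem_smul_finset.mp hvmem
    rw [← Finset.smul_finset_union]
    exact smul_octad_mem hg (hun u' hu' v' hv' (fun h => hne (by rw [h])))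

theorem sextet_inv_iff {g : Equiv.Perm GolayPt} (hg : g ∈ M24) {t : Finset GolayPt}
    (ht : t.card = 4) : g • sextetOf t = sextetOf t ↔ g • t ∈ sextetOf t := by
  constructor
  · intro h
    rw [← h]
    exact Finset.smul_mem_smul_finset (self_mem_sextetOf t)
  · intro h
    exact (sextet_eq (smul_sextet_mem hg (sextetOf_mem ht))
      (Finset.smul_mem_smul_finset (self_mem_sextetOf t))).trans
        (sextet_eq (sextetOf_mem ht) h).symm

open Classical in
/-- Counting the sextets invariant under an element of `M24`. -/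
theorem sextet_count {g : Equiv.Perm GolayPt} (hg : g ∈ M24) :
    6 * {S : Finset (Finset GolayPt) | S ∈ sextets ∧ g • S = S}.ncard =
      ((Finset.powersetCard 4 (Finset.univ : Finset GolayPt)).filter (fun t => g • t = t)).card
      + ((Finset.powersetCard 4 (Finset.univ : Finset GolayPt)).filter
          (fun t => t ∪ g • t ∈ octads)).card := by
  classical
  set SS := (blocks sextets).filter (fun S => g • S = S) with hSS
  have hmSS : ∀ S, S ∈ SS ↔ S ∈ sextets ∧ g • S = S := fun S => by
    rw [hSS, Finset.mem_filter, mem_blocks]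
  have hn : {S : Finset (Finset GolayPt) | S ∈ sextets ∧ g • S = S}.ncard = SS.card := by
    rw [← Set.ncard_coe_finset]
    congr 1
    ext S
    rw [Set.mem_setOf_eq, Finset.mem_coe, hmSS]
  set P4 := Finset.powersetCard 4 (Finset.univ : Finset GolayPt) with hP4
  have hmP4 : ∀ t, t ∈ P4 ↔ t.card = 4 := fun t => by
    rw [hP4, Finset.mem_powersetCard]
    exact ⟨fun h => h.2, fun h => ⟨Finset.subset_univ _, h⟩⟩
  have hQ : (P4.filter (fun t => g • t ∈ sextetOf t)).card = 6 * SS.card := by
    rw [Finset.card_eq_sum_card_fiberwise (f := fun t => sextetOf t) (t := SS)]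
    · rw [Finset.sum_const_nat (m := 6), mul_comm]
      intro S hS
      rw [hmSS] at hS
      have hfib : (P4.filter (fun t => g • t ∈ sextetOf t)).filter (fun t => sextetOf t = S)
          = S := by
        ext t
        simp only [Finset.mem_filter, hmP4]
        constructor
        · rintro ⟨_, rfl⟩
          exact self_mem_sextetOf t
        · intro ht
          have e := sextet_eq hS.1 ht
          refine ⟨⟨hS.1.2.1 t ht, ?_⟩, e.symm⟩
          rw [← e, ← hS.2]
          exact Finset.smul_mem_smul_finset ht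
      rw [hfib, hS.1.1]
    · intro t ht
      rw [Finset.mem_coe, Finset.mem_filter, hmP4] at ht
      rw [Finset.mem_coe, hmSS]
      exact ⟨sextetOf_mem ht.1, (sextet_inv_iff hg ht.1).mpr ht.2⟩
  have hsplit : P4.filter (fun t => g • t ∈ sextetOf t)
      = P4.filter (fun t => g • t = t) ∪ P4.filter (fun t => t ∪ g • t ∈ octads) := by
    ext t
    simp only [Finset.mem_union, Finset.mem_filter, hmP4, mem_sextetOf]
    constructor
    · rintro ⟨h4, h | ⟨_, h⟩⟩
      · exact Or.inl ⟨h4, h⟩
      · exact Or.inr ⟨h4, h⟩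
    · rintro (⟨h4, h⟩ | ⟨h4, h⟩)
      · exact ⟨h4, Or.inl h⟩
      · refine ⟨h4, Or.inr ⟨?_, h⟩⟩
        rw [← Finset.card_union_eq_card_add_card, h.2, Finset.card_smul_finset, h4]
  have hdisj : Disjoint (P4.filter (fun t => g • t = t))
      (P4.filter (fun t => t ∪ g • t ∈ octads)) := by
    rw [Finset.disjoint_left]
    intro t h1 h2
    rw [Finset.mem_filter, hmP4] at h1 h2
    have h8 := h2.2.2
    rw [h1.2, Finset.union_self, h1.1] at h8
    norm_num at h8
  rw [hn, ← hQ, hsplit, Finset.card_union_of_disjoint hdisj]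

open Classical in
/-- The second term of `sextet_count`, fibred over the octads. -/
theorem u4_sum (g : Equiv.Perm GolayPt) :
    ((Finset.powersetCard 4 (Finset.univ : Finset GolayPt)).filter
      (fun t => t ∪ g • t ∈ octads)).card
      = ∑ o ∈ blocks octads, ((Finset.powersetCard 4 o).filter (fun t => t ∪ g • t = o)).card := by
  classical
  rw [Finset.card_eq_sum_card_fiberwise (f := fun t => t ∪ g • t) (t := blocks octads)]
  · refine Finset.sum_congr rfl (fun o ho => ?_)
    congr 1
    ext t
    simp only [Finset.mem_filter, Finset.mem_powersetCard]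
    constructor
    · rintro ⟨⟨⟨_, h4⟩, _⟩, rfl⟩
      exact ⟨⟨Finset.subset_union_left, h4⟩, rfl⟩
    · rintro ⟨⟨_, h4⟩, rfl⟩
      exact ⟨⟨⟨Finset.subset_univ _, h4⟩, mem_blocks.mp ho⟩, rfl⟩
  · intro t ht
    rw [Finset.mem_coe, Finset.mem_filter] at ht
    exact Finset.mem_coe.mpr (mem_blocks.mpr ht.2)

open Classical in
/-- For an involution only the invariant octads contribute. -/
theorem u4_invol {g : Equiv.Perm GolayPt} (h2 : g * g = 1) :
    ((Finset.powersetCard 4 (Finset.univ : Finset GolayPt)).filter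
      (fun t => t ∪ g • t ∈ octads)).card
      = ∑ o ∈ (blocks octads).filter (fun o => g • o = o),
          ((Finset.powersetCard 4 o).filter (fun t => t ∪ g • t = o)).card := by
  classical
  rw [u4_sum, Finset.sum_filter_of_ne]
  intro o _ hne
  obtain ⟨t, ht⟩ := Finset.card_pos.mp (Nat.pos_of_ne_zero hne)
  rw [Finset.mem_filter] at ht
  have h := ht.2
  rw [← h, Finset.smul_finset_union, ← mul_smul, h2, one_smul, Finset.union_comm]

theorem inter3_aux9 {α : Type*} [DecidableEq α] (a b c : Finset α) (hab : Disjoint a b)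
    (hbc : Disjoint b c) (hca : Disjoint c a) :
    (a ∪ b) ∩ (b ∪ c) = b ∧ (a ∪ b) ∩ (b ∪ c) ∩ (c ∪ a) = ∅ ∧ (a ∪ b) \ (b ∪ c) = a := by
  rw [Finset.disjoint_left] at hab hbc hca
  refine ⟨?_, ?_, ?_⟩ <;> ext x <;>
    simp only [Finset.mem_inter, Finset.mem_union, Finset.mem_sdiff, Finset.notMem_empty] <;>
    have h1 := @hab x <;> have h2 := @hbc x <;> have h3 := @hca x <;> tauto

open Classical in
/-- For an element of order 3 the second term of `sextet_count` counts certain octads. -/
theorem u4_ord3 {g : Equiv.Perm GolayPt} (h3 : g ^ 3 = 1) :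
    ((Finset.powersetCard 4 (Finset.univ : Finset GolayPt)).filter
      (fun t => t ∪ g • t ∈ octads)).card
      = ((blocks octads).filter
          (fun o => (o ∩ g • o).card = 4 ∧ o ∩ g • o ∩ g • g • o = ∅)).card := by
  classical
  have hggg : ∀ s : Finset GolayPt, g • g • g • s = s := fun s => by
    rw [← mul_smul, ← mul_smul, ← pow_two, ← pow_succ, h3, one_smul]
  have key : ∀ t : Finset GolayPt, t.card = 4 → t ∪ g • t ∈ octads →
      (t ∪ g • t) ∩ g • (t ∪ g • t) = g • t ∧
      (t ∪ g • t) ∩ g • (t ∪ g • t) ∩ g • g • (t ∪ g • t) = ∅ ∧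
      (t ∪ g • t) \ g • (t ∪ g • t) = t := by
    intro t h4 ho
    have hd : Disjoint t (g • t) := by
      rw [← Finset.card_union_eq_card_add_card, ho.2, Finset.card_smul_finset, h4]
    have hd1 : Disjoint (g • t) (g • g • t) := smul_disjoint9 g hd
    have hd2 : Disjoint (g • g • t) t := by
      have := smul_disjoint9 g hd1
      rw [hggg] at this
      exact this
    have e1 : g • (t ∪ g • t) = g • t ∪ g • g • t := Finset.smul_finset_union
    have e2 : g • g • (t ∪ g • t) = g • g • t ∪ t := by
      rw [e1, Finset.smul_finset_union, hggg]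
    rw [e2, e1]
    exact inter3_aux9 t (g • t) (g • g • t) hd hd1 hd2
  have back : ∀ o : Finset GolayPt, o ∈ octads → (o ∩ g • o).card = 4 →
      o ∩ g • o ∩ g • g • o = ∅ → (o \ g • o).card = 4 ∧ o \ g • o ∪ g • (o \ g • o) = o := by
    intro o ho h4 hemp
    have hc4 : (o \ g • o).card = 4 := by
      have := Finset.card_sdiff_add_card_inter o (g • o)
      rw [ho.2] at this
      omega
    refine ⟨hc4, ?_⟩
    have e : g • (o \ g • o) = o ∩ g • o := by
      symm
      apply Finset.eq_of_subset_of_card_le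
      · intro x hx
        rw [Finset.smul_finset_sdiff, Finset.mem_sdiff]
        refine ⟨(Finset.mem_inter.mp hx).2, fun hx' => ?_⟩
        have : x ∈ o ∩ g • o ∩ g • g • o := Finset.mem_inter.mpr ⟨hx, hx'⟩
        rw [hemp] at this
        exact absurd this (Finset.notMem_empty _)
      · rw [Finset.card_smul_finset, hc4, h4]
    rw [e]
    exact Finset.sdiff_union_inter o (g • o)
  refine Finset.card_nbij' (fun t => t ∪ g • t) (fun o => o \ g • o) ?_ ?_ ?_ ?_
  · intro t ht
    rw [Finset.mem_coe, Finset.mem_filter, Finset.mem_powersetCard] at ht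
    obtain ⟨k1, k2, _⟩ := key t ht.1.2 ht.2
    rw [Finset.mem_coe, Finset.mem_filter, mem_blocks]
    refine ⟨ht.2, ?_, k2⟩
    rw [k1, Finset.card_smul_finset, ht.1.2]
  · intro o ho
    rw [Finset.mem_coe, Finset.mem_filter, mem_blocks] at ho
    obtain ⟨b1, b2⟩ := back o ho.1 ho.2.1 ho.2.2
    rw [Finset.mem_coe, Finset.mem_filter, Finset.mem_powersetCard]
    refine ⟨⟨Finset.subset_univ _, b1⟩, ?_⟩
    rw [b2]
    exact ho.1
  · intro t ht
    rw [Finset.mem_coe, Finset.mem_filter, Finset.mem_powersetCard] at ht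
    exact (key t ht.1.2 ht.2).2.2
  · intro o ho
    rw [Finset.mem_coe, Finset.mem_filter, mem_blocks] at ho
    exact (back o ho.1 ho.2.1 ho.2.2).2

end Cfsg.Agent.Helper9
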