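import Mathlib
import Cfsg.Agent.Helper9.M24Sextet
import Cfsg.Agent.Helper1.GolayOrb2

set_option autoImplicit false

namespace Cfsg.Agent.Helper9

open Cfsg Cfsg.Agent.Helper1 Cfsg.Agent.Helper1.Golay
open scoped Pointwise

/-- The number of invariant members of an invariant family is a class function. -/
theorem ncard_conj_inv9 {β : Type*} [MulAction (Equiv.Perm GolayPt) β] (X : Set β)
    (k g : Equiv.Perm GolayPt) (hX : ∀ x ∈ X, k • x ∈ X) (hX' : ∀ x ∈ X, k⁻¹ • x ∈ X) :
    {x | x ∈ X ∧ (k * g * k⁻¹) • x = x}.ncard = {x | x ∈ X ∧ g • x = x}.ncard := by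
  have e : {x | x ∈ X ∧ (k * g * k⁻¹) • x = x} = (fun x => k • x) '' {x | x ∈ X ∧ g • x = x} := by
    ext x
    constructor
    · rintro ⟨hx, hfix⟩
      refine ⟨k⁻¹ • x, ⟨hX' x hx, ?_⟩, smul_inv_smul k x⟩
      have h1 : k⁻¹ • ((k * g * k⁻¹) • x) = k⁻¹ • x := by rw [hfix]
      rw [mul_smul, mul_smul, inv_smul_smul] at h1
      exact h1
    · rintro ⟨y, ⟨hy, hfix⟩, rfl⟩
      refine ⟨hX y hy, ?_⟩
      show (k * g * k⁻¹) • k • y = k • y
      rw [mul_smul, mul_smul, inv_smul_smul, hfix]
  rw [e, Set.ncard_image_of_injective _ (MulAction.injective k)]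

theorem ncard_sq_inv9 {β : Type*} [MulAction (Equiv.Perm GolayPt) β] (X : Set β)
    (g : Equiv.Perm GolayPt) (h3 : g ^ 3 = 1) :
    {x | x ∈ X ∧ (g ^ 2) • x = x}.ncard = {x | x ∈ X ∧ g • x = x}.ncard := by
  congr 1
  ext x
  simp only [Set.mem_setOf_eq]
  refine and_congr_right (fun _ => ?_)
  constructor
  · intro h
    have h1 : g • (g ^ 2) • x = g • x := by rw [h]
    rw [← mul_smul, ← pow_succ', h3, one_smul] at h1
    exact h1.symm
  · intro h
    rw [pow_two, mul_smul, h, h]

/-- The support of the codeword with coordinate `c`. -/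
def sp (c : ℕ) : Finset GolayPt := support₂ (ofBits (comb c))

/-- The coordinates of the codewords of weight `n`. -/
def wtC (n : ℕ) : Finset ℕ := (Finset.range 4096).filter (fun c => popc (comb c) = n)

theorem mem_wtC {n c : ℕ} : c ∈ wtC n ↔ c < 4096 ∧ popc (comb c) = n := by
  unfold wtC
  rw [Finset.mem_filter, Finset.mem_range]

theorem sp_inj9 {c c' : ℕ} (hc : c < 4096) (hc' : c' < 4096) (h : sp c = sp c') : c = c' :=
  ofBits_comb_inj hc hc' (support₂_injective h)

theorem blocks_eq9 (n : ℕ) :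
    blocks (wordsOfWeight (golayCode : Set (GolayPt → ZMod 2)) n) = (wtC n).image sp := by
  ext b
  rw [mem_blocks, wordsOfWeight_eq, Finset.mem_image]
  constructor
  · rintro ⟨c, hc, rfl⟩
    exact ⟨c, hc, rfl⟩
  · rintro ⟨c, hc, rfl⟩
    exact ⟨c, hc, rfl⟩

theorem sp_injOn9 (n : ℕ) (P : ℕ → Prop) [DecidablePred P] :
    Set.InjOn sp ((wtC n).filter P : Finset ℕ) := by
  intro c hc c' hc' h
  rw [Finset.mem_coe, Finset.mem_filter, mem_wtC] at hc hc'
  exact sp_inj9 hc.1.1 hc'.1.1 h

theorem card_filter_blocks9 (n : ℕ) (P : Finset GolayPt → Prop) [DecidablePred P] :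
    ((blocks (wordsOfWeight (golayCode : Set (GolayPt → ZMod 2)) n)).filter P).card
      = ((wtC n).filter (fun c => P (sp c))).card := by
  rw [blocks_eq9, Finset.filter_image, Finset.card_image_of_injOn (sp_injOn9 n _)]

theorem disj_iff9 (m n : ℕ) :
    Disjoint (support₂ (ofBits m)) (support₂ (ofBits n)) ↔ popc (m &&& n) = 0 := by
  rw [Finset.disjoint_iff_inter_eq_empty, ← Finset.card_eq_zero, card_support_inter]

theorem card_filter_product9 {α : Type*} (s : Finset α) (R : α → α → Prop)
    [∀ a, DecidablePred (R a)] :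
    ((s ×ˢ s).filter (fun x => R x.1 x.2)).card = ∑ a ∈ s, (s.filter (R a)).card := by
  rw [Finset.card_filter, Finset.sum_product]
  exact Finset.sum_congr rfl (fun a _ => (Finset.card_filter _ _).symm)

/-- A concrete element of `M24` given by a table, with its action on coordinates. -/
structure Model9 (h : Equiv.Perm GolayPt) (V : ℕ → ℕ) (tb : GolayPt → GolayPt) : Prop where
  mem : h ∈ M24
  lt : ∀ c < 4096, V c < 4096
  supp : ∀ c, sp (V c) = h • sp c
  tab : ∀ p, h p = tb p

namespace Model9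

variable {h : Equiv.Perm GolayPt} {V : ℕ → ℕ} {tb : GolayPt → GolayPt}

theorem inv_iff (M : Model9 h V tb) {c : ℕ} (hc : c < 4096) : h • sp c = sp c ↔ V c = c := by
  rw [← M.supp]
  exact ⟨fun e => sp_inj9 (M.lt c hc) hc e, fun e => by rw [e]⟩

theorem count_inv (M : Model9 h V tb) (n : ℕ) :
    {o : Finset GolayPt | o ∈ wordsOfWeight (golayCode : Set (GolayPt → ZMod 2)) n
        ∧ h • o = o}.ncard = ((wtC n).filter (fun c => V c = c)).card := by
  have e : {o : Finset GolayPt | o ∈ wordsOfWeight (golayCode : Set (GolayPt → ZMod 2)) n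
      ∧ h • o = o} = ((blocks (wordsOfWeight (golayCode : Set (GolayPt → ZMod 2)) n)).filter
        (fun o => h • o = o) : Finset (Finset GolayPt)) := by
    ext o
    rw [Finset.mem_coe, Finset.mem_filter, mem_blocks]
    rfl
  rw [e, Set.ncard_coe_finset, card_filter_blocks9]
  exact congrArg Finset.card (Finset.filter_congr (fun c hc => M.inv_iff (mem_wtC.mp hc).1))

theorem inv_blocks_eq (M : Model9 h V tb) :
    (blocks octads).filter (fun o => h • o = o) = ((wtC 8).filter (fun c => V c = c)).image sp := by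
  have e : blocks octads = (wtC 8).image sp := blocks_eq9 8
  rw [e, Finset.filter_image]
  exact congrArg (Finset.image sp) (Finset.filter_congr (fun c hc => M.inv_iff (mem_wtC.mp hc).1))

theorem count_disj (M : Model9 h V tb) :
    ((blocks octads).filter (fun o => Disjoint o (h • o))).card
      = ((wtC 8).filter (fun c => popc (comb c &&& comb (V c)) = 0)).card := by
  refine (card_filter_blocks9 8 (fun o => Disjoint o (h • o))).trans ?_
  refine congrArg Finset.card (Finset.filter_congr (fun c _ => ?_))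
  rw [← M.supp]
  exact disj_iff9 _ _

theorem count_pairs (M : Model9 h V tb) :
    ((((blocks octads).filter (fun o => h • o = o)) ×ˢ
        ((blocks octads).filter (fun o => h • o = o))).filter
          (fun x => Disjoint x.1 x.2)).card
      = ∑ c1 ∈ (wtC 8).filter (fun c => V c = c),
          (((wtC 8).filter (fun c => V c = c)).filter
            (fun c2 => popc (comb c1 &&& comb c2) = 0)).card := by
  rw [card_filter_product9, M.inv_blocks_eq, Finset.sum_image (sp_injOn9 8 _)]
  refine Finset.sum_congr rfl (fun c1 _ => ?_)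
  rw [Finset.filter_image, Finset.card_image_of_injOn]
  · exact congrArg Finset.card (Finset.filter_congr (fun c2 _ => disj_iff9 _ _))
  · exact (sp_injOn9 8 _).mono (Finset.coe_subset.mpr (Finset.filter_subset _ _))

theorem count_u4_ord3 (M : Model9 h V tb) :
    ((blocks octads).filter
        (fun o => (o ∩ h • o).card = 4 ∧ o ∩ h • o ∩ h • h • o = ∅)).card
      = ((wtC 8).filter (fun c => popc (comb c &&& comb (V c)) = 4
          ∧ popc (comb c &&& comb (V c) &&& comb (V (V c))) = 0)).card := by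
  refine (card_filter_blocks9 8
    (fun o => (o ∩ h • o).card = 4 ∧ o ∩ h • o ∩ h • h • o = ∅)).trans ?_
  refine congrArg Finset.card (Finset.filter_congr (fun c _ => ?_))
  rw [← M.supp, ← M.supp]
  show (support₂ (ofBits (comb c)) ∩ support₂ (ofBits (comb (V c)))).card = 4
    ∧ support₂ (ofBits (comb c)) ∩ support₂ (ofBits (comb (V c)))
      ∩ support₂ (ofBits (comb (V (V c)))) = ∅ ↔ _
  rw [card_support_inter, support_inter, support_inter, ← Finset.card_eq_zero, card_support₂,
    hammingNorm_ofBits]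

theorem smul_eq_image (M : Model9 h V tb) (t : Finset GolayPt) : h • t = t.image tb := by
  ext x
  rw [Finset.mem_smul_finset, Finset.mem_image]
  constructor
  · rintro ⟨y, hy, rfl⟩
    exact ⟨y, hy, (M.tab y).symm⟩
  · rintro ⟨y, hy, rfl⟩
    exact ⟨y, hy, M.tab y⟩

theorem count_u4_invol (M : Model9 h V tb) :
    ∑ o ∈ (blocks octads).filter (fun o => h • o = o),
        ((Finset.powersetCard 4 o).filter (fun t => t ∪ h • t = o)).card
      = ∑ c ∈ (wtC 8).filter (fun c => V c = c),
          ((Finset.powersetCard 4 (sp c)).filter (fun t => t ∪ t.image tb = sp c)).card := by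
  rw [M.inv_blocks_eq, Finset.sum_image (sp_injOn9 8 _)]
  refine Finset.sum_congr rfl (fun c _ => ?_)
  exact congrArg Finset.card (Finset.filter_congr (fun t _ => by rw [M.smul_eq_image]))

theorem count_i4 (M : Model9 h V tb) :
    ((Finset.powersetCard 4 (Finset.univ : Finset GolayPt)).filter (fun t => h • t = t)).card
      = ((Finset.powersetCard 4 (Finset.univ : Finset GolayPt)).filter
          (fun t => ∀ p ∈ t, tb p ∈ t)).card := by
  refine congrArg Finset.card (Finset.filter_congr (fun t _ => ?_))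
  constructor
  · intro e p hp
    rw [← M.tab]
    have h1 := Finset.smul_mem_smul_finset (a := h) hp
    rw [e] at h1
    exact h1
  · intro hall
    exact smul_eq_of_forall_mem9 (fun a ha => by rw [M.tab]; exact hall a ha)

theorem octads_eq (M : Model9 h V tb) (n8 : ℕ)
    (c1 : ((wtC 8).filter (fun c => V c = c)).card = n8) :
    {o : Finset GolayPt | o ∈ octads ∧ h • o = o}.ncard = n8 := (M.count_inv 8).trans c1

theorem dodecads_eq (M : Model9 h V tb) (n12 : ℕ)
    (c1 : ((wtC 12).filter (fun c => V c = c)).card = n12) :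
    {o : Finset GolayPt | o ∈ dodecads ∧ h • o = o}.ncard = n12 := (M.count_inv 12).trans c1

theorem trios_eq (M : Model9 h V tb) (p : ℕ) (hp : p = 2 ∨ p = 3) (hgp : h ^ p = 1) (A B : ℕ)
    (c2 : ∑ c1 ∈ (wtC 8).filter (fun c => V c = c),
          (((wtC 8).filter (fun c => V c = c)).filter
            (fun c2 => popc (comb c1 &&& comb c2) = 0)).card = A)
    (c3 : ((wtC 8).filter (fun c => popc (comb c &&& comb (V c)) = 0)).card = B) :
    6 * p * {T : Finset (Finset GolayPt) | T ∈ trios ∧ h • T = T}.ncard = p * A + 6 * B := by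
  rw [trio_count M.mem p hp hgp, M.count_pairs, c2, M.count_disj, c3]

theorem sextets_invol (M : Model9 h V tb) (h2 : h * h = 1) (I U : ℕ)
    (c4 : ((Finset.powersetCard 4 (Finset.univ : Finset GolayPt)).filter
          (fun t => ∀ p ∈ t, tb p ∈ t)).card = I)
    (c5 : ∑ c ∈ (wtC 8).filter (fun c => V c = c),
          ((Finset.powersetCard 4 (sp c)).filter (fun t => t ∪ t.image tb = sp c)).card = U) :
    6 * {S : Finset (Finset GolayPt) | S ∈ sextets ∧ h • S = S}.ncard = I + U := by
  rw [sextet_count M.mem, u4_invol h2, M.count_i4, c4, M.count_u4_invol, c5]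

theorem sextets_ord3 (M : Model9 h V tb) (h3 : h ^ 3 = 1) (I U : ℕ)
    (c4 : ((Finset.powersetCard 4 (Finset.univ : Finset GolayPt)).filter
          (fun t => ∀ p ∈ t, tb p ∈ t)).card = I)
    (c6 : ((wtC 8).filter (fun c => popc (comb c &&& comb (V c)) = 4
          ∧ popc (comb c &&& comb (V c) &&& comb (V (V c))) = 0)).card = U) :
    6 * {S : Finset (Finset GolayPt) | S ∈ sextets ∧ h • S = S}.ncard = I + U := by
  rw [sextet_count M.mem, u4_ord3 h3, M.count_i4, c4, M.count_u4_ord3, c6]

end Model9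

/-- The function on points given by a packed table. -/
def tabFun (T : ℕ) (p : GolayPt) : GolayPt := unpos (look T (pos p))

/-- The permutation given by a packed table and the table of its inverse. -/
def tabPerm (T T' : ℕ) (h1 : ∀ p, tabFun T' (tabFun T p) = p)
    (h2 : ∀ p, tabFun T (tabFun T' p) = p) : Equiv.Perm GolayPt :=
  ⟨tabFun T, tabFun T', h1, h2⟩

theorem model_of_tables (T T' : ℕ) (h1 : ∀ p, tabFun T' (tabFun T p) = p)
    (h2 : ∀ p, tabFun T (tabFun T' p) = p) (t0 t1 t2 t3 t4 t5 t6 t7 t8 t9 t10 t11 : ℕ)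
    (hp : ∀ p, ofBits 340831 (tabFun T' p) = ofBits (comb t0) p
      ∧ ofBits 681662 (tabFun T' p) = ofBits (comb t1) p
      ∧ ofBits 1363324 (tabFun T' p) = ofBits (comb t2) p
      ∧ ofBits 2726648 (tabFun T' p) = ofBits (comb t3) p
      ∧ ofBits 5453296 (tabFun T' p) = ofBits (comb t4) p
      ∧ ofBits 2517985 (tabFun T' p) = ofBits (comb t5) p
      ∧ ofBits 5035970 (tabFun T' p) = ofBits (comb t6) p
      ∧ ofBits 1683333 (tabFun T' p) = ofBits (comb t7) p
      ∧ ofBits 3366666 (tabFun T' p) = ofBits (comb t8) p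
      ∧ ofBits 6733332 (tabFun T' p) = ofBits (comb t9) p
      ∧ ofBits 5078057 (tabFun T' p) = ofBits (comb t10) p
      ∧ ofBits 16777215 (tabFun T' p) = ofBits (comb t11) p)
    (hlt : ∀ c < 4096, lin t0 t1 t2 t3 t4 t5 t6 t7 t8 t9 t10 t11 c < 4096) :
    Model9 (tabPerm T T' h1 h2) (lin t0 t1 t2 t3 t4 t5 t6 t7 t8 t9 t10 t11) (tabFun T) := by
  have hpull : ∀ c p, ofBits (comb c) ((tabPerm T T' h1 h2)⁻¹ p)
      = ofBits (comb (lin t0 t1 t2 t3 t4 t5 t6 t7 t8 t9 t10 t11 c)) p := fun c p =>
    pull_comb (tabFun T') t0 t1 t2 t3 t4 t5 t6 t7 t8 t9 t10 t11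
      (fun p => (hp p).1) (fun p => (hp p).2.1) (fun p => (hp p).2.2.1)
      (fun p => (hp p).2.2.2.1) (fun p => (hp p).2.2.2.2.1) (fun p => (hp p).2.2.2.2.2.1)
      (fun p => (hp p).2.2.2.2.2.2.1) (fun p => (hp p).2.2.2.2.2.2.2.1)
      (fun p => (hp p).2.2.2.2.2.2.2.2.1) (fun p => (hp p).2.2.2.2.2.2.2.2.2.1)
      (fun p => (hp p).2.2.2.2.2.2.2.2.2.2.1) (fun p => (hp p).2.2.2.2.2.2.2.2.2.2.2) c p
  refine ⟨?_, hlt, ?_, fun p => rfl⟩
  · have := inv_mem (mem_M24_of_pull _ _ hpull)
    rw [inv_inv] at this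
    exact this
  · intro c
    have := support_pull _ _ hpull c
    rw [inv_inv] at this
    exact this

end Cfsg.Agent.Helper9
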