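import Mathlib
import Cfsg.Agent.Helper9.M24Count
import Cfsg.Agent.Helper9.M24Comm
import Cfsg.Agent.Helper9.M24Fix3
import Cfsg.Agent.Helper9.M24Invol

set_option autoImplicit false

namespace Cfsg.Agent.Helper9

open Cfsg Cfsg.Agent.Helper1 Cfsg.Agent.Helper1.Golay
open scoped Pointwise

/-- Triples of points lying in three transposition pairs of `t` not in a common octad. -/
def OutT (t : Equiv.Perm GolayPt) (x : GolayPt × GolayPt × GolayPt) : Prop :=
  ∃ O ∈ octads, [x.1, t x.1, x.2.1, t x.2.1, x.2.2].Nodup ∧ x.1 ∈ O ∧ t x.1 ∈ O ∧ x.2.1 ∈ O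
    ∧ t x.2.1 ∈ O ∧ x.2.2 ∈ O ∧ t x.2.2 ∉ O

theorem invol_apply9 {t : Equiv.Perm GolayPt} (h2 : t * t = 1) (p : GolayPt) : t (t p) = p := by
  have := congrArg (fun f : Equiv.Perm GolayPt => f p) h2
  simpa using this

theorem comm_apply9 {ρ t : Equiv.Perm GolayPt} (hc : ρ * t = t * ρ) (p : GolayPt) :
    ρ (t p) = t (ρ p) := by
  have := congrArg (fun f : Equiv.Perm GolayPt => f p) hc
  simpa using this

theorem mem5_9 {a b c d e x : GolayPt} (hx : x ∈ [a, b, c, d, e].toFinset) :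
    x = a ∨ x = b ∨ x = c ∨ x = d ∨ x = e := by
  simpa only [List.toFinset_cons, List.toFinset_nil, Finset.mem_insert, insert_empty_eq,
    Finset.mem_singleton] using hx

/-- The centralizer of an involution is transitive on its out-type triples. -/
theorem centr_trans {t : Equiv.Perm GolayPt} (ht : t ∈ M24) (h2 : t * t = 1)
    {x y : GolayPt × GolayPt × GolayPt} (hx : OutT t x) (hy : OutT t y) :
    ∃ ρ ∈ M24, ρ * t = t * ρ ∧ ρ x.1 = y.1 ∧ ρ x.2.1 = y.2.1 ∧ ρ x.2.2 = y.2.2 := by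
  classical
  obtain ⟨a, c, e⟩ := x
  obtain ⟨a', c', e'⟩ := y
  obtain ⟨O, hO, hnd, ha, hta, hc, htc, he, hte⟩ := hx
  obtain ⟨O', hO', hnd', ha', hta', hc', htc', he', hte'⟩ := hy
  dsimp only at hnd ha hta hc htc he hte hnd' ha' hta' hc' htc' he' hte' ⊢
  obtain ⟨σ, hσ, h1, h2a, h3, h4, h5, h6⟩ :=
    m24_out_trans hO hO' hnd hnd' ha hta hc htc he hte ha' hta' hc' htc' he' hte'
  have hinv : ∀ x y : GolayPt, σ x = y → σ⁻¹ y = x := by
    intro x y hxy
    rw [Equiv.Perm.inv_def, Equiv.symm_apply_eq, hxy]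
  obtain ⟨s, hs⟩ : ∃ s, s = σ * t * σ⁻¹ := ⟨_, rfl⟩
  have hsM : s ∈ M24 := by
    rw [hs]
    exact mul_mem (mul_mem hσ ht) (inv_mem hσ)
  have hs2 : s * s = 1 := by
    rw [hs]
    calc (σ * t * σ⁻¹) * (σ * t * σ⁻¹) = σ * (t * t) * σ⁻¹ := by
          simp only [mul_assoc, inv_mul_cancel_left]
      _ = 1 := by rw [h2, mul_one, mul_inv_cancel]
  have hsa : s a' = t a' := by
    rw [hs, Equiv.Perm.mul_apply, Equiv.Perm.mul_apply, hinv _ _ h1, h2a]
  have hsc : s c' = t c' := by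
    rw [hs, Equiv.Perm.mul_apply, Equiv.Perm.mul_apply, hinv _ _ h3, h4]
  have hse : s e' = t e' := by
    rw [hs, Equiv.Perm.mul_apply, Equiv.Perm.mul_apply, hinv _ _ h5, h6]
  have htt := invol_apply9 h2
  have hss := invol_apply9 hs2
  have hzM : t * s ∈ M24 := mul_mem ht hsM
  have hz3 : (t * s) ^ 3 = 1 := by
    have hFcard : ([a', t a', c', t c', e'].toFinset).card = 5 := by
      rw [List.toFinset_card_of_nodup hnd']
      rfl
    have hFO : [a', t a', c', t c', e'].toFinset ⊆ O' := by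
      intro x hx
      rcases mem5_9 hx with rfl | rfl | rfl | rfl | rfl <;> assumption
    have hzF : ∀ p ∈ [a', t a', c', t c', e'].toFinset, (t * s) p = p := by
      intro p hp
      rw [Equiv.Perm.mul_apply]
      rcases mem5_9 hp with rfl | rfl | rfl | rfl | rfl
      · rw [hsa, htt]
      · rw [← hsa, hss, hsa]
      · rw [hsc, htt]
      · rw [← hsc, hss, hsc]
      · rw [hse, htt]
    have hzq : (t * s) (t e') = t e' := by
      rw [Equiv.Perm.mul_apply, ← hse, hss, hse]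
    exact pow_three_of_six_out hzM hO' hFO hFcard hzF hte' hzq
  have htinv : t⁻¹ = t := inv_eq_of_mul_eq_one_right h2
  have hsinv : s⁻¹ = s := inv_eq_of_mul_eq_one_right hs2
  have key : s * t * s = t * s * t := by
    have h3 : t * s * t * (s * t * s) = 1 := by
      rw [← hz3, pow_succ, pow_two]
      simp only [mul_assoc]
    have h4 := eq_inv_of_mul_eq_one_right h3
    rw [h4, mul_inv_rev, mul_inv_rev, htinv, hsinv, mul_assoc]
  have hσt : σ * t = s * σ := by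
    rw [hs]
    simp only [mul_assoc, inv_mul_cancel, mul_one]
  refine ⟨s * t * σ, mul_mem (mul_mem hsM ht) hσ, ?_, ?_, ?_, ?_⟩
  · calc s * t * σ * t = s * t * (σ * t) := by simp only [mul_assoc]
      _ = s * t * s * σ := by rw [hσt]; simp only [mul_assoc]
      _ = t * s * t * σ := by rw [key]
      _ = t * (s * t * σ) := by simp only [mul_assoc]
  · rw [Equiv.Perm.mul_apply, Equiv.Perm.mul_apply, h1, ← hsa, hss]
  · rw [Equiv.Perm.mul_apply, Equiv.Perm.mul_apply, h3, ← hsc, hss]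
  · rw [Equiv.Perm.mul_apply, Equiv.Perm.mul_apply, h5, ← hse, hss]

/-- The centralizer of a fixed-point-free involution acts freely on its out-type triples. -/
theorem centr_free {t : Equiv.Perm GolayPt} (ht : t ∈ M24) (h2 : t * t = 1) (h0 : ∀ p, t p ≠ p)
    {x : GolayPt × GolayPt × GolayPt} (hx : OutT t x) {ρ : Equiv.Perm GolayPt} (hρ : ρ ∈ M24)
    (hc : ρ * t = t * ρ) (h1 : ρ x.1 = x.1) (h2' : ρ x.2.1 = x.2.1) (h3 : ρ x.2.2 = x.2.2) :
    ρ = 1 := by
  classical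
  obtain ⟨a, c, e⟩ := x
  obtain ⟨O, hO, hnd, ha, hta, hcO, htc, he, hte⟩ := hx
  dsimp only at hnd ha hta hcO htc he hte h1 h2' h3
  have hcomm := comm_apply9 hc
  have hFcard : ([a, t a, c, t c, e].toFinset).card = 5 := by
    rw [List.toFinset_card_of_nodup hnd]
    rfl
  have hFO : [a, t a, c, t c, e].toFinset ⊆ O := by
    intro x hx
    rcases mem5_9 hx with rfl | rfl | rfl | rfl | rfl <;> assumption
  have hρF : ∀ p ∈ [a, t a, c, t c, e].toFinset, ρ p = p := by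
    intro p hp
    rcases mem5_9 hp with rfl | rfl | rfl | rfl | rfl
    · exact h1
    · rw [hcomm, h1]
    · exact h2'
    · rw [hcomm, h2']
    · exact h3
  have hρq : ρ (t e) = t e := by rw [hcomm, h3]
  have hρ3 : ρ ^ 3 = 1 := pow_three_of_six_out hρ hO hFO hFcard hρF hte hρq
  by_contra hne
  rcases ord3_fix hρ hρ3 hne with h | h
  · have hmem : a ∈ (Finset.univ.filter fun p => ρ p = p) :=
      Finset.mem_filter.mpr ⟨Finset.mem_univ _, h1⟩
    rw [Finset.card_eq_zero] at h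
    rw [h] at hmem
    exact absurd hmem (Finset.notMem_empty _)
  · exact no_commute_six_fpf hρ ht hρ3 hne (by rw [pow_two]; exact h2) hc h h0

theorem outT_smul {t ρ : Equiv.Perm GolayPt} (hρ : ρ ∈ M24) (hc : ρ * t = t * ρ)
    {x : GolayPt × GolayPt × GolayPt} (hx : OutT t x) : OutT t (ρ x.1, ρ x.2.1, ρ x.2.2) := by
  obtain ⟨a, c, e⟩ := x
  obtain ⟨O, hO, hnd, ha, hta, hcO, htc, he, hte⟩ := hx
  dsimp only at hnd ha hta hcO htc he hte ⊢
  have hcomm := comm_apply9 hc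
  refine ⟨ρ • O, smul_octad_mem hρ hO, ?_, ?_, ?_, ?_, ?_, ?_, ?_⟩
  · have h := hnd.map ρ.injective
    simp only [List.map_cons, List.map_nil] at h
    rw [hcomm a, hcomm c] at h
    exact h
  · exact Finset.smul_mem_smul_finset (a := ρ) ha
  · show t (ρ a) ∈ ρ • O
    rw [← hcomm]
    exact Finset.smul_mem_smul_finset (a := ρ) hta
  · exact Finset.smul_mem_smul_finset (a := ρ) hcO
  · show t (ρ c) ∈ ρ • O
    rw [← hcomm]
    exact Finset.smul_mem_smul_finset (a := ρ) htc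
  · exact Finset.smul_mem_smul_finset (a := ρ) he
  · show t (ρ e) ∉ ρ • O
    rw [← hcomm]
    intro h
    exact hte ((Finset.smul_mem_smul_finset_iff ρ).mp h)

/-- The centralizer of a fixed-point-free involution is in bijection with its out-type
triples. -/
theorem card_centr {t : Equiv.Perm GolayPt} (ht : t ∈ M24) (h2 : t * t = 1) (h0 : ∀ p, t p ≠ p) :
    Nat.card {c : Equiv.Perm GolayPt // c ∈ M24 ∧ c * t = t * c}
      = Nat.card {x : GolayPt × GolayPt × GolayPt // OutT t x} := by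
  obtain ⟨a, c, e, O, hO, hnd, ha, hta, hc, htc, he, hte⟩ := fpf_out_triple h2 h0
  have hx0 : OutT t (a, c, e) := ⟨O, hO, hnd, ha, hta, hc, htc, he, hte⟩
  let φ : {c : Equiv.Perm GolayPt // c ∈ M24 ∧ c * t = t * c} →
      {x : GolayPt × GolayPt × GolayPt // OutT t x} :=
    fun ρ => ⟨(ρ.1 a, ρ.1 c, ρ.1 e), outT_smul ρ.2.1 ρ.2.2 hx0⟩
  have hinj : Function.Injective φ := by
    intro ρ1 ρ2 h
    have h' : (ρ1.1 a, ρ1.1 c, ρ1.1 e) = (ρ2.1 a, ρ2.1 c, ρ2.1 e) := congrArg Subtype.val h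
    simp only [Prod.mk.injEq] at h'
    obtain ⟨e1, e2, e3⟩ := h'
    have c1 := ρ1.2.2
    have c2 := ρ2.2.2
    have c2' : ρ2.1⁻¹ * t = t * ρ2.1⁻¹ := by
      rw [eq_mul_inv_iff_mul_eq, mul_assoc, ← c2, ← mul_assoc, inv_mul_cancel, one_mul]
    have hρ : ρ2.1⁻¹ * ρ1.1 = 1 := by
      apply centr_free ht h2 h0 hx0 (mul_mem (inv_mem ρ2.2.1) ρ1.2.1)
      · rw [mul_assoc, c1, ← mul_assoc, c2', mul_assoc]
      · show (ρ2.1⁻¹ * ρ1.1) a = a
        rw [Equiv.Perm.mul_apply, e1, Equiv.Perm.inv_def, Equiv.symm_apply_apply]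
      · show (ρ2.1⁻¹ * ρ1.1) c = c
        rw [Equiv.Perm.mul_apply, e2, Equiv.Perm.inv_def, Equiv.symm_apply_apply]
      · show (ρ2.1⁻¹ * ρ1.1) e = e
        rw [Equiv.Perm.mul_apply, e3, Equiv.Perm.inv_def, Equiv.symm_apply_apply]
    apply Subtype.ext
    exact (inv_mul_eq_one.mp hρ).symm
  have hsurj : Function.Surjective φ := by
    rintro ⟨y, hy⟩
    obtain ⟨ρ, hρ, hc, e1, e2, e3⟩ := centr_trans ht h2 hx0 hy
    refine ⟨⟨ρ, hρ, hc⟩, Subtype.ext ?_⟩
    exact Prod.ext e1 (Prod.ext e2 e3)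
  exact Nat.card_congr (Equiv.ofBijective φ ⟨hinj, hsurj⟩)

theorem centr_point_trans {t : Equiv.Perm GolayPt} (ht : t ∈ M24) (h2 : t * t = 1)
    (hex : ∀ p : GolayPt, ∃ c e, OutT t (p, c, e)) (p q : GolayPt) :
    ∃ ρ ∈ M24, ρ * t = t * ρ ∧ ρ p = q := by
  obtain ⟨c, e, hx⟩ := hex p
  obtain ⟨c', e', hy⟩ := hex q
  obtain ⟨ρ, hρ, hc, e1, -, -⟩ := centr_trans ht h2 hx hy
  exact ⟨ρ, hρ, hc, e1⟩

/-- Out-type triples in terms of the invariant octads. -/
theorem outT_iff {t : Equiv.Perm GolayPt} (ht : t ∈ M24) (h2 : t * t = 1)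
    (x : GolayPt × GolayPt × GolayPt) :
    OutT t x ↔ ([x.1, t x.1, x.2.1, t x.2.1, x.2.2].Nodup
        ∧ t x.2.2 ∉ [x.1, t x.1, x.2.1, t x.2.1, x.2.2])
      ∧ ∀ o ∈ octads, t • o = o → ¬ (x.1 ∈ o ∧ x.2.1 ∈ o ∧ x.2.2 ∈ o) := by
  classical
  obtain ⟨a, c, e⟩ := x
  dsimp only
  have htt := invol_apply9 h2
  constructor
  · rintro ⟨O, hO, hnd, ha, hta, hc, htc, he, hte⟩
    dsimp only at hnd ha hta hc htc he hte
    refine ⟨⟨hnd, ?_⟩, ?_⟩
    · intro hmem
      simp only [List.mem_cons, List.not_mem_nil, or_false] at hmem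
      rcases hmem with h | h | h | h | h <;> rw [h] at hte <;> exact hte ‹_›
    · rintro o ho hinv ⟨hao, hco, heo⟩
      have hsub : [a, t a, c, t c, e].toFinset ⊆ o ∩ O := by
        intro x hx
        rw [Finset.mem_inter]
        rcases mem5_9 hx with rfl | rfl | rfl | rfl | rfl
        · exact ⟨hao, ha⟩
        · exact ⟨(mem_iff_of_smul_eq hinv _).mpr hao, hta⟩
        · exact ⟨hco, hc⟩
        · exact ⟨(mem_iff_of_smul_eq hinv _).mpr hco, htc⟩
        · exact ⟨heo, he⟩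
      have h5 : 5 ≤ (o ∩ O).card := by
        calc 5 = [a, t a, c, t c, e].toFinset.card := by
              rw [List.toFinset_card_of_nodup hnd]
              rfl
          _ ≤ _ := Finset.card_le_card hsub
      have heq := octads_unique ho hO h5
      rw [← heq] at hte
      exact hte ((mem_iff_of_smul_eq hinv _).mpr heo)
  · rintro ⟨⟨hnd, hnot⟩, hall⟩
    have hF5 : ([a, t a, c, t c, e].toFinset).card = 5 := by
      rw [List.toFinset_card_of_nodup hnd]
      rfl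
    obtain ⟨O, ⟨hO, hFO⟩, -⟩ := octads_steiner.2 _ hF5
    have hm : ∀ x, x ∈ [a, t a, c, t c, e] → x ∈ O := fun x hx => hFO (List.mem_toFinset.mpr hx)
    have ha : a ∈ O := hm a (by simp)
    have hta : t a ∈ O := hm _ (by simp)
    have hc : c ∈ O := hm c (by simp)
    have htc : t c ∈ O := hm _ (by simp)
    have he : e ∈ O := hm e (by simp)
    refine ⟨O, hO, hnd, ha, hta, hc, htc, he, ?_⟩
    intro hte
    have hinv : t • O = O := by
      apply inv_octad_of_five ht hO (S := insert (t e) [a, t a, c, t c, e].toFinset)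
      · intro x hx
        rcases Finset.mem_insert.mp hx with rfl | hx
        · exact hte
        · exact hFO hx
      · rw [Finset.card_insert_of_notMem (fun h => hnot (List.mem_toFinset.mp h)), hF5]
        norm_num
      · intro x hx
        rcases Finset.mem_insert.mp hx with rfl | hx
        · rw [htt]
          exact Finset.mem_insert_of_mem (List.mem_toFinset.mpr (by simp))
        · rcases mem5_9 hx with rfl | rfl | rfl | rfl | rfl
          · exact Finset.mem_insert_of_mem (List.mem_toFinset.mpr (by simp))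
          · rw [htt]
            exact Finset.mem_insert_of_mem (List.mem_toFinset.mpr (by simp))
          · exact Finset.mem_insert_of_mem (List.mem_toFinset.mpr (by simp))
          · rw [htt]
            exact Finset.mem_insert_of_mem (List.mem_toFinset.mpr (by simp))
          · exact Finset.mem_insert_self _ _
    exact hall O hO hinv ⟨ha, hc, he⟩

/-- The intersections of size four of two invariant octads. -/
noncomputable def invTetrads (h : Equiv.Perm GolayPt) : Finset (Finset GolayPt) :=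
  ((((blocks octads).filter (fun o => h • o = o)) ×ˢ
    ((blocks octads).filter (fun o => h • o = o))).filter
      (fun x => (x.1 ∩ x.2).card = 4)).image (fun x => x.1 ∩ x.2)

theorem mem_invTetrads {h : Equiv.Perm GolayPt} {u : Finset GolayPt} :
    u ∈ invTetrads h ↔ ∃ o1 ∈ octads, ∃ o2 ∈ octads, h • o1 = o1 ∧ h • o2 = o2
      ∧ (o1 ∩ o2).card = 4 ∧ o1 ∩ o2 = u := by
  unfold invTetrads
  simp only [Finset.mem_image, Finset.mem_filter, Finset.mem_product, mem_blocks, Prod.exists]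
  constructor
  · rintro ⟨o1, o2, ⟨⟨⟨h1, h1'⟩, h2, h2'⟩, h4⟩, rfl⟩
    exact ⟨o1, h1, o2, h2, h1', h2', h4, rfl⟩
  · rintro ⟨o1, h1, o2, h2, h1', h2', h4, rfl⟩
    exact ⟨o1, o2, ⟨⟨⟨h1, h1'⟩, h2, h2'⟩, h4⟩, rfl⟩

theorem invTetrads_centr {h c : Equiv.Perm GolayPt} (hc : c ∈ M24) (hcomm : c * h = h * c) :
    c • invTetrads h = invTetrads h := by
  apply Finset.eq_of_subset_of_card_le
  · intro x hx
    obtain ⟨u, hu, rfl⟩ := Finset.mem_smul_finset.mp hx
    obtain ⟨o1, h1, o2, h2, h1', h2', h4, rfl⟩ := mem_invTetrads.mp hu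
    refine mem_invTetrads.mpr ⟨c • o1, smul_octad_mem hc h1, c • o2, smul_octad_mem hc h2,
      ?_, ?_, ?_, ?_⟩
    · rw [← mul_smul, ← hcomm, mul_smul, h1']
    · rw [← mul_smul, ← hcomm, mul_smul, h2']
    · rw [← Finset.smul_finset_inter, Finset.card_smul_finset, h4]
    · exact Finset.smul_finset_inter.symm
  · rw [Finset.card_smul_finset]

/-- The computable form of the out-type condition, on positions. -/
def outC (T : ℕ) (masks : List ℕ) (x : GolayPt × GolayPt × GolayPt) : Prop :=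
  ([pos x.1, look T (pos x.1), pos x.2.1, look T (pos x.2.1), pos x.2.2].Nodup
      ∧ look T (pos x.2.2) ∉ [pos x.1, look T (pos x.1), pos x.2.1, look T (pos x.2.1), pos x.2.2])
    ∧ ∀ m ∈ masks, ¬ (m.testBit (pos x.1) = true ∧ m.testBit (pos x.2.1) = true
      ∧ m.testBit (pos x.2.2) = true)

instance (T : ℕ) (masks : List ℕ) : DecidablePred (outC T masks) := fun x =>
  inferInstanceAs (Decidable (([pos x.1, look T (pos x.1), pos x.2.1, look T (pos x.2.1),
        pos x.2.2].Nodup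
      ∧ look T (pos x.2.2) ∉ [pos x.1, look T (pos x.1), pos x.2.1, look T (pos x.2.1), pos x.2.2])
    ∧ ∀ m ∈ masks, ¬ (m.testBit (pos x.1) = true ∧ m.testBit (pos x.2.1) = true
      ∧ m.testBit (pos x.2.2) = true)))

theorem support_union9 (m n : ℕ) :
    support₂ (ofBits m) ∪ support₂ (ofBits n) = support₂ (ofBits (m ||| n)) := by
  ext p
  rw [Finset.mem_union, mem_support₂_ofBits, mem_support₂_ofBits, mem_support₂_ofBits,
    Nat.testBit_or, Bool.or_eq_true]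

namespace Model9

variable {h : Equiv.Perm GolayPt} {V : ℕ → ℕ} {tb : GolayPt → GolayPt}

theorem inv_iff_masks (M : Model9 h V tb) (masks : List ℕ)
    (d1 : ∀ c' ∈ (wtC 8).filter (fun c => V c = c), comb c' ∈ masks)
    (d2 : ∀ m ∈ masks, ∃ c' ∈ (wtC 8).filter (fun c => V c = c), comb c' = m)
    (o : Finset GolayPt) :
    (o ∈ octads ∧ h • o = o) ↔ ∃ m ∈ masks, o = support₂ (ofBits m) := by
  have e : (o ∈ octads ∧ h • o = o) ↔ o ∈ ((wtC 8).filter (fun c => V c = c)).image sp := by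
    rw [← M.inv_blocks_eq, Finset.mem_filter, mem_blocks]
  rw [e, Finset.mem_image]
  constructor
  · rintro ⟨c', hc', rfl⟩
    exact ⟨comb c', d1 c' hc', rfl⟩
  · rintro ⟨m, hm, rfl⟩
    obtain ⟨c', hc', rfl⟩ := d2 m hm
    exact ⟨c', hc', rfl⟩

theorem invTetrads_sextet (M : Model9 h V tb) (masks : List ℕ)
    (d1 : ∀ c' ∈ (wtC 8).filter (fun c => V c = c), comb c' ∈ masks)
    (d2 : ∀ m ∈ masks, ∃ c' ∈ (wtC 8).filter (fun c => V c = c), comb c' = m)
    (tl : List ℕ)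
    (f1 : ∀ m1 ∈ masks, ∀ m2 ∈ masks, popc (m1 &&& m2) = 4 → (m1 &&& m2) ∈ tl)
    (f2 : ∀ m ∈ tl, ∃ m1 ∈ masks, ∃ m2 ∈ masks, popc (m1 &&& m2) = 4 ∧ m1 &&& m2 = m)
    (f3 : (tl.map (fun m => support₂ (ofBits m))).Nodup) (f4 : tl.length = 6)
    (f5 : ∀ m ∈ tl, popc m = 4)
    (f6 : ∀ m1 ∈ tl, ∀ m2 ∈ tl, m1 ≠ m2 → (m1 ||| m2) ∈ masks) : invTetrads h ∈ sextets := by
  have e : invTetrads h = (tl.map (fun m => support₂ (ofBits m))).toFinset := by
    ext u
    rw [mem_invTetrads, List.mem_toFinset, List.mem_map]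
    constructor
    · rintro ⟨o1, h1, o2, h2, h1', h2', h4, rfl⟩
      obtain ⟨m1, hm1, rfl⟩ := (M.inv_iff_masks masks d1 d2 o1).mp ⟨h1, h1'⟩
      obtain ⟨m2, hm2, rfl⟩ := (M.inv_iff_masks masks d1 d2 o2).mp ⟨h2, h2'⟩
      rw [card_support_inter] at h4
      exact ⟨m1 &&& m2, f1 m1 hm1 m2 hm2 h4, (support_inter m1 m2).symm⟩
    · rintro ⟨m, hm, rfl⟩
      obtain ⟨m1, hm1, m2, hm2, h4, rfl⟩ := f2 m hm
      obtain ⟨ho1, hi1⟩ := (M.inv_iff_masks masks d1 d2 _).mpr ⟨m1, hm1, rfl⟩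
      obtain ⟨ho2, hi2⟩ := (M.inv_iff_masks masks d1 d2 _).mpr ⟨m2, hm2, rfl⟩
      exact ⟨_, ho1, _, ho2, hi1, hi2, by rw [card_support_inter]; exact h4, support_inter m1 m2⟩
  rw [e]
  refine ⟨?_, ?_, ?_⟩
  · rw [List.toFinset_card_of_nodup f3, List.length_map, f4]
  · intro u hu
    rw [List.mem_toFinset, List.mem_map] at hu
    obtain ⟨m, hm, rfl⟩ := hu
    rw [card_support₂, hammingNorm_ofBits, f5 m hm]
  · intro u hu v hv huv
    rw [List.mem_toFinset, List.mem_map] at hu hv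
    obtain ⟨m1, hm1, rfl⟩ := hu
    obtain ⟨m2, hm2, rfl⟩ := hv
    have hne : m1 ≠ m2 := fun hEq => huv (by rw [hEq])
    rw [support_union9]
    exact ((M.inv_iff_masks masks d1 d2 _).mpr ⟨_, f6 m1 hm1 m2 hm2 hne, rfl⟩).1

theorem outT_iff_outC (M : Model9 h V tb) (h2 : h * h = 1) (T : ℕ)
    (hT : ∀ p, pos (tb p) = look T (pos p)) (masks : List ℕ)
    (d1 : ∀ c' ∈ (wtC 8).filter (fun c => V c = c), comb c' ∈ masks)
    (d2 : ∀ m ∈ masks, ∃ c' ∈ (wtC 8).filter (fun c => V c = c), comb c' = m)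
    (x : GolayPt × GolayPt × GolayPt) : OutT h x ↔ outC T masks x := by
  rw [outT_iff M.mem h2]
  unfold outC
  rw [M.tab, M.tab, M.tab]
  have e1 : [pos x.1, look T (pos x.1), pos x.2.1, look T (pos x.2.1), pos x.2.2]
      = [x.1, tb x.1, x.2.1, tb x.2.1, x.2.2].map pos := by
    simp only [List.map_cons, List.map_nil, hT]
  rw [e1, ← hT, List.nodup_map_iff pos_injective, List.mem_map_of_injective pos_injective]
  refine and_congr_right (fun _ => ?_)
  constructor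
  · intro hall m hm hbits
    obtain ⟨ho, hi⟩ := (M.inv_iff_masks masks d1 d2 _).mpr ⟨m, hm, rfl⟩
    exact hall _ ho hi ⟨(mem_support₂_ofBits _ _).mpr hbits.1,
      (mem_support₂_ofBits _ _).mpr hbits.2.1, (mem_support₂_ofBits _ _).mpr hbits.2.2⟩
  · intro hall o ho hi hmem
    obtain ⟨m, hm, rfl⟩ := (M.inv_iff_masks masks d1 d2 o).mp ⟨ho, hi⟩
    exact hall m hm ⟨(mem_support₂_ofBits _ _).mp hmem.1, (mem_support₂_ofBits _ _).mp hmem.2.1,
      (mem_support₂_ofBits _ _).mp hmem.2.2⟩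

/-- The three assertions on the centralizer of a concrete fixed-point-free involution. -/
theorem centr_facts (M : Model9 h V tb) (h2 : h * h = 1) (h0 : ∀ p, h p ≠ p) (T : ℕ)
    (hT : ∀ p, pos (tb p) = look T (pos p)) (masks : List ℕ)
    (d1 : ∀ c' ∈ (wtC 8).filter (fun c => V c = c), comb c' ∈ masks)
    (d2 : ∀ m ∈ masks, ∃ c' ∈ (wtC 8).filter (fun c => V c = c), comb c' = m)
    (n : ℕ) (d3 : (Finset.univ.filter (outC T masks)).card = n)
    (d4 : ∀ p : GolayPt, ∃ c e, outC T masks (p, c, e))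
    (tl : List ℕ)
    (f1 : ∀ m1 ∈ masks, ∀ m2 ∈ masks, popc (m1 &&& m2) = 4 → (m1 &&& m2) ∈ tl)
    (f2 : ∀ m ∈ tl, ∃ m1 ∈ masks, ∃ m2 ∈ masks, popc (m1 &&& m2) = 4 ∧ m1 &&& m2 = m)
    (f3 : (tl.map (fun m => support₂ (ofBits m))).Nodup) (f4 : tl.length = 6)
    (f5 : ∀ m ∈ tl, popc m = 4)
    (f6 : ∀ m1 ∈ tl, ∀ m2 ∈ tl, m1 ≠ m2 → (m1 ||| m2) ∈ masks) :
    Nat.card {c : Equiv.Perm GolayPt // c ∈ M24 ∧ c * h = h * c} = n
      ∧ (∀ p q : GolayPt, ∃ c ∈ M24, c * h = h * c ∧ c p = q)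
      ∧ ∃ S ∈ sextets, h • S = S ∧ ∀ c ∈ M24, c * h = h * c → c • S = S := by
  refine ⟨?_, ?_, ?_⟩
  · rw [card_centr M.mem h2 h0,
      Nat.card_congr (Equiv.subtypeEquivRight (M.outT_iff_outC h2 T hT masks d1 d2)),
      Nat.card_eq_fintype_card, Fintype.card_subtype]
    exact d3
  · apply centr_point_trans M.mem h2
    intro p
    obtain ⟨c, e, hce⟩ := d4 p
    exact ⟨c, e, (M.outT_iff_outC h2 T hT masks d1 d2 _).mpr hce⟩
  · exact ⟨invTetrads h, M.invTetrads_sextet masks d1 d2 tl f1 f2 f3 f4 f5 f6,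
      invTetrads_centr M.mem rfl, fun c hc hcomm => invTetrads_centr hc hcomm⟩

end Model9

theorem comm_conj_iff9 (k h c : Equiv.Perm GolayPt) :
    c * (k * h * k⁻¹) = (k * h * k⁻¹) * c ↔ (k⁻¹ * c * k) * h = h * (k⁻¹ * c * k) := by
  constructor
  · intro e
    calc k⁻¹ * c * k * h = k⁻¹ * (c * (k * h * k⁻¹)) * k := by group
      _ = k⁻¹ * ((k * h * k⁻¹) * c) * k := by rw [e]
      _ = h * (k⁻¹ * c * k) := by group
  · intro e
    calc c * (k * h * k⁻¹) = k * ((k⁻¹ * c * k) * h) * k⁻¹ := by group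
      _ = k * (h * (k⁻¹ * c * k)) * k⁻¹ := by rw [e]
      _ = (k * h * k⁻¹) * c := by group

/-- The assertions on the centralizer are invariant under conjugation. -/
theorem centr_transfer {h k : Equiv.Perm GolayPt} (hk : k ∈ M24) (n : ℕ)
    (H : Nat.card {c : Equiv.Perm GolayPt // c ∈ M24 ∧ c * h = h * c} = n
      ∧ (∀ p q : GolayPt, ∃ c ∈ M24, c * h = h * c ∧ c p = q)
      ∧ ∃ S ∈ sextets, h • S = S ∧ ∀ c ∈ M24, c * h = h * c → c • S = S) :
    Nat.card {c : Equiv.Perm GolayPt // c ∈ M24 ∧ c * (k * h * k⁻¹) = (k * h * k⁻¹) * c} = n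
      ∧ (∀ p q : GolayPt, ∃ c ∈ M24, c * (k * h * k⁻¹) = (k * h * k⁻¹) * c ∧ c p = q)
      ∧ ∃ S ∈ sextets, (k * h * k⁻¹) • S = S
        ∧ ∀ c ∈ M24, c * (k * h * k⁻¹) = (k * h * k⁻¹) * c → c • S = S := by
  obtain ⟨H1, H2, S, hS, hhS, hcS⟩ := H
  have hk' : k⁻¹ ∈ M24 := inv_mem hk
  refine ⟨?_, ?_, ?_⟩
  · rw [← H1]
    let e : Equiv.Perm GolayPt ≃ Equiv.Perm GolayPt :=
      ⟨fun c => k⁻¹ * c * k, fun c => k * c * k⁻¹, fun c => by group, fun c => by group⟩
    refine Nat.card_congr (Equiv.subtypeEquiv e (fun c => ?_))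
    show c ∈ M24 ∧ c * (k * h * k⁻¹) = (k * h * k⁻¹) * c
      ↔ k⁻¹ * c * k ∈ M24 ∧ (k⁻¹ * c * k) * h = h * (k⁻¹ * c * k)
    constructor
    · rintro ⟨h1, h2⟩
      exact ⟨mul_mem (mul_mem hk' h1) hk, (comm_conj_iff9 k h c).mp h2⟩
    · rintro ⟨h1, h2⟩
      refine ⟨?_, (comm_conj_iff9 k h c).mpr h2⟩
      have h3 := mul_mem (mul_mem hk h1) hk'
      have h4 : k * (k⁻¹ * c * k) * k⁻¹ = c := by group
      rw [h4] at h3
      exact h3
  · intro p q
    obtain ⟨c, hc, hcomm, hcp⟩ := H2 (k⁻¹ p) (k⁻¹ q)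
    refine ⟨k * c * k⁻¹, mul_mem (mul_mem hk hc) hk', ?_, ?_⟩
    · rw [comm_conj_iff9]
      have h4 : k⁻¹ * (k * c * k⁻¹) * k = c := by group
      rw [h4]
      exact hcomm
    · rw [Equiv.Perm.mul_apply, Equiv.Perm.mul_apply, hcp, Equiv.Perm.inv_def,
        Equiv.apply_symm_apply]
  · refine ⟨k • S, smul_sextet_mem hk hS, ?_, ?_⟩
    · rw [← mul_smul, inv_mul_cancel_right, mul_smul, hhS]
    · intro c hc hcomm
      have h1 := hcS (k⁻¹ * c * k) (mul_mem (mul_mem hk' hc) hk) ((comm_conj_iff9 k h c).mp hcomm)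
      have h2 : c • k • S = k • (k⁻¹ * c * k) • S := by
        rw [← mul_smul, ← mul_smul]
        congr 1
        group
      rw [h2, h1]

end Cfsg.Agent.Helper9
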