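import Mathlib
import Cfsg.Agent.Helper9.M24Count
import Cfsg.Agent.Helper9.M24Fix3

set_option autoImplicit false
set_option maxRecDepth 100000

namespace Cfsg.Agent.Helper9

open Cfsg Cfsg.Agent.Helper1 Cfsg.Agent.Helper1.Golay
open scoped Pointwise

/-- Table of the representative of class 2B. -/
def T2B : ℕ := 1795248432537898728475572672376535

/-- Coordinate action of the representative of class 2B. -/
def V2B (c : ℕ) : ℕ := lin 2049 1392 738 1469 823 2561 1594 2414 1684 33 2458 2048 c

/-- The representative of class 2B. -/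
def h2B : Equiv.Perm GolayPt := tabPerm T2B T2B (by decide +kernel) (by decide +kernel)

theorem model2B : Model9 h2B V2B (tabFun T2B) :=
  model_of_tables T2B T2B _ _ 2049 1392 738 1469 823 2561 1594 2414 1684 33 2458 2048
    (by decide +kernel) (by decide +kernel)

theorem h2B_sq : h2B * h2B = 1 :=
  Equiv.ext (by decide +kernel : ∀ p, tabFun T2B (tabFun T2B p) = p)

theorem h2B_pow : h2B ^ 2 = 1 := by
  rw [pow_two]
  exact h2B_sq

theorem h2B_fpf : ∀ p, h2B p ≠ p := (by decide +kernel : ∀ p, tabFun T2B p ≠ p)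

theorem c1_2B : ((wtC 8).filter (fun c => V2B c = c)).card = 15 := by decide +kernel

theorem oct2B : {o : Finset GolayPt | o ∈ octads ∧ h2B • o = o}.ncard = 15 :=
  Model9.octads_eq model2B 15 c1_2B

theorem c2_2B : ∑ c1 ∈ (wtC 8).filter (fun c => V2B c = c),
    (((wtC 8).filter (fun c => V2B c = c)).filter
      (fun c2 => popc (comb c1 &&& comb c2) = 0)).card = 90 := by decide +kernel

theorem c3_2B : ((wtC 8).filter (fun c => popc (comb c &&& comb (V2B c)) = 0)).card = 120 := by
  decide +kernel

theorem trio2B : {T : Finset (Finset GolayPt) | T ∈ trios ∧ h2B • T = T}.ncard = 75 := by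
  have h := Model9.trios_eq model2B 2 (Or.inl rfl) h2B_pow 90 120 c2_2B c3_2B
  omega

theorem c4_2B : ((Finset.powersetCard 4 (Finset.univ : Finset GolayPt)).filter
    (fun t => ∀ p ∈ t, tabFun T2B p ∈ t)).card = 66 := by decide +kernel

theorem c5_2B : ∑ c ∈ (wtC 8).filter (fun c => V2B c = c),
    ((Finset.powersetCard 4 (sp c)).filter (fun t => t ∪ t.image (tabFun T2B) = sp c)).card = 240 := by
  decide +kernel

theorem sext2B : {S : Finset (Finset GolayPt) | S ∈ sextets ∧ h2B • S = S}.ncard = 51 := by
  have h := Model9.sextets_invol model2B h2B_sq 66 240 c4_2B c5_2B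
  omega

end Cfsg.Agent.Helper9
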