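import Mathlib
import Cfsg.Agent.Helper9.M24Centr
import Cfsg.Agent.Helper9.M24Cls2B

set_option autoImplicit false
set_option maxRecDepth 100000

namespace Cfsg.Agent.Helper9

open Cfsg Cfsg.Agent.Helper1 Cfsg.Agent.Helper1.Golay
open scoped Pointwise

/-- Bit masks of the octads invariant under the representative of class 2B. -/
def masks2B : List ℕ := [1337732, 6493202, 722544, 6820450, 7622914, 6305926, 1525008, 208020, 535268, 1852256, 8946281, 14716939, 8619033, 9748745, 8431757]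

/-- Bit masks of the tetrads of the sextet of the representative of class 2B. -/
def tets2B : List ℕ := [1327360, 10372, 197648, 6295554, 524896, 8421385]

theorem hT_2B : ∀ p, pos (tabFun T2B p) = look T2B (pos p) := by decide +kernel

theorem d1_2B : ∀ c' ∈ (wtC 8).filter (fun c => V2B c = c), comb c' ∈ masks2B := by
  decide +kernel

theorem d2_2B : ∀ m ∈ masks2B, ∃ c' ∈ (wtC 8).filter (fun c => V2B c = c), comb c' = m := by
  decide +kernel

set_option maxHeartbeats 4000000 in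
theorem d3_2B : (Finset.univ.filter (outC T2B masks2B)).card = 7680 := by
  decide +kernel

theorem d4_2B : ∀ p : GolayPt, ∃ c e, outC T2B masks2B (p, c, e) := by
  decide +kernel

theorem f1_2B : ∀ m1 ∈ masks2B, ∀ m2 ∈ masks2B, popc (m1 &&& m2) = 4 → (m1 &&& m2) ∈ tets2B := by
  decide +kernel

theorem f2_2B : ∀ m ∈ tets2B, ∃ m1 ∈ masks2B, ∃ m2 ∈ masks2B,
    popc (m1 &&& m2) = 4 ∧ m1 &&& m2 = m := by decide +kernel

theorem f3_2B : (tets2B.map (fun m => support₂ (ofBits m))).Nodup := by decide +kernel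

theorem f5_2B : ∀ m ∈ tets2B, popc m = 4 := by decide +kernel

theorem f6_2B : ∀ m1 ∈ tets2B, ∀ m2 ∈ tets2B, m1 ≠ m2 → (m1 ||| m2) ∈ masks2B := by
  decide +kernel

theorem centr2B : Nat.card {c : Equiv.Perm GolayPt // c ∈ M24 ∧ c * h2B = h2B * c} = 7680
    ∧ (∀ p q : GolayPt, ∃ c ∈ M24, c * h2B = h2B * c ∧ c p = q)
    ∧ ∃ S ∈ sextets, h2B • S = S ∧ ∀ c ∈ M24, c * h2B = h2B * c → c • S = S :=
  Model9.centr_facts model2B h2B_sq h2B_fpf T2B hT_2B masks2B d1_2B d2_2B 7680 d3_2B d4_2B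
    tets2B f1_2B f2_2B f3_2B rfl f5_2B f6_2B

end Cfsg.Agent.Helper9
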