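import Mathlib
import Cfsg.Agent.Helper9.M24Count
import Cfsg.Agent.Helper9.M24Fix3

set_option autoImplicit false
set_option maxRecDepth 100000

namespace Cfsg.Agent.Helper9

open Cfsg Cfsg.Agent.Helper1 Cfsg.Agent.Helper1.Golay
open scoped Pointwise

/-- Table of the representative of class 2A. -/
def T2A : ℕ := 984493369334060478447889424982281248

/-- Coordinate action of the representative of class 2A. -/
def V2A (c : ℕ) : ℕ := lin 616 619 692 1305 201 32 186 2011 1041 1410 929 2048 c

/-- The representative of class 2A. -/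
def h2A : Equiv.Perm GolayPt := tabPerm T2A T2A (by decide +kernel) (by decide +kernel)

theorem model2A : Model9 h2A V2A (tabFun T2A) :=
  model_of_tables T2A T2A _ _ 616 619 692 1305 201 32 186 2011 1041 1410 929 2048
    (by decide +kernel) (by decide +kernel)

theorem h2A_sq : h2A * h2A = 1 :=
  Equiv.ext (by decide +kernel : ∀ p, tabFun T2A (tabFun T2A p) = p)

theorem h2A_pow : h2A ^ 2 = 1 := by
  rw [pow_two]
  exact h2A_sq

theorem h2A_fix : (Finset.univ.filter fun p => h2A p = p).card = 8 := by decide +kernel

theorem h2A_ne_one : h2A ≠ 1 := by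
  intro h
  have h1 := h2A_fix
  rw [h] at h1
  simp at h1

theorem c1_2A : ((wtC 8).filter (fun c => V2A c = c)).card = 71 := by decide +kernel

theorem oct2A : {o : Finset GolayPt | o ∈ octads ∧ h2A • o = o}.ncard = 71 :=
  Model9.octads_eq model2A 71 c1_2A

theorem c2_2A : ∑ c1 ∈ (wtC 8).filter (fun c => V2A c = c),
    (((wtC 8).filter (fun c => V2A c = c)).filter
      (fun c2 => popc (comb c1 &&& comb c2) = 0)).card = 546 := by decide +kernel

theorem c3_2A : ((wtC 8).filter (fun c => popc (comb c &&& comb (V2A c)) = 0)).card = 16 := by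
  decide +kernel

theorem trio2A : {T : Finset (Finset GolayPt) | T ∈ trios ∧ h2A • T = T}.ncard = 99 := by
  have h := Model9.trios_eq model2A 2 (Or.inl rfl) h2A_pow 546 16 c2_2A c3_2A
  omega

theorem c4_2A : ((Finset.powersetCard 4 (Finset.univ : Finset GolayPt)).filter
    (fun t => ∀ p ∈ t, tabFun T2A p ∈ t)).card = 322 := by decide +kernel

theorem c5_2A : ∑ c ∈ (wtC 8).filter (fun c => V2A c = c),
    ((Finset.powersetCard 4 (sp c)).filter (fun t => t ∪ t.image (tabFun T2A) = sp c)).card = 224 := by
  decide +kernel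

theorem sext2A : {S : Finset (Finset GolayPt) | S ∈ sextets ∧ h2A • S = S}.ncard = 91 := by
  have h := Model9.sextets_invol model2A h2A_sq 322 224 c4_2A c5_2A
  omega

end Cfsg.Agent.Helper9
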