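import Mathlib
import Cfsg.Agent.Helper9.M24Count
import Cfsg.Agent.Helper9.M24Fix3

set_option autoImplicit false
set_option maxRecDepth 100000

namespace Cfsg.Agent.Helper9

open Cfsg Cfsg.Agent.Helper1 Cfsg.Agent.Helper1.Golay
open scoped Pointwise

/-- Table of the representative of class 3A. -/
def T3A : ℕ := 956098357403125090003517965744572626

/-- Table of the inverse of the representative of class 3A. -/
def TI3A : ℕ := 979382536624200311149222395249789110

/-- Coordinate action of the representative of class 3A. -/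
def V3A (c : ℕ) : ℕ := lin 184 174 103 1828 5 678 1868 12 1215 229 896 2048 c

/-- The representative of class 3A. -/
def h3A : Equiv.Perm GolayPt := tabPerm T3A TI3A (by decide +kernel) (by decide +kernel)

theorem model3A : Model9 h3A V3A (tabFun T3A) :=
  model_of_tables T3A TI3A _ _ 184 174 103 1828 5 678 1868 12 1215 229 896 2048
    (by decide +kernel) (by decide +kernel)

theorem h3A_pow : h3A ^ 3 = 1 := by
  rw [pow_succ, pow_two]
  exact Equiv.ext (by decide +kernel : ∀ p, tabFun T3A (tabFun T3A (tabFun T3A p)) = p)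

theorem h3A_fix : (Finset.univ.filter fun p => h3A p = p).card = 6 := by decide +kernel

theorem h3A_ne_one : h3A ≠ 1 := by
  intro h
  have h1 := h3A_fix
  rw [h] at h1
  simp at h1

theorem c1_3A : ((wtC 8).filter (fun c => V3A c = c)).card = 21 := by decide +kernel

theorem oct3A : {o : Finset GolayPt | o ∈ octads ∧ h3A • o = o}.ncard = 21 :=
  Model9.octads_eq model3A 21 c1_3A

theorem c1d_3A : ((wtC 12).filter (fun c => V3A c = c)).card = 20 := by decide +kernel

theorem dod3A : {o : Finset GolayPt | o ∈ dodecads ∧ h3A • o = o}.ncard = 20 :=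
  Model9.dodecads_eq model3A 20 c1d_3A

theorem c2_3A : ∑ c1 ∈ (wtC 8).filter (fun c => V3A c = c),
    (((wtC 8).filter (fun c => V3A c = c)).filter
      (fun c2 => popc (comb c1 &&& comb c2) = 0)).card = 90 := by decide +kernel

theorem c3_3A : ((wtC 8).filter (fun c => popc (comb c &&& comb (V3A c)) = 0)).card = 0 := by
  decide +kernel

theorem trio3A : {T : Finset (Finset GolayPt) | T ∈ trios ∧ h3A • T = T}.ncard = 15 := by
  have h := Model9.trios_eq model3A 3 (Or.inr rfl) h3A_pow 90 0 c2_3A c3_3A
  omega

theorem c4_3A : ((Finset.powersetCard 4 (Finset.univ : Finset GolayPt)).filter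
    (fun t => ∀ p ∈ t, tabFun T3A p ∈ t)).card = 51 := by decide +kernel

theorem c6_3A : ((wtC 8).filter (fun c => popc (comb c &&& comb (V3A c)) = 4
    ∧ popc (comb c &&& comb (V3A c) &&& comb (V3A (V3A c))) = 0)).card = 45 := by decide +kernel

theorem sext3A : {S : Finset (Finset GolayPt) | S ∈ sextets ∧ h3A • S = S}.ncard = 16 := by
  have h := Model9.sextets_ord3 model3A h3A_pow 51 45 c4_3A c6_3A
  omega

end Cfsg.Agent.Helper9
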