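import Mathlib
import Cfsg.Agent.Helper9.M24Count
import Cfsg.Agent.Helper9.M24Fix3

set_option autoImplicit false
set_option maxRecDepth 100000

namespace Cfsg.Agent.Helper9

open Cfsg Cfsg.Agent.Helper1 Cfsg.Agent.Helper1.Golay
open scoped Pointwise

/-- Table of the representative of class 3B. -/
def T3B : ℕ := 15909574972934138282974354882288353

/-- Table of the inverse of the representative of class 3B. -/
def TI3B : ℕ := 44673570877212604306017735907225623

/-- Coordinate action of the representative of class 3B. -/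
def V3B (c : ℕ) : ℕ := lin 2051 2049 1392 738 1469 823 2561 1594 2414 1684 33 2048 c

/-- The representative of class 3B. -/
def h3B : Equiv.Perm GolayPt := tabPerm T3B TI3B (by decide +kernel) (by decide +kernel)

theorem model3B : Model9 h3B V3B (tabFun T3B) :=
  model_of_tables T3B TI3B _ _ 2051 2049 1392 738 1469 823 2561 1594 2414 1684 33 2048
    (by decide +kernel) (by decide +kernel)

theorem h3B_pow : h3B ^ 3 = 1 := by
  rw [pow_succ, pow_two]
  exact Equiv.ext (by decide +kernel : ∀ p, tabFun T3B (tabFun T3B (tabFun T3B p)) = p)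

theorem h3B_fpf : ∀ p, h3B p ≠ p := (by decide +kernel : ∀ p, tabFun T3B p ≠ p)

theorem c1_3B : ((wtC 8).filter (fun c => V3B c = c)).card = 0 := by decide +kernel

theorem oct3B : {o : Finset GolayPt | o ∈ octads ∧ h3B • o = o}.ncard = 0 :=
  Model9.octads_eq model3B 0 c1_3B

theorem c2_3B : ∑ c1 ∈ (wtC 8).filter (fun c => V3B c = c),
    (((wtC 8).filter (fun c => V3B c = c)).filter
      (fun c2 => popc (comb c1 &&& comb c2) = 0)).card = 0 := by decide +kernel

theorem c3_3B : ((wtC 8).filter (fun c => popc (comb c &&& comb (V3B c)) = 0)).card = 45 := by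
  decide +kernel

theorem trio3B : {T : Finset (Finset GolayPt) | T ∈ trios ∧ h3B • T = T}.ncard = 15 := by
  have h := Model9.trios_eq model3B 3 (Or.inr rfl) h3B_pow 0 45 c2_3B c3_3B
  omega

theorem c4_3B : ((Finset.powersetCard 4 (Finset.univ : Finset GolayPt)).filter
    (fun t => ∀ p ∈ t, tabFun T3B p ∈ t)).card = 0 := by decide +kernel

theorem c6_3B : ((wtC 8).filter (fun c => popc (comb c &&& comb (V3B c)) = 4
    ∧ popc (comb c &&& comb (V3B c) &&& comb (V3B (V3B c))) = 0)).card = 42 := by decide +kernel

theorem sext3B : {S : Finset (Finset GolayPt) | S ∈ sextets ∧ h3B • S = S}.ncard = 7 := by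
  have h := Model9.sextets_ord3 model3B h3B_pow 0 42 c4_3B c6_3B
  omega

end Cfsg.Agent.Helper9
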