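import Mathlib
import Cfsg.Agent.Helper1.Leech
import Cfsg.Agent.Helper9.M24Six

set_option autoImplicit false

namespace Cfsg.Agent.Helper9

open Cfsg Cfsg.Agent.Helper1.Golay
open scoped Pointwise

/-- The indicator word of a set of points. -/
def ind9 (s : Finset GolayPt) : GolayPt → ZMod 2 := fun p => if p ∈ s then 1 else 0

theorem support₂_ind9 (s : Finset GolayPt) : support₂ (ind9 s) = s := by
  ext a
  rw [mem_support₂, ind9]
  by_cases h : a ∈ s <;> simp [h]

theorem ind9_support₂ (w : GolayPt → ZMod 2) : ind9 (support₂ w) = w :=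
  support₂_injective (support₂_ind9 _)

theorem ind9_injective : Function.Injective ind9 := fun s t h => by
  rw [← support₂_ind9 s, h, support₂_ind9]

theorem ind9_add (s t : Finset GolayPt) : ind9 s + ind9 t = ind9 (symmDiff s t) := by
  apply support₂_injective
  rw [support₂_add, support₂_ind9, support₂_ind9, support₂_ind9]

theorem ind9_empty : ind9 ∅ = 0 := by
  funext p
  simp [ind9]

theorem ind9_univ : ind9 Finset.univ = fun _ => (1 : ZMod 2) := by
  funext p
  simp [ind9]

theorem sum_ind9 (s : Finset GolayPt) : ∑ p, ind9 s p = (s.card : ZMod 2) := by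
  simp only [ind9]
  rw [Finset.sum_boole]
  congr 2
  ext a
  simp

theorem support₂_perm9 (σ : Equiv.Perm GolayPt) (w : GolayPt → ZMod 2) :
    support₂ (fun p => w (σ.symm p)) = σ • support₂ w := by
  have h4 := inv_smul_support₂ (σ⁻¹) w
  rw [inv_inv] at h4
  exact h4.symm

theorem perm_ind9 (σ : Equiv.Perm GolayPt) (s : Finset GolayPt) :
    (fun p => ind9 s (σ.symm p)) = ind9 (σ • s) := by
  apply support₂_injective
  rw [support₂_perm9, support₂_ind9, support₂_ind9]

/-- Invariance of a subspace of words under the coordinate permutations in `M24`. -/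
def Inv9 (W : Submodule (ZMod 2) (GolayPt → ZMod 2)) : Prop :=
  ∀ σ ∈ M24, ∀ w ∈ W, (fun p => w (σ.symm p)) ∈ W

theorem Inv9.ind_smul {W : Submodule (ZMod 2) (GolayPt → ZMod 2)} (hW : Inv9 W)
    {σ : Equiv.Perm GolayPt} (hσ : σ ∈ M24) {s : Finset GolayPt} (hs : ind9 s ∈ W) :
    ind9 (σ • s) ∈ W := by
  have h := hW σ hσ _ hs
  rwa [perm_ind9] at h

theorem inv9_golay : Inv9 golayCode := by
  intro σ hσ w hw
  have hσ' := hσ
  rw [M24, setSystemAut, MulAction.mem_stabilizer_set' (Set.toFinite _)] at hσ'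
  obtain ⟨w', hw', hs⟩ := hσ' ⟨w, hw, rfl⟩
  rw [← support₂_perm9] at hs
  rw [← support₂_injective hs]
  exact hw'

theorem Inv9.sup {W₁ W₂ : Submodule (ZMod 2) (GolayPt → ZMod 2)} (h₁ : Inv9 W₁)
    (h₂ : Inv9 W₂) : Inv9 (W₁ ⊔ W₂) := by
  intro σ hσ w hw
  obtain ⟨a, ha, b, hb, rfl⟩ := Submodule.mem_sup.mp hw
  exact Submodule.mem_sup.mpr ⟨_, h₁ σ hσ a ha, _, h₂ σ hσ b hb, rfl⟩

theorem Inv9.inf {W₁ W₂ : Submodule (ZMod 2) (GolayPt → ZMod 2)} (h₁ : Inv9 W₁)
    (h₂ : Inv9 W₂) : Inv9 (W₁ ⊓ W₂) := by
  intro σ hσ w hw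
  exact ⟨h₁ σ hσ w hw.1, h₂ σ hσ w hw.2⟩

/-- A subspace containing all words of weight two contains all words of even weight. -/
theorem even_mem9 (W : Submodule (ZMod 2) (GolayPt → ZMod 2))
    (h : ∀ a b : GolayPt, a ≠ b → ind9 {a, b} ∈ W) (w : GolayPt → ZMod 2)
    (hw : ∑ p, w p = 0) : w ∈ W := by
  have e : w = ∑ p, w p • (ind9 {p} + ind9 {none}) := by
    funext q
    rw [Finset.sum_apply]
    simp only [Pi.smul_apply, Pi.add_apply, smul_eq_mul, mul_add, Finset.sum_add_distrib,
      ← Finset.sum_mul]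
    rw [hw, zero_mul, add_zero]
    simp [ind9, Finset.mem_singleton]
  rw [e]
  apply Submodule.sum_mem
  intro p _
  apply Submodule.smul_mem
  by_cases hp : p = none
  · rw [hp, CharTwo.add_self_eq_zero]
    exact W.zero_mem
  · have e2 : ind9 {p} + ind9 {none} = ind9 {p, none} := by
      rw [ind9_add]
      congr 1
      ext q
      simp only [Finset.mem_symmDiff, Finset.mem_singleton, Finset.mem_insert]
      constructor
      · rintro (⟨h1, -⟩ | ⟨h1, -⟩)
        · exact Or.inl h1
        · exact Or.inr h1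
      · rintro (h1 | h1)
        · exact Or.inl ⟨h1, fun h2 => hp (h1 ▸ h2)⟩
        · exact Or.inr ⟨h1, fun h2 => hp (h2 ▸ h1)⟩
    rw [e2]
    exact h p none hp

theorem Inv9.pairs {W : Submodule (ZMod 2) (GolayPt → ZMod 2)} (hW : Inv9 W) {x y : GolayPt}
    (hxy : x ≠ y) (h : ind9 {x, y} ∈ W) : ∀ a b : GolayPt, a ≠ b → ind9 {a, b} ∈ W := by
  intro a b hab
  obtain ⟨g, hg, hga, hgb⟩ := m24_exists_map2 hxy hab
  have h1 := hW.ind_smul hg h
  rwa [Finset.smul_finset_insert, Finset.smul_finset_singleton, Equiv.Perm.smul_def,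
    Equiv.Perm.smul_def, hga, hgb] at h1

theorem even_or_top9 (W : Submodule (ZMod 2) (GolayPt → ZMod 2))
    (h : ∀ w : GolayPt → ZMod 2, ∑ p, w p = 0 → w ∈ W) :
    (W : Set (GolayPt → ZMod 2)) = {w | ∑ p, w p = 0} ∨ W = ⊤ := by
  by_cases hall : ∀ w ∈ W, ∑ p, w p = 0
  · left
    ext w
    exact ⟨fun hw => hall w hw, fun hw => h w hw⟩
  · right
    push_neg at hall
    obtain ⟨v, hv, hv1⟩ := hall
    rw [eq_top_iff]
    intro w _
    by_cases hw : ∑ p, w p = 0
    · exact h w hw
    · have e : w = v + (v + w) := by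
        rw [← add_assoc, CharTwo.add_self_eq_zero, zero_add]
      rw [e]
      apply W.add_mem hv
      apply h
      simp only [Pi.add_apply]
      rw [Finset.sum_add_distrib]
      have h1 : ∀ x : ZMod 2, x ≠ 0 → x = 1 := by decide
      rw [h1 _ hv1, h1 _ hw]
      rfl

/-- Every word outside the code is congruent modulo the code to a word of weight at most 4. -/
theorem exists_small9 (W : Submodule (ZMod 2) (GolayPt → ZMod 2)) (hC : golayCode ≤ W) :
    ∀ (n : ℕ) (w : GolayPt → ZMod 2), hammingNorm w = n → w ∈ W → w ∉ golayCode →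
      ∃ v ∈ W, v ∉ golayCode ∧ hammingNorm v ≤ 4 := by
  intro n
  induction n using Nat.strong_induction_on with
  | _ n ih =>
    intro w hn hw hwC
    by_cases h4 : hammingNorm w ≤ 4
    · exact ⟨w, hw, hwC, h4⟩
    · have h5 : 5 ≤ (support₂ w).card := by
        rw [card_support₂]
        omega
      obtain ⟨s, hs, hs5⟩ := Finset.exists_subset_card_eq h5
      obtain ⟨o, ⟨ho, hso⟩, -⟩ := octads_steiner.2 s hs5
      obtain ⟨⟨c, hc, rfl⟩, hc8⟩ := ho
      have hlt : hammingNorm (w + c) < n := by
        have h1 := hammingNorm_add_supports w c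
        have h2 : 5 ≤ (support₂ w ∩ support₂ c).card := by
          rw [← hs5]
          exact Finset.card_le_card (Finset.subset_inter hs hso)
        rw [card_support₂ w] at h1
        omega
      refine ih _ hlt (w + c) rfl (W.add_mem hw (hC hc)) ?_
      intro hmem
      apply hwC
      have e : w = (w + c) + c := by
        rw [add_assoc, CharTwo.add_self_eq_zero, add_zero]
      rw [e]
      exact golayCode.add_mem hmem hc

/-- An invariant subspace containing a nonzero word of weight at most 4 contains a word of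
weight two. -/
theorem Inv9.pair_of_small {W : Submodule (ZMod 2) (GolayPt → ZMod 2)} (hW : Inv9 W)
    {v : GolayPt → ZMod 2} (hv : v ∈ W) (hv0 : v ≠ 0) (h4 : hammingNorm v ≤ 4) :
    ∃ x y : GolayPt, x ≠ y ∧ ind9 {x, y} ∈ W := by
  classical
  set s := support₂ v with hs
  have hcard : s.card ≤ 4 := by rw [hs, card_support₂]; exact h4
  have hvs : ind9 s ∈ W := by rw [hs, ind9_support₂]; exact hv
  have hne : s.Nonempty := by
    rw [Finset.nonempty_iff_ne_empty]
    intro h
    apply hv0
    rw [← ind9_support₂ v, ← hs, h, ind9_empty]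
  obtain ⟨a, ha⟩ := hne
  obtain ⟨b, hb⟩ : ∃ b, b ∉ s := by
    by_contra hcon
    push_neg at hcon
    have h1 : s = Finset.univ := Finset.eq_univ_iff_forall.mpr hcon
    rw [h1, Finset.card_univ, card_golayPt] at hcard
    omega
  have hab : a ≠ b := fun h => hb (h ▸ ha)
  obtain ⟨F, hsF, hFb, hF5⟩ := Finset.exists_subsuperset_card_eq
    (s := s) (t := Finset.univ.erase b) (n := 5)
    (fun p hp => Finset.mem_erase.mpr ⟨fun h => hb (h ▸ hp), Finset.mem_univ _⟩)
    (by omega) (by rw [Finset.card_erase_of_mem (Finset.mem_univ _), Finset.card_univ,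
      card_golayPt]; norm_num)
  have hbF : b ∉ F := fun h => (Finset.mem_erase.mp (hFb h)).1 rfl
  obtain ⟨g, hg, hgF⟩ := m24_exists_map_on F hF5 (fun p => if p = a then b else p) (by
    intro p hp q hq hpq
    simp only at hpq
    by_cases h1 : p = a
    · by_cases h2 : q = a
      · rw [h1, h2]
      · rw [if_pos h1, if_neg h2] at hpq
        exact absurd (hpq ▸ hq) hbF
    · by_cases h2 : q = a
      · rw [if_neg h1, if_pos h2] at hpq
        exact absurd (hpq ▸ hp) hbF
      · rwa [if_neg h1, if_neg h2] at hpq)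
  have hga : g a = b := by rw [hgF a (hsF ha), if_pos rfl]
  have hgq : ∀ q ∈ s, q ≠ a → g q = q := fun q hq hqa => by rw [hgF q (hsF hq), if_neg hqa]
  have hgs : ∀ q, q ∈ g • s ↔ (q = b ∨ (q ∈ s ∧ q ≠ a)) := by
    intro q
    constructor
    · intro hq
      obtain ⟨p, hp, rfl⟩ := Finset.mem_smul_finset.mp hq
      by_cases hpa : p = a
      · left
        rw [hpa]
        exact hga
      · right
        have e : g • p = p := hgq p hp hpa
        rw [e]
        exact ⟨hp, hpa⟩
    · rintro (rfl | ⟨hq, hqa⟩)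
      · rw [← hga]
        exact Finset.smul_mem_smul_finset ha
      · have h1 := Finset.smul_mem_smul_finset (a := g) hq
        have e : g • q = q := hgq q hq hqa
        rwa [e] at h1
  refine ⟨a, b, hab, ?_⟩
  have h1 := W.add_mem hvs (hW.ind_smul hg hvs)
  rw [ind9_add] at h1
  have e : symmDiff s (g • s) = {a, b} := by
    ext q
    rw [Finset.mem_symmDiff, hgs, Finset.mem_insert, Finset.mem_singleton]
    constructor
    · rintro (⟨h2, h3⟩ | ⟨h2 | ⟨h2, _⟩, h3⟩)
      · left
        by_contra hqa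
        exact h3 (Or.inr ⟨h2, hqa⟩)
      · exact Or.inr h2
      · exact absurd h2 h3
    · rintro (rfl | rfl)
      · exact Or.inl ⟨ha, fun h => h.elim hab (fun h => h.2 rfl)⟩
      · exact Or.inr ⟨Or.inl rfl, hb⟩
  rwa [e] at h1

/-- An invariant subspace properly containing the code contains all words of even weight. -/
theorem Inv9.even_of_golay_lt {W : Submodule (ZMod 2) (GolayPt → ZMod 2)} (hW : Inv9 W)
    (hC : golayCode ≤ W) (hne : ¬ W ≤ golayCode) :
    ∀ w : GolayPt → ZMod 2, ∑ p, w p = 0 → w ∈ W := by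
  obtain ⟨w, hw, hwC⟩ := SetLike.not_le_iff_exists.mp hne
  obtain ⟨v, hv, hvC, hv4⟩ := exists_small9 W hC _ w rfl hw hwC
  have hv0 : v ≠ 0 := fun h => hvC (h ▸ golayCode.zero_mem)
  obtain ⟨x, y, hxy, hp⟩ := hW.pair_of_small hv hv0 hv4
  exact even_mem9 W (hW.pairs hxy hp)

theorem word_eq_zero9 {w : GolayPt → ZMod 2} (h : hammingNorm w = 0) : w = 0 := by
  apply support₂_injective
  rw [← card_support₂, Finset.card_eq_zero] at h
  rw [h]
  ext a
  rw [mem_support₂]
  simp

theorem word_eq_one9 {w : GolayPt → ZMod 2} (h : hammingNorm w = 24) :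
    w = fun _ => (1 : ZMod 2) := by
  rw [← ind9_univ, ← ind9_support₂ w]
  congr 1
  apply Finset.eq_univ_of_card
  rw [card_support₂, h, card_golayPt]

/-- The invariant subspaces of the code. -/
theorem Inv9.le_golay {W : Submodule (ZMod 2) (GolayPt → ZMod 2)} (hW : Inv9 W)
    (hle : W ≤ golayCode) :
    W = ⊥ ∨ W = Submodule.span (ZMod 2) {fun _ => (1 : ZMod 2)} ∨ W = golayCode := by
  by_cases h : ∀ w ∈ W, w = 0 ∨ w = fun _ => (1 : ZMod 2)
  · by_cases h1 : (fun _ => (1 : ZMod 2)) ∈ W
    · right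
      left
      apply le_antisymm
      · intro w hw
        rcases h w hw with rfl | rfl
        · exact Submodule.zero_mem _
        · exact Submodule.subset_span rfl
      · rw [Submodule.span_le]
        rintro _ rfl
        exact h1
    · left
      rw [eq_bot_iff]
      intro w hw
      rcases h w hw with rfl | rfl
      · exact Submodule.zero_mem _
      · exact absurd hw h1
  · right
    right
    push_neg at h
    obtain ⟨w, hw, hw0, hw1⟩ := h
    apply le_antisymm hle
    have hperm : ∀ (g : M24) (w : GolayPt → ZMod 2), w ∈ W →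
        ∀ v : GolayPt → ZMod 2, support₂ v = g • support₂ w → v ∈ W := by
      intro g w hw v hv
      have h2 := hW g.1 g.2 w hw
      have h3 : support₂ (fun p => w ((g.1).symm p)) = g • support₂ w := support₂_perm9 g.1 w
      rw [← h3] at hv
      rw [support₂_injective hv]
      exact h2
    have hoct : ∀ w ∈ W, hammingNorm w = 8 → golayCode ≤ W := by
      intro w hw h8
      refine le_trans golayCode_le_span_octWords ?_
      rw [Submodule.span_le]
      rintro v ⟨hv, hv8⟩
      obtain ⟨g, hg⟩ := octads_transitive (support₂ w) (support₂ v)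
        ⟨⟨w, hle hw, rfl⟩, by rw [card_support₂, h8]⟩ ⟨⟨v, hv, rfl⟩, by rw [card_support₂, hv8]⟩
      exact hperm g w hw v hg.symm
    rcases hammingNorm_eq w (hle hw) with h | h | h | h | h
    · exact absurd (word_eq_zero9 h) hw0
    · exact hoct w hw h
    · have hd : support₂ w ∈ dodecads := ⟨⟨w, hle hw, rfl⟩, by rw [card_support₂, h]⟩
      obtain ⟨g1, hg1⟩ := dodecads_transitive _ _ hd baseDodecad_mem
      have hd14 : support₂ (ofBits (comb 14)) ∈ dodecads :=
        ⟨⟨_, ofBits_comb_mem 14, rfl⟩, by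
          rw [card_support₂, hammingNorm_ofBits]
          decide +kernel⟩
      obtain ⟨g2, hg2⟩ := dodecads_transitive _ _ hd hd14
      have m1 := hperm g1 w hw _ hg1.symm
      have m2 := hperm g2 w hw _ hg2.symm
      have m3 : ofBits (comb 15) ∈ W := by
        have e : comb 15 = comb 1 ^^^ comb 14 := by decide +kernel
        rw [e, ofBits_xor]
        exact Submodule.add_mem _ m1 m2
      exact hoct _ m3 (by rw [hammingNorm_ofBits]; decide +kernel)
    · have hco : ∀ v ∈ golayCode, hammingNorm v = 16 → (support₂ v)ᶜ ∈ octads := by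
        intro v hv hv16
        refine ⟨supports_compl ⟨v, hv, rfl⟩, ?_⟩
        rw [Finset.card_compl, card_support₂, hv16, card_golayPt]
      have h16 : ∀ v ∈ golayCode, hammingNorm v = 16 → v ∈ W := by
        intro v hv hv16
        obtain ⟨g, hg⟩ := octads_transitive _ _ (hco w (hle hw) h) (hco v hv hv16)
        apply hperm g w hw v
        have hg' : (g : Equiv.Perm GolayPt) • (support₂ w)ᶜ = (support₂ v)ᶜ := hg
        symm
        ext q
        have h1 : q ∈ (g : Equiv.Perm GolayPt) • (support₂ w)ᶜ ↔ q ∈ (support₂ v)ᶜ := by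
          rw [hg']
        rw [← Finset.inv_smul_mem_iff, Finset.mem_compl, Finset.inv_smul_mem_iff,
          Finset.mem_compl] at h1
        exact not_iff_not.mp h1
      have m1 := h16 (ofBits (comb 25)) (ofBits_comb_mem 25)
        (by rw [hammingNorm_ofBits]; decide +kernel)
      have m2 := h16 (ofBits (comb 50)) (ofBits_comb_mem 50)
        (by rw [hammingNorm_ofBits]; decide +kernel)
      have m3 : ofBits (comb 43) ∈ W := by
        have e : comb 43 = comb 25 ^^^ comb 50 := by decide +kernel
        rw [e, ofBits_xor]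
        exact Submodule.add_mem _ m1 m2
      exact hoct _ m3 (by rw [hammingNorm_ofBits]; decide +kernel)
    · exact absurd (word_eq_one9 h) hw1

end Cfsg.Agent.Helper9
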