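import Mathlib
import Cfsg.Agent.Helper9.M24Two
import Cfsg.Agent.Helper9.M24Inv

set_option autoImplicit false

namespace Cfsg.Agent.Helper9

open Cfsg Cfsg.Agent.Helper1.Golay
open scoped Pointwise

/-- Every word is congruent modulo the code to a word of weight at most 4. -/
theorem exists_coset_rep9 : ∀ (n : ℕ) (w : GolayPt → ZMod 2), hammingNorm w = n →
    ∃ c ∈ golayCode, hammingNorm (w + c) ≤ 4 := by
  intro n
  induction n using Nat.strong_induction_on with
  | _ n ih =>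
    intro w hn
    by_cases h4 : hammingNorm w ≤ 4
    · exact ⟨0, Submodule.zero_mem _, by rwa [add_zero]⟩
    · have h5 : 5 ≤ (support₂ w).card := by
        rw [card_support₂]
        omega
      obtain ⟨s, hs, hs5⟩ := Finset.exists_subset_card_eq h5
      obtain ⟨o, ⟨ho, hso⟩, -⟩ := octads_steiner.2 s hs5
      obtain ⟨⟨c, hc, rfl⟩, hc8⟩ := ho
      have hlt : hammingNorm (w + c) < n := by
        have h1 := hammingNorm_add_supports w c
        have h2 : 5 ≤ (support₂ w ∩ support₂ c).card := by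
          rw [← hs5]
          exact Finset.card_le_card (Finset.subset_inter hs hso)
        rw [card_support₂ w] at h1
        omega
      obtain ⟨c', hc', hle⟩ := ih _ hlt (w + c) rfl
      exact ⟨c + c', golayCode.add_mem hc hc', by rwa [← add_assoc]⟩

/-- If a permutation in `M24` moves the support of a small coset representative suitably, it
moves the coset. -/
theorem coset_moved9 {v c : GolayPt → ZMod 2} (hc : c ∈ golayCode) {σ : Equiv.Perm GolayPt}
    (hσ : σ ∈ M24) (h4 : hammingNorm v ≤ 4) (hne : σ • support₂ v ≠ support₂ v)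
    (hR : (support₂ v).card ≤ 3 ∨ (σ • support₂ v ∩ support₂ v).Nonempty) :
    (fun p => (v + c) (σ.symm p)) - (v + c) ∉ golayCode := by
  classical
  intro hmem
  have hcσ : (fun p => c (σ.symm p)) ∈ golayCode := inv9_golay σ hσ c hc
  have h1 : (fun p => v (σ.symm p)) + v ∈ golayCode := by
    have e : (fun p => v (σ.symm p)) + v
        = ((fun p => (v + c) (σ.symm p)) - (v + c)) + ((fun p => c (σ.symm p)) + c) := by
      funext p
      simp only [Pi.add_apply, Pi.sub_apply]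
      rw [CharTwo.sub_eq_add]
      generalize v (σ.symm p) = a
      generalize c (σ.symm p) = b
      generalize v p = a'
      generalize c p = b'
      revert a b a' b'
      decide
    rw [e]
    exact golayCode.add_mem hmem (golayCode.add_mem hcσ hc)
  have h3 := hammingNorm_eq _ h1
  have hadd := hammingNorm_add_supports (fun p => v (σ.symm p)) v
  rw [support₂_perm9, Finset.card_smul_finset, card_support₂ v] at hadd
  have hcard : (support₂ v).card = hammingNorm v := card_support₂ v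
  rcases h3 with h3 | h3
  · have h0 := word_eq_zero9 h3
    apply hne
    rw [← support₂_perm9]
    congr 1
    have := congrArg (fun f => f + v) h0
    simp only [zero_add, add_assoc, CharTwo.add_self_eq_zero, add_zero] at this
    exact this
  · have hpos : (support₂ v).card ≤ 3 ∨ 0 < (σ • support₂ v ∩ support₂ v).card := by
      rcases hR with h | h
      · exact Or.inl h
      · exact Or.inr (Finset.card_pos.mpr h)
    rcases hpos with h | h <;> omega

/-- Moving a point of a small set out of it inside a block. -/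
theorem block_move9 (P : Equiv.Perm GolayPt → Prop) (B : Finset GolayPt)
    (hB : ∀ x x' y : GolayPt, x ∈ B → x' ∈ B → y ∈ B → x ≠ x' → y ≠ x → y ≠ x' →
      ∃ σ ∈ M24, P σ ∧ σ x = x ∧ σ x' = y)
    (hc : 8 ≤ B.card) (R : Finset GolayPt) (hR4 : R.card ≤ 4) {x x' : GolayPt}
    (hx : x ∈ B) (hx' : x' ∈ B) (hxx' : x ≠ x') (hx'R : x' ∈ R) :
    ∃ σ ∈ M24, P σ ∧ σ x = x ∧ σ x' ∉ R := by
  classical
  have hne : (B \ insert x R).Nonempty := by
    rw [← Finset.card_pos]
    have h1 := Finset.le_card_sdiff (insert x R) B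
    have h2 := Finset.card_insert_le x R
    omega
  obtain ⟨y, hy⟩ := hne
  rw [Finset.mem_sdiff, Finset.mem_insert, not_or] at hy
  obtain ⟨σ, hσ, hP, hσx, hσx'⟩ := hB x x' y hx hx' hy.1 hxx' hy.2.1
    (fun h => hy.2.2 (h ▸ hx'R))
  exact ⟨σ, hσ, hP, hσx, by rw [hσx']; exact hy.2.2⟩

/-- A group acting 2-transitively on each of two blocks covering the points moves every small
non-empty set in a controlled way. -/
theorem blocks_move9 (P : Equiv.Perm GolayPt → Prop) (B1 B2 : Finset GolayPt)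
    (hcov : ∀ p, p ∈ B1 ∨ p ∈ B2)
    (hB1 : ∀ x x' y : GolayPt, x ∈ B1 → x' ∈ B1 → y ∈ B1 → x ≠ x' → y ≠ x → y ≠ x' →
      ∃ σ ∈ M24, P σ ∧ σ x = x ∧ σ x' = y)
    (hB2 : ∀ x x' y : GolayPt, x ∈ B2 → x' ∈ B2 → y ∈ B2 → x ≠ x' → y ≠ x → y ≠ x' →
      ∃ σ ∈ M24, P σ ∧ σ x = x ∧ σ x' = y)
    (hc1 : 8 ≤ B1.card) (hc2 : 8 ≤ B2.card) (R : Finset GolayPt) (hR : R.Nonempty)
    (hR4 : R.card ≤ 4) :
    ∃ σ ∈ M24, P σ ∧ σ • R ≠ R ∧ (R.card ≤ 3 ∨ (σ • R ∩ R).Nonempty) := by
  classical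
  have key : ∀ (σ : Equiv.Perm GolayPt) (x' : GolayPt), x' ∈ R → σ x' ∉ R → σ • R ≠ R := by
    intro σ x' hx' hσ h
    apply hσ
    rw [← h]
    exact Finset.smul_mem_smul_finset hx'
  have single : ∀ B : Finset GolayPt, (∀ x x' y : GolayPt, x ∈ B → x' ∈ B → y ∈ B → x ≠ x' →
      y ≠ x → y ≠ x' → ∃ σ ∈ M24, P σ ∧ σ x = x ∧ σ x' = y) → 8 ≤ B.card →
      ∀ x', x' ∈ R → x' ∈ B → (R.card ≤ 3 ∨ ∃ x ∈ R, x ∈ B ∧ x ≠ x') →
      ∃ σ ∈ M24, P σ ∧ σ • R ≠ R ∧ (R.card ≤ 3 ∨ (σ • R ∩ R).Nonempty) := by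
    intro B hB hcB x' hx'R hx'B hor
    rcases hor with h3 | ⟨x, hxR, hxB, hxx'⟩
    · have hne : (B.erase x').Nonempty := by
        rw [← Finset.card_pos, Finset.card_erase_of_mem hx'B]
        omega
      obtain ⟨x, hx⟩ := hne
      rw [Finset.mem_erase] at hx
      obtain ⟨σ, hσ, hP, -, hσx'⟩ := block_move9 P B hB hcB R hR4 hx.2 hx'B hx.1 hx'R
      exact ⟨σ, hσ, hP, key σ x' hx'R hσx', Or.inl h3⟩
    · obtain ⟨σ, hσ, hP, hσx, hσx'⟩ := block_move9 P B hB hcB R hR4 hxB hx'B hxx' hx'R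
      refine ⟨σ, hσ, hP, key σ x' hx'R hσx', Or.inr ⟨x, ?_⟩⟩
      rw [Finset.mem_inter]
      refine ⟨?_, hxR⟩
      have := Finset.smul_mem_smul_finset (a := σ) hxR
      rwa [Equiv.Perm.smul_def, hσx] at this
  by_cases h3 : R.card ≤ 3
  · obtain ⟨x', hx'⟩ := hR
    rcases hcov x' with h | h
    · exact single B1 hB1 hc1 x' hx' h (Or.inl h3)
    · exact single B2 hB2 hc2 x' hx' h (Or.inl h3)
  · have hsub : R ⊆ (R ∩ B1) ∪ (R ∩ B2) := by
      intro a ha
      rw [Finset.mem_union, Finset.mem_inter, Finset.mem_inter]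
      rcases hcov a with h | h
      · exact Or.inl ⟨ha, h⟩
      · exact Or.inr ⟨ha, h⟩
    have hle := (Finset.card_le_card hsub).trans (Finset.card_union_le _ _)
    have hor : 1 < (R ∩ B1).card ∨ 1 < (R ∩ B2).card := by omega
    rcases hor with h | h
    · obtain ⟨x, hx, x', hx', hne⟩ := Finset.one_lt_card.mp h
      rw [Finset.mem_inter] at hx hx'
      exact single B1 hB1 hc1 x' hx'.1 hx'.2 (Or.inr ⟨x, hx.1, hx.2, hne⟩)
    · obtain ⟨x, hx, x', hx', hne⟩ := Finset.one_lt_card.mp h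
      rw [Finset.mem_inter] at hx hx'
      exact single B2 hB2 hc2 x' hx'.1 hx'.2 (Or.inr ⟨x, hx.1, hx.2, hne⟩)

end Cfsg.Agent.Helper9
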