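import Mathlib
import Cfsg.Agent.Helper9.M24Inv

set_option autoImplicit false

namespace Cfsg.Agent.Helper9

open Cfsg Cfsg.Agent.Helper1.Golay
open scoped Pointwise

/-- An invariant subspace that together with the code spans the even-weight words and meets
the code in at most the all-ones word contains a word of weight two. -/
theorem Inv9.pair_of_mixed {W : Submodule (ZMod 2) (GolayPt → ZMod 2)} (hW : Inv9 W)
    (hE : ∀ w : GolayPt → ZMod 2, ∑ p, w p = 0 → w ∈ W ⊔ golayCode)
    (hI : ∀ w ∈ W, w ∈ golayCode → w = 0 ∨ w = fun _ => (1 : ZMod 2)) :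
    ∃ x y : GolayPt, x ≠ y ∧ ind9 {x, y} ∈ W := by
  classical
  obtain ⟨a, b, b', hab, hab', hbb'⟩ : ∃ a b b' : GolayPt, a ≠ b ∧ a ≠ b' ∧ b ≠ b' :=
    ⟨none, some 0, some 1, by decide, by decide, by decide⟩
  have hr : ind9 {a, b} ∈ W ⊔ golayCode :=
    hE _ (by rw [sum_ind9, Finset.card_pair hab]; rfl)
  obtain ⟨w, hw, c, hc, hwc⟩ := Submodule.mem_sup.mp hr
  set S := support₂ c with hS
  have hcS : c = ind9 S := (ind9_support₂ c).symm
  have key : ∀ g ∈ M24, g a = a → g b = b →
      symmDiff S (g • S) = ∅ ∨ symmDiff S (g • S) = Finset.univ := by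
    intro g hg hga hgb
    have h1 : ind9 (g • ({a, b} : Finset GolayPt)) = ind9 {a, b} := by
      rw [Finset.smul_finset_insert, Finset.smul_finset_singleton, Equiv.Perm.smul_def,
        Equiv.Perm.smul_def, hga, hgb]
    have h2 : (fun p => w (g.symm p)) ∈ W := hW g hg w hw
    have h3 : (fun p => c (g.symm p)) ∈ golayCode := inv9_golay g hg c hc
    have h4 : (fun p => w (g.symm p)) + (fun p => c (g.symm p)) = ind9 {a, b} := by
      have e : (fun p => w (g.symm p)) + (fun p => c (g.symm p))
          = fun p => (w + c) (g.symm p) := rfl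
      rw [e, hwc, perm_ind9, h1]
    have h5 : w + (fun p => w (g.symm p)) = c + (fun p => c (g.symm p)) := by
      have e : w + c = (fun p => w (g.symm p)) + (fun p => c (g.symm p)) := by rw [hwc, h4]
      funext p
      have e1 := congrFun e p
      simp only [Pi.add_apply] at e1 ⊢
      exact (by decide : ∀ x y z t : ZMod 2, x + y = z + t → x + z = y + t) _ _ _ _ e1
    have h6 : c + (fun p => c (g.symm p)) ∈ W := h5 ▸ W.add_mem hw h2
    have h7 : c + (fun p => c (g.symm p)) ∈ golayCode := golayCode.add_mem hc h3
    have h8 : c + (fun p => c (g.symm p)) = ind9 (symmDiff S (g • S)) := by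
      rw [← ind9_add, ← perm_ind9, ← hcS]
    rcases hI _ h6 h7 with h | h
    · left
      apply ind9_injective
      rw [← h8, h, ind9_empty]
    · right
      apply ind9_injective
      rw [← h8, h, ind9_univ]
  have hsame : ∀ x y : GolayPt, x ≠ a → x ≠ b → y ≠ a → y ≠ b → x ∈ S → y ∈ S := by
    intro x y hxa hxb hya hyb hx
    by_contra hy
    have hxy : x ≠ y := fun h => hy (h ▸ hx)
    obtain ⟨z, hza, hzb, hzx, hzy⟩ : ∃ z : GolayPt, z ≠ a ∧ z ≠ b ∧ z ≠ x ∧ z ≠ y := by
      have hne : (({a, b, x, y} : Finset GolayPt)ᶜ).Nonempty := by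
        rw [← Finset.card_pos, Finset.card_compl, card_golayPt]
        have := Finset.card_le_four (a := a) (b := b) (c := x) (d := y)
        omega
      obtain ⟨z, hz⟩ := hne
      simp only [Finset.mem_compl, Finset.mem_insert, Finset.mem_singleton, not_or] at hz
      exact ⟨z, hz.1, hz.2.1, hz.2.2.1, hz.2.2.2⟩
    obtain ⟨g, hg, hga, hgb, hgz, hgx⟩ := m24_exists_map4
      (nodup4 hab hza.symm hxa.symm hzb.symm hxb.symm hzx)
      (nodup4 hab hza.symm hya.symm hzb.symm hyb.symm hzy)
    have hyg : y ∈ g • S := by
      rw [← hgx]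
      exact Finset.smul_mem_smul_finset hx
    have hzg : z ∈ g • S ↔ z ∈ S := by
      have e : g • z = z := hgz
      rw [← Finset.inv_smul_mem_iff, inv_smul_eq_iff.mpr e.symm]
    rcases key g hg hga hgb with h | h
    · have h1 : y ∈ symmDiff S (g • S) := Finset.mem_symmDiff.mpr (Or.inr ⟨hyg, hy⟩)
      rw [h] at h1
      exact absurd h1 (Finset.notMem_empty _)
    · have h1 : z ∈ symmDiff S (g • S) := by
        rw [h]
        exact Finset.mem_univ _
      rcases Finset.mem_symmDiff.mp h1 with ⟨h2, h3⟩ | ⟨h2, h3⟩
      · exact h3 (hzg.mpr h2)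
      · exact h3 (hzg.mp h2)
  have hc01 : c = 0 ∨ c = fun _ => (1 : ZMod 2) := by
    by_cases hx : b' ∈ S
    · right
      have hsub : (Finset.univ \ {a, b} : Finset GolayPt) ⊆ S := by
        intro y hy
        simp only [Finset.mem_sdiff, Finset.mem_univ, Finset.mem_insert, Finset.mem_singleton,
          true_and, not_or] at hy
        exact hsame b' y hab'.symm hbb'.symm hy.1 hy.2 hx
      have hcard : 22 ≤ S.card := by
        refine le_trans ?_ (Finset.card_le_card hsub)
        rw [Finset.card_sdiff_of_subset (Finset.subset_univ _), Finset.card_univ, card_golayPt,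
          Finset.card_pair hab]
      rw [hS, card_support₂] at hcard
      rcases hammingNorm_eq c hc with h | h | h | h | h
      · omega
      · omega
      · omega
      · omega
      · exact word_eq_one9 h
    · left
      have hsub : S ⊆ {a, b} := by
        intro y hy
        by_contra hy2
        simp only [Finset.mem_insert, Finset.mem_singleton, not_or] at hy2
        exact hx (hsame y b' hy2.1 hy2.2 hab'.symm hbb'.symm hy)
      have hcard : S.card ≤ 2 := le_trans (Finset.card_le_card hsub) Finset.card_le_two
      rw [hS, card_support₂] at hcard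
      rcases hammingNorm_eq c hc with h | h | h | h | h
      · exact word_eq_zero9 h
      · omega
      · omega
      · omega
      · omega
  rcases hc01 with h | h
  · refine ⟨a, b, hab, ?_⟩
    rw [h, add_zero] at hwc
    rw [← hwc]
    exact hw
  · obtain ⟨g, hg, hga, hgb⟩ := m24_exists_map2 hab hab'
    have h2 : (fun p => w (g.symm p)) ∈ W := hW g hg w hw
    refine ⟨b, b', hbb', ?_⟩
    have hw' : w = ind9 {a, b} + ind9 Finset.univ := by
      rw [← hwc, h, ind9_univ, add_assoc, CharTwo.add_self_eq_zero, add_zero]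
    have hw2 : (fun p => w (g.symm p)) = ind9 {a, b'} + ind9 Finset.univ := by
      rw [hw']
      have e : (fun p => (ind9 {a, b} + ind9 Finset.univ) (g.symm p))
          = (fun p => ind9 {a, b} (g.symm p)) + (fun p => ind9 Finset.univ (g.symm p)) := rfl
      rw [e, perm_ind9, perm_ind9, Finset.smul_finset_univ, Finset.smul_finset_insert,
        Finset.smul_finset_singleton, Equiv.Perm.smul_def, Equiv.Perm.smul_def, hga, hgb]
    have e : ind9 {b, b'} = w + (fun p => w (g.symm p)) := by
      rw [hw2]
      nth_rewrite 1 [hw']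
      have e1 : ind9 {a, b} + ind9 Finset.univ + (ind9 {a, b'} + ind9 Finset.univ)
          = ind9 {a, b} + ind9 {a, b'} := by
        rw [add_add_add_comm, CharTwo.add_self_eq_zero, add_zero]
      rw [e1, ind9_add]
      congr 1
      ext q
      simp only [Finset.mem_symmDiff, Finset.mem_insert, Finset.mem_singleton]
      constructor
      · rintro (rfl | rfl)
        · exact Or.inl ⟨Or.inr rfl, fun h => h.elim (fun h => hab h.symm) hbb'⟩
        · exact Or.inr ⟨Or.inr rfl, fun h => h.elim (fun h => hab' h.symm) (fun h => hbb' h.symm)⟩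
      · rintro (⟨h1 | h1, h2⟩ | ⟨h1 | h1, h2⟩)
        · exact absurd (Or.inl h1) h2
        · exact Or.inl h1
        · exact absurd (Or.inl h1) h2
        · exact Or.inr h1
    rw [e]
    exact W.add_mem hw h2

/-- The invariant subspaces of the space of binary words of length 24 under `M24`. -/
theorem inv9_classify (W : Submodule (ZMod 2) (GolayPt → ZMod 2)) (hW : Inv9 W) :
    W = ⊥ ∨ W = Submodule.span (ZMod 2) {fun _ => (1 : ZMod 2)} ∨ W = golayCode
      ∨ (W : Set (GolayPt → ZMod 2)) = {w | ∑ p, w p = 0} ∨ W = ⊤ := by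
  by_cases h1 : W ≤ golayCode
  · rcases hW.le_golay h1 with h | h | h
    · exact Or.inl h
    · exact Or.inr (Or.inl h)
    · exact Or.inr (Or.inr (Or.inl h))
  · right
    right
    right
    apply even_or_top9
    by_cases h2 : golayCode ≤ W
    · exact hW.even_of_golay_lt h2 h1
    · have hS : Inv9 (W ⊔ golayCode) := hW.sup inv9_golay
      have hE := hS.even_of_golay_lt le_sup_right (fun h => h1 (le_trans le_sup_left h))
      have hI : Inv9 (W ⊓ golayCode) := hW.inf inv9_golay
      have hI2 : ∀ w ∈ W, w ∈ golayCode → w = 0 ∨ w = fun _ => (1 : ZMod 2) := by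
        intro w hw hwc
        have hmem : w ∈ W ⊓ golayCode := ⟨hw, hwc⟩
        rcases hI.le_golay inf_le_right with h | h | h
        · left
          rw [h] at hmem
          exact (Submodule.mem_bot _).mp hmem
        · rw [h, Submodule.mem_span_singleton] at hmem
          obtain ⟨k, rfl⟩ := hmem
          rcases (by decide : ∀ k : ZMod 2, k = 0 ∨ k = 1) k with rfl | rfl
          · left
            rw [zero_smul]
          · right
            rw [one_smul]
        · exfalso
          apply h2
          rw [← h]
          exact inf_le_left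
      obtain ⟨x, y, hxy, hp⟩ := hW.pair_of_mixed hE hI2
      exact even_mem9 W (hW.pairs hxy hp)

end Cfsg.Agent.Helper9
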