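import Mathlib
import Cfsg.Agent.Helper9.M24Sextet
import Cfsg.Agent.Helper9.M24Aux

set_option autoImplicit false

namespace Cfsg.Agent.Helper9

open Cfsg Cfsg.Agent.Helper1 Cfsg.Agent.Helper1.Golay
open scoped Pointwise

theorem sextet_disjoint {S : Finset (Finset GolayPt)} (hS : S ∈ sextets) {t u : Finset GolayPt}
    (ht : t ∈ S) (hu : u ∈ S) (hne : t ≠ u) : Disjoint t u := by
  rw [← Finset.card_union_eq_card_add_card, (hS.2.2 t ht u hu hne).2, hS.2.1 t ht, hS.2.1 u hu]

theorem sextet_cover {S : Finset (Finset GolayPt)} (hS : S ∈ sextets) (p : GolayPt) :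
    ∃ t ∈ S, p ∈ t := by
  have hcard : (S.biUnion (fun t => t)).card = 24 := by
    rw [Finset.card_biUnion (fun t ht u hu hne => sextet_disjoint hS ht hu hne),
      Finset.sum_congr rfl (fun t ht => hS.2.1 t ht), Finset.sum_const, hS.1]
    rfl
  have huniv : S.biUnion (fun t => t) = Finset.univ :=
    Finset.eq_univ_of_card _ (by rw [hcard, card_golayPt])
  have hp : p ∈ S.biUnion (fun t => t) := by
    rw [huniv]
    exact Finset.mem_univ p
  obtain ⟨t, ht, hpt⟩ := Finset.mem_biUnion.mp hp
  exact ⟨t, ht, hpt⟩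

theorem smul_sextetOf {g : Equiv.Perm GolayPt} (hg : g ∈ M24) {t : Finset GolayPt}
    (ht : t.card = 4) : g • sextetOf t = sextetOf (g • t) :=
  sextet_eq (smul_sextet_mem hg (sextetOf_mem ht))
    (Finset.smul_mem_smul_finset (self_mem_sextetOf t))

/-- There are 1771 sextets. -/
theorem card_sextets : (blocks sextets).card = 1771 := by
  classical
  have hP : (Finset.powersetCard 4 (Finset.univ : Finset GolayPt)).card
      = 6 * (blocks sextets).card := by
    rw [Finset.card_eq_sum_card_fiberwise (f := fun t => sextetOf t) (t := blocks sextets)]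
    · rw [Finset.sum_const_nat (m := 6), mul_comm]
      intro S hS
      rw [mem_blocks] at hS
      have hfib : (Finset.powersetCard 4 (Finset.univ : Finset GolayPt)).filter
          (fun t => sextetOf t = S) = S := by
        ext t
        rw [Finset.mem_filter, Finset.mem_powersetCard]
        constructor
        · rintro ⟨_, rfl⟩
          exact self_mem_sextetOf t
        · intro ht
          exact ⟨⟨Finset.subset_univ _, hS.2.1 t ht⟩, (sextet_eq hS ht).symm⟩
      rw [hfib, hS.1]
    · intro t ht
      rw [Finset.mem_coe, Finset.mem_powersetCard] at ht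
      exact Finset.mem_coe.mpr (mem_blocks.mpr (sextetOf_mem ht.2))
  rw [Finset.card_powersetCard, Finset.card_univ, card_golayPt] at hP
  have hc : Nat.choose 24 4 = 10626 := by decide +kernel
  omega

/-- The tetrad of a sextet through a point. -/
noncomputable def tetOf (S : Finset (Finset GolayPt)) (p : GolayPt) : Finset GolayPt := by
  classical
  exact if h : ∃ t ∈ S, p ∈ t then h.choose else ∅

theorem tetOf_spec {S : Finset (Finset GolayPt)} (hS : S ∈ sextets) (p : GolayPt) :
    tetOf S p ∈ S ∧ p ∈ tetOf S p := by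
  have h := sextet_cover hS p
  unfold tetOf
  rw [dif_pos h]
  exact h.choose_spec

theorem tetOf_eq {S : Finset (Finset GolayPt)} (hS : S ∈ sextets) {t : Finset GolayPt}
    (ht : t ∈ S) {p : GolayPt} (hp : p ∈ t) : tetOf S p = t := by
  by_contra hne
  have hd := sextet_disjoint hS (tetOf_spec hS p).1 ht hne
  exact Finset.disjoint_left.mp hd (tetOf_spec hS p).2 hp

/-- The number of tetrads of `S` meeting `Y`. -/
def kY (Y : Finset GolayPt) (S : Finset (Finset GolayPt)) : ℕ :=
  (S.filter fun t => (t ∩ Y).Nonempty).card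

theorem kY_eq {S : Finset (Finset GolayPt)} (hS : S ∈ sextets) (Y : Finset GolayPt) :
    kY Y S = (Y.image (tetOf S)).card := by
  unfold kY
  congr 1
  ext t
  rw [Finset.mem_filter, Finset.mem_image]
  constructor
  · rintro ⟨ht, x, hx⟩
    rw [Finset.mem_inter] at hx
    exact ⟨x, hx.2, tetOf_eq hS ht hx.1⟩
  · rintro ⟨y, hy, rfl⟩
    exact ⟨(tetOf_spec hS y).1, y, Finset.mem_inter.mpr ⟨(tetOf_spec hS y).2, hy⟩⟩

theorem k_one_of_subset {S : Finset (Finset GolayPt)} (hS : S ∈ sextets) {t : Finset GolayPt}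
    (ht : t ∈ S) {Y : Finset GolayPt} (hYt : Y ⊆ t) (hne : Y.Nonempty) : kY Y S = 1 := by
  rw [kY_eq hS]
  have e : Y.image (tetOf S) = {t} := by
    ext u
    rw [Finset.mem_image, Finset.mem_singleton]
    constructor
    · rintro ⟨y, hy, rfl⟩
      exact tetOf_eq hS ht (hYt hy)
    · rintro rfl
      obtain ⟨y, hy⟩ := hne
      exact ⟨y, hy, tetOf_eq hS ht (hYt hy)⟩
  rw [e, Finset.card_singleton]

theorem subset_of_k_one {S : Finset (Finset GolayPt)} (hS : S ∈ sextets) {Y : Finset GolayPt}
    (h1 : kY Y S = 1) : ∃ t ∈ S, Y ⊆ t := by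
  rw [kY_eq hS] at h1
  obtain ⟨T, hT⟩ := Finset.card_eq_one.mp h1
  have hTm : T ∈ Y.image (tetOf S) := by
    rw [hT]
    exact Finset.mem_singleton_self T
  obtain ⟨y0, hy0, rfl⟩ := Finset.mem_image.mp hTm
  refine ⟨tetOf S y0, (tetOf_spec hS y0).1, ?_⟩
  intro y hy
  have hm : tetOf S y ∈ Y.image (tetOf S) := Finset.mem_image_of_mem _ hy
  rw [hT, Finset.mem_singleton] at hm
  rw [← hm]
  exact (tetOf_spec hS y).2

theorem k_two_of_inter {S : Finset (Finset GolayPt)} (hS : S ∈ sextets) {t : Finset GolayPt}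
    (ht : t ∈ S) {Y : Finset GolayPt} (hY : Y.card = 3) (h2 : (t ∩ Y).card = 2) :
    kY Y S = 2 := by
  classical
  rw [kY_eq hS]
  have h1 : (Y \ t).card = 1 := by
    have h := Finset.card_sdiff_add_card_inter Y t
    rw [Finset.inter_comm] at h
    omega
  obtain ⟨y3, hy3⟩ := Finset.card_eq_one.mp h1
  have hy3' : y3 ∈ Y ∧ y3 ∉ t := by
    have hm : y3 ∈ Y \ t := by
      rw [hy3]
      exact Finset.mem_singleton_self y3
    exact Finset.mem_sdiff.mp hm
  have hne : (t ∩ Y).Nonempty := by
    rw [← Finset.card_pos, h2]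
    norm_num
  obtain ⟨y0, hy0⟩ := hne
  have e : Y.image (tetOf S) = {t, tetOf S y3} := by
    ext u
    rw [Finset.mem_image, Finset.mem_insert, Finset.mem_singleton]
    constructor
    · rintro ⟨y, hy, rfl⟩
      by_cases hyt : y ∈ t
      · left
        exact tetOf_eq hS ht hyt
      · right
        have hm : y ∈ Y \ t := Finset.mem_sdiff.mpr ⟨hy, hyt⟩
        rw [hy3, Finset.mem_singleton] at hm
        rw [hm]
    · rintro (rfl | rfl)
      · exact ⟨y0, (Finset.mem_inter.mp hy0).2, tetOf_eq hS ht (Finset.mem_inter.mp hy0).1⟩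
      · exact ⟨y3, hy3'.1, rfl⟩
  rw [e, Finset.card_insert_of_notMem, Finset.card_singleton]
  rw [Finset.mem_singleton]
  intro h
  apply hy3'.2
  rw [h]
  exact (tetOf_spec hS y3).2

theorem inter_of_k_two {S : Finset (Finset GolayPt)} (hS : S ∈ sextets) {Y : Finset GolayPt}
    (hY : Y.card = 3) (h2 : kY Y S = 2) : ∃ t ∈ S, (t ∩ Y).card = 2 := by
  classical
  rw [kY_eq hS] at h2
  obtain ⟨T, T', hne, hTT⟩ := Finset.card_eq_two.mp h2
  have hTm : T ∈ Y.image (tetOf S) := by
    rw [hTT]
    exact Finset.mem_insert_self _ _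
  have hTm' : T' ∈ Y.image (tetOf S) := by
    rw [hTT]
    exact Finset.mem_insert_of_mem (Finset.mem_singleton_self _)
  obtain ⟨y, hy, rfl⟩ := Finset.mem_image.mp hTm
  obtain ⟨y', hy', rfl⟩ := Finset.mem_image.mp hTm'
  have hd : Disjoint (tetOf S y) (tetOf S y') :=
    sextet_disjoint hS (tetOf_spec hS y).1 (tetOf_spec hS y').1 hne
  have hcov : Y = (tetOf S y ∩ Y) ∪ (tetOf S y' ∩ Y) := by
    ext x
    rw [Finset.mem_union, Finset.mem_inter, Finset.mem_inter]
    constructor
    · intro hx
      have hm : tetOf S x ∈ Y.image (tetOf S) := Finset.mem_image_of_mem _ hx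
      rw [hTT, Finset.mem_insert, Finset.mem_singleton] at hm
      have hx' := (tetOf_spec hS x).2
      rcases hm with h | h
      · left
        rw [h] at hx'
        exact ⟨hx', hx⟩
      · right
        rw [h] at hx'
        exact ⟨hx', hx⟩
    · rintro (h | h) <;> exact h.2
  have hcard : (tetOf S y ∩ Y).card + (tetOf S y' ∩ Y).card = 3 := by
    rw [← Finset.card_union_of_disjoint, ← hcov, hY]
    exact Finset.disjoint_of_subset_left Finset.inter_subset_left
      (Finset.disjoint_of_subset_right Finset.inter_subset_left hd)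
  have hp1 : 0 < (tetOf S y ∩ Y).card :=
    Finset.card_pos.mpr ⟨y, Finset.mem_inter.mpr ⟨(tetOf_spec hS y).2, hy⟩⟩
  have hp2 : 0 < (tetOf S y' ∩ Y).card :=
    Finset.card_pos.mpr ⟨y', Finset.mem_inter.mpr ⟨(tetOf_spec hS y').2, hy'⟩⟩
  by_cases h : (tetOf S y ∩ Y).card = 2
  · exact ⟨_, (tetOf_spec hS y).1, h⟩
  · exact ⟨_, (tetOf_spec hS y').1, by omega⟩

theorem inj_of_k_three {S : Finset (Finset GolayPt)} (hS : S ∈ sextets) {Y : Finset GolayPt}
    (hY : Y.card = 3) (h3 : kY Y S = 3) : Set.InjOn (tetOf S) Y := by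
  rw [kY_eq hS] at h3
  exact Finset.card_image_iff.mp (by rw [h3, hY])

theorem k_range {S : Finset (Finset GolayPt)} (hS : S ∈ sextets) {Y : Finset GolayPt}
    (hY : Y.card = 3) : kY Y S = 1 ∨ kY Y S = 2 ∨ kY Y S = 3 := by
  rw [kY_eq hS]
  have h1 := Finset.card_image_le (s := Y) (f := tetOf S)
  have h2 : 0 < (Y.image (tetOf S)).card :=
    Finset.card_pos.mpr (Finset.Nonempty.image (by rw [← Finset.card_pos, hY]; norm_num) _)
  omega

theorem card_two_of_three (Y : Finset GolayPt) (hY : Y.card = 3) :
    ((Finset.powersetCard 4 (Finset.univ : Finset GolayPt)).filter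
      (fun t => (t ∩ Y).card = 2)).card = 630 := by
  classical
  have e : (Finset.powersetCard 4 (Finset.univ : Finset GolayPt)).filter
      (fun t => (t ∩ Y).card = 2)
      = (Y ×ˢ Finset.powersetCard 2 Yᶜ).image (fun x => Y.erase x.1 ∪ x.2) := by
    ext t
    simp only [Finset.mem_filter, Finset.mem_powersetCard, Finset.subset_univ, true_and,
      Finset.mem_image, Finset.mem_product, Prod.exists]
    constructor
    · rintro ⟨h4, h2⟩
      have h1 : (Y \ t).card = 1 := by
        have h := Finset.card_sdiff_add_card_inter Y t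
        rw [Finset.inter_comm] at h
        omega
      obtain ⟨y, hy⟩ := Finset.card_eq_one.mp h1
      have hyY : y ∈ Y ∧ y ∉ t := by
        have hm : y ∈ Y \ t := by
          rw [hy]
          exact Finset.mem_singleton_self y
        exact Finset.mem_sdiff.mp hm
      refine ⟨y, t \ Y, ⟨hyY.1, ?_, ?_⟩, ?_⟩
      · intro x hx
        rw [Finset.mem_compl]
        exact (Finset.mem_sdiff.mp hx).2
      · have h := Finset.card_sdiff_add_card_inter t Y
        omega
      · ext x
        simp only [Finset.mem_union, Finset.mem_erase, Finset.mem_sdiff]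
        constructor
        · rintro (⟨hxy, hxY⟩ | ⟨hxt, _⟩)
          · by_contra hxt
            have hm : x ∈ Y \ t := Finset.mem_sdiff.mpr ⟨hxY, hxt⟩
            rw [hy, Finset.mem_singleton] at hm
            exact hxy hm
          · exact hxt
        · intro hxt
          by_cases hxY : x ∈ Y
          · left
            refine ⟨fun h => hyY.2 ?_, hxY⟩
            rw [← h]
            exact hxt
          · right
            exact ⟨hxt, hxY⟩
    · rintro ⟨y, Q, ⟨hyY, hQ, hQ2⟩, rfl⟩
      have hdis : Disjoint (Y.erase y) Q := by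
        rw [Finset.disjoint_left]
        intro x hx hxQ
        exact (Finset.mem_compl.mp (hQ hxQ)) (Finset.mem_of_mem_erase hx)
      constructor
      · rw [Finset.card_union_of_disjoint hdis, Finset.card_erase_of_mem hyY, hY, hQ2]
      · have e1 : (Y.erase y ∪ Q) ∩ Y = Y.erase y := by
          ext x
          simp only [Finset.mem_inter, Finset.mem_union, Finset.mem_erase]
          constructor
          · rintro ⟨h | h, hxY⟩
            · exact h
            · exact absurd hxY (Finset.mem_compl.mp (hQ h))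
          · intro h
            exact ⟨Or.inl h, h.2⟩
        rw [e1, Finset.card_erase_of_mem hyY, hY]
  rw [e, Finset.card_image_of_injOn, Finset.card_product, Finset.card_powersetCard,
    Finset.card_compl, hY, card_golayPt]
  · decide +kernel
  · rintro ⟨y, Q⟩ hx ⟨y', Q'⟩ hx' heq
    simp only [Finset.coe_product, Set.mem_prod, Finset.mem_coe, Finset.mem_powersetCard]
      at hx hx'
    dsimp only at heq
    have hQ : ∀ x ∈ Q, x ∉ Y := fun x hxQ => Finset.mem_compl.mp (hx.2.1 hxQ)
    have hQ' : ∀ x ∈ Q', x ∉ Y := fun x hxQ => Finset.mem_compl.mp (hx'.2.1 hxQ)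
    have hyy : y = y' := by
      by_contra hne
      have h1 : y' ∈ Y.erase y ∪ Q :=
        Finset.mem_union_left _ (Finset.mem_erase.mpr ⟨fun h => hne h.symm, hx'.1⟩)
      rw [heq, Finset.mem_union] at h1
      rcases h1 with h1 | h1
      · exact (Finset.notMem_erase y' Y) h1
      · exact hQ' _ h1 hx'.1
    subst hyy
    have hQQ : Q = Q' := by
      ext x
      constructor
      · intro hxQ
        have h1 : x ∈ Y.erase y ∪ Q := Finset.mem_union_right _ hxQ
        rw [heq, Finset.mem_union] at h1
        rcases h1 with h1 | h1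
        · exact absurd (Finset.mem_of_mem_erase h1) (hQ x hxQ)
        · exact h1
      · intro hxQ
        have h1 : x ∈ Y.erase y ∪ Q' := Finset.mem_union_right _ hxQ
        rw [← heq, Finset.mem_union] at h1
        rcases h1 with h1 | h1
        · exact absurd (Finset.mem_of_mem_erase h1) (hQ' x hxQ)
        · exact h1
    rw [hQQ]

theorem count_k1 (Y : Finset GolayPt) (hY : Y.card = 3) :
    {S : Finset (Finset GolayPt) | S ∈ sextets ∧ kY Y S = 1}.ncard = 21 := by
  classical
  have hYne : Y.Nonempty := by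
    rw [← Finset.card_pos, hY]
    norm_num
  have e : {S : Finset (Finset GolayPt) | S ∈ sextets ∧ kY Y S = 1}
      = ↑(((Finset.powersetCard 4 (Finset.univ : Finset GolayPt)).filter
          (fun t => Y ⊆ t)).image sextetOf) := by
    ext S
    simp only [Set.mem_setOf_eq, Finset.coe_image, Set.mem_image, Finset.mem_coe,
      Finset.mem_filter, Finset.mem_powersetCard, Finset.subset_univ, true_and]
    constructor
    · rintro ⟨hS, h1⟩
      obtain ⟨t, ht, hYt⟩ := subset_of_k_one hS h1
      exact ⟨t, ⟨hS.2.1 t ht, hYt⟩, (sextet_eq hS ht).symm⟩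
    · rintro ⟨t, ⟨h4, hYt⟩, rfl⟩
      exact ⟨sextetOf_mem h4,
        k_one_of_subset (sextetOf_mem h4) (self_mem_sextetOf t) hYt hYne⟩
  rw [e, Set.ncard_coe_finset, Finset.card_image_of_injOn,
    card_filter_superset _ _ (Finset.subset_univ Y) 4 (by omega), Finset.card_univ,
    card_golayPt, hY]
  · decide +kernel
  · intro t ht t' ht' heq
    rw [Finset.mem_coe, Finset.mem_filter, Finset.mem_powersetCard] at ht ht'
    by_contra hne
    have hS := sextetOf_mem ht.1.2
    have ht'S : t' ∈ sextetOf t := by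
      have heq' : sextetOf t = sextetOf t' := heq
      rw [heq']
      exact self_mem_sextetOf t'
    have hd := sextet_disjoint hS (self_mem_sextetOf t) ht'S hne
    obtain ⟨y, hy⟩ := hYne
    exact Finset.disjoint_left.mp hd (ht.2 hy) (ht'.2 hy)

theorem count_k2 (Y : Finset GolayPt) (hY : Y.card = 3) :
    {S : Finset (Finset GolayPt) | S ∈ sextets ∧ kY Y S = 2}.ncard = 630 := by
  classical
  have e : {S : Finset (Finset GolayPt) | S ∈ sextets ∧ kY Y S = 2}
      = ↑(((Finset.powersetCard 4 (Finset.univ : Finset GolayPt)).filter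
          (fun t => (t ∩ Y).card = 2)).image sextetOf) := by
    ext S
    simp only [Set.mem_setOf_eq, Finset.coe_image, Set.mem_image, Finset.mem_coe,
      Finset.mem_filter, Finset.mem_powersetCard, Finset.subset_univ, true_and]
    constructor
    · rintro ⟨hS, h2⟩
      obtain ⟨t, ht, h2t⟩ := inter_of_k_two hS hY h2
      exact ⟨t, ⟨hS.2.1 t ht, h2t⟩, (sextet_eq hS ht).symm⟩
    · rintro ⟨t, ⟨h4, h2t⟩, rfl⟩
      exact ⟨sextetOf_mem h4, k_two_of_inter (sextetOf_mem h4) (self_mem_sextetOf t) hY h2t⟩
  rw [e, Set.ncard_coe_finset, Finset.card_image_of_injOn, card_two_of_three Y hY]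
  intro t ht t' ht' heq
  rw [Finset.mem_coe, Finset.mem_filter, Finset.mem_powersetCard] at ht ht'
  by_contra hne
  have hS := sextetOf_mem ht.1.2
  have ht'S : t' ∈ sextetOf t := by
    have heq' : sextetOf t = sextetOf t' := heq
    rw [heq']
    exact self_mem_sextetOf t'
  have hd := sextet_disjoint hS (self_mem_sextetOf t) ht'S hne
  have hsub : (t ∩ Y) ∪ (t' ∩ Y) ⊆ Y :=
    Finset.union_subset Finset.inter_subset_right Finset.inter_subset_right
  have hle := Finset.card_le_card hsub
  have hdd : Disjoint (t ∩ Y) (t' ∩ Y) :=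
    Finset.disjoint_of_subset_left Finset.inter_subset_left
      (Finset.disjoint_of_subset_right Finset.inter_subset_left hd)
  rw [Finset.card_union_of_disjoint hdd, ht.2, ht'.2, hY] at hle
  omega

theorem count_k3 (Y : Finset GolayPt) (hY : Y.card = 3) :
    {S : Finset (Finset GolayPt) | S ∈ sextets ∧ kY Y S = 3}.ncard = 1120 := by
  classical
  have hset : ∀ j : ℕ, {S : Finset (Finset GolayPt) | S ∈ sextets ∧ kY Y S = j}.ncard
      = ((blocks sextets).filter (fun S => kY Y S = j)).card := by
    intro j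
    rw [← Set.ncard_coe_finset]
    congr 1
    ext S
    simp [mem_blocks]
  have h1 := count_k1 Y hY
  have h2 := count_k2 Y hY
  rw [hset] at h1 h2 ⊢
  have htot := Finset.card_eq_sum_card_fiberwise (s := blocks sextets) (t := ({1, 2, 3} : Finset ℕ))
    (f := fun S => kY Y S) (fun S hS => by
      have hr := k_range (mem_blocks.mp (Finset.mem_coe.mp hS)) hY
      simp only [Finset.coe_insert, Finset.coe_singleton, Set.mem_insert_iff,
        Set.mem_singleton_iff]
      exact hr)
  rw [card_sextets, Finset.sum_insert (by decide), Finset.sum_insert (by decide),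
    Finset.sum_singleton, h1, h2] at htot
  omega

/-- The stabilizer of a 3-set is transitive on the sextets with a given number of tetrads
meeting the 3-set. -/
theorem sextet3_trans (Y : Finset GolayPt) (hY : Y.card = 3) (S S' : Finset (Finset GolayPt))
    (hS : S ∈ sextets) (hS' : S' ∈ sextets) (hk : kY Y S = kY Y S') :
    ∃ g ∈ M24, g • Y = Y ∧ g • S = S' := by
  classical
  have hsm : ∀ (g : Equiv.Perm GolayPt) (t t' : Finset GolayPt), t.card = t'.card →
      (∀ a ∈ t, g a ∈ t') → g • t = t' := by
    intro g t t' hc hall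
    apply Finset.eq_of_subset_of_card_le
    · intro x hx
      obtain ⟨a, ha, rfl⟩ := Finset.mem_smul_finset.mp hx
      exact hall a ha
    · rw [Finset.card_smul_finset, hc]
  have hfin : ∀ (g : Equiv.Perm GolayPt), g ∈ M24 → ∀ t ∈ S, ∀ t' ∈ S', g • t = t' →
      g • S = S' := by
    intro g hg t ht t' ht' hgt
    rw [sextet_eq hS ht, smul_sextetOf hg (hS.2.1 t ht), hgt]
    exact (sextet_eq hS' ht').symm
  rcases k_range hS hY with h1 | h2 | h3
  · -- one tetrad contains `Y`
    have h1' : kY Y S' = 1 := by rw [← hk]; exact h1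
    obtain ⟨t, ht, hYt⟩ := subset_of_k_one hS h1
    obtain ⟨t', ht', hYt'⟩ := subset_of_k_one hS' h1'
    obtain ⟨y1, y2, y3, h12, h13, h23, rfl⟩ := Finset.card_eq_three.mp hY
    have hx : (t \ {y1, y2, y3}).card = 1 := by
      rw [Finset.card_sdiff_of_subset hYt, hS.2.1 t ht, hY]
    have hx' : (t' \ {y1, y2, y3}).card = 1 := by
      rw [Finset.card_sdiff_of_subset hYt', hS'.2.1 t' ht', hY]
    obtain ⟨x, hxe⟩ := Finset.card_eq_one.mp hx
    obtain ⟨x', hxe'⟩ := Finset.card_eq_one.mp hx'
    have hxm : x ∈ t ∧ x ∉ ({y1, y2, y3} : Finset GolayPt) := by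
      have hm : x ∈ t \ {y1, y2, y3} := by
        rw [hxe]
        exact Finset.mem_singleton_self x
      exact Finset.mem_sdiff.mp hm
    have hxm' : x' ∈ t' ∧ x' ∉ ({y1, y2, y3} : Finset GolayPt) := by
      have hm : x' ∈ t' \ {y1, y2, y3} := by
        rw [hxe']
        exact Finset.mem_singleton_self x'
      exact Finset.mem_sdiff.mp hm
    have hxn := hxm.2
    have hxn' := hxm'.2
    simp only [Finset.mem_insert, Finset.mem_singleton, not_or] at hxn hxn'
    obtain ⟨g, hg, g1, g2, g3, g4⟩ := m24_exists_map4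
      (nodup4 h12 h13 (Ne.symm hxn.1) h23 (Ne.symm hxn.2.1) (Ne.symm hxn.2.2))
      (nodup4 h12 h13 (Ne.symm hxn'.1) h23 (Ne.symm hxn'.2.1) (Ne.symm hxn'.2.2))
    refine ⟨g, hg, ?_, ?_⟩
    · apply hsm g _ _ rfl
      intro a ha
      simp only [Finset.mem_insert, Finset.mem_singleton] at ha ⊢
      rcases ha with rfl | rfl | rfl
      · exact Or.inl g1
      · exact Or.inr (Or.inl g2)
      · exact Or.inr (Or.inr g3)
    · apply hfin g hg t ht t' ht'
      apply hsm g t t' (by rw [hS.2.1 t ht, hS'.2.1 t' ht'])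
      intro a ha
      by_cases haY : a ∈ ({y1, y2, y3} : Finset GolayPt)
      · apply hYt'
        simp only [Finset.mem_insert, Finset.mem_singleton] at haY ⊢
        rcases haY with rfl | rfl | rfl
        · exact Or.inl g1
        · exact Or.inr (Or.inl g2)
        · exact Or.inr (Or.inr g3)
      · have hm : a ∈ t \ {y1, y2, y3} := Finset.mem_sdiff.mpr ⟨ha, haY⟩
        rw [hxe, Finset.mem_singleton] at hm
        rw [hm, g4]
        exact hxm'.1
  · -- one tetrad contains exactly two points of `Y`
    have h2' : kY Y S' = 2 := by rw [← hk]; exact h2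
    obtain ⟨t, ht, h2t⟩ := inter_of_k_two hS hY h2
    obtain ⟨t', ht', h2t'⟩ := inter_of_k_two hS' hY h2'
    have key : ∀ u : Finset GolayPt, u.card = 4 → (u ∩ Y).card = 2 →
        ∃ y1 y2 y3 x1 x2 : GolayPt, [y1, y2, y3, x1, x2].Nodup ∧ Y = {y1, y2, y3}
          ∧ u = {y1, y2, x1, x2} := by
      intro u hu4 hu2
      obtain ⟨y1, y2, h12, hi⟩ := Finset.card_eq_two.mp hu2
      have hc1 : (Y \ u).card = 1 := by
        have h := Finset.card_sdiff_add_card_inter Y u
        rw [Finset.inter_comm] at h
        omega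
      obtain ⟨y3, hy3⟩ := Finset.card_eq_one.mp hc1
      have hc2 : (u \ Y).card = 2 := by
        have h := Finset.card_sdiff_add_card_inter u Y
        omega
      obtain ⟨x1, x2, hx12, hxx⟩ := Finset.card_eq_two.mp hc2
      have m1 : y1 ∈ u ∩ Y := by rw [hi]; simp
      have m2 : y2 ∈ u ∩ Y := by rw [hi]; simp
      have m3 : y3 ∈ Y \ u := by rw [hy3]; simp
      have m4 : x1 ∈ u \ Y := by rw [hxx]; simp
      have m5 : x2 ∈ u \ Y := by rw [hxx]; simp
      rw [Finset.mem_inter] at m1 m2
      rw [Finset.mem_sdiff] at m3 m4 m5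
      refine ⟨y1, y2, y3, x1, x2, ?_, ?_, ?_⟩
      · apply nodup5 h12
        · rintro rfl; exact m3.2 m1.1
        · rintro rfl; exact m4.2 m1.2
        · rintro rfl; exact m5.2 m1.2
        · rintro rfl; exact m3.2 m2.1
        · rintro rfl; exact m4.2 m2.2
        · rintro rfl; exact m5.2 m2.2
        · rintro rfl; exact m4.2 m3.1
        · rintro rfl; exact m5.2 m3.1
        · exact hx12
      · ext a
        simp only [Finset.mem_insert, Finset.mem_singleton]
        constructor
        · intro ha
          by_cases hau : a ∈ u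
          · have hm : a ∈ u ∩ Y := Finset.mem_inter.mpr ⟨hau, ha⟩
            rw [hi, Finset.mem_insert, Finset.mem_singleton] at hm
            rcases hm with h | h
            · exact Or.inl h
            · exact Or.inr (Or.inl h)
          · have hm : a ∈ Y \ u := Finset.mem_sdiff.mpr ⟨ha, hau⟩
            rw [hy3, Finset.mem_singleton] at hm
            exact Or.inr (Or.inr hm)
        · rintro (rfl | rfl | rfl)
          · exact m1.2
          · exact m2.2
          · exact m3.1
      · ext a
        simp only [Finset.mem_insert, Finset.mem_singleton]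
        constructor
        · intro ha
          by_cases haY : a ∈ Y
          · have hm : a ∈ u ∩ Y := Finset.mem_inter.mpr ⟨ha, haY⟩
            rw [hi, Finset.mem_insert, Finset.mem_singleton] at hm
            rcases hm with h | h
            · exact Or.inl h
            · exact Or.inr (Or.inl h)
          · have hm : a ∈ u \ Y := Finset.mem_sdiff.mpr ⟨ha, haY⟩
            rw [hxx, Finset.mem_insert, Finset.mem_singleton] at hm
            rcases hm with h | h
            · exact Or.inr (Or.inr (Or.inl h))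
            · exact Or.inr (Or.inr (Or.inr h))
        · rintro (rfl | rfl | rfl | rfl)
          · exact m1.1
          · exact m2.1
          · exact m4.1
          · exact m5.1
    obtain ⟨y1, y2, y3, x1, x2, hnd, hYe, hte⟩ := key t (hS.2.1 t ht) h2t
    obtain ⟨y1', y2', y3', x1', x2', hnd', hYe', hte'⟩ := key t' (hS'.2.1 t' ht') h2t'
    obtain ⟨g, hg, g1, g2, g3, g4, g5⟩ := m24_exists_map5 hnd hnd'
    refine ⟨g, hg, ?_, ?_⟩
    · apply hsm g _ _ rfl
      intro a ha
      rw [hYe] at ha
      rw [hYe']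
      simp only [Finset.mem_insert, Finset.mem_singleton] at ha ⊢
      rcases ha with rfl | rfl | rfl
      · exact Or.inl g1
      · exact Or.inr (Or.inl g2)
      · exact Or.inr (Or.inr g3)
    · apply hfin g hg t ht t' ht'
      apply hsm g t t' (by rw [hS.2.1 t ht, hS'.2.1 t' ht'])
      intro a ha
      rw [hte] at ha
      rw [hte']
      simp only [Finset.mem_insert, Finset.mem_singleton] at ha ⊢
      rcases ha with rfl | rfl | rfl | rfl
      · exact Or.inl g1
      · exact Or.inr (Or.inl g2)
      · exact Or.inr (Or.inr (Or.inl g4))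
      · exact Or.inr (Or.inr (Or.inr g5))
  · -- three tetrads meet `Y`
    have h3' : kY Y S' = 3 := by rw [← hk]; exact h3
    have hinj := inj_of_k_three hS hY h3
    have hinj' := inj_of_k_three hS' hY h3'
    obtain ⟨y1, y2, y3, h12, h13, h23, rfl⟩ := Finset.card_eq_three.mp hY
    have my1 : y1 ∈ ({y1, y2, y3} : Finset GolayPt) := by simp
    have my2 : y2 ∈ ({y1, y2, y3} : Finset GolayPt) := by simp
    have my3 : y3 ∈ ({y1, y2, y3} : Finset GolayPt) := by simp
    have key : ∀ R : Finset (Finset GolayPt), R ∈ sextets →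
        Set.InjOn (tetOf R) (({y1, y2, y3} : Finset GolayPt) : Set GolayPt) →
        ∃ (O : Finset GolayPt) (a b c : GolayPt), O ∈ octads ∧ [y1, y2, a, b, c].Nodup
          ∧ y1 ∈ O ∧ y2 ∈ O ∧ a ∈ O ∧ b ∈ O ∧ c ∈ O ∧ y3 ∉ O
          ∧ tetOf R y1 = {y1, a, b, c} := by
      intro R hR hRinj
      have hT1 := tetOf_spec hR y1
      have hT2 := tetOf_spec hR y2
      have hT3 := tetOf_spec hR y3
      have n12 : tetOf R y1 ≠ tetOf R y2 := fun h => h12 (hRinj my1 my2 h)
      have n13 : tetOf R y1 ≠ tetOf R y3 := fun h => h13 (hRinj my1 my3 h)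
      have n23 : tetOf R y2 ≠ tetOf R y3 := fun h => h23 (hRinj my2 my3 h)
      have d12 := sextet_disjoint hR hT1.1 hT2.1 n12
      have d13 := sextet_disjoint hR hT1.1 hT3.1 n13
      have d23 := sextet_disjoint hR hT2.1 hT3.1 n23
      have hc3 : ((tetOf R y1).erase y1).card = 3 := by
        rw [Finset.card_erase_of_mem hT1.2, hR.2.1 _ hT1.1]
      obtain ⟨a, b, c, hab, hac, hbc, he⟩ := Finset.card_eq_three.mp hc3
      have ma : a ∈ (tetOf R y1).erase y1 := by rw [he]; simp
      have mb : b ∈ (tetOf R y1).erase y1 := by rw [he]; simp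
      have mc : c ∈ (tetOf R y1).erase y1 := by rw [he]; simp
      rw [Finset.mem_erase] at ma mb mc
      have hy2n : y2 ∉ tetOf R y1 := fun h => Finset.disjoint_left.mp d12 h hT2.2
      refine ⟨tetOf R y1 ∪ tetOf R y2, a, b, c, hR.2.2 _ hT1.1 _ hT2.1 n12, ?_,
        Finset.mem_union_left _ hT1.2, Finset.mem_union_right _ hT2.2,
        Finset.mem_union_left _ ma.2, Finset.mem_union_left _ mb.2,
        Finset.mem_union_left _ mc.2, ?_, ?_⟩
      · apply nodup5 h12 (Ne.symm ma.1) (Ne.symm mb.1) (Ne.symm mc.1)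
        · rintro rfl; exact hy2n ma.2
        · rintro rfl; exact hy2n mb.2
        · rintro rfl; exact hy2n mc.2
        · exact hab
        · exact hac
        · exact hbc
      · rw [Finset.mem_union]
        rintro (h | h)
        · exact Finset.disjoint_left.mp d13 h hT3.2
        · exact Finset.disjoint_left.mp d23 h hT3.2
      · ext x
        constructor
        · intro hx
          by_cases hxy : x = y1
          · rw [hxy]; simp
          · have hm : x ∈ (tetOf R y1).erase y1 := Finset.mem_erase.mpr ⟨hxy, hx⟩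
            rw [he] at hm
            simp only [Finset.mem_insert, Finset.mem_singleton] at hm ⊢
            exact Or.inr hm
        · intro hx
          simp only [Finset.mem_insert, Finset.mem_singleton] at hx
          rcases hx with rfl | rfl | rfl | rfl
          · exact hT1.2
          · exact ma.2
          · exact mb.2
          · exact mc.2
    obtain ⟨O, a, b, c, hO, hnd, o1, o2, oa, ob, oc, o3, hT⟩ := key S hS hinj
    obtain ⟨O', a', b', c', hO', hnd', o1', o2', oa', ob', oc', o3', hT'⟩ := key S' hS' hinj'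
    obtain ⟨g, hg, g1, g2, ga, gb, gc, g3⟩ :=
      m24_out_trans hO hO' hnd hnd' o1 o2 oa ob oc o3 o1' o2' oa' ob' oc' o3'
    refine ⟨g, hg, ?_, ?_⟩
    · apply hsm g _ _ rfl
      intro x hx
      simp only [Finset.mem_insert, Finset.mem_singleton] at hx ⊢
      rcases hx with rfl | rfl | rfl
      · exact Or.inl g1
      · exact Or.inr (Or.inl g2)
      · exact Or.inr (Or.inr g3)
    · apply hfin g hg _ (tetOf_spec hS y1).1 _ (tetOf_spec hS' y1).1
      apply hsm g _ _ (by rw [hS.2.1 _ (tetOf_spec hS y1).1, hS'.2.1 _ (tetOf_spec hS' y1).1])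
      intro x hx
      rw [hT] at hx
      rw [hT']
      simp only [Finset.mem_insert, Finset.mem_singleton] at hx ⊢
      rcases hx with rfl | rfl | rfl | rfl
      · exact Or.inl g1
      · exact Or.inr (Or.inl ga)
      · exact Or.inr (Or.inr (Or.inl gb))
      · exact Or.inr (Or.inr (Or.inr gc))

end Cfsg.Agent.Helper9
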