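import Mathlib
import Cfsg.Agent.Helper9.M24Invol

set_option autoImplicit false

namespace Cfsg.Agent.Helper9

open Cfsg Cfsg.Agent.Helper1.Golay
open scoped Pointwise

/-- An element of `M24` fixing nine points is the identity. -/
theorem nine_fixed {g : Equiv.Perm GolayPt} (hg : g ∈ M24) (S : Finset GolayPt)
    (hS : ∀ p ∈ S, g p = p) (h9 : 9 ≤ S.card) : g = 1 := by
  classical
  by_contra h1
  obtain ⟨F, hFS, hF5⟩ := Finset.exists_subset_card_eq (show 5 ≤ S.card by omega)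
  obtain ⟨O, ⟨hO, hFO⟩, -⟩ := octads_steiner.2 F hF5
  have hex : ∃ q ∈ S, q ∉ O := by
    by_contra hcon
    push_neg at hcon
    have hle := Finset.card_le_card (show S ⊆ O from fun q hq => hcon q hq)
    rw [hO.2] at hle
    omega
  obtain ⟨q, hqS, hqO⟩ := hex
  have h3 := pow_three_of_six_out hg hO hFO hF5 (fun p hp => hS p (hFS hp)) hqO (hS q hqS)
  have hsub : S ⊆ Finset.univ.filter fun a => g a = a := by
    intro p hp
    rw [Finset.mem_filter]
    exact ⟨Finset.mem_univ _, hS p hp⟩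
  have hle := Finset.card_le_card hsub
  rcases ord3_fix hg h3 h1 with h | h <;> omega

/-- A group of order three consists of the powers of any non-identity element. -/
theorem fixGrp_three_cases {E : Finset GolayPt} (hcard : Nat.card (fixGrp E) = 3)
    {w x : Equiv.Perm GolayPt} (hw : w ∈ fixGrp E) (hw1 : w ≠ 1) (hx : x ∈ fixGrp E) :
    x = 1 ∨ x = w ∨ x = w ^ 2 := by
  have f3 : Fact (Nat.Prime 3) := ⟨by norm_num⟩
  have hw1' : (⟨w, hw⟩ : ↥(fixGrp E)) ≠ 1 := fun h => hw1 (congrArg Subtype.val h)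
  have htop := zpowers_eq_top_of_prime_card hcard hw1'
  have hmem : (⟨x, hx⟩ : ↥(fixGrp E)) ∈ Subgroup.zpowers (⟨w, hw⟩ : ↥(fixGrp E)) := by
    rw [htop]
    exact Subgroup.mem_top _
  obtain ⟨k, hk⟩ := Subgroup.mem_zpowers_iff.mp hmem
  have hw3 : (⟨w, hw⟩ : ↥(fixGrp E)) ^ 3 = 1 := by
    rw [← hcard]
    exact pow_card_eq_one'
  have hk' : (⟨w, hw⟩ : ↥(fixGrp E)) ^ (k % 3) = ⟨x, hx⟩ := by
    rw [← hk]
    conv_rhs => rw [← Int.emod_add_mul_ediv k 3]
    rw [zpow_add, zpow_mul, zpow_ofNat, hw3, one_zpow, mul_one]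
  have h0 : 0 ≤ k % 3 := Int.emod_nonneg _ (by norm_num)
  have h3 : k % 3 < 3 := Int.emod_lt_of_pos _ (by norm_num)
  have hcases : k % 3 = 0 ∨ k % 3 = 1 ∨ k % 3 = 2 := by omega
  have hval := congrArg Subtype.val hk'
  rcases hcases with h | h | h
  · left
    rw [h, zpow_zero] at hval
    exact hval.symm
  · right; left
    rw [h, zpow_one] at hval
    exact hval.symm
  · right; right
    rw [h] at hval
    exact hval.symm

theorem apply3 {z : Equiv.Perm GolayPt} (h3 : z ^ 3 = 1) (p : GolayPt) : z (z (z p)) = p := by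
  have h := congrArg (fun f : Equiv.Perm GolayPt => f p) h3
  simpa [pow_succ] using h

theorem apply2_ne {z : Equiv.Perm GolayPt} (h3 : z ^ 3 = 1) (h0 : ∀ p, z p ≠ p) (p : GolayPt) :
    z (z p) ≠ p := by
  intro h
  have h' := apply3 h3 p
  rw [h] at h'
  exact h0 p h'

/-- Two cycles of a fixed-point-free element of order three of `M24` are not in a common
octad. -/
theorem umbral6 {z : Equiv.Perm GolayPt} (hz : z ∈ M24) (h3 : z ^ 3 = 1) (h0 : ∀ p, z p ≠ p)
    {a c : GolayPt} (hca : c ≠ a) (hcza : c ≠ z a) (hczza : c ≠ z (z a)) :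
    ∃ O ∈ octads, [a, z a, z (z a), c, z c].Nodup ∧ a ∈ O ∧ z a ∈ O ∧ z (z a) ∈ O ∧ c ∈ O ∧
      z c ∈ O ∧ z (z c) ∉ O := by
  classical
  have f3 : Fact (Nat.Prime 3) := ⟨by norm_num⟩
  have hnd : [a, z a, z (z a), c, z c].Nodup := by
    apply nodup5 (h0 a).symm (apply2_ne h3 h0 a).symm hca.symm ?_ (h0 (z a)).symm hcza.symm ?_
      hczza.symm ?_ (h0 c).symm
    · intro h
      apply hczza
      rw [h, apply3 h3]
    · intro h
      exact hca (z.injective h).symm
    · intro h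
      exact hcza (z.injective h).symm
  have hFcard : ([a, z a, z (z a), c, z c].toFinset).card = 5 := by
    rw [List.toFinset_card_of_nodup hnd]
    rfl
  obtain ⟨O, ⟨hO, hFO⟩, -⟩ := octads_steiner.2 _ hFcard
  have hmem : ∀ x ∈ [a, z a, z (z a), c, z c], x ∈ O := fun x hx => hFO (List.mem_toFinset.mpr hx)
  refine ⟨O, hO, hnd, hmem _ (by simp), hmem _ (by simp), hmem _ (by simp), hmem _ (by simp),
    hmem _ (by simp), ?_⟩
  intro hzzc
  have hE : ∀ x ∈ insert (z (z c)) ([a, z a, z (z a), c, z c].toFinset),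
      z x ∈ insert (z (z c)) ([a, z a, z (z a), c, z c].toFinset) := by
    intro x hx
    simp only [List.toFinset_cons, List.toFinset_nil, Finset.mem_insert,
      insert_empty_eq, Finset.mem_singleton] at hx ⊢
    rcases hx with rfl | rfl | rfl | rfl | rfl | rfl
    · rw [apply3 h3]; tauto
    · tauto
    · tauto
    · rw [apply3 h3]; tauto
    · tauto
    · tauto
  have hEO : insert (z (z c)) ([a, z a, z (z a), c, z c].toFinset) ⊆ O := by
    intro x hx
    rcases Finset.mem_insert.mp hx with rfl | hx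
    · exact hzzc
    · exact hFO hx
  have hEcard : 5 ≤ (insert (z (z c)) ([a, z a, z (z a), c, z c].toFinset)).card := by
    calc 5 = ([a, z a, z (z a), c, z c].toFinset).card := hFcard.symm
      _ ≤ _ := Finset.card_le_card (Finset.subset_insert _ _)
  have hzO : z • O = O := inv_octad_of_five hz hO hEO hEcard hE
  have hdvd := card_moved_dvd z O (mem_iff_of_smul_eq hzO) 3 h3
  have hall : O.filter (fun x => z x ≠ x) = O := Finset.filter_true_of_mem (fun x _ => h0 x)
  rw [hall, hO.2] at hdvd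
  norm_num at hdvd

/-- An element of the pointwise stabilizer of five points of an octad and a point outside it
that fixes a further point is the identity. -/
theorem fixGrp_out_eq_one {F O : Finset GolayPt} (hO : O ∈ octads) (hFO : F ⊆ O)
    (hF5 : F.card = 5) {q : GolayPt} (hqO : q ∉ O) {g : Equiv.Perm GolayPt}
    (hg : g ∈ fixGrp (insert q F)) {r : GolayPt} (hr : r ∉ insert q F) (hgr : g r = r) :
    g = 1 := by
  classical
  by_contra h1
  have hg' := (mem_fixGrp _ _).mp hg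
  have h3 := pow_three_of_six_out hg'.1 hO hFO hF5
    (fun p hp => hg'.2 p (Finset.mem_insert_of_mem hp)) hqO (hg'.2 q (Finset.mem_insert_self _ _))
  have hsub : insert r (insert q F) ⊆ Finset.univ.filter fun a => g a = a := by
    intro p hp
    rw [Finset.mem_filter]
    refine ⟨Finset.mem_univ _, ?_⟩
    rcases Finset.mem_insert.mp hp with rfl | hp
    · exact hgr
    · exact hg'.2 p hp
  have hle := Finset.card_le_card hsub
  have hqF : q ∉ F := fun h => hqO (hFO h)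
  rw [Finset.card_insert_of_notMem hr, Finset.card_insert_of_notMem hqF, hF5] at hle
  rcases ord3_fix hg'.1 h3 h1 with h | h <;> omega

/-- Data of a fixed-point-free element `z` of order three of `M24`, an invariant 6-set `E` (two
cycles) and a generator `w` of the pointwise stabilizer of `E`. -/
structure Three9 (z w : Equiv.Perm GolayPt) (E : Finset GolayPt) : Prop where
  zM : z ∈ M24
  z3 : z ^ 3 = 1
  z0 : ∀ p, z p ≠ p
  zE : ∀ p ∈ E, z p ∈ E
  card : Nat.card (fixGrp E) = 3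
  wE : w ∈ fixGrp E
  w1 : w ≠ 1
  out : ∀ g ∈ fixGrp E, ∀ r, r ∉ E → g r = r → g = 1
  Ecard : E.card = 6

theorem Three9.wM {z w : Equiv.Perm GolayPt} {E : Finset GolayPt} (T : Three9 z w E) :
    w ∈ M24 := ((mem_fixGrp _ _).mp T.wE).1

theorem Three9.w3 {z w : Equiv.Perm GolayPt} {E : Finset GolayPt} (T : Three9 z w E) :
    w ^ 3 = 1 := by
  have h : (⟨w, T.wE⟩ : ↥(fixGrp E)) ^ 3 = 1 := by
    rw [← T.card]
    exact pow_card_eq_one'
  exact congrArg Subtype.val h

theorem Three9.cases {z w : Equiv.Perm GolayPt} {E : Finset GolayPt} (T : Three9 z w E)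
    {x : Equiv.Perm GolayPt} (hx : x ∈ fixGrp E) : x = 1 ∨ x = w ∨ x = w ^ 2 :=
  fixGrp_three_cases T.card T.wE T.w1 hx

theorem inv_apply_mem9 {s : Equiv.Perm GolayPt} {E : Finset GolayPt} (hsE : ∀ p ∈ E, s p ∈ E)
    {p : GolayPt} (hp : p ∈ E) : s⁻¹ p ∈ E := by
  have h := mem_iff_of_smul_eq (smul_eq_of_forall_mem9 hsE) (s⁻¹ p)
  rw [Equiv.Perm.inv_def, Equiv.apply_symm_apply] at h
  rw [Equiv.Perm.inv_def]
  exact h.mp hp

theorem conj_mem_fixGrp9 {s g : Equiv.Perm GolayPt} {E : Finset GolayPt} (hs : s ∈ M24)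
    (hsE : ∀ p ∈ E, s p ∈ E) (hg : g ∈ fixGrp E) : s * g * s⁻¹ ∈ fixGrp E := by
  have hg' := (mem_fixGrp _ _).mp hg
  rw [mem_fixGrp]
  refine ⟨mul_mem (mul_mem hs hg'.1) (inv_mem hs), fun p hp => ?_⟩
  rw [Equiv.Perm.mul_apply, Equiv.Perm.mul_apply, hg'.2 _ (inv_apply_mem9 hsE hp),
    Equiv.Perm.inv_def, Equiv.apply_symm_apply]

/-- The square of an element of `M24` preserving `E` commutes with `w`. -/
theorem Three9.sq_comm {z w : Equiv.Perm GolayPt} {E : Finset GolayPt} (T : Three9 z w E)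
    {s : Equiv.Perm GolayPt} (hs : s ∈ M24) (hsE : ∀ p ∈ E, s p ∈ E) : Commute (s ^ 2) w := by
  have hw3 := T.w3
  rcases T.cases (conj_mem_fixGrp9 hs hsE T.wE) with h | h | h
  · exfalso
    apply T.w1
    have h' := congrArg (fun x => s⁻¹ * x * s) h
    simp only [mul_assoc, inv_mul_cancel, mul_one, inv_mul_cancel_left] at h'
    exact h'
  · have hc : Commute s w := by
      have h' : s * w = w * s := by
        calc s * w = s * w * s⁻¹ * s := by simp only [mul_assoc, inv_mul_cancel, mul_one]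
          _ = w * s := by rw [h]
      exact h'
    exact hc.pow_left 2
  · have h' : s * w = w ^ 2 * s := by
      calc s * w = s * w * s⁻¹ * s := by simp only [mul_assoc, inv_mul_cancel, mul_one]
        _ = w ^ 2 * s := by rw [h]
    have hw4 : w ^ 2 * w ^ 2 = w := by
      calc w ^ 2 * w ^ 2 = w ^ 3 * w := by rw [← pow_add, pow_succ]
        _ = w := by rw [hw3, one_mul]
    show s ^ 2 * w = w * s ^ 2
    calc s ^ 2 * w = s * (s * w) := by rw [pow_two, mul_assoc]
      _ = s * (w ^ 2 * s) := by rw [h']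
      _ = s * w * (w * s) := by rw [pow_two]; simp only [mul_assoc]
      _ = w ^ 2 * s * (w * s) := by rw [h']
      _ = w ^ 2 * (s * w * s) := by simp only [mul_assoc]
      _ = w ^ 2 * (w ^ 2 * s * s) := by rw [h']
      _ = w ^ 2 * w ^ 2 * (s * s) := by simp only [mul_assoc]
      _ = w * s ^ 2 := by rw [hw4, pow_two]

theorem Three9.zw {z w : Equiv.Perm GolayPt} {E : Finset GolayPt} (T : Three9 z w E) :
    Commute z w := by
  have h := (T.sq_comm T.zM T.zE).pow_left 2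
  have e : (z ^ 2) ^ 2 = z := by
    rw [← pow_mul]
    calc z ^ (2 * 2) = z ^ 3 * z := by rw [← pow_succ]
      _ = z := by rw [T.z3, one_mul]
  rwa [e] at h

/-- An element commuting with `z` on `E` but not globally conjugates `z` to `z w` and `z w²`. -/
theorem Three9.conj_of_noncomm {z w : Equiv.Perm GolayPt} {E : Finset GolayPt}
    (T : Three9 z w E) {s : Equiv.Perm GolayPt} (hs : s ∈ M24) (hsE : ∀ p ∈ E, s p ∈ E)
    (hsz : ∀ p ∈ E, s (z p) = z (s p)) (hsw : Commute s w) (hns : s * z ≠ z * s) :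
    (∃ k ∈ M24, k * z * k⁻¹ = z * w) ∧ (∃ k ∈ M24, k * z * k⁻¹ = z * w ^ 2) := by
  have hw3 := T.w3
  have hd : z⁻¹ * (s * z * s⁻¹) ∈ fixGrp E := by
    rw [mem_fixGrp]
    refine ⟨mul_mem (inv_mem T.zM) (mul_mem (mul_mem hs T.zM) (inv_mem hs)), fun p hp => ?_⟩
    have hp' := inv_apply_mem9 hsE hp
    rw [Equiv.Perm.mul_apply, Equiv.Perm.mul_apply, Equiv.Perm.mul_apply, hsz _ hp']
    have e : s (s⁻¹ p) = p := by rw [Equiv.Perm.inv_def, Equiv.apply_symm_apply]
    rw [e, Equiv.Perm.inv_def, Equiv.symm_apply_apply]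
  have hsw' : s * w * s⁻¹ = w := by
    rw [hsw.eq, mul_assoc, mul_inv_cancel, mul_one]
  have hstep : ∀ v : Equiv.Perm GolayPt, s * (z * v) * s⁻¹ = (s * z * s⁻¹) * (s * v * s⁻¹) := by
    intro v
    simp only [mul_assoc, inv_mul_cancel_left]
  have hs2 : ∀ x : Equiv.Perm GolayPt, s ^ 2 * x * (s ^ 2)⁻¹ = s * (s * x * s⁻¹) * s⁻¹ := by
    intro x
    rw [pow_two, mul_inv_rev]
    simp only [mul_assoc]
  have hw4 : w ^ 2 * w ^ 2 = w := by
    calc w ^ 2 * w ^ 2 = w ^ 3 * w := by rw [← pow_add, pow_succ]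
      _ = w := by rw [hw3, one_mul]
  have hsw2 : s * w ^ 2 * s⁻¹ = w ^ 2 := by
    have hc : Commute s (w ^ 2) := hsw.pow_right 2
    rw [hc.eq, mul_assoc, mul_inv_cancel, mul_one]
  have hs2M : s ^ 2 ∈ M24 := pow_mem hs 2
  rcases T.cases hd with h | h | h
  · exfalso
    apply hns
    have h' : s * z * s⁻¹ = z := by
      have := congrArg (fun x => z * x) h
      simp only [mul_inv_cancel_left, mul_one] at this
      exact this
    calc s * z = s * z * s⁻¹ * s := by simp only [mul_assoc, inv_mul_cancel, mul_one]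
      _ = z * s := by rw [h']
  · have h' : s * z * s⁻¹ = z * w := by
      have := congrArg (fun x => z * x) h
      simp only [mul_inv_cancel_left] at this
      exact this
    refine ⟨⟨s, hs, h'⟩, ⟨s ^ 2, hs2M, ?_⟩⟩
    rw [hs2, h', hstep, h', hsw', mul_assoc, ← pow_two]
  · have h' : s * z * s⁻¹ = z * w ^ 2 := by
      have := congrArg (fun x => z * x) h
      simp only [mul_inv_cancel_left] at this
      exact this
    refine ⟨⟨s ^ 2, hs2M, ?_⟩, ⟨s, hs, h'⟩⟩
    rw [hs2, h', hstep, h', hsw2, mul_assoc, hw4]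

theorem pow_inj_fin3 {G : Type*} [Group G] {w : G} (h3 : w ^ 3 = 1) (h1 : w ≠ 1) (n n' : Fin 3)
    (h : w ^ (n : ℕ) = w ^ (n' : ℕ)) : n = n' := by
  have f3 : Fact (Nat.Prime 3) := ⟨by norm_num⟩
  have ho : orderOf w = 3 := orderOf_eq_prime h3 h1
  have hinj := pow_injOn_Iio_orderOf (x := w)
  rw [ho] at hinj
  exact Fin.ext (hinj (Set.mem_Iio.mpr n.2) (Set.mem_Iio.mpr n'.2) h)

theorem pow_fin3_cases {G : Type*} [Group G] {z : G} (h3 : z ^ 3 = 1) (m m' : Fin 3)
    (h : m ≠ m') : z ^ (m' : ℕ) = z ^ (m : ℕ) * z ∨ z ^ (m : ℕ) = z ^ (m' : ℕ) * z := by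
  have h3' : z * z * z = 1 := by rw [← h3, pow_succ, pow_two]
  fin_cases m <;> fin_cases m' <;> simp [pow_succ, h3'] at h ⊢

theorem three_vals9 {α : Type*} {p0 p1 p2 : α} (h01 : p0 ≠ p1) (h02 : p0 ≠ p2) (h12 : p1 ≠ p2)
    (i i' : Fin 3) (h : ![p0, p1, p2] i = ![p0, p1, p2] i') : i = i' := by
  fin_cases i <;> fin_cases i' <;> simp_all

theorem pow_fin3_apply {g : Equiv.Perm GolayPt} {x y t : GolayPt} (h1 : g x = y) (h2 : g y = t)
    (i : Fin 3) : (g ^ (i : ℕ)) x = ![x, y, t] i := by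
  fin_cases i
  · rfl
  · show (g ^ 1) x = y
    rw [pow_one, h1]
  · show (g ^ 2) x = t
    rw [pow_two, Equiv.Perm.mul_apply, h1, h2]

/-- Two elements acting on `E` as the two 3-cycles of `z` cannot both commute with `z`. -/
theorem Three9.noncomm {z w : Equiv.Perm GolayPt} {E : Finset GolayPt} (T : Three9 z w E)
    {a c : GolayPt} (ha : a ∈ E) (hcE : c ∈ E) {u u1 : Equiv.Perm GolayPt} (hu : u ∈ M24)
    (hu1 : u1 ∈ M24) (huE : ∀ p ∈ E, u p ∈ E) (hu1E : ∀ p ∈ E, u1 p ∈ E) (huw : Commute u w)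
    (hu1w : Commute u1 w) (hua : u a = z a) (huza : u (z a) = z (z a)) (hu1a : u1 a = a)
    (hu1c : u1 c = z c) (hu1zc : u1 (z c) = z (z c))
    (huz : Commute u z) (hu1z : Commute u1 z) : False := by
  classical
  have hw3 := T.w3
  have hz3 := T.z3
  have hzw := T.zw
  have hwfix : ∀ (n : ℕ) (p : GolayPt), p ∈ E → (w ^ n) p = p := by
    intro n p hp
    exact ((mem_fixGrp _ _).mp (pow_mem T.wE n)).2 p hp
  have hstabE : ∀ x : Equiv.Perm GolayPt, x ∈ MulAction.stabilizer (Equiv.Perm GolayPt) E →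
      ∀ q, q ∉ E → x q ∉ E := by
    intro x hx q hq h
    exact hq ((mem_iff_of_smul_eq (MulAction.mem_stabilizer_iff.mp hx) q).mp h)
  have huS : u ∈ MulAction.stabilizer (Equiv.Perm GolayPt) E :=
    MulAction.mem_stabilizer_iff.mpr (smul_eq_of_forall_mem9 huE)
  have hu1S : u1 ∈ MulAction.stabilizer (Equiv.Perm GolayPt) E :=
    MulAction.mem_stabilizer_iff.mpr (smul_eq_of_forall_mem9 hu1E)
  have hwS : w ∈ MulAction.stabilizer (Equiv.Perm GolayPt) E :=
    MulAction.mem_stabilizer_iff.mpr (smul_eq_of_forall_mem9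
      (fun p hp => by rw [((mem_fixGrp _ _).mp T.wE).2 p hp]; exact hp))
  have hzv : ∀ q, q ∉ E → (∀ v ∈ fixGrp E, (z * v) q ≠ q) → False := by
    intro q hq hcon
    obtain ⟨x, -, y, -, hxy, hfxy⟩ := Finset.exists_ne_map_eq_of_card_lt_of_maps_to
      (s := (Finset.univ : Finset (Fin 3 × Fin 3 × Fin 3))) (t := Eᶜ)
      (f := fun t => (u ^ (t.1 : ℕ) * u1 ^ (t.2.1 : ℕ) * w ^ (t.2.2 : ℕ)) q)
      (by
        rw [Finset.card_compl, card_golayPt, T.Ecard]
        simp)
      (fun t _ => Finset.mem_compl.mpr (hstabE _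
        (mul_mem (mul_mem (pow_mem huS _) (pow_mem hu1S _)) (pow_mem hwS _)) q hq))
    have hXM : u ^ (x.1 : ℕ) * u1 ^ (x.2.1 : ℕ) * w ^ (x.2.2 : ℕ) ∈ M24 :=
      mul_mem (mul_mem (pow_mem hu _) (pow_mem hu1 _)) (pow_mem T.wM _)
    have hYM : u ^ (y.1 : ℕ) * u1 ^ (y.2.1 : ℕ) * w ^ (y.2.2 : ℕ) ∈ M24 :=
      mul_mem (mul_mem (pow_mem hu _) (pow_mem hu1 _)) (pow_mem T.wM _)
    have hXz : ∀ t : Fin 3 × Fin 3 × Fin 3,
        Commute (u ^ (t.1 : ℕ) * u1 ^ (t.2.1 : ℕ) * w ^ (t.2.2 : ℕ)) z := fun t =>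
      ((huz.pow_left _).mul_left (hu1z.pow_left _)).mul_left (hzw.symm.pow_left _)
    have hXw : ∀ t : Fin 3 × Fin 3 × Fin 3,
        Commute (u ^ (t.1 : ℕ) * u1 ^ (t.2.1 : ℕ) * w ^ (t.2.2 : ℕ)) w := fun t =>
      ((huw.pow_left _).mul_left (hu1w.pow_left _)).mul_left ((Commute.refl w).pow_left _)
    generalize hX : u ^ (x.1 : ℕ) * u1 ^ (x.2.1 : ℕ) * w ^ (x.2.2 : ℕ) = X at hfxy hXM
    generalize hY : u ^ (y.1 : ℕ) * u1 ^ (y.2.1 : ℕ) * w ^ (y.2.2 : ℕ) = Y at hfxy hYM
    have hXz' : Commute X z := hX ▸ hXz x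
    have hYz' : Commute Y z := hY ▸ hXz y
    have hXw' : Commute X w := hX ▸ hXw x
    have hYw' : Commute Y w := hY ▸ hXw y
    have hgq : (Y⁻¹ * X) q = q := by
      rw [Equiv.Perm.mul_apply, hfxy, Equiv.Perm.inv_def, Equiv.symm_apply_apply]
    have hgz : Commute (Y⁻¹ * X) z := hYz'.inv_left.mul_left hXz'
    have hgw : Commute (Y⁻¹ * X) w := hYw'.inv_left.mul_left hXw'
    have hg1 : Y⁻¹ * X ≠ 1 := by
      intro h
      have hXY : X = Y := (inv_mul_eq_one.mp h).symm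
      rw [← hX, ← hY] at hXY
      apply hxy
      have hXa : ∀ t : Fin 3 × Fin 3 × Fin 3,
          (u ^ (t.1 : ℕ) * u1 ^ (t.2.1 : ℕ) * w ^ (t.2.2 : ℕ)) a = (u ^ (t.1 : ℕ)) a := by
        intro t
        rw [Equiv.Perm.mul_apply, Equiv.Perm.mul_apply, hwfix _ _ ha,
          Equiv.Perm.pow_apply_eq_self_of_apply_eq_self hu1a]
      have h1 : x.1 = y.1 := by
        have e : (u ^ (x.1 : ℕ)) a = (u ^ (y.1 : ℕ)) a := by
          rw [← hXa x, ← hXa y]
          exact congrArg (fun f : Equiv.Perm GolayPt => f a) hXY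
        rw [pow_fin3_apply hua huza, pow_fin3_apply hua huza] at e
        exact three_vals9 (T.z0 a).symm (apply2_ne T.z3 T.z0 a).symm (T.z0 (z a)).symm _ _ e
      have hXY2 : u1 ^ (x.2.1 : ℕ) * w ^ (x.2.2 : ℕ) = u1 ^ (y.2.1 : ℕ) * w ^ (y.2.2 : ℕ) := by
        have e := hXY
        rw [h1, mul_assoc, mul_assoc] at e
        exact mul_left_cancel e
      have h2 : x.2.1 = y.2.1 := by
        have e : (u1 ^ (x.2.1 : ℕ)) c = (u1 ^ (y.2.1 : ℕ)) c := by
          have e' := congrArg (fun f : Equiv.Perm GolayPt => f c) hXY2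
          simp only [Equiv.Perm.mul_apply] at e'
          rwa [hwfix _ _ hcE, hwfix _ _ hcE] at e'
        rw [pow_fin3_apply hu1c hu1zc, pow_fin3_apply hu1c hu1zc] at e
        exact three_vals9 (T.z0 c).symm (apply2_ne T.z3 T.z0 c).symm (T.z0 (z c)).symm _ _ e
      have h3 : x.2.2 = y.2.2 := by
        rw [h2] at hXY2
        exact pow_inj_fin3 hw3 T.w1 _ _ (mul_left_cancel hXY2)
      exact Prod.ext h1 (Prod.ext h2 h3)
    have hinj : Function.Injective
        (fun t : Fin 3 × Fin 3 => (z ^ (t.1 : ℕ) * w ^ (t.2 : ℕ)) q) := by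
      intro s t hst
      simp only at hst
      by_contra hne
      by_cases hm : s.1 = t.1
      · rw [hm, Equiv.Perm.mul_apply, Equiv.Perm.mul_apply] at hst
        have hst' := (z ^ (t.1 : ℕ)).injective hst
        have hv : ((w ^ (t.2 : ℕ))⁻¹ * w ^ (s.2 : ℕ)) q = q := by
          rw [Equiv.Perm.mul_apply, hst', Equiv.Perm.inv_def, Equiv.symm_apply_apply]
        have hv1 := T.out _ (mul_mem (inv_mem (pow_mem T.wE _)) (pow_mem T.wE _)) q hq hv
        have hn : s.2 = t.2 := (pow_inj_fin3 hw3 T.w1 _ _ (inv_mul_eq_one.mp hv1)).symm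
        exact hne (Prod.ext hm hn)
      · rcases pow_fin3_cases hz3 s.1 t.1 hm with h | h
        · rw [h, mul_assoc, Equiv.Perm.mul_apply, Equiv.Perm.mul_apply (z ^ (s.1 : ℕ))] at hst
          have hst' := (z ^ (s.1 : ℕ)).injective hst
          apply hcon ((w ^ (s.2 : ℕ))⁻¹ * w ^ (t.2 : ℕ))
            (mul_mem (inv_mem (pow_mem T.wE _)) (pow_mem T.wE _))
          have hc : Commute z (w ^ (s.2 : ℕ))⁻¹ := (hzw.pow_right _).inv_right
          rw [← mul_assoc, hc.eq, mul_assoc, Equiv.Perm.mul_apply, ← hst', Equiv.Perm.inv_def,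
            Equiv.symm_apply_apply]
        · rw [h, mul_assoc, Equiv.Perm.mul_apply, Equiv.Perm.mul_apply (z ^ (t.1 : ℕ))] at hst
          have hst' := (z ^ (t.1 : ℕ)).injective hst
          apply hcon ((w ^ (t.2 : ℕ))⁻¹ * w ^ (s.2 : ℕ))
            (mul_mem (inv_mem (pow_mem T.wE _)) (pow_mem T.wE _))
          have hc : Commute z (w ^ (t.2 : ℕ))⁻¹ := (hzw.pow_right _).inv_right
          rw [← mul_assoc, hc.eq, mul_assoc, Equiv.Perm.mul_apply, hst', Equiv.Perm.inv_def,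
            Equiv.symm_apply_apply]
    have h9 : 9 ≤ (Finset.univ.image
        (fun t : Fin 3 × Fin 3 => (z ^ (t.1 : ℕ) * w ^ (t.2 : ℕ)) q)).card := by
      rw [Finset.card_image_of_injective _ hinj]
      simp
    apply hg1
    apply nine_fixed (mul_mem (inv_mem hYM) hXM) _ _ h9
    intro p hp
    obtain ⟨t, -, rfl⟩ := Finset.mem_image.mp hp
    have hc : Commute (Y⁻¹ * X) (z ^ (t.1 : ℕ) * w ^ (t.2 : ℕ)) :=
      (hgz.pow_right _).mul_right (hgw.pow_right _)
    rw [← Equiv.Perm.mul_apply, hc.eq, Equiv.Perm.mul_apply, hgq]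
  have hcover : ∀ q, q ∉ E → (z * w) q = q ∨ (z * w ^ 2) q = q := by
    intro q hq
    by_contra hcon
    rw [not_or] at hcon
    apply hzv q hq
    intro v hv
    rcases T.cases hv with rfl | rfl | rfl
    · rw [mul_one]
      exact T.z0 q
    · exact hcon.1
    · exact hcon.2
  have hsub : Eᶜ ⊆ (Eᶜ.filter (fun q => (z * w) q = q)) ∪
      (Eᶜ.filter (fun q => (z * w ^ 2) q = q)) := by
    intro q hq
    rw [Finset.mem_union, Finset.mem_filter, Finset.mem_filter]
    rcases hcover q (Finset.mem_compl.mp hq) with h | h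
    · exact Or.inl ⟨hq, h⟩
    · exact Or.inr ⟨hq, h⟩
  have hle := (Finset.card_le_card hsub).trans (Finset.card_union_le _ _)
  rw [Finset.card_compl, card_golayPt, T.Ecard] at hle
  have hza : ∀ v ∈ fixGrp E, z * v ≠ 1 := by
    intro v hv h
    have h' := congrArg (fun f : Equiv.Perm GolayPt => f a) h
    simp only [Equiv.Perm.mul_apply, Equiv.Perm.one_apply] at h'
    rw [((mem_fixGrp _ _).mp hv).2 a ha] at h'
    exact T.z0 a h'
  have hor : 9 ≤ (Eᶜ.filter (fun q => (z * w) q = q)).card ∨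
      9 ≤ (Eᶜ.filter (fun q => (z * w ^ 2) q = q)).card := by omega
  rcases hor with h | h
  · exact hza w T.wE
      (nine_fixed (mul_mem T.zM T.wM) _ (fun p hp => (Finset.mem_filter.mp hp).2) h)
  · exact hza (w ^ 2) (pow_mem T.wE 2)
      (nine_fixed (mul_mem T.zM (pow_mem T.wM 2)) _ (fun p hp => (Finset.mem_filter.mp hp).2) h)

/-- All elements of `M24` acting on `E` as `z` does are conjugate to `z`. -/
theorem Three9.conj_of_agree {z w : Equiv.Perm GolayPt} {E : Finset GolayPt} (T : Three9 z w E)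
    (hk : (∃ k ∈ M24, k * z * k⁻¹ = z * w) ∧ (∃ k ∈ M24, k * z * k⁻¹ = z * w ^ 2))
    {z' : Equiv.Perm GolayPt} (hz' : z' ∈ M24) (hag : ∀ p ∈ E, z' p = z p) :
    ∃ k ∈ M24, k * z * k⁻¹ = z' := by
  have hd : z⁻¹ * z' ∈ fixGrp E := by
    rw [mem_fixGrp]
    refine ⟨mul_mem (inv_mem T.zM) hz', fun p hp => ?_⟩
    rw [Equiv.Perm.mul_apply, hag p hp, Equiv.Perm.inv_def, Equiv.symm_apply_apply]
  have e : z' = z * (z⁻¹ * z') := by rw [mul_inv_cancel_left]
  rcases T.cases hd with h | h | h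
  · refine ⟨1, one_mem _, ?_⟩
    rw [e, h]
    simp
  · rw [e, h]
    exact hk.1
  · rw [e, h]
    exact hk.2

end Cfsg.Agent.Helper9
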