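import Mathlib
import Cfsg.Agent.Helper9.M24Three

set_option autoImplicit false

namespace Cfsg.Agent.Helper9

open Cfsg Cfsg.Agent.Helper1.Golay
open scoped Pointwise

theorem pow4_cycle {g : Equiv.Perm GolayPt} {x y t : GolayPt} (h1 : g x = y) (h2 : g y = t)
    (h3 : g t = x) : (g ^ 4) x = y := by
  have e : g ^ 4 = g * g * g * g := by
    rw [pow_succ, pow_succ, pow_two]
  rw [e, Equiv.Perm.mul_apply, Equiv.Perm.mul_apply, Equiv.Perm.mul_apply, h1, h2, h3, h1]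

theorem mem_hex9 (z : Equiv.Perm GolayPt) (a c p : GolayPt) :
    p ∈ insert (z (z c)) ([a, z a, z (z a), c, z c].toFinset) ↔
      p = z (z c) ∨ p = a ∨ p = z a ∨ p = z (z a) ∨ p = c ∨ p = z c := by
  simp only [List.toFinset_cons, List.toFinset_nil, Finset.mem_insert, insert_empty_eq,
    Finset.mem_singleton]

/-- Every element of `M24` acting on two cycles of a fixed-point-free element `z` of order
three as `z` does is conjugate to `z`. -/
theorem fpf3_conj_of_agree {z : Equiv.Perm GolayPt} (hz : z ∈ M24) (h3 : z ^ 3 = 1)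
    (h0 : ∀ p, z p ≠ p) {a c : GolayPt} (hca : c ≠ a) (hcza : c ≠ z a) (hczza : c ≠ z (z a))
    {z' : Equiv.Perm GolayPt} (hz' : z' ∈ M24) (ha : z' a = z a) (hza : z' (z a) = z (z a))
    (hzza : z' (z (z a)) = a) (hc : z' c = z c) (hzc : z' (z c) = z (z c))
    (hzzc : z' (z (z c)) = c) : ∃ k ∈ M24, k * z * k⁻¹ = z' := by
  classical
  obtain ⟨O, hO, hnd, haO, hzaO, hzzaO, hcO, hzcO, hzzcO⟩ := umbral6 hz h3 h0 hca hcza hczza
  have hzca : z c ≠ a := by
    intro h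
    apply hczza
    rw [← h, apply3 h3]
  have hzcza : z c ≠ z a := fun h => hca (z.injective h)
  have hzczza : z c ≠ z (z a) := fun h => hcza (z.injective h)
  obtain ⟨O', hO', hnd', haO', hzaO', hzzaO', hzcO', hzzcO', hcO'⟩ :=
    umbral6 hz h3 h0 hzca hzcza hzczza
  rw [apply3 h3] at hcO'
  have hF5 : ([a, z a, z (z a), c, z c].toFinset).card = 5 := by
    rw [List.toFinset_card_of_nodup hnd]
    rfl
  have hFO : [a, z a, z (z a), c, z c].toFinset ⊆ O := by
    intro x hx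
    simp only [List.toFinset_cons, List.toFinset_nil, Finset.mem_insert, insert_empty_eq,
      Finset.mem_singleton] at hx
    rcases hx with rfl | rfl | rfl | rfl | rfl <;> assumption
  have hqF : z (z c) ∉ [a, z a, z (z a), c, z c].toFinset := fun h => hzzcO (hFO h)
  have hcard := card_fixGrp_six_out hO hFO hF5 hzzcO
  have hnt : Nontrivial ↥(fixGrp (insert (z (z c)) ([a, z a, z (z a), c, z c].toFinset))) := by
    rw [← Finite.one_lt_card_iff_nontrivial, hcard]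
    norm_num
  obtain ⟨⟨w, hw⟩, hw1⟩ :=
    exists_ne (1 : ↥(fixGrp (insert (z (z c)) ([a, z a, z (z a), c, z c].toFinset))))
  have hw1' : w ≠ 1 := fun h => hw1 (Subtype.ext h)
  have hmem := mem_hex9 z a c
  have T : Three9 z w (insert (z (z c)) ([a, z a, z (z a), c, z c].toFinset)) :=
    { zM := hz
      z3 := h3
      z0 := h0
      zE := by
        intro p hp
        rw [hmem] at hp ⊢
        rcases hp with rfl | rfl | rfl | rfl | rfl | rfl
        · rw [apply3 h3]; simp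
        · simp
        · simp
        · rw [apply3 h3]; simp
        · simp
        · simp
      card := hcard
      wE := hw
      w1 := hw1'
      out := fun g hg r hr hgr => fixGrp_out_eq_one hO hFO hF5 hzzcO hg hr hgr
      Ecard := by rw [Finset.card_insert_of_notMem hqF, hF5] }
  have haE : a ∈ insert (z (z c)) ([a, z a, z (z a), c, z c].toFinset) := by
    rw [hmem]; simp
  have hcE : c ∈ insert (z (z c)) ([a, z a, z (z a), c, z c].toFinset) := by
    rw [hmem]; simp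
  -- the element acting as the first 3-cycle
  have hnd1 : [z a, z (z a), a, c, z c].Nodup :=
    nodup5 (h0 (z a)).symm (h0 a) hcza.symm hzcza.symm (apply2_ne h3 h0 a) hczza.symm
      hzczza.symm hca.symm hzca.symm (h0 c).symm
  obtain ⟨u0, hu0, e1, e2, e3, e4, e5, e6⟩ := m24_out_trans hO hO hnd hnd1 haO hzaO hzzaO hcO
    hzcO hzzcO hzaO hzzaO haO hcO hzcO hzzcO
  obtain ⟨v0, hv0, f1, f2, f3, f4, f5, f6⟩ := m24_out_trans hO hO' hnd hnd' haO hzaO hzzaO hcO
    hzcO hzzcO haO' hzaO' hzzaO' hzcO' hzzcO' hcO'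
  have hu0E : ∀ p ∈ insert (z (z c)) ([a, z a, z (z a), c, z c].toFinset),
      u0 p ∈ insert (z (z c)) ([a, z a, z (z a), c, z c].toFinset) := by
    intro p hp
    rw [hmem] at hp ⊢
    rcases hp with rfl | rfl | rfl | rfl | rfl | rfl
    · rw [e6]; simp
    · rw [e1]; simp
    · rw [e2]; simp
    · rw [e3]; simp
    · rw [e4]; simp
    · rw [e5]; simp
  have hv0E : ∀ p ∈ insert (z (z c)) ([a, z a, z (z a), c, z c].toFinset),
      v0 p ∈ insert (z (z c)) ([a, z a, z (z a), c, z c].toFinset) := by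
    intro p hp
    rw [hmem] at hp ⊢
    rcases hp with rfl | rfl | rfl | rfl | rfl | rfl
    · rw [f6]; simp
    · rw [f1]; simp
    · rw [f2]; simp
    · rw [f3]; simp
    · rw [f4]; simp
    · rw [f5]; simp
  have hp4 : ∀ g : Equiv.Perm GolayPt, (g ^ 2) ^ 2 = g ^ 4 := fun g => by rw [← pow_mul]
  have huw : Commute (u0 ^ 4) w := by
    rw [← hp4]
    exact (T.sq_comm hu0 hu0E).pow_left 2
  have hvw : Commute (v0 ^ 4) w := by
    rw [← hp4]
    exact (T.sq_comm hv0 hv0E).pow_left 2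
  -- values of the fourth powers
  have ua : (u0 ^ 4) a = z a := pow4_cycle e1 e2 e3
  have uza : (u0 ^ 4) (z a) = z (z a) := pow4_cycle e2 e3 e1
  have uzza : (u0 ^ 4) (z (z a)) = a := pow4_cycle e3 e1 e2
  have uc : (u0 ^ 4) c = c := Equiv.Perm.pow_apply_eq_self_of_apply_eq_self e4 4
  have uzc : (u0 ^ 4) (z c) = z c := Equiv.Perm.pow_apply_eq_self_of_apply_eq_self e5 4
  have uzzc : (u0 ^ 4) (z (z c)) = z (z c) := Equiv.Perm.pow_apply_eq_self_of_apply_eq_self e6 4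
  have va : (v0 ^ 4) a = a := Equiv.Perm.pow_apply_eq_self_of_apply_eq_self f1 4
  have vza : (v0 ^ 4) (z a) = z a := Equiv.Perm.pow_apply_eq_self_of_apply_eq_self f2 4
  have vzza : (v0 ^ 4) (z (z a)) = z (z a) := Equiv.Perm.pow_apply_eq_self_of_apply_eq_self f3 4
  have vc : (v0 ^ 4) c = z c := pow4_cycle f4 f5 f6
  have vzc : (v0 ^ 4) (z c) = z (z c) := pow4_cycle f5 f6 f4
  have vzzc : (v0 ^ 4) (z (z c)) = c := pow4_cycle f6 f4 f5
  have huE : ∀ p ∈ insert (z (z c)) ([a, z a, z (z a), c, z c].toFinset),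
      (u0 ^ 4) p ∈ insert (z (z c)) ([a, z a, z (z a), c, z c].toFinset) := by
    intro p hp
    rw [hmem] at hp ⊢
    rcases hp with rfl | rfl | rfl | rfl | rfl | rfl
    · rw [uzzc]; simp
    · rw [ua]; simp
    · rw [uza]; simp
    · rw [uzza]; simp
    · rw [uc]; simp
    · rw [uzc]; simp
  have hvE : ∀ p ∈ insert (z (z c)) ([a, z a, z (z a), c, z c].toFinset),
      (v0 ^ 4) p ∈ insert (z (z c)) ([a, z a, z (z a), c, z c].toFinset) := by
    intro p hp
    rw [hmem] at hp ⊢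
    rcases hp with rfl | rfl | rfl | rfl | rfl | rfl
    · rw [vzzc]; simp
    · rw [va]; simp
    · rw [vza]; simp
    · rw [vzza]; simp
    · rw [vc]; simp
    · rw [vzc]; simp
  have huz : ∀ p ∈ insert (z (z c)) ([a, z a, z (z a), c, z c].toFinset),
      (u0 ^ 4) (z p) = z ((u0 ^ 4) p) := by
    intro p hp
    rw [hmem] at hp
    rcases hp with rfl | rfl | rfl | rfl | rfl | rfl
    · rw [apply3 h3, uc, uzzc, apply3 h3]
    · rw [ua, uza]
    · rw [uza, uzza, apply3 h3]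
    · rw [apply3 h3, ua, uzza]
    · rw [uc, uzc]
    · rw [uzc, uzzc]
  have hvz : ∀ p ∈ insert (z (z c)) ([a, z a, z (z a), c, z c].toFinset),
      (v0 ^ 4) (z p) = z ((v0 ^ 4) p) := by
    intro p hp
    rw [hmem] at hp
    rcases hp with rfl | rfl | rfl | rfl | rfl | rfl
    · rw [apply3 h3, vc, vzzc]
    · rw [va, vza]
    · rw [vza, vzza]
    · rw [apply3 h3, va, vzza, apply3 h3]
    · rw [vc, vzc]
    · rw [vzc, vzzc, apply3 h3]
  have hag : ∀ p ∈ insert (z (z c)) ([a, z a, z (z a), c, z c].toFinset), z' p = z p := by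
    intro p hp
    rw [hmem] at hp
    rcases hp with rfl | rfl | rfl | rfl | rfl | rfl
    · rw [hzzc, apply3 h3]
    · exact ha
    · exact hza
    · rw [hzza, apply3 h3]
    · exact hc
    · exact hzc
  have hu4 : u0 ^ 4 ∈ M24 := pow_mem hu0 4
  have hv4 : v0 ^ 4 ∈ M24 := pow_mem hv0 4
  by_cases hcu : u0 ^ 4 * z = z * u0 ^ 4
  · by_cases hcv : v0 ^ 4 * z = z * v0 ^ 4
    · exact absurd (T.noncomm haE hcE hu4 hv4 huE hvE huw hvw ua uza va vc vzc hcu hcv) id
    · exact T.conj_of_agree (T.conj_of_noncomm hv4 hvE hvz hvw hcv) hz' hag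
  · exact T.conj_of_agree (T.conj_of_noncomm hu4 huE huz huw hcu) hz' hag

/-- Two fixed-point-free elements of order three of `M24` are conjugate in `M24`. -/
theorem conj_fpf3 {z1 z2 : Equiv.Perm GolayPt} (hz1 : z1 ∈ M24) (hz2 : z2 ∈ M24)
    (h31 : z1 ^ 3 = 1) (h32 : z2 ^ 3 = 1) (h01 : ∀ p, z1 p ≠ p) (h02 : ∀ p, z2 p ≠ p) :
    ∃ k ∈ M24, k * z1 * k⁻¹ = z2 := by
  classical
  have hex : ∀ z : Equiv.Perm GolayPt, ∃ a c : GolayPt, c ≠ a ∧ c ≠ z a ∧ c ≠ z (z a) := by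
    intro z
    refine ⟨none, ?_⟩
    have hne : (Finset.univ \ {none, z none, z (z none)} : Finset GolayPt).Nonempty := by
      rw [← Finset.card_pos]
      have h1 := Finset.le_card_sdiff ({none, z none, z (z none)} : Finset GolayPt) Finset.univ
      have h3 : ({none, z none, z (z none)} : Finset GolayPt).card ≤ 3 := Finset.card_le_three
      rw [Finset.card_univ, card_golayPt] at h1
      omega
    obtain ⟨c, hc⟩ := hne
    simp only [Finset.mem_sdiff, Finset.mem_univ, true_and, Finset.mem_insert,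
      Finset.mem_singleton, not_or] at hc
    exact ⟨c, hc.1, hc.2.1, hc.2.2⟩
  obtain ⟨a1, c1, g1, g2, g3⟩ := hex z1
  obtain ⟨a2, c2, g1', g2', g3'⟩ := hex z2
  obtain ⟨O1, hO1, hnd1, m1, m2, m3, m4, m5, m6⟩ := umbral6 hz1 h31 h01 g1 g2 g3
  obtain ⟨O2, hO2, hnd2, n1, n2, n3, n4, n5, n6⟩ := umbral6 hz2 h32 h02 g1' g2' g3'
  obtain ⟨σ, hσ, s1, s2, s3, s4, s5, s6⟩ :=
    m24_out_trans hO1 hO2 hnd1 hnd2 m1 m2 m3 m4 m5 m6 n1 n2 n3 n4 n5 n6
  have hinv : ∀ x y : GolayPt, σ x = y → σ⁻¹ y = x := by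
    intro x y hxy
    rw [Equiv.Perm.inv_def, Equiv.symm_apply_eq, hxy]
  have hz' : σ * z1 * σ⁻¹ ∈ M24 := mul_mem (mul_mem hσ hz1) (inv_mem hσ)
  obtain ⟨k, hk, hkc⟩ := fpf3_conj_of_agree hz2 h32 h02 g1' g2' g3' hz'
    (by rw [Equiv.Perm.mul_apply, Equiv.Perm.mul_apply, hinv _ _ s1, s2])
    (by rw [Equiv.Perm.mul_apply, Equiv.Perm.mul_apply, hinv _ _ s2, s3])
    (by rw [Equiv.Perm.mul_apply, Equiv.Perm.mul_apply, hinv _ _ s3, apply3 h31, s1])
    (by rw [Equiv.Perm.mul_apply, Equiv.Perm.mul_apply, hinv _ _ s4, s5])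
    (by rw [Equiv.Perm.mul_apply, Equiv.Perm.mul_apply, hinv _ _ s5, s6])
    (by rw [Equiv.Perm.mul_apply, Equiv.Perm.mul_apply, hinv _ _ s6, apply3 h31, s4])
  refine ⟨k⁻¹ * σ, mul_mem (inv_mem hk) hσ, ?_⟩
  have e1 : k⁻¹ * σ * z1 * (k⁻¹ * σ)⁻¹ = k⁻¹ * (σ * z1 * σ⁻¹) * k := by
    simp only [mul_inv_rev, inv_inv, mul_assoc]
  rw [e1, ← hkc]
  simp only [mul_assoc, inv_mul_cancel_left, inv_mul_cancel, mul_one]

theorem exists_list5 {α : Type*} [DecidableEq α] (F : Finset α) (h : F.card = 5) :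
    ∃ a b c d e : α, [a, b, c, d, e].Nodup ∧ F = [a, b, c, d, e].toFinset := by
  have hnd := F.nodup_toList
  have hlen : F.toList.length = 5 := by rw [Finset.length_toList, h]
  have hF : F = F.toList.toFinset := (Finset.toList_toFinset F).symm
  generalize F.toList = l at hnd hlen hF
  rcases l with _ | ⟨a, _ | ⟨b, _ | ⟨c, _ | ⟨d, _ | ⟨e, _ | ⟨f, l⟩⟩⟩⟩⟩⟩ <;>
    simp only [List.length_cons, List.length_nil] at hlen <;> try omega
  exact ⟨a, b, c, d, e, hnd, hF⟩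

/-- The fixed points of an element of order three of `M24` with six fixed points: five of them
lie in an octad not containing the sixth. -/
theorem six_fixed_struct {x : Equiv.Perm GolayPt} (hx : x ∈ M24) (h3 : x ^ 3 = 1) (h1 : x ≠ 1)
    (h6 : (Finset.univ.filter fun p => x p = p).card = 6) :
    ∃ (O : Finset GolayPt) (a b c d e q : GolayPt), O ∈ octads ∧ [a, b, c, d, e].Nodup ∧
      a ∈ O ∧ b ∈ O ∧ c ∈ O ∧ d ∈ O ∧ e ∈ O ∧ q ∉ O ∧ x a = a ∧ x b = b ∧ x c = c ∧ x d = d ∧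
      x e = e ∧ x q = q := by
  classical
  obtain ⟨F, hFsub, hF5⟩ := Finset.exists_subset_card_eq
    (show 5 ≤ (Finset.univ.filter fun p => x p = p).card by omega)
  obtain ⟨O, ⟨hO, hFO⟩, -⟩ := octads_steiner.2 F hF5
  obtain ⟨q, hq⟩ : ((Finset.univ.filter fun p => x p = p) \ F).Nonempty := by
    rw [← Finset.card_pos, Finset.card_sdiff_of_subset hFsub]
    omega
  rw [Finset.mem_sdiff] at hq
  have hxfix : ∀ p ∈ (Finset.univ.filter fun p => x p = p), x p = p :=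
    fun p hp => (Finset.mem_filter.mp hp).2
  have hqO : q ∉ O := by
    intro hqO
    have hmem : x ∈ fixGrp (insert q F) := by
      rw [mem_fixGrp]
      refine ⟨hx, fun p hp => ?_⟩
      rcases Finset.mem_insert.mp hp with rfl | hp
      · exact hxfix _ hq.1
      · exact hxfix _ (hFsub hp)
    have hc := card_fixGrp_six_in hO hFO hF5 hqO hq.2
    have h16 : (⟨x, hmem⟩ : ↥(fixGrp (insert q F))) ^ 16 = 1 := by
      rw [← hc]
      exact pow_card_eq_one'
    have h16' : x ^ 16 = 1 := congrArg Subtype.val h16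
    apply h1
    have e : x ^ 16 = (x ^ 3) ^ 5 * x := by rw [← pow_mul, ← pow_succ]
    rw [h3, one_pow, one_mul] at e
    rw [← e, h16']
  obtain ⟨a, b, c, d, e, hnd, hFeq⟩ := exists_list5 F hF5
  have hmemF : ∀ y ∈ [a, b, c, d, e], y ∈ F := fun y hy => by
    rw [hFeq]
    exact List.mem_toFinset.mpr hy
  exact ⟨O, a, b, c, d, e, q, hO, hnd, hFO (hmemF a (by simp)), hFO (hmemF b (by simp)),
    hFO (hmemF c (by simp)), hFO (hmemF d (by simp)), hFO (hmemF e (by simp)), hqO,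
    hxfix _ (hFsub (hmemF a (by simp))), hxfix _ (hFsub (hmemF b (by simp))),
    hxfix _ (hFsub (hmemF c (by simp))), hxfix _ (hFsub (hmemF d (by simp))),
    hxfix _ (hFsub (hmemF e (by simp))), hxfix _ hq.1⟩

/-- Two elements of order three of `M24` with six fixed points generate conjugate subgroups. -/
theorem conj_six3 {x y : Equiv.Perm GolayPt} (hx : x ∈ M24) (hy : y ∈ M24) (hx3 : x ^ 3 = 1)
    (hy3 : y ^ 3 = 1) (hx1 : x ≠ 1) (hy1 : y ≠ 1)
    (hx6 : (Finset.univ.filter fun p => x p = p).card = 6)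
    (hy6 : (Finset.univ.filter fun p => y p = p).card = 6) :
    ∃ k ∈ M24, k * x * k⁻¹ = y ∨ k * x * k⁻¹ = y ^ 2 := by
  classical
  obtain ⟨O, a, b, c, d, e, q, hO, hnd, ha, hb, hc, hd, he, hq, xa, xb, xc, xd, xe, xq⟩ :=
    six_fixed_struct hx hx3 hx1 hx6
  obtain ⟨O', a', b', c', d', e', q', hO', hnd', ha', hb', hc', hd', he', hq', ya, yb, yc, yd,
    ye, yq⟩ := six_fixed_struct hy hy3 hy1 hy6
  obtain ⟨σ, hσ, s1, s2, s3, s4, s5, s6⟩ :=
    m24_out_trans hO hO' hnd hnd' ha hb hc hd he hq ha' hb' hc' hd' he' hq'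
  have hinv : ∀ p r : GolayPt, σ p = r → σ⁻¹ r = p := by
    intro p r hpr
    rw [Equiv.Perm.inv_def, Equiv.symm_apply_eq, hpr]
  have hF5 : ([a', b', c', d', e'].toFinset).card = 5 := by
    rw [List.toFinset_card_of_nodup hnd']
    rfl
  have hFO : [a', b', c', d', e'].toFinset ⊆ O' := by
    intro p hp
    simp only [List.toFinset_cons, List.toFinset_nil, Finset.mem_insert, insert_empty_eq,
      Finset.mem_singleton] at hp
    rcases hp with rfl | rfl | rfl | rfl | rfl <;> assumption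
  have hcard := card_fixGrp_six_out hO' hFO hF5 hq'
  have hymem : y ∈ fixGrp (insert q' ([a', b', c', d', e'].toFinset)) := by
    rw [mem_fixGrp]
    refine ⟨hy, fun p hp => ?_⟩
    simp only [List.toFinset_cons, List.toFinset_nil, Finset.mem_insert, insert_empty_eq,
      Finset.mem_singleton] at hp
    rcases hp with rfl | rfl | rfl | rfl | rfl | rfl <;> assumption
  have hxmem : σ * x * σ⁻¹ ∈ fixGrp (insert q' ([a', b', c', d', e'].toFinset)) := by
    rw [mem_fixGrp]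
    refine ⟨mul_mem (mul_mem hσ hx) (inv_mem hσ), fun p hp => ?_⟩
    simp only [List.toFinset_cons, List.toFinset_nil, Finset.mem_insert, insert_empty_eq,
      Finset.mem_singleton] at hp
    rcases hp with rfl | rfl | rfl | rfl | rfl | rfl
    · rw [Equiv.Perm.mul_apply, Equiv.Perm.mul_apply, hinv _ _ s6, xq, s6]
    · rw [Equiv.Perm.mul_apply, Equiv.Perm.mul_apply, hinv _ _ s1, xa, s1]
    · rw [Equiv.Perm.mul_apply, Equiv.Perm.mul_apply, hinv _ _ s2, xb, s2]
    · rw [Equiv.Perm.mul_apply, Equiv.Perm.mul_apply, hinv _ _ s3, xc, s3]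
    · rw [Equiv.Perm.mul_apply, Equiv.Perm.mul_apply, hinv _ _ s4, xd, s4]
    · rw [Equiv.Perm.mul_apply, Equiv.Perm.mul_apply, hinv _ _ s5, xe, s5]
  refine ⟨σ, hσ, ?_⟩
  rcases fixGrp_three_cases hcard hymem hy1 hxmem with h | h | h
  · exfalso
    apply hx1
    have h' := congrArg (fun g => σ⁻¹ * g * σ) h
    simp only [mul_assoc, inv_mul_cancel, mul_one, inv_mul_cancel_left] at h'
    exact h'
  · exact Or.inl h
  · exact Or.inr h

theorem card3_cases {G : Type*} [Group G] (hcard : Nat.card G = 3) {w : G} (hw1 : w ≠ 1)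
    (x : G) : x = 1 ∨ x = w ∨ x = w ^ 2 := by
  have f3 : Fact (Nat.Prime 3) := ⟨by norm_num⟩
  have htop := zpowers_eq_top_of_prime_card hcard hw1
  have hmem : x ∈ Subgroup.zpowers w := by
    rw [htop]
    exact Subgroup.mem_top _
  obtain ⟨k, hk⟩ := Subgroup.mem_zpowers_iff.mp hmem
  have hw3 : w ^ 3 = 1 := by
    rw [← hcard]
    exact pow_card_eq_one'
  have hk' : w ^ (k % 3) = x := by
    rw [← hk]
    conv_rhs => rw [← Int.emod_add_mul_ediv k 3]
    rw [zpow_add, zpow_mul, zpow_ofNat, hw3, one_zpow, mul_one]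
  have h0 : 0 ≤ k % 3 := Int.emod_nonneg _ (by norm_num)
  have h3 : k % 3 < 3 := Int.emod_lt_of_pos _ (by norm_num)
  have hcases : k % 3 = 0 ∨ k % 3 = 1 ∨ k % 3 = 2 := by omega
  rcases hcases with h | h | h
  · left
    rw [h, zpow_zero] at hk'
    exact hk'.symm
  · right; left
    rw [h, zpow_one] at hk'
    exact hk'.symm
  · right; right
    rw [h] at hk'
    rw [← hk']
    exact zpow_ofNat w 2

/-- The elements of a subgroup of order three of `M24`. -/
theorem sub3_cases (X : Subgroup ↥M24) (hX : Nat.card X = 3) {x : ↥M24} (hxX : x ∈ X)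
    (hx1 : x ≠ 1) : ∀ y ∈ X, y = 1 ∨ y = x ∨ y = x ^ 2 := by
  intro y hy
  have hx1' : (⟨x, hxX⟩ : ↥X) ≠ 1 := fun h => hx1 (congrArg Subtype.val h)
  rcases card3_cases hX hx1' (⟨y, hy⟩ : ↥X) with h | h | h
  · exact Or.inl (congrArg Subtype.val h)
  · exact Or.inr (Or.inl (congrArg Subtype.val h))
  · exact Or.inr (Or.inr (congrArg Subtype.val h))

theorem sub3_fix (X : Subgroup ↥M24) {x : ↥M24} (hxX : x ∈ X)
    (hall : ∀ y ∈ X, y = 1 ∨ y = x ∨ y = x ^ 2) :
    {p : GolayPt | ∀ y ∈ X, ((y : ↥M24) : Equiv.Perm GolayPt) p = p}.ncard =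
      (Finset.univ.filter fun p => (x : Equiv.Perm GolayPt) p = p).card := by
  have e : {p : GolayPt | ∀ y ∈ X, ((y : ↥M24) : Equiv.Perm GolayPt) p = p} =
      ↑(Finset.univ.filter fun p => (x : Equiv.Perm GolayPt) p = p) := by
    ext p
    simp only [Set.mem_setOf_eq, Finset.coe_filter, Finset.mem_univ, true_and]
    constructor
    · intro h
      exact h x hxX
    · intro h y hy
      rcases hall y hy with rfl | rfl | rfl
      · rfl
      · exact h
      · rw [Subgroup.coe_pow, pow_two, Equiv.Perm.mul_apply, h, h]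
  rw [e, Set.ncard_coe_finset]

theorem sub3_exists (X : Subgroup ↥M24) (hX : Nat.card X = 3) :
    ∃ x : ↥M24, x ∈ X ∧ x ≠ 1 ∧ (x : Equiv.Perm GolayPt) ≠ 1 ∧
      (x : Equiv.Perm GolayPt) ^ 3 = 1 := by
  have hnt : Nontrivial ↥X := by
    rw [← Finite.one_lt_card_iff_nontrivial, hX]
    norm_num
  obtain ⟨⟨x, hxX⟩, hx1⟩ := exists_ne (1 : ↥X)
  have hx1' : x ≠ 1 := fun h => hx1 (Subtype.ext h)
  have hx3 : (⟨x, hxX⟩ : ↥X) ^ 3 = 1 := by
    rw [← hX]
    exact pow_card_eq_one'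
  have hx3' : x ^ 3 = 1 := congrArg Subtype.val hx3
  exact ⟨x, hxX, hx1', fun h => hx1' (Subtype.ext h), congrArg Subtype.val hx3'⟩

/-- Conjugacy of subgroups of order three from conjugacy of generators up to inversion. -/
theorem sub3_conj (X Y : Subgroup ↥M24) (hX : Nat.card X = 3) (hY : Nat.card Y = 3)
    {x y : ↥M24} (hxX : x ∈ X) (hx1 : x ≠ 1) (hyY : y ∈ Y) {k : Equiv.Perm GolayPt}
    (hk : k ∈ M24) (h : k * (x : Equiv.Perm GolayPt) * k⁻¹ = y ∨
      k * (x : Equiv.Perm GolayPt) * k⁻¹ = (y : Equiv.Perm GolayPt) ^ 2) :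
    ∃ k' : ↥M24, MulAut.conj k' • X = Y := by
  refine ⟨⟨k, hk⟩, ?_⟩
  have hconj : ∀ g : ↥M24, ((⟨k, hk⟩ : ↥M24) * g * (⟨k, hk⟩ : ↥M24)⁻¹ : ↥M24) =
      (⟨k * (g : Equiv.Perm GolayPt) * k⁻¹, mul_mem (mul_mem hk g.2) (inv_mem hk)⟩ : ↥M24) :=
    fun g => rfl
  have hx' : (⟨k, hk⟩ : ↥M24) * x * (⟨k, hk⟩ : ↥M24)⁻¹ = y ∨
      (⟨k, hk⟩ : ↥M24) * x * (⟨k, hk⟩ : ↥M24)⁻¹ = y ^ 2 := by
    rcases h with h | h
    · left
      exact Subtype.ext h
    · right
      exact Subtype.ext h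
  have hYx : (⟨k, hk⟩ : ↥M24) * x * (⟨k, hk⟩ : ↥M24)⁻¹ ∈ Y := by
    rcases hx' with h | h
    · rw [h]
      exact hyY
    · rw [h]
      exact pow_mem hyY 2
  apply Subgroup.eq_of_le_of_card_ge
  · intro g hg
    rw [Subgroup.mem_pointwise_smul_iff_inv_smul_mem] at hg
    have hg' : (⟨k, hk⟩ : ↥M24)⁻¹ * g * (⟨k, hk⟩ : ↥M24) ∈ X := by
      have e : (MulAut.conj (⟨k, hk⟩ : ↥M24))⁻¹ • g = (⟨k, hk⟩ : ↥M24)⁻¹ * g * (⟨k, hk⟩ : ↥M24) := by
        rw [MulAut.smul_def, ← map_inv, MulAut.conj_apply, inv_inv]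
      rwa [e] at hg
    have hgeq : g = (⟨k, hk⟩ : ↥M24) * ((⟨k, hk⟩ : ↥M24)⁻¹ * g * (⟨k, hk⟩ : ↥M24)) *
        (⟨k, hk⟩ : ↥M24)⁻¹ := by
      simp only [mul_assoc, mul_inv_cancel_left, mul_inv_cancel, mul_one]
    rw [hgeq]
    rcases sub3_cases X hX hxX hx1 _ hg' with h0 | h0 | h0
    · rw [h0, mul_one, mul_inv_cancel]
      exact one_mem _
    · rw [h0]
      exact hYx
    · rw [h0]
      have e : (⟨k, hk⟩ : ↥M24) * x ^ 2 * (⟨k, hk⟩ : ↥M24)⁻¹ =
          ((⟨k, hk⟩ : ↥M24) * x * (⟨k, hk⟩ : ↥M24)⁻¹) ^ 2 := by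
        rw [pow_two, pow_two]
        simp only [mul_assoc, inv_mul_cancel_left]
      rw [e]
      exact pow_mem hYx 2
  · rw [hY, ← hX]
    exact le_of_eq (Nat.card_congr (Subgroup.equivSMul (MulAut.conj (⟨k, hk⟩ : ↥M24)) X).toEquiv)

end Cfsg.Agent.Helper9
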