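import Mathlib
import Cfsg.Agent.Helper9.M24Pair
import Cfsg.Agent.Helper9.M24Sext3
import Cfsg.Agent.Helper9.M24Cls2A
import Cfsg.Agent.Helper9.M24Invol
import Cfsg.Agent.Helper1.GolayOrb3

set_option autoImplicit false
set_option maxRecDepth 100000

namespace Cfsg.Agent.Helper9

open Cfsg Cfsg.Agent.Helper1 Cfsg.Agent.Helper1.Golay
open scoped Pointwise

/-! ### The stabilizer of two disjoint octads is transitive on the octads disjoint from the
first and meeting the second in four points -/

/-- Generators of the stabilizer of the octads with coordinates 15 and 125. -/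
def wsPair : ℕ := 305368710612377718209740060435110819481

theorem gensPair : chkGens wsPair [15, 125] [] = true := by decide +kernel

/-- Orbit walk certificate. -/
def certPair : List ℕ := [4480, 4481, 37233, 24000, 24001, 56624, 56625, 46544, 19344, 13600, 52064, 26849, 9072, 9073, 41857, 65089, 32433, 61376, 61377, 28464, 28465, 56032, 56033, 23056, 23057, 52401, 19521]

/-- The orbit as a bit mask. -/
def maskPair : ℕ := 389065176774990747381664944984068666201757989739731479043043525593530874731283127931996645013131627394467164737091122278220058775789112320672709804035436817655183644813279581667118549532058145715610613807501479010782249610447741491628759725671055457809191083772738722814798262001956332329637801823943311687533104277941288905292831976457991323365414490398288526084752190254491095241272020713078827776155762811282388624821185867485108924898224794068255407970484681949602444734172184457792192172958206322992354203932278604320483941214361325425662627346865470208032702877869048386677324714782417083257658298904554394055112807668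9833826618799393358987033505825428013545667830081376860812838604634912113995416800340044283143277148761782428480818671621739672591285280929061824601275949859701249193505491577544865426386268800489187395466730248850352286038770068723157178208481124598788975749584531174740971210372180328607042281617956974550841685743069577835928695554309363752953964432863348030021476492751824383606363976500041543528412537559668529335178483967418355499544389358442312874302736067147137263263392968655208788549532942139711139871855626507958496859733682425235560198353807555544046301179565953487965837770592893272064000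

/-- The type of a coordinate relative to the two base octads. -/
def typPair (c : ℕ) : ℕ := popc (comb 15 &&& comb c) * 16 + popc (comb 125 &&& comb c)

theorem walkPair : [(4, 280, maskPair, certPair)].all
    (fun e => Nat.beq (orbWalk wsPair e.2.2.2 (1 <<< e.2.1)) e.2.2.1) = true := by
  decide +kernel

theorem coverPair : (List.range 4096).all (fun c => cond (Nat.beq (popc (comb c)) 8)
    ([(4, 280, maskPair, certPair)].all
      (fun e => cond (Nat.beq (typPair c) e.1) (e.2.2.1.testBit c) true)) true) = true := by
  decide +kernel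

theorem pair_base (c' c'' : ℕ) (hc' : c' < 4096) (hc'' : c'' < 4096)
    (hp' : popc (comb c') = 8) (hp'' : popc (comb c'') = 8) (h1 : typPair c' = 4)
    (h2 : typPair c'' = 4) : ReachIn (cfgStab [15, 125] []) c' c'' :=
  base_of_classes [15, 125] [] (by simp) wsPair 8 typPair [(4, 280, maskPair, certPair)]
    gensPair walkPair coverPair c' c'' hc' hc'' hp' hp'' (h1.trans h2.symm)
    ⟨_, List.mem_singleton.mpr rfl, h1⟩

theorem pair_facts : popc (comb 125) = 8 ∧ popc (comb 15 &&& comb 125) = 0 := by decide +kernel

theorem stab_two_octads_trans {o a b b' : Finset GolayPt} (ho : o ∈ octads) (ha : a ∈ octads)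
    (hb : b ∈ octads) (hb' : b' ∈ octads) (hoa : Disjoint o a) (hob : Disjoint o b)
    (hob' : Disjoint o b') (h4 : (a ∩ b).card = 4) (h4' : (a ∩ b').card = 4) :
    ∃ g ∈ M24, g • o = o ∧ g • a = a ∧ g • b = b' := by
  classical
  have hbase15 : sp 15 ∈ octads := baseOctad_mem
  have hbase125 : sp 125 ∈ octads :=
    ⟨⟨_, ofBits_comb_mem 125, rfl⟩, by
      rw [sp, card_support₂, hammingNorm_ofBits]
      exact pair_facts.1⟩
  have hdis0 : Disjoint (sp 15) (sp 125) := (disj_iff9 _ _).mpr pair_facts.2
  obtain ⟨t1, ht1⟩ := octads_transitive o (sp 15) ho hbase15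
  have ht1' : (t1 : Equiv.Perm GolayPt) • o = sp 15 := ht1
  obtain ⟨t2, ht2, ht2o, ht2a⟩ := stab_octad_trans_zero hbase15 (smul_octad_mem t1.2 ha)
    hbase125 (by rw [← ht1']; exact smul_disjoint9 _ hoa) hdis0
  obtain ⟨t, htdef⟩ : ∃ t, t = t2 * (t1 : Equiv.Perm GolayPt) := ⟨_, rfl⟩
  have ht : t ∈ M24 := by
    rw [htdef]
    exact mul_mem ht2 t1.2
  have hto : t • o = sp 15 := by rw [htdef, mul_smul, ht1', ht2o]
  have hta : t • a = sp 125 := by rw [htdef, mul_smul, ht2a]
  obtain ⟨c', hc', hp', e'⟩ := exists_index_of_mem (smul_octad_mem ht hb)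
  obtain ⟨c'', hc'', hp'', e''⟩ := exists_index_of_mem (smul_octad_mem ht hb')
  have hty : ∀ (x : Finset GolayPt) (c : ℕ), t • x = support₂ (ofBits (comb c)) → Disjoint o x →
      (a ∩ x).card = 4 → typPair c = 4 := by
    intro x c e hox h4x
    unfold typPair
    have e1 : popc (comb 15 &&& comb c) = 0 := by
      rw [← card_support_inter, ← e]
      show (sp 15 ∩ t • x).card = 0
      rw [← hto, ← Finset.smul_finset_inter, Finset.card_smul_finset, Finset.card_eq_zero,
        ← Finset.disjoint_iff_inter_eq_empty]
      exact hox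
    have e2 : popc (comb 125 &&& comb c) = 4 := by
      rw [← card_support_inter, ← e]
      show (sp 125 ∩ t • x).card = 4
      rw [← hta, ← Finset.smul_finset_inter, Finset.card_smul_finset]
      exact h4x
    rw [e1, e2]
  obtain ⟨g₁, hg₁, hg₁'⟩ := pair_base c' c'' hc' hc'' hp' hp'' (hty b c' e' hob h4)
    (hty b' c'' e'' hob' h4')
  rw [mem_cfgStab] at hg₁
  obtain ⟨hgM, hgc, -⟩ := hg₁
  have hg15 : g₁ • sp 15 = sp 15 := hgc 15 (by simp)
  have hg125 : g₁ • sp 125 = sp 125 := hgc 125 (by simp)
  refine ⟨t⁻¹ * g₁ * t, mul_mem (mul_mem (inv_mem ht) hgM) ht, ?_, ?_, ?_⟩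
  · rw [mul_smul, mul_smul, hto, hg15, ← hto, inv_smul_smul]
  · rw [mul_smul, mul_smul, hta, hg125, ← hta, inv_smul_smul]
  · rw [mul_smul, mul_smul, e', hg₁', ← e'', inv_smul_smul]

/-! ### The trios through an octad -/

theorem trio_other {T : Finset (Finset GolayPt)} (hT : T ∈ trios) {o : Finset GolayPt}
    (ho : o ∈ T) : ∃ a ∈ T, a ≠ o ∧ a ∈ octads ∧ Disjoint o a ∧ T = trioOf o a := by
  have hc : (T.erase o).card = 2 := by rw [Finset.card_erase_of_mem ho, hT.1]
  obtain ⟨a, ha⟩ : (T.erase o).Nonempty := by
    rw [← Finset.card_pos, hc]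
    norm_num
  rw [Finset.mem_erase] at ha
  exact ⟨a, ha.2, ha.1, hT.2.1 a ha.2, hT.2.2 o ho a ha.2 (Ne.symm ha.1),
    trio_eq hT ho ha.2 (Ne.symm ha.1)⟩

theorem trio_smul_eq {g : Equiv.Perm GolayPt} (hg : g ∈ M24) {T T' : Finset (Finset GolayPt)}
    (hT : T ∈ trios) (hT' : T' ∈ trios) {x y : Finset GolayPt} (hx : x ∈ T) (hy : y ∈ T)
    (hxy : x ≠ y) (hgx : g • x ∈ T') (hgy : g • y ∈ T') : g • T = T' := by
  have hne : g • x ≠ g • y := fun h => hxy (smul_left_cancel g h)
  exact (trio_eq (smul_trio_mem hg hT) (Finset.smul_mem_smul_finset hx)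
    (Finset.smul_mem_smul_finset hy) hne).trans (trio_eq hT' hgx hgy hne).symm

/-- An octad lies in exactly 15 trios. -/
theorem card_trios_through {o : Finset GolayPt} (ho : o ∈ octads) :
    {T : Finset (Finset GolayPt) | T ∈ trios ∧ o ∈ T}.ncard = 15 := by
  classical
  have h30 := Cfsg.Agent.S0354.result card_golayPt octads_steiner ho
  have e30 : {c : Finset GolayPt | c ∈ octads ∧ Disjoint o c}
      = ↑((blocks octads).filter (fun c => Disjoint o c)) := by
    ext c
    rw [Finset.mem_coe, Finset.mem_filter, mem_blocks]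
    rfl
  rw [e30, Set.ncard_coe_finset] at h30
  have eT : {T : Finset (Finset GolayPt) | T ∈ trios ∧ o ∈ T}
      = ↑((blocks trios).filter (fun T => o ∈ T)) := by
    ext T
    rw [Finset.mem_coe, Finset.mem_filter, mem_blocks]
    rfl
  rw [eT, Set.ncard_coe_finset]
  have hfib := Finset.card_eq_sum_card_fiberwise (s := (blocks octads).filter (fun c => Disjoint o c))
    (t := (blocks trios).filter (fun T => o ∈ T)) (f := fun a => trioOf o a) (fun a ha => by
      rw [Finset.mem_coe, Finset.mem_filter, mem_blocks] at ha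
      rw [Finset.mem_coe, Finset.mem_filter, mem_blocks]
      exact ⟨trioOf_mem ho ha.1 ha.2, mem_trioOf.mpr (Or.inl rfl)⟩)
  rw [h30, Finset.sum_const_nat (m := 2)] at hfib
  · omega
  · intro T hT
    rw [Finset.mem_filter, mem_blocks] at hT
    have hfe : ((blocks octads).filter (fun c => Disjoint o c)).filter (fun a => trioOf o a = T)
        = T.erase o := by
      ext a
      simp only [Finset.mem_filter, mem_blocks, Finset.mem_erase]
      constructor
      · rintro ⟨⟨ha, hd⟩, rfl⟩
        exact ⟨(octad_ne_of_disjoint ho hd).symm, mem_trioOf.mpr (Or.inr (Or.inl rfl))⟩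
      · rintro ⟨hne, haT⟩
        exact ⟨⟨hT.1.2.1 a haT, hT.1.2.2 o hT.2 a haT (Ne.symm hne)⟩,
          (trio_eq hT.1 hT.2 haT (Ne.symm hne)).symm⟩
    rw [hfe, Finset.card_erase_of_mem hT.2, hT.1.1]

/-- Two octads disjoint from `o` lying in different trios through `o` meet in four points. -/
theorem trio_pair_four {o a b : Finset GolayPt} (ho : o ∈ octads) (ha : a ∈ octads)
    (hb : b ∈ octads) (hoa : Disjoint o a) (hob : Disjoint o b)
    (hne : trioOf o a ≠ trioOf o b) : (a ∩ b).card = 4 := by
  have hab : a ≠ b := fun h => hne (by rw [h])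
  rcases octad_inter_cases ha hb hab with h | h | h
  · exfalso
    have hd : Disjoint a b := by
      rw [Finset.disjoint_iff_inter_eq_empty, ← Finset.card_eq_zero]
      exact h
    have hbe : b = (o ∪ a)ᶜ := compl_union_eq9 ho ha hb hoa hob.symm hd.symm
    have hT := trioOf_mem ho ha hoa
    have hbm : b ∈ trioOf o a := mem_trioOf.mpr (Or.inr (Or.inr hbe))
    exact hne (trio_eq hT (mem_trioOf.mpr (Or.inl rfl)) hbm (octad_ne_of_disjoint ho hob))
  · exact absurd (no_common_disjoint ha hb ho h hoa hob) id
  · exact h

/-- The stabilizer of an octad is doubly transitive on the trios through it. -/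
theorem trios_two_trans {o : Finset GolayPt} (ho : o ∈ octads)
    {T₁ T₂ T₁' T₂' : Finset (Finset GolayPt)} (h1 : T₁ ∈ trios) (h2 : T₂ ∈ trios)
    (h1' : T₁' ∈ trios) (h2' : T₂' ∈ trios) (o1 : o ∈ T₁) (o2 : o ∈ T₂) (o1' : o ∈ T₁')
    (o2' : o ∈ T₂') (hne : T₁ ≠ T₂) (hne' : T₁' ≠ T₂') :
    ∃ g ∈ M24, g • o = o ∧ g • T₁ = T₁' ∧ g • T₂ = T₂' := by
  obtain ⟨a, haT, hao, ha, hoa, eT1⟩ := trio_other h1 o1
  obtain ⟨b, hbT, hbo, hb, hob, eT2⟩ := trio_other h2 o2
  obtain ⟨a', haT', hao', ha', hoa', eT1'⟩ := trio_other h1' o1'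
  obtain ⟨b', hbT', hbo', hb', hob', eT2'⟩ := trio_other h2' o2'
  have h4 : (a ∩ b).card = 4 := trio_pair_four ho ha hb hoa hob (by rw [← eT1, ← eT2]; exact hne)
  have h4' : (a' ∩ b').card = 4 :=
    trio_pair_four ho ha' hb' hoa' hob' (by rw [← eT1', ← eT2']; exact hne')
  obtain ⟨g1, hg1, hg1o, hg1a⟩ := stab_octad_trans_zero ho ha ha' hoa hoa'
  have hb1 : g1 • b ∈ octads := smul_octad_mem hg1 hb
  have hob1 : Disjoint o (g1 • b) := by
    have := smul_disjoint9 g1 hob
    rw [hg1o] at this
    exact this
  have h41 : (a' ∩ g1 • b).card = 4 := by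
    rw [← hg1a, ← Finset.smul_finset_inter, Finset.card_smul_finset]
    exact h4
  obtain ⟨g2, hg2, hg2o, hg2a, hg2b⟩ := stab_two_octads_trans ho ha' hb1 hb' hoa' hob1 hob' h41 h4'
  have hg : g2 * g1 ∈ M24 := mul_mem hg2 hg1
  have hgo : (g2 * g1) • o = o := by rw [mul_smul, hg1o, hg2o]
  have hga : (g2 * g1) • a = a' := by rw [mul_smul, hg1a, hg2a]
  have hgb : (g2 * g1) • b = b' := by rw [mul_smul, hg2b]
  refine ⟨g2 * g1, hg, hgo, ?_, ?_⟩
  · exact trio_smul_eq hg h1 h1' o1 haT (Ne.symm hao) (by rw [hgo]; exact o1')
      (by rw [hga]; exact haT')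
  · exact trio_smul_eq hg h2 h2' o2 hbT (Ne.symm hbo) (by rw [hgo]; exact o2')
      (by rw [hgb]; exact hbT')

/-! ### The kernel of the action on the trios through an octad -/

theorem fix2A_eq : (Finset.univ.filter fun p => h2A p = p) = sp 3563 := by decide +kernel

theorem f2A : ∀ c < 4096, popc (comb c) = 8 → popc (comb 3563 &&& comb c) = 0 →
    V2A c = c ∨ popc (comb c &&& comb (V2A c)) = 0 := by decide +kernel

theorem f2A' {a : Finset GolayPt} (ha : a ∈ octads)
    (hd : Disjoint (Finset.univ.filter fun p => h2A p = p) a) :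
    h2A • a = a ∨ Disjoint a (h2A • a) := by
  obtain ⟨c, hc, hp, rfl⟩ := exists_index_of_mem ha
  rw [fix2A_eq] at hd
  have h0 : popc (comb 3563 &&& comb c) = 0 := (disj_iff9 _ _).mp hd
  rcases f2A c hc hp h0 with h | h
  · left
    exact (Model9.inv_iff model2A hc).mpr h
  · right
    have hs := Model9.supp model2A c
    show Disjoint (sp c) (h2A • sp c)
    rw [← hs]
    exact (disj_iff9 _ _).mpr h

theorem trios_kernel {o : Finset GolayPt} (ho : o ∈ octads) {g : Equiv.Perm GolayPt}
    (hg : g ∈ M24) (hgo : g • o = o) :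
    (∀ T ∈ trios, o ∈ T → g • T = T) ↔ ∀ p ∈ o, g p = p := by
  classical
  constructor
  · -- an element fixing all the trios fixes the octad pointwise
    intro hall
    -- step (i): every 4-subset of `o` is mapped to itself or to its complement in `o`
    have hi : ∀ t : Finset GolayPt, t ⊆ o → t.card = 4 → g • t = t ∨ g • t = o \ t := by
      intro t hto ht4
      have hS := sextetOf_mem ht4
      have htS := self_mem_sextetOf t
      have hdt : Disjoint t (o \ t) := Finset.disjoint_sdiff
      have hun : t ∪ (o \ t) = o := Finset.union_sdiff_of_subset hto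
      have ht'S : o \ t ∈ sextetOf t := mem_sextetOf.mpr (Or.inr ⟨hdt, by rw [hun]; exact ho⟩)
      have hne0 : t ≠ o \ t := by
        intro h
        have h1 : t = ∅ := by
          rw [← Finset.disjoint_self_iff_empty]
          nth_rewrite 2 [h]
          exact hdt
        rw [h1] at ht4
        simp at ht4
      -- tetrads other than `t`, `o \ t` are disjoint from `o`
      have hA : ∀ v ∈ sextetOf t, v ≠ t → v ≠ o \ t → Disjoint o v := by
        intro v hv h1 h2
        rw [← hun, Finset.disjoint_union_left]
        exact ⟨sextet_disjoint hS htS hv (Ne.symm h1), sextet_disjoint hS ht'S hv (Ne.symm h2)⟩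
      have hc4 : (((sextetOf t).erase t).erase (o \ t)).card = 4 := by
        rw [Finset.card_erase_of_mem (Finset.mem_erase.mpr ⟨Ne.symm hne0, ht'S⟩),
          Finset.card_erase_of_mem htS, hS.1]
      obtain ⟨R, hR, hR3⟩ := Finset.exists_subset_card_eq (show 3 ≤ (((sextetOf t).erase t).erase (o \ t)).card by rw [hc4]; norm_num)
      obtain ⟨u, u2, u3, h12, h13, h23, rfl⟩ := Finset.card_eq_three.mp hR3
      have hmem : ∀ v ∈ ({u, u2, u3} : Finset (Finset GolayPt)),
          v ∈ sextetOf t ∧ v ≠ t ∧ v ≠ o \ t := by
        intro v hv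
        have := hR hv
        rw [Finset.mem_erase, Finset.mem_erase] at this
        exact ⟨this.2.2, this.2.1, this.1⟩
      obtain ⟨mu, nu1, nu2⟩ := hmem u (by simp)
      obtain ⟨mu2, n21, n22⟩ := hmem u2 (by simp)
      obtain ⟨mu3, n31, n32⟩ := hmem u3 (by simp)
      -- the sixth tetrad
      have hc1 : ((((sextetOf t).erase t).erase (o \ t)) \ {u, u2, u3}).card = 1 := by
        rw [Finset.card_sdiff_of_subset hR, hc4, hR3]
      obtain ⟨u4, hu4⟩ := Finset.card_eq_one.mp hc1
      have hu4m : u4 ∈ (((sextetOf t).erase t).erase (o \ t)) \ {u, u2, u3} := by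
        rw [hu4]
        exact Finset.mem_singleton_self u4
      rw [Finset.mem_sdiff, Finset.mem_erase, Finset.mem_erase] at hu4m
      obtain ⟨⟨n42, n41, mu4⟩, hu4n⟩ := hu4m
      simp only [Finset.mem_insert, Finset.mem_singleton, not_or] at hu4n
      obtain ⟨n4u, n4u2, n4u3⟩ := hu4n
      have d12 := sextet_disjoint hS mu mu2 h12
      have d13 := sextet_disjoint hS mu mu3 h13
      have d23 := sextet_disjoint hS mu2 mu3 h23
      have d14 := sextet_disjoint hS mu mu4 (Ne.symm n4u)
      have d24 := sextet_disjoint hS mu2 mu4 (Ne.symm n4u2)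
      have d34 := sextet_disjoint hS mu3 mu4 (Ne.symm n4u3)
      have oa : u ∪ u2 ∈ octads := hS.2.2 u mu u2 mu2 h12
      have ob : u ∪ u3 ∈ octads := hS.2.2 u mu u3 mu3 h13
      have oa' : u3 ∪ u4 ∈ octads := hS.2.2 u3 mu3 u4 mu4 (Ne.symm n4u3)
      have ob' : u2 ∪ u4 ∈ octads := hS.2.2 u2 mu2 u4 mu4 (Ne.symm n4u2)
      have dou := hA u mu nu1 nu2
      have dou2 := hA u2 mu2 n21 n22
      have dou3 := hA u3 mu3 n31 n32
      have dou4 := hA u4 mu4 n41 n42
      have doa : Disjoint o (u ∪ u2) := Finset.disjoint_union_right.mpr ⟨dou, dou2⟩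
      have dob : Disjoint o (u ∪ u3) := Finset.disjoint_union_right.mpr ⟨dou, dou3⟩
      have ea' : u3 ∪ u4 = (o ∪ (u ∪ u2))ᶜ := by
        apply compl_union_eq9 ho oa oa' doa
        · exact Finset.disjoint_union_left.mpr ⟨dou3.symm, dou4.symm⟩
        · rw [Finset.disjoint_union_left, Finset.disjoint_union_right, Finset.disjoint_union_right]
          exact ⟨⟨d13.symm, d23.symm⟩, d14.symm, d24.symm⟩
      have eb' : u2 ∪ u4 = (o ∪ (u ∪ u3))ᶜ := by
        apply compl_union_eq9 ho ob ob' dob
        · exact Finset.disjoint_union_left.mpr ⟨dou2.symm, dou4.symm⟩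
        · rw [Finset.disjoint_union_left, Finset.disjoint_union_right, Finset.disjoint_union_right]
          exact ⟨⟨d12.symm, d23⟩, d14.symm, d34.symm⟩
      -- the images of the two octads
      have himg : ∀ x : Finset GolayPt, x ∈ octads → Disjoint o x →
          g • x = x ∨ g • x = (o ∪ x)ᶜ := by
        intro x hx hox
        have hT := trioOf_mem ho hx hox
        have hfix := hall _ hT (mem_trioOf.mpr (Or.inl rfl))
        have hm : g • x ∈ trioOf o x := by
          rw [← hfix]
          exact Finset.smul_mem_smul_finset (mem_trioOf.mpr (Or.inr (Or.inl rfl)))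
        rcases mem_trioOf.mp hm with h | h | h
        · exfalso
          rw [← hgo] at h
          exact octad_ne_of_disjoint ho hox (smul_left_cancel g h).symm
        · exact Or.inl h
        · exact Or.inr h
      have e1 : (u ∪ u2) ∩ (u ∪ u3) = u := by
        have := (inter3_aux9 u2 u u3 d12.symm d13 d23.symm).1
        rw [Finset.union_comm u2 u] at this
        exact this
      have e2 : (u ∪ u2) ∩ (u2 ∪ u4) = u2 := (inter3_aux9 u u2 u4 d12 d24 d14.symm).1
      have e3 : (u3 ∪ u4) ∩ (u ∪ u3) = u3 := by
        have := (inter3_aux9 u4 u3 u d34.symm d13.symm d14).1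
        rw [Finset.union_comm u4 u3, Finset.union_comm u3 u] at this
        exact this
      have e4 : (u3 ∪ u4) ∩ (u2 ∪ u4) = u4 := by
        have := (inter3_aux9 u3 u4 u2 d34 d24.symm d23).1
        rw [Finset.union_comm u4 u2] at this
        exact this
      have hgu : g • u ∈ sextetOf t := by
        have h0 : g • u = g • (u ∪ u2) ∩ g • (u ∪ u3) := by
          rw [← Finset.smul_finset_inter, e1]
        rw [h0]
        rcases himg _ oa doa with ha | ha <;> rcases himg _ ob dob with hb | hb
        · rw [ha, hb, e1]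
          exact mu
        · rw [ha, hb, ← eb', e2]
          exact mu2
        · rw [ha, hb, ← ea', e3]
          exact mu3
        · rw [ha, hb, ← ea', ← eb', e4]
          exact mu4
      have hgS : g • sextetOf t = sextetOf t := by
        have e := sextet_eq hS mu
        rw [e]
        rw [e] at hgu
        exact (sextet_inv_iff hg (hS.2.1 u mu)).mpr hgu
      have hgt : g • t ∈ sextetOf t := by
        rw [← hgS]
        exact Finset.smul_mem_smul_finset htS
      by_contra hcon
      rw [not_or] at hcon
      have hd := hA _ hgt hcon.1 hcon.2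
      obtain ⟨x, hx⟩ : t.Nonempty := by
        rw [← Finset.card_pos, ht4]
        norm_num
      have hx1 : g • x ∈ g • t := Finset.smul_mem_smul_finset hx
      have hx2 : g • x ∈ o := by
        rw [← hgo]
        exact Finset.smul_mem_smul_finset (hto hx)
      exact Finset.disjoint_left.mp hd hx2 hx1
    -- step (ii)
    intro p hp
    by_contra hne
    have hq : g p ∈ o := (mem_iff_of_smul_eq hgo p).mpr hp
    have hc6 : 3 ≤ ((o.erase p).erase (g p)).card := by
      rw [Finset.card_erase_of_mem (Finset.mem_erase.mpr ⟨hne, hq⟩), Finset.card_erase_of_mem hp,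
        ho.2]
      norm_num
    obtain ⟨R, hR, hR3⟩ := Finset.exists_subset_card_eq hc6
    obtain ⟨x, y, z, hxy, hxz, hyz, rfl⟩ := Finset.card_eq_three.mp hR3
    have hmem : ∀ v ∈ ({x, y, z} : Finset GolayPt), v ∈ o ∧ v ≠ p ∧ v ≠ g p := by
      intro v hv
      have := hR hv
      rw [Finset.mem_erase, Finset.mem_erase] at this
      exact ⟨this.2.2, this.2.1, this.1⟩
    obtain ⟨xo, xp, xq⟩ := hmem x (by simp)
    obtain ⟨yo, yp, yq⟩ := hmem y (by simp)
    obtain ⟨zo, zp, zq⟩ := hmem z (by simp)
    -- t = {p, g p, x, y}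
    have ht4 : ({p, g p, x, y} : Finset GolayPt).card = 4 := by
      rw [Finset.card_insert_of_notMem, Finset.card_insert_of_notMem,
        Finset.card_insert_of_notMem, Finset.card_singleton]
      · simpa using hxy
      · simp only [Finset.mem_insert, Finset.mem_singleton, not_or]
        exact ⟨Ne.symm xq, Ne.symm yq⟩
      · simp only [Finset.mem_insert, Finset.mem_singleton, not_or]
        exact ⟨Ne.symm hne, Ne.symm xp, Ne.symm yp⟩
    have hto : ({p, g p, x, y} : Finset GolayPt) ⊆ o := by
      intro v hv
      simp only [Finset.mem_insert, Finset.mem_singleton] at hv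
      rcases hv with rfl | rfl | rfl | rfl <;> assumption
    have hgx1 : g x ∈ ({p, g p, x, y} : Finset GolayPt) := by
      rcases hi _ hto ht4 with h | h
      · rw [← h]
        exact Finset.smul_mem_smul_finset (a := g) (by simp)
      · exfalso
        have h1 : g p ∈ g • ({p, g p, x, y} : Finset GolayPt) :=
          Finset.smul_mem_smul_finset (a := g) (by simp)
        rw [h, Finset.mem_sdiff] at h1
        exact h1.2 (by simp)
    -- t3 = {p, x, y, z}
    have ht34 : ({p, x, y, z} : Finset GolayPt).card = 4 := by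
      rw [Finset.card_insert_of_notMem, Finset.card_insert_of_notMem,
        Finset.card_insert_of_notMem, Finset.card_singleton]
      · simpa using hyz
      · simp only [Finset.mem_insert, Finset.mem_singleton, not_or]
        exact ⟨hxy, hxz⟩
      · simp only [Finset.mem_insert, Finset.mem_singleton, not_or]
        exact ⟨Ne.symm xp, Ne.symm yp, Ne.symm zp⟩
    have ht3o : ({p, x, y, z} : Finset GolayPt) ⊆ o := by
      intro v hv
      simp only [Finset.mem_insert, Finset.mem_singleton] at hv
      rcases hv with rfl | rfl | rfl | rfl <;> assumption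
    have hq3 : g p ∉ ({p, x, y, z} : Finset GolayPt) := by
      simp only [Finset.mem_insert, Finset.mem_singleton, not_or]
      exact ⟨hne, Ne.symm xq, Ne.symm yq, Ne.symm zq⟩
    have hgx3 : g x ∉ ({p, x, y, z} : Finset GolayPt) := by
      rcases hi _ ht3o ht34 with h | h
      · exfalso
        have h1 : g p ∈ g • ({p, x, y, z} : Finset GolayPt) :=
          Finset.smul_mem_smul_finset (a := g) (by simp)
        rw [h] at h1
        exact hq3 h1
      · have h1 : g x ∈ g • ({p, x, y, z} : Finset GolayPt) :=
          Finset.smul_mem_smul_finset (a := g) (by simp)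
        rw [h, Finset.mem_sdiff] at h1
        exact h1.2
    simp only [Finset.mem_insert, Finset.mem_singleton, not_or] at hgx1 hgx3
    rcases hgx1 with h | h | h | h
    · exact hgx3.1 h
    · exact xp (g.injective h)
    · exact hgx3.2.1 h
    · exact hgx3.2.2.1 h
  · -- an element fixing the octad pointwise fixes all the trios through it
    intro hfix T hT hoT
    by_cases hg1 : g = 1
    · rw [hg1, one_smul]
    have hgf : g ∈ fixGrp o := (mem_fixGrp o g).mpr ⟨hg, hfix⟩
    have hsq := (octad_fixGrp o ho).2 g hgf
    have hOh : (Finset.univ.filter fun a => h2A a = a) ∈ octads := by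
      rcases invol_fix (Model9.mem model2A) h2A_pow h2A_ne_one with h | h
      · have h8 := h2A_fix
        rw [h] at h8
        simp at h8
      · exact h
    obtain ⟨k, hk, hkg⟩ := conj_octad_invol (Model9.mem model2A) hg h2A_ne_one hg1 hOh ho
      (fun p hp => (Finset.mem_filter.mp hp).2) hfix
    have hk' : k⁻¹ ∈ M24 := inv_mem hk
    -- `k⁻¹ • o` is the fixed octad of `h2A`
    have hko : k⁻¹ • o = (Finset.univ.filter fun a => h2A a = a) := by
      apply Finset.eq_of_subset_of_card_le
      · intro x hx
        obtain ⟨p, hp, rfl⟩ := Finset.mem_smul_finset.mp hx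
        rw [Finset.mem_filter]
        refine ⟨Finset.mem_univ _, ?_⟩
        have h1 := hfix p hp
        rw [← hkg] at h1
        have h2 : k (h2A (k⁻¹ p)) = p := h1
        show h2A (k⁻¹ p) = k⁻¹ p
        calc h2A (k⁻¹ p) = k⁻¹ (k (h2A (k⁻¹ p))) := by
              rw [Equiv.Perm.inv_def, Equiv.symm_apply_apply]
          _ = k⁻¹ p := by rw [h2]
      · rw [Finset.card_smul_finset, ho.2, hOh.2]
    obtain ⟨a, haT, hao, ha, hoa, eT⟩ := trio_other hT hoT
    have ha0 : k⁻¹ • a ∈ octads := smul_octad_mem hk' ha
    have hd0 : Disjoint (Finset.univ.filter fun p => h2A p = p) (k⁻¹ • a) := by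
      rw [← hko]
      exact smul_disjoint9 _ hoa
    have hga : g • a = k • h2A • k⁻¹ • a := by
      rw [← hkg, mul_smul, mul_smul]
    have hgaT : g • a ∈ T := by
      rcases f2A' ha0 hd0 with h | h
      · rw [hga, h, smul_inv_smul]
        exact haT
      · have hd1 : Disjoint a (g • a) := by
          have := smul_disjoint9 k h
          rw [smul_inv_smul, ← hga] at this
          exact this
        have hd2 : Disjoint o (g • a) := by
          have := smul_disjoint9 g hoa
          rw [hgo] at this
          exact this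
        have he : g • a = (o ∪ a)ᶜ :=
          compl_union_eq9 ho ha (smul_octad_mem hg ha) hoa hd2.symm hd1.symm
        rw [eT]
        exact mem_trioOf.mpr (Or.inr (Or.inr he))
    exact trio_smul_eq hg hT hT hoT haT (Ne.symm hao) (by rw [hgo]; exact hoT) hgaT

end Cfsg.Agent.Helper9
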