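import Mathlib
import Cfsg.Agent.Helper9.SLGen
import Cfsg.Agent.Helper9.SLMax

set_option autoImplicit false

namespace Cfsg.Agent.Helper9

open Cfsg
open scoped MatrixGroups Matrix

variable {n : ℕ} {F : Type*} [Field F] {Q : (Fin n → F) → F}

theorem qf_add9 (x y : Fin n → F) : Q (x + y) = Q x + Q y + QuadraticMap.polar Q x y := by
  rw [QuadraticMap.polar]
  ring

theorem qf_comm9 (x y : Fin n → F) : QuadraticMap.polar Q x y = QuadraticMap.polar Q y x := QuadraticMap.polar_comm Q x y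

theorem qf_zero9 (hQ : Cfsg.Geo.IsNondegenerateQuadraticForm Q) : Q 0 = 0 := by
  have h := hQ.smul 0 0
  rw [zero_smul] at h
  have h' : Q 0 = 0 * Q 0 := by
    rw [h]
    ring
  rw [h', zero_mul]

theorem qf_self9 (hQ : Cfsg.Geo.IsNondegenerateQuadraticForm Q) (x : Fin n → F) : QuadraticMap.polar Q x x = 2 * Q x := by
  rw [QuadraticMap.polar, ← two_smul F x, hQ.smul]
  ring

theorem qf_zl9 (hQ : Cfsg.Geo.IsNondegenerateQuadraticForm Q) (v : Fin n → F) : QuadraticMap.polar Q 0 v = 0 := by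
  have := hQ.polar_bilinear.smul_left 0 0 v
  rw [zero_smul, zero_mul] at this
  exact this

theorem qf_zr9 (hQ : Cfsg.Geo.IsNondegenerateQuadraticForm Q) (v : Fin n → F) : QuadraticMap.polar Q v 0 = 0 := by rw [qf_comm9, qf_zl9 hQ]

theorem qf_nl9 (hQ : Cfsg.Geo.IsNondegenerateQuadraticForm Q) (x v : Fin n → F) : QuadraticMap.polar Q (-x) v = -QuadraticMap.polar Q x v := by
  have := hQ.polar_bilinear.smul_left (-1) x v
  rw [neg_one_smul, neg_one_mul] at this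
  exact this

theorem qf_nr9 (hQ : Cfsg.Geo.IsNondegenerateQuadraticForm Q) (v x : Fin n → F) : QuadraticMap.polar Q v (-x) = -QuadraticMap.polar Q v x := by
  rw [qf_comm9, qf_nl9 hQ, qf_comm9]

theorem qf_subl9 (hQ : Cfsg.Geo.IsNondegenerateQuadraticForm Q) (x y v : Fin n → F) : QuadraticMap.polar Q (x - y) v = QuadraticMap.polar Q x v - QuadraticMap.polar Q y v := by
  rw [sub_eq_add_neg, hQ.polar_bilinear.add_left, qf_nl9 hQ, ← sub_eq_add_neg]

theorem qf_subr9 (hQ : Cfsg.Geo.IsNondegenerateQuadraticForm Q) (v x y : Fin n → F) : QuadraticMap.polar Q v (x - y) = QuadraticMap.polar Q v x - QuadraticMap.polar Q v y := by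
  rw [sub_eq_add_neg, hQ.polar_bilinear.add_right, qf_nr9 hQ, ← sub_eq_add_neg]

theorem qf_lin2_9 (hQ : Cfsg.Geo.IsNondegenerateQuadraticForm Q) (α β : F) (a b : Fin n → F) :
    Q (α • a + β • b) = α ^ 2 * Q a + β ^ 2 * Q b + α * β * QuadraticMap.polar Q a b := by
  rw [qf_add9 (Q := Q), hQ.smul, hQ.smul, hQ.polar_bilinear.smul_left, hQ.polar_bilinear.smul_right]
  ring

/-- The functional `x ↦ B(x, p)`. -/
def qfFun9 (hQ : Cfsg.Geo.IsNondegenerateQuadraticForm Q) (p : Fin n → F) : (Fin n → F) →ₗ[F] F :=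
  { toFun := fun x => QuadraticMap.polar Q x p
    map_add' := fun x y => hQ.polar_bilinear.add_left x y p
    map_smul' := fun c x => by rw [hQ.polar_bilinear.smul_left, RingHom.id_apply, smul_eq_mul] }

theorem qfFun9_apply (hQ : Cfsg.Geo.IsNondegenerateQuadraticForm Q) (p x : Fin n → F) : qfFun9 hQ p x = QuadraticMap.polar Q x p := rfl

/-- The map `p ↦ B(·, p)`. -/
def qfFlip9 (hQ : Cfsg.Geo.IsNondegenerateQuadraticForm Q) : (Fin n → F) →ₗ[F] Module.Dual F (Fin n → F) :=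
  { toFun := fun p => qfFun9 hQ p
    map_add' := fun p p' => LinearMap.ext (fun x => by
      rw [LinearMap.add_apply, qfFun9_apply, qfFun9_apply, qfFun9_apply, hQ.polar_bilinear.add_right])
    map_smul' := fun c p => LinearMap.ext (fun x => by
      rw [LinearMap.smul_apply, qfFun9_apply, qfFun9_apply, hQ.polar_bilinear.smul_right, RingHom.id_apply,
        smul_eq_mul]) }

theorem qfFlip9_apply (hQ : Cfsg.Geo.IsNondegenerateQuadraticForm Q) (p x : Fin n → F) : qfFlip9 hQ p x = QuadraticMap.polar Q x p := rfl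

theorem qf_repr9 [Finite F] (hQ : Cfsg.Geo.IsNondegenerateQuadraticForm Q) (ψ : Module.Dual F (Fin n → F)) : ∃ u : Fin n → F, ∀ x, ψ x = QuadraticMap.polar Q x u := by
  let e : (Fin n → F) ≃ₗ[F] Module.Dual F (Fin n → F) := (Pi.basisFun F (Fin n)).toDualEquiv
  have hinj : Function.Injective (fun u => e.symm (qfFlip9 hQ u)) := by
    intro u u' h
    have h' : qfFlip9 hQ u = qfFlip9 hQ u' := e.symm.injective h
    by_contra hne
    obtain ⟨⟨x, hx⟩, _⟩ := hQ.nondegenerate (u - u') (sub_ne_zero.mpr hne)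
    apply hx
    have h1 : QuadraticMap.polar Q x u = QuadraticMap.polar Q x u' := by
      have := congrArg (fun φ : Module.Dual F (Fin n → F) => φ x) h'
      exact this
    rw [qf_subr9 hQ, h1, sub_self]
  have hsurj := Finite.surjective_of_injective hinj
  obtain ⟨u, hu⟩ := hsurj (e.symm ψ)
  refine ⟨u, fun x => ?_⟩
  have : qfFlip9 hQ u = ψ := e.symm.injective hu
  rw [← this]
  rfl

/-- The orthogonal complement of a subspace. -/
def qfPerp9 (hQ : Cfsg.Geo.IsNondegenerateQuadraticForm Q) (S : Submodule F (Fin n → F)) : Submodule F (Fin n → F) := LinearMap.ker (S.dualRestrict ∘ₗ qfFlip9 hQ)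

theorem mem_qfPerp9 (hQ : Cfsg.Geo.IsNondegenerateQuadraticForm Q) {S : Submodule F (Fin n → F)} {w : Fin n → F} : w ∈ qfPerp9 hQ S ↔ ∀ p ∈ S, QuadraticMap.polar Q p w = 0 := by
  unfold qfPerp9
  rw [LinearMap.mem_ker]
  constructor
  · intro h p hp
    have := congrArg (fun φ : Module.Dual F S => φ ⟨p, hp⟩) h
    exact this
  · intro h
    ext x
    exact h x x.2

theorem qf_perp_dim9 [Finite F] (hQ : Cfsg.Geo.IsNondegenerateQuadraticForm Q) (S : Submodule F (Fin n → F)) :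
    Module.finrank F (qfPerp9 hQ S) + Module.finrank F S = n := by
  have hΦsurj : Function.Surjective (S.dualRestrict ∘ₗ qfFlip9 hQ) := by
    intro ψ
    obtain ⟨φ, hφ⟩ := Subspace.dualRestrict_surjective (W := S) ψ
    obtain ⟨z, hz⟩ := qf_repr9 hQ φ
    refine ⟨z, ?_⟩
    rw [← hφ]
    ext x
    show QuadraticMap.polar Q (x : Fin n → F) z = φ x
    rw [hz]
  have h2 := LinearMap.finrank_range_add_finrank_ker (S.dualRestrict ∘ₗ qfFlip9 hQ)
  have h3 : Module.finrank F (LinearMap.range (S.dualRestrict ∘ₗ qfFlip9 hQ)) =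
      Module.finrank F S := by
    rw [LinearMap.range_eq_top.mpr hΦsurj, finrank_top, Subspace.dual_finrank_eq]
  have hV : Module.finrank F (Fin n → F) = n := by
    rw [Module.finrank_fintype_fun_eq_card, Fintype.card_fin]
  have h4 : Module.finrank F (qfPerp9 hQ S) =
      Module.finrank F (LinearMap.ker (S.dualRestrict ∘ₗ qfFlip9 hQ)) := rfl
  omega

theorem qf_nonsing9 [Finite F] (hQ : Cfsg.Geo.IsNondegenerateQuadraticForm Q) (P : Submodule F (Fin n → F)) (h : n < 2 * Module.finrank F P) :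
    ∃ w ∈ P, Q w ≠ 0 := by
  by_contra hcon
  push_neg at hcon
  have hle : P ≤ qfPerp9 hQ P := by
    intro w hw
    rw [mem_qfPerp9]
    intro p hp
    have h1 := qf_add9 (Q := Q) p w
    rw [hcon p hp, hcon w hw, hcon _ (P.add_mem hp hw), zero_add, zero_add] at h1
    exact h1.symm
  have h1 := Submodule.finrank_mono hle
  have h2 := qf_perp_dim9 hQ P
  omega

theorem finrank_sup_span9 (S : Submodule F (Fin n → F)) (w : Fin n → F) :
    Module.finrank F (S ⊔ Submodule.span F {w} : Submodule F (Fin n → F)) ≤ Module.finrank F S + 1 := by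
  have h1 := Submodule.finrank_add_le_finrank_add_finrank S (Submodule.span F {w})
  have h2 : Module.finrank F (Submodule.span F {w}) ≤ 1 := by
    by_cases hw : w = 0
    · rw [hw, Submodule.span_zero_singleton, finrank_bot]
      omega
    · rw [finrank_span_singleton hw]
  omega

/-- Prescribing the value of `Q` while keeping the pairings with a small subspace. -/
theorem qf_value9 [Fintype F] (hQ : Cfsg.Geo.IsNondegenerateQuadraticForm Q) (hodd : Fintype.card F % 2 = 1) (S : Submodule F (Fin n → F))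
    (hS : 2 * Module.finrank F S + 4 < n) (y₀ : Fin n → F) (γ : F) :
    ∃ y, (∀ p ∈ S, QuadraticMap.polar Q p y = QuadraticMap.polar Q p y₀) ∧ Q y = γ := by
  obtain ⟨S₁, hS₁⟩ : ∃ S₁ : Submodule F (Fin n → F), S₁ = S ⊔ Submodule.span F {y₀} := ⟨_, rfl⟩
  have hd₁ : Module.finrank F S₁ ≤ Module.finrank F S + 1 := by
    rw [hS₁]
    exact finrank_sup_span9 S y₀
  obtain ⟨w₁, hw₁P, hw₁⟩ := qf_nonsing9 hQ (qfPerp9 hQ S₁) (by
    have := qf_perp_dim9 hQ S₁
    omega)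
  obtain ⟨S₂, hS₂⟩ : ∃ S₂ : Submodule F (Fin n → F), S₂ = S₁ ⊔ Submodule.span F {w₁} := ⟨_, rfl⟩
  have hd₂ : Module.finrank F S₂ ≤ Module.finrank F S₁ + 1 := by
    rw [hS₂]
    exact finrank_sup_span9 S₁ w₁
  obtain ⟨w₂, hw₂P, hw₂⟩ := qf_nonsing9 hQ (qfPerp9 hQ S₂) (by
    have := qf_perp_dim9 hQ S₂
    omega)
  have h1 := (mem_qfPerp9 hQ).mp hw₁P
  have h2 := (mem_qfPerp9 hQ).mp hw₂P
  have hS_S₁ : S ≤ S₁ := by
    rw [hS₁]
    exact le_sup_left
  have hy₀S₁ : y₀ ∈ S₁ := by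
    rw [hS₁]
    exact Submodule.mem_sup_right (Submodule.mem_span_singleton_self y₀)
  have hS₁S₂ : S₁ ≤ S₂ := by
    rw [hS₂]
    exact le_sup_left
  have hw₁S₂ : w₁ ∈ S₂ := by
    rw [hS₂]
    exact Submodule.mem_sup_right (Submodule.mem_span_singleton_self w₁)
  have e1 : QuadraticMap.polar Q y₀ w₁ = 0 := h1 y₀ hy₀S₁
  have e2 : QuadraticMap.polar Q y₀ w₂ = 0 := h2 y₀ (hS₁S₂ hy₀S₁)
  have e3 : QuadraticMap.polar Q w₁ w₂ = 0 := h2 w₁ hw₁S₂
  obtain ⟨a, b, hab⟩ := FiniteField.exists_root_sum_quadratic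
    (f := Polynomial.C (Q w₁) * Polynomial.X ^ 2)
    (g := Polynomial.C (Q w₂) * Polynomial.X ^ 2 + Polynomial.C (Q y₀ - γ))
    (by rw [Polynomial.degree_C_mul_X_pow 2 hw₁]; rfl)
    (by
      rw [Polynomial.degree_add_C (by rw [Polynomial.degree_C_mul_X_pow 2 hw₂]; norm_num),
        Polynomial.degree_C_mul_X_pow 2 hw₂]
      rfl)
    hodd
  simp only [Polynomial.eval_mul, Polynomial.eval_C, Polynomial.eval_pow, Polynomial.eval_X,
    Polynomial.eval_add] at hab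
  refine ⟨y₀ + (a • w₁ + b • w₂), fun p hp => ?_, ?_⟩
  · rw [hQ.polar_bilinear.add_right, hQ.polar_bilinear.add_right, hQ.polar_bilinear.smul_right, hQ.polar_bilinear.smul_right, h1 p (hS_S₁ hp),
      h2 p (hS₁S₂ (hS_S₁ hp))]
    ring
  · rw [qf_add9 (Q := Q), qf_lin2_9 hQ, hQ.polar_bilinear.add_right, hQ.polar_bilinear.smul_right, hQ.polar_bilinear.smul_right, e1, e2, e3]
    linear_combination hab

/-- A singular vector orthogonal to, and outside of, a small subspace. -/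
theorem qf_gen9 [Fintype F] (hQ : Cfsg.Geo.IsNondegenerateQuadraticForm Q) (hodd : Fintype.card F % 2 = 1) (h2 : (2 : F) ≠ 0) (hn : 13 ≤ n)
    (S : Submodule F (Fin n → F)) (hS : Module.finrank F S ≤ 5) :
    ∃ s, Q s = 0 ∧ (∀ p ∈ S, QuadraticMap.polar Q p s = 0) ∧ s ∉ S := by
  obtain ⟨w₁, hw₁P, hw₁⟩ := qf_nonsing9 hQ (qfPerp9 hQ S) (by
    have := qf_perp_dim9 hQ S
    omega)
  obtain ⟨S₁, hS₁⟩ : ∃ S₁ : Submodule F (Fin n → F), S₁ = S ⊔ Submodule.span F {w₁} := ⟨_, rfl⟩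
  have hd₁ : Module.finrank F S₁ ≤ Module.finrank F S + 1 := by
    rw [hS₁]
    exact finrank_sup_span9 S w₁
  obtain ⟨w₂, hw₂P, hw₂⟩ := qf_nonsing9 hQ (qfPerp9 hQ S₁) (by
    have := qf_perp_dim9 hQ S₁
    omega)
  obtain ⟨S₂, hS₂⟩ : ∃ S₂ : Submodule F (Fin n → F), S₂ = S₁ ⊔ Submodule.span F {w₂} := ⟨_, rfl⟩
  have hd₂ : Module.finrank F S₂ ≤ Module.finrank F S₁ + 1 := by
    rw [hS₂]
    exact finrank_sup_span9 S₁ w₂
  obtain ⟨w₃, hw₃P, hw₃S⟩ : ∃ w₃ ∈ qfPerp9 hQ S₂, w₃ ∉ S := by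
    by_contra hcon
    push_neg at hcon
    have hle : qfPerp9 hQ S₂ ≤ S := hcon
    have h1 := Submodule.finrank_mono hle
    have h2 := qf_perp_dim9 hQ S₂
    omega
  have hS_S₁ : S ≤ S₁ := by
    rw [hS₁]
    exact le_sup_left
  have hw₁S₁ : w₁ ∈ S₁ := by
    rw [hS₁]
    exact Submodule.mem_sup_right (Submodule.mem_span_singleton_self w₁)
  have hS₁S₂ : S₁ ≤ S₂ := by
    rw [hS₂]
    exact le_sup_left
  have hw₂S₂ : w₂ ∈ S₂ := by
    rw [hS₂]
    exact Submodule.mem_sup_right (Submodule.mem_span_singleton_self w₂)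
  have p1 := (mem_qfPerp9 hQ).mp hw₁P
  have p2 := (mem_qfPerp9 hQ).mp hw₂P
  have p3 := (mem_qfPerp9 hQ).mp hw₃P
  have e12 : QuadraticMap.polar Q w₁ w₂ = 0 := p2 w₁ hw₁S₁
  have e13 : QuadraticMap.polar Q w₁ w₃ = 0 := p3 w₁ (hS₁S₂ hw₁S₁)
  have e23 : QuadraticMap.polar Q w₂ w₃ = 0 := p3 w₂ hw₂S₂
  by_cases hq3 : Q w₃ = 0
  · exact ⟨w₃, hq3, fun p hp => p3 p (hS₁S₂ (hS_S₁ hp)), hw₃S⟩
  · obtain ⟨a, b, hab⟩ := FiniteField.exists_root_sum_quadratic
      (f := Polynomial.C (Q w₁) * Polynomial.X ^ 2)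
      (g := Polynomial.C (Q w₂) * Polynomial.X ^ 2 + Polynomial.C (Q w₃))
      (by rw [Polynomial.degree_C_mul_X_pow 2 hw₁]; rfl)
      (by
        rw [Polynomial.degree_add_C (by rw [Polynomial.degree_C_mul_X_pow 2 hw₂]; norm_num),
          Polynomial.degree_C_mul_X_pow 2 hw₂]
        rfl)
      hodd
    simp only [Polynomial.eval_mul, Polynomial.eval_C, Polynomial.eval_pow, Polynomial.eval_X,
      Polynomial.eval_add] at hab
    refine ⟨w₃ + (a • w₁ + b • w₂), ?_, fun p hp => ?_, fun hs => ?_⟩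
    · rw [qf_add9 (Q := Q), qf_lin2_9 hQ, hQ.polar_bilinear.add_right, hQ.polar_bilinear.smul_right, hQ.polar_bilinear.smul_right, e12,
        qf_comm9 w₃ w₁, qf_comm9 w₃ w₂, e13, e23]
      linear_combination hab
    · rw [hQ.polar_bilinear.add_right, hQ.polar_bilinear.add_right, hQ.polar_bilinear.smul_right, hQ.polar_bilinear.smul_right, p3 p (hS₁S₂ (hS_S₁ hp)),
        p1 p hp, p2 p (hS_S₁ hp)]
      ring
    · have h := p3 _ (hS₁S₂ (hS_S₁ hs))
      rw [hQ.polar_bilinear.add_left, hQ.polar_bilinear.add_left, hQ.polar_bilinear.smul_left, hQ.polar_bilinear.smul_left, e13, e23, qf_self9 hQ] at h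
      apply hq3
      have h' : 2 * Q w₃ = 0 := by linear_combination h
      exact (mul_eq_zero.mp h').resolve_left h2

/-- Siegel elements are isometries of determinant one. -/
theorem qf_siegel9 (hQ : Cfsg.Geo.IsNondegenerateQuadraticForm Q) (a b : Fin n → F) (ha : Q a = 0) (hb : Q b = 0) (hab : QuadraticMap.polar Q a b = 0) :
    ∃ s : GL (Fin n) F, s ∈ Cfsg.Geo.quadSimilarityGroup Q ⊓ Cfsg.Geo.specialLinear (Fin n) F ∧
      (∀ x, Q ((s : Matrix (Fin n) (Fin n) F) *ᵥ x) = Q x) ∧ ∀ x, (s : Matrix (Fin n) (Fin n) F) *ᵥ x = x + QuadraticMap.polar Q x b • a - QuadraticMap.polar Q x a • b := by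
  have hba : QuadraticMap.polar Q b a = 0 := by rw [qf_comm9, hab]
  obtain ⟨t₁, ht₁S, ht₁⟩ := exists_transv9 (qfFun9 hQ b) a hab
  obtain ⟨t₂, ht₂S, ht₂⟩ := exists_transv9 (qfFun9 hQ a) (-b) (by
    rw [qfFun9_apply, qf_nl9 hQ, hba, neg_zero])
  have hs : ∀ x, ((t₁ * t₂ : GL (Fin n) F) : Matrix (Fin n) (Fin n) F) *ᵥ x = x + QuadraticMap.polar Q x b • a - QuadraticMap.polar Q x a • b := by
    intro x
    rw [gl_mul_vec9, ht₂, ht₁, qfFun9_apply, qfFun9_apply, hQ.polar_bilinear.add_left, hQ.polar_bilinear.smul_left,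
      qf_nl9 hQ, qf_self9 hQ, hb]
    module
  have hiso : ∀ x, Q (((t₁ * t₂ : GL (Fin n) F) : Matrix (Fin n) (Fin n) F) *ᵥ x) = Q x := by
    intro x
    rw [hs, sub_eq_add_neg, ← neg_smul, add_assoc, qf_add9 (Q := Q), qf_lin2_9 hQ, ha, hb, hab,
      hQ.polar_bilinear.add_right, hQ.polar_bilinear.smul_right, hQ.polar_bilinear.smul_right]
    ring
  exact ⟨t₁ * t₂, ⟨⟨1, fun v => by rw [hiso, Units.val_one, one_mul]⟩,
    Subgroup.mul_mem _ ht₁S ht₂S⟩, hiso, hs⟩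

theorem qf_iso_polar9 {h : GL (Fin n) F} (hh : ∀ x, Q ((h : Matrix (Fin n) (Fin n) F) *ᵥ x) = Q x) (x y : Fin n → F) :
    QuadraticMap.polar Q ((h : Matrix (Fin n) (Fin n) F) *ᵥ x) ((h : Matrix (Fin n) (Fin n) F) *ᵥ y) = QuadraticMap.polar Q x y := by
  rw [QuadraticMap.polar, QuadraticMap.polar, ← Matrix.mulVec_add, hh, hh, hh]

/-- The transvection `x ↦ x + B(x,u) v` lies in `M`. -/
def OT9 (Q : (Fin n → F) → F) (M : Subgroup (GL (Fin n) F)) (u v : Fin n → F) : Prop :=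
  QuadraticMap.polar Q v u = 0 ∧ ∃ s ∈ M, ∀ x, (s : Matrix (Fin n) (Fin n) F) *ᵥ x = x + QuadraticMap.polar Q x u • v

variable {M : Subgroup (GL (Fin n) F)}

theorem ot_inv9 (hQ : Cfsg.Geo.IsNondegenerateQuadraticForm Q) {t : GL (Fin n) F} {u v : Fin n → F} (huv : QuadraticMap.polar Q v u = 0)
    (ht : ∀ x, (t : Matrix (Fin n) (Fin n) F) *ᵥ x = x + QuadraticMap.polar Q x u • v) : ∀ x, ((t⁻¹ : GL (Fin n) F) : Matrix (Fin n) (Fin n) F) *ᵥ x = x - QuadraticMap.polar Q x u • v := by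
  intro x
  have e : (t : Matrix (Fin n) (Fin n) F) *ᵥ (x - QuadraticMap.polar Q x u • v) = x := by
    rw [ht, qf_subl9 hQ, hQ.polar_bilinear.smul_left, huv, mul_zero, sub_zero]
    abel
  conv_lhs => rw [← e]
  rw [gl_inv_mul_vec9]

theorem ot_add_left9 (hQ : Cfsg.Geo.IsNondegenerateQuadraticForm Q) {u u' v : Fin n → F} (h : OT9 Q M u v) (h' : OT9 Q M u' v) :
    OT9 Q M (u + u') v := by
  obtain ⟨h0, s, hsM, hs⟩ := h
  obtain ⟨h0', s', hsM', hs'⟩ := h'
  refine ⟨by rw [hQ.polar_bilinear.add_right, h0, h0', add_zero], s * s', M.mul_mem hsM hsM', fun x => ?_⟩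
  rw [gl_mul_vec9, hs', hs, hQ.polar_bilinear.add_left, hQ.polar_bilinear.smul_left, h0, mul_zero, add_zero, hQ.polar_bilinear.add_right]
  module

theorem ot_neg_left9 (hQ : Cfsg.Geo.IsNondegenerateQuadraticForm Q) {u v : Fin n → F} (h : OT9 Q M u v) : OT9 Q M (-u) v := by
  obtain ⟨h0, s, hsM, hs⟩ := h
  refine ⟨by rw [qf_nr9 hQ, h0, neg_zero], s⁻¹, M.inv_mem hsM, fun x => ?_⟩
  rw [ot_inv9 hQ h0 hs, qf_nr9 hQ]
  module

theorem ot_add_right9 (hQ : Cfsg.Geo.IsNondegenerateQuadraticForm Q) {u v v' : Fin n → F} (h : OT9 Q M u v) (h' : OT9 Q M u v') :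
    OT9 Q M u (v + v') := by
  obtain ⟨h0, s, hsM, hs⟩ := h
  obtain ⟨h0', s', hsM', hs'⟩ := h'
  refine ⟨by rw [hQ.polar_bilinear.add_left, h0, h0', add_zero], s * s', M.mul_mem hsM hsM', fun x => ?_⟩
  rw [gl_mul_vec9, hs', hs, hQ.polar_bilinear.add_left, hQ.polar_bilinear.smul_left, h0', mul_zero, add_zero]
  module

theorem ot_neg_right9 (hQ : Cfsg.Geo.IsNondegenerateQuadraticForm Q) {u v : Fin n → F} (h : OT9 Q M u v) : OT9 Q M u (-v) := by
  obtain ⟨h0, s, hsM, hs⟩ := h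
  refine ⟨by rw [qf_nl9 hQ, h0, neg_zero], s⁻¹, M.inv_mem hsM, fun x => ?_⟩
  rw [ot_inv9 hQ h0 hs]
  module

theorem ot_conj9 {u v : Fin n → F} (h : OT9 Q M u v) {k : GL (Fin n) F} (hkM : k ∈ M)
    (hk : ∀ x, Q ((k : Matrix (Fin n) (Fin n) F) *ᵥ x) = Q x) : OT9 Q M ((k : Matrix (Fin n) (Fin n) F) *ᵥ u) ((k : Matrix (Fin n) (Fin n) F) *ᵥ v) := by
  obtain ⟨h0, s, hsM, hs⟩ := h
  refine ⟨by rw [qf_iso_polar9 hk, h0], k * s * k⁻¹,
    M.mul_mem (M.mul_mem hkM hsM) (M.inv_mem hkM), fun x => ?_⟩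
  rw [gl_mul_vec9, gl_mul_vec9, hs, Matrix.mulVec_add, Matrix.mulVec_smul, gl_mul_inv_vec9]
  have e : QuadraticMap.polar Q (((k⁻¹ : GL (Fin n) F) : Matrix (Fin n) (Fin n) F) *ᵥ x) u = QuadraticMap.polar Q x ((k : Matrix (Fin n) (Fin n) F) *ᵥ u) := by
    have := qf_iso_polar9 hk (((k⁻¹ : GL (Fin n) F) : Matrix (Fin n) (Fin n) F) *ᵥ x) u
    rw [gl_mul_inv_vec9] at this
    exact this.symm
  rw [e]

end Cfsg.Agent.Helper9
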