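import Mathlib
import Cfsg.Agent.Helper9.QForm9

set_option autoImplicit false

namespace Cfsg.Agent.Helper9

open Cfsg
open scoped MatrixGroups Matrix

variable {n : ℕ} {F : Type*} [Field F] {Q : (Fin n → F) → F} {M : Subgroup (GL (Fin n) F)}

/-- The span of a list of vectors. -/
def spanL9 (l : List (Fin n → F)) : Submodule F (Fin n → F) := Submodule.span F {x | x ∈ l}

theorem mem_spanL9 {l : List (Fin n → F)} {x : Fin n → F} (h : x ∈ l) : x ∈ spanL9 (F := F) l :=
  Submodule.subset_span h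

theorem finrank_spanL9 (l : List (Fin n → F)) : Module.finrank F (spanL9 (F := F) l) ≤ l.length := by
  classical
  have h1 : ({x | x ∈ l} : Set (Fin n → F)) = ((l.toFinset : Finset (Fin n → F)) : Set (Fin n → F)) := by
    ext x
    simp
  unfold spanL9
  rw [h1]
  exact (finrank_span_finset_le_card (R := F) l.toFinset).trans (List.toFinset_card_le l)

theorem sieg2_inv9 (hQ : Cfsg.Geo.IsNondegenerateQuadraticForm Q) {s : GL (Fin n) F} {p q a b : Fin n → F} (h1 : QuadraticMap.polar Q a p = 0) (h2 : QuadraticMap.polar Q a q = 0)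
    (h3 : QuadraticMap.polar Q b p = 0) (h4 : QuadraticMap.polar Q b q = 0) (hs : ∀ x, (s : Matrix (Fin n) (Fin n) F) *ᵥ x = x + QuadraticMap.polar Q x p • a - QuadraticMap.polar Q x q • b) :
    ∀ x, ((s⁻¹ : GL (Fin n) F) : Matrix (Fin n) (Fin n) F) *ᵥ x = x - QuadraticMap.polar Q x p • a + QuadraticMap.polar Q x q • b := by
  intro x
  have e : (s : Matrix (Fin n) (Fin n) F) *ᵥ (x - QuadraticMap.polar Q x p • a + QuadraticMap.polar Q x q • b) = x := by
    rw [hs]
    simp only [hQ.polar_bilinear.add_left, qf_subl9 hQ, hQ.polar_bilinear.smul_left, h1, h2, h3, h4, mul_zero, sub_zero,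
      add_zero]
    module
  conv_lhs => rw [← e]
  rw [gl_inv_mul_vec9]

theorem sieg2_comm9 (hQ : Cfsg.Geo.IsNondegenerateQuadraticForm Q) {s s' : GL (Fin n) F} (hsM : s ∈ M) (hs'M : s' ∈ M) {p q a b p' q' a' b' : Fin n → F}
    (h1 : QuadraticMap.polar Q a p = 0) (h2 : QuadraticMap.polar Q a q = 0) (h3 : QuadraticMap.polar Q b p = 0) (h4 : QuadraticMap.polar Q b q = 0)
    (h1' : QuadraticMap.polar Q a' p' = 0) (h2' : QuadraticMap.polar Q a' q' = 0) (h3' : QuadraticMap.polar Q b' p' = 0) (h4' : QuadraticMap.polar Q b' q' = 0)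
    (k1 : QuadraticMap.polar Q a p' = 0) (k2 : QuadraticMap.polar Q a q' = 0) (k3 : QuadraticMap.polar Q b p' = 0) (k4 : QuadraticMap.polar Q b q' = 0)
    (m1 : QuadraticMap.polar Q a' p = 1) (m2 : QuadraticMap.polar Q a' q = 0) (m3 : QuadraticMap.polar Q b' p = 0) (m4 : QuadraticMap.polar Q b' q = 0)
    (hs : ∀ x, (s : Matrix (Fin n) (Fin n) F) *ᵥ x = x + QuadraticMap.polar Q x p • a - QuadraticMap.polar Q x q • b)
    (hs' : ∀ x, (s' : Matrix (Fin n) (Fin n) F) *ᵥ x = x + QuadraticMap.polar Q x p' • a' - QuadraticMap.polar Q x q' • b') :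
    OT9 Q M p' a := by
  refine ⟨k1, s * s' * s⁻¹ * s'⁻¹,
    M.mul_mem (M.mul_mem (M.mul_mem hsM hs'M) (M.inv_mem hsM)) (M.inv_mem hs'M), fun x => ?_⟩
  rw [gl_mul_vec9, gl_mul_vec9, gl_mul_vec9, sieg2_inv9 hQ h1' h2' h3' h4' hs',
    sieg2_inv9 hQ h1 h2 h3 h4 hs, hs', hs]
  simp only [hQ.polar_bilinear.add_left, qf_subl9 hQ, hQ.polar_bilinear.smul_left, h1, h2, h3, h4, h1', h2', h3', h4', k1, k2,
    k3, k4, m1, m2, m3, m4, mul_zero, sub_zero, add_zero, mul_one, zero_add, zero_sub]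
  module

theorem ot_move_right9 [Fintype F] (hQ : Cfsg.Geo.IsNondegenerateQuadraticForm Q) (hodd : Fintype.card F % 2 = 1) (hn : 13 ≤ n)
    (hHM : Cfsg.Geo.quadSimilarityGroup Q ⊓ Cfsg.Geo.specialLinear (Fin n) F ≤ M)
    {c a a' : Fin n → F} (h : OT9 Q M c a) (ha' : Q a' = 0) (h1 : QuadraticMap.polar Q a' c = 0) (h2 : QuadraticMap.polar Q a' a = 0)
    (h3 : a ∉ Submodule.span F ({a', c} : Set (Fin n → F))) : OT9 Q M c a' := by
  obtain ⟨φ, hφ1, hφ0⟩ := exists_dual_one9 _ a h3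
  obtain ⟨d₀, hd₀⟩ := qf_repr9 hQ φ
  obtain ⟨b, hbS, hb⟩ := qf_value9 hQ hodd (spanL9 [a', c, a]) (by
    have := finrank_spanL9 (F := F) [a', c, a]
    simp only [List.length_cons, List.length_nil] at this
    omega) d₀ 0
  have hb1 : QuadraticMap.polar Q a' b = 0 := by
    rw [hbS a' (mem_spanL9 (by simp)), ← hd₀]
    exact hφ0 a' (Submodule.subset_span (by simp))
  have hb2 : QuadraticMap.polar Q c b = 0 := by
    rw [hbS c (mem_spanL9 (by simp)), ← hd₀]
    exact hφ0 c (Submodule.subset_span (by simp))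
  have hb3 : QuadraticMap.polar Q a b = 1 := by
    rw [hbS a (mem_spanL9 (by simp)), ← hd₀, hφ1]
  obtain ⟨s, hsH, hsiso, hs⟩ := qf_siegel9 hQ a' b ha' hb hb1
  have hconj := ot_conj9 h (hHM hsH) hsiso
  have e1 : (s : Matrix (Fin n) (Fin n) F) *ᵥ c = c := by
    rw [hs, hb2, qf_comm9 c a', h1, zero_smul, zero_smul, add_zero, sub_zero]
  have e2 : (s : Matrix (Fin n) (Fin n) F) *ᵥ a = a + a' := by
    rw [hs, hb3, qf_comm9 a a', h2, one_smul, zero_smul, sub_zero]
  rw [e1, e2] at hconj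
  have := ot_add_right9 hQ hconj (ot_neg_right9 hQ h)
  have e3 : a + a' + -a = a' := by abel
  rw [e3] at this
  exact this

theorem ot_move_left9 [Fintype F] (hQ : Cfsg.Geo.IsNondegenerateQuadraticForm Q) (hodd : Fintype.card F % 2 = 1) (hn : 13 ≤ n)
    (hHM : Cfsg.Geo.quadSimilarityGroup Q ⊓ Cfsg.Geo.specialLinear (Fin n) F ≤ M)
    {c a c' : Fin n → F} (h : OT9 Q M c a) (hc' : Q c' = 0) (h1 : QuadraticMap.polar Q c' a = 0) (h2 : QuadraticMap.polar Q c' c = 0)
    (h3 : c ∉ Submodule.span F ({c', a} : Set (Fin n → F))) : OT9 Q M c' a := by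
  obtain ⟨φ, hφ1, hφ0⟩ := exists_dual_one9 _ c h3
  obtain ⟨d₀, hd₀⟩ := qf_repr9 hQ φ
  obtain ⟨b, hbS, hb⟩ := qf_value9 hQ hodd (spanL9 [c', a, c]) (by
    have := finrank_spanL9 (F := F) [c', a, c]
    simp only [List.length_cons, List.length_nil] at this
    omega) d₀ 0
  have hb1 : QuadraticMap.polar Q c' b = 0 := by
    rw [hbS c' (mem_spanL9 (by simp)), ← hd₀]
    exact hφ0 c' (Submodule.subset_span (by simp))
  have hb2 : QuadraticMap.polar Q a b = 0 := by
    rw [hbS a (mem_spanL9 (by simp)), ← hd₀]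
    exact hφ0 a (Submodule.subset_span (by simp))
  have hb3 : QuadraticMap.polar Q c b = 1 := by
    rw [hbS c (mem_spanL9 (by simp)), ← hd₀, hφ1]
  obtain ⟨s, hsH, hsiso, hs⟩ := qf_siegel9 hQ c' b hc' hb hb1
  have hconj := ot_conj9 h (hHM hsH) hsiso
  have e1 : (s : Matrix (Fin n) (Fin n) F) *ᵥ a = a := by
    rw [hs, hb2, qf_comm9 a c', h1, zero_smul, zero_smul, add_zero, sub_zero]
  have e2 : (s : Matrix (Fin n) (Fin n) F) *ᵥ c = c + c' := by
    rw [hs, hb3, qf_comm9 c c', h2, one_smul, zero_smul, sub_zero]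
  rw [e1, e2] at hconj
  have := ot_add_left9 hQ hconj (ot_neg_left9 hQ h)
  have e3 : c + c' + -c = c' := by abel
  rw [e3] at this
  exact this

theorem ot_all_sing9 [Fintype F] (hQ : Cfsg.Geo.IsNondegenerateQuadraticForm Q) (hodd : Fintype.card F % 2 = 1) (h2 : (2 : F) ≠ 0)
    (hn : 13 ≤ n)
    (hHM : Cfsg.Geo.quadSimilarityGroup Q ⊓ Cfsg.Geo.specialLinear (Fin n) F ≤ M)
    {c a : Fin n → F} (h : OT9 Q M c a) (hca : c ∉ Submodule.span F {a}) (ha0 : a ≠ 0) :
    ∀ c' a' : Fin n → F, Q c' = 0 → Q a' = 0 → QuadraticMap.polar Q a' c' = 0 → OT9 Q M c' a' := by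
  intro c' a' hc' ha' hac'
  have hc0 : c ≠ 0 := fun h0 => hca (by rw [h0]; exact Submodule.zero_mem _)
  have hac : a ∉ Submodule.span F {c} := by
    intro hm
    obtain ⟨β, hβ⟩ := Submodule.mem_span_singleton.mp hm
    have hβ0 : β ≠ 0 := by
      intro h0
      rw [h0, zero_smul] at hβ
      exact ha0 hβ.symm
    apply hca
    have : c = β⁻¹ • a := by rw [← hβ, smul_smul, inv_mul_cancel₀ hβ0, one_smul]
    rw [this]
    exact Submodule.smul_mem _ _ (Submodule.mem_span_singleton_self a)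
  obtain ⟨a₁, ha₁Q, ha₁S, ha₁n⟩ := qf_gen9 hQ hodd h2 hn (spanL9 [c, a, c', a']) (by
    have := finrank_spanL9 (F := F) [c, a, c', a']
    simp only [List.length_cons, List.length_nil] at this
    omega)
  obtain ⟨c₁, hc₁Q, hc₁S, hc₁n⟩ := qf_gen9 hQ hodd h2 hn (spanL9 [c, a, c', a', a₁]) (by
    have := finrank_spanL9 (F := F) [c, a, c', a', a₁]
    simp only [List.length_cons, List.length_nil] at this
    omega)
  have s1 : OT9 Q M c a₁ := by
    refine ot_move_right9 hQ hodd hn hHM h ha₁Q ?_ ?_ ?_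
    · rw [qf_comm9]
      exact ha₁S c (mem_spanL9 (by simp))
    · rw [qf_comm9]
      exact ha₁S a (mem_spanL9 (by simp))
    · intro hm
      obtain ⟨α, β, hαβ⟩ := Submodule.mem_span_pair.mp hm
      by_cases hα : α = 0
      · rw [hα, zero_smul, zero_add] at hαβ
        apply hac
        rw [← hαβ]
        exact Submodule.smul_mem _ _ (Submodule.mem_span_singleton_self c)
      · apply ha₁n
        have : a₁ = α⁻¹ • a - (α⁻¹ * β) • c := by
          rw [← hαβ, smul_add, smul_smul, smul_smul, inv_mul_cancel₀ hα, one_smul]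
          abel
        rw [this]
        exact Submodule.sub_mem _ (Submodule.smul_mem _ _ (mem_spanL9 (by simp)))
          (Submodule.smul_mem _ _ (mem_spanL9 (by simp)))
  have s2 : OT9 Q M c₁ a₁ := by
    refine ot_move_left9 hQ hodd hn hHM s1 hc₁Q ?_ ?_ ?_
    · rw [qf_comm9]
      exact hc₁S a₁ (mem_spanL9 (by simp))
    · rw [qf_comm9]
      exact hc₁S c (mem_spanL9 (by simp))
    · intro hm
      obtain ⟨α, β, hαβ⟩ := Submodule.mem_span_pair.mp hm
      by_cases hα : α = 0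
      · rw [hα, zero_smul, zero_add] at hαβ
        have hβ0 : β ≠ 0 := by
          intro h0
          rw [h0, zero_smul] at hαβ
          exact hc0 hαβ.symm
        apply ha₁n
        have : a₁ = β⁻¹ • c := by rw [← hαβ, smul_smul, inv_mul_cancel₀ hβ0, one_smul]
        rw [this]
        exact Submodule.smul_mem _ _ (mem_spanL9 (by simp))
      · apply hc₁n
        have : c₁ = α⁻¹ • c - (α⁻¹ * β) • a₁ := by
          rw [← hαβ, smul_add, smul_smul, smul_smul, inv_mul_cancel₀ hα, one_smul]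
          abel
        rw [this]
        exact Submodule.sub_mem _ (Submodule.smul_mem _ _ (mem_spanL9 (by simp)))
          (Submodule.smul_mem _ _ (mem_spanL9 (by simp)))
  have s3 : OT9 Q M c' a₁ := by
    refine ot_move_left9 hQ hodd hn hHM s2 hc' (ha₁S c' (mem_spanL9 (by simp)))
      (hc₁S c' (mem_spanL9 (by simp))) ?_
    intro hm
    apply hc₁n
    refine Submodule.span_le.mpr ?_ hm
    intro x hx
    rcases hx with rfl | rfl
    · exact mem_spanL9 (by simp)
    · exact mem_spanL9 (by simp)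
  refine ot_move_right9 hQ hodd hn hHM s3 ha' hac' (ha₁S a' (mem_spanL9 (by simp))) ?_
  intro hm
  apply ha₁n
  refine Submodule.span_le.mpr ?_ hm
  intro x hx
  rcases hx with rfl | rfl
  · exact mem_spanL9 (by simp)
  · exact mem_spanL9 (by simp)

theorem ot_all9 [Fintype F] (hQ : Cfsg.Geo.IsNondegenerateQuadraticForm Q) (hodd : Fintype.card F % 2 = 1) (h2 : (2 : F) ≠ 0)
    (hn : 13 ≤ n)
    (hOTS : ∀ c' a' : Fin n → F, Q c' = 0 → Q a' = 0 → QuadraticMap.polar Q a' c' = 0 → OT9 Q M c' a') :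
    ∀ u v : Fin n → F, QuadraticMap.polar Q v u = 0 → OT9 Q M u v := by
  have F1 : ∀ u a : Fin n → F, Q a = 0 → QuadraticMap.polar Q a u = 0 → OT9 Q M u a := by
    intro u a ha hau
    by_cases hu : Q u = 0
    · exact hOTS u a hu ha hau
    · have hua : u ∉ Submodule.span F {a} := by
        intro hm
        obtain ⟨l, hl⟩ := Submodule.mem_span_singleton.mp hm
        apply hu
        rw [← hl, hQ.smul, ha, mul_zero]
      obtain ⟨φ, hφ1, hφ0⟩ := exists_dual_one9 _ u hua
      obtain ⟨e₀, he₀⟩ := qf_repr9 hQ φ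
      obtain ⟨e, heS, he⟩ := qf_value9 hQ hodd (spanL9 [u, a]) (by
        have := finrank_spanL9 (F := F) [u, a]
        simp only [List.length_cons, List.length_nil] at this
        omega) e₀ 0
      have hue : QuadraticMap.polar Q u e = 1 := by rw [heS u (mem_spanL9 (by simp)), ← he₀, hφ1]
      have hae : QuadraticMap.polar Q a e = 0 := by
        rw [heS a (mem_spanL9 (by simp)), ← he₀]
        exact hφ0 a (Submodule.mem_span_singleton_self a)
      have hu' : Q (u - Q u • e) = 0 := by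
        have e1 : u - Q u • e = (1 : F) • u + (-Q u) • e := by module
        rw [e1, qf_lin2_9 hQ, he, hue]
        ring
      have h1 := hOTS (u - Q u • e) a hu' ha (by
        rw [qf_subr9 hQ, hQ.polar_bilinear.smul_right, hau, hae]
        ring)
      have h2' := hOTS (Q u • e) a (by rw [hQ.smul, he, mul_zero]) ha (by
        rw [hQ.polar_bilinear.smul_right, hae, mul_zero])
      have := ot_add_left9 hQ h1 h2'
      have e2 : u - Q u • e + Q u • e = u := by abel
      rw [e2] at this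
      exact this
  intro u v hvu
  by_cases hv : Q v = 0
  · exact F1 u v hv hvu
  · have hvu' : v ∉ Submodule.span F {u} := by
      intro hm
      obtain ⟨l, hl⟩ := Submodule.mem_span_singleton.mp hm
      have hvu2 : l * (2 * Q u) = 0 := by
        have := hvu
        rw [← hl, hQ.polar_bilinear.smul_left, qf_self9 hQ] at this
        exact this
      apply hv
      rw [← hl, hQ.smul]
      rcases mul_eq_zero.mp hvu2 with h | h
      · rw [h]
        ring
      · have : Q u = 0 := (mul_eq_zero.mp h).resolve_left h2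
        rw [this, mul_zero]
    obtain ⟨φ, hφ1, hφ0⟩ := exists_dual_one9 _ v hvu'
    obtain ⟨e₀, he₀⟩ := qf_repr9 hQ φ
    obtain ⟨e, heS, he⟩ := qf_value9 hQ hodd (spanL9 [v, u]) (by
      have := finrank_spanL9 (F := F) [v, u]
      simp only [List.length_cons, List.length_nil] at this
      omega) e₀ 0
    have hve : QuadraticMap.polar Q v e = 1 := by rw [heS v (mem_spanL9 (by simp)), ← he₀, hφ1]
    have hue : QuadraticMap.polar Q u e = 0 := by
      rw [heS u (mem_spanL9 (by simp)), ← he₀]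
      exact hφ0 u (Submodule.mem_span_singleton_self u)
    have hv' : Q (v - Q v • e) = 0 := by
      have e1 : v - Q v • e = (1 : F) • v + (-Q v) • e := by module
      rw [e1, qf_lin2_9 hQ, he, hve]
      ring
    have h1 := F1 u (v - Q v • e) hv' (by
      rw [qf_subl9 hQ, hQ.polar_bilinear.smul_left, hvu, qf_comm9 e u, hue]
      ring)
    have h2' := F1 u (Q v • e) (by rw [hQ.smul, he, mul_zero]) (by
      rw [hQ.polar_bilinear.smul_left, qf_comm9 e u, hue, mul_zero])
    have := ot_add_right9 hQ h1 h2'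
    have e2 : v - Q v • e + Q v • e = v := by abel
    rw [e2] at this
    exact this

theorem qf_noneig9 [Fintype F] (hQ : Cfsg.Geo.IsNondegenerateQuadraticForm Q) (hodd : Fintype.card F % 2 = 1) (h2 : (2 : F) ≠ 0)
    (hn : 13 ≤ n) (g : GL (Fin n) F) (hg : g ∉ Cfsg.Geo.quadSimilarityGroup Q) :
    ∃ a₀ : Fin n → F, Q a₀ = 0 ∧ ¬ ∃ l : F, ∀ x, QuadraticMap.polar Q ((g : Matrix (Fin n) (Fin n) F) *ᵥ x) ((g : Matrix (Fin n) (Fin n) F) *ᵥ a₀) = l * QuadraticMap.polar Q x a₀ := by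
  by_contra hcon
  push_neg at hcon
  have hcon' : ∀ z : Fin n → F, ∃ l : F, Q z = 0 → ∀ x, QuadraticMap.polar Q ((g : Matrix (Fin n) (Fin n) F) *ᵥ x) ((g : Matrix (Fin n) (Fin n) F) *ᵥ z) = l * QuadraticMap.polar Q x z := by
    intro z
    by_cases hz : Q z = 0
    · obtain ⟨l, hl⟩ := hcon z hz
      exact ⟨l, fun _ => hl⟩
    · exact ⟨0, fun h => absurd h hz⟩
  choose lam hlam using hcon'
  obtain ⟨e₀, he₀Q, -, he₀n⟩ := qf_gen9 hQ hodd h2 hn ⊥ (by
    rw [finrank_bot]
    omega)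
  have he₀0 : e₀ ≠ 0 := fun h => he₀n (by rw [h]; exact Submodule.zero_mem _)
  have hpair : ∀ e f : Fin n → F, Q e = 0 → Q f = 0 → QuadraticMap.polar Q e f ≠ 0 → lam e = lam f := by
    intro e f he hf hef
    have h1 := hlam f hf e
    have h2' := hlam e he f
    rw [qf_comm9 ((g : Matrix (Fin n) (Fin n) F) *ᵥ f) ((g : Matrix (Fin n) (Fin n) F) *ᵥ e), qf_comm9 f e] at h2'
    have : (lam e - lam f) * QuadraticMap.polar Q e f = 0 := by linear_combination h1 - h2'
    exact sub_eq_zero.mp ((mul_eq_zero.mp this).resolve_right hef)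
  have hconst : ∀ e : Fin n → F, Q e = 0 → e ≠ 0 → lam e = lam e₀ := by
    intro e he he0
    obtain ⟨φ, hφe, hφe₀⟩ : ∃ φ : Module.Dual F (Fin n → F), φ e ≠ 0 ∧ φ e₀ ≠ 0 := by
      obtain ⟨φ₁, h11, -⟩ := exists_dual_one9 (⊥ : Submodule F (Fin n → F)) e (by simpa using he0)
      obtain ⟨φ₂, h21, -⟩ := exists_dual_one9 (⊥ : Submodule F (Fin n → F)) e₀ (by simpa using he₀0)
      by_cases c1 : φ₁ e₀ ≠ 0
      · exact ⟨φ₁, by rw [h11]; exact one_ne_zero, c1⟩
      · by_cases c2 : φ₂ e ≠ 0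
        · exact ⟨φ₂, c2, by rw [h21]; exact one_ne_zero⟩
        · push_neg at c1 c2
          refine ⟨φ₁ + φ₂, ?_, ?_⟩
          · rw [LinearMap.add_apply, h11, c2, add_zero]
            exact one_ne_zero
          · rw [LinearMap.add_apply, c1, h21, zero_add]
            exact one_ne_zero
    obtain ⟨y₀, hy₀⟩ := qf_repr9 hQ φ
    obtain ⟨f, hfS, hf⟩ := qf_value9 hQ hodd (spanL9 [e, e₀]) (by
      have := finrank_spanL9 (F := F) [e, e₀]
      simp only [List.length_cons, List.length_nil] at this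
      omega) y₀ 0
    have h1 : QuadraticMap.polar Q e f ≠ 0 := by
      rw [hfS e (mem_spanL9 (by simp)), ← hy₀]
      exact hφe
    have h2' : QuadraticMap.polar Q e₀ f ≠ 0 := by
      rw [hfS e₀ (mem_spanL9 (by simp)), ← hy₀]
      exact hφe₀
    exact (hpair e f he hf h1).trans (hpair e₀ f he₀Q hf h2').symm
  have hsing : ∀ e : Fin n → F, Q e = 0 → ∀ x, QuadraticMap.polar Q ((g : Matrix (Fin n) (Fin n) F) *ᵥ x) ((g : Matrix (Fin n) (Fin n) F) *ᵥ e) = lam e₀ * QuadraticMap.polar Q x e := by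
    intro e he x
    by_cases he0 : e = 0
    · rw [he0, Matrix.mulVec_zero, qf_zr9 hQ, qf_zr9 hQ, mul_zero]
    · rw [hlam e he x, hconst e he he0]
  have hallB : ∀ x y : Fin n → F, QuadraticMap.polar Q ((g : Matrix (Fin n) (Fin n) F) *ᵥ x) ((g : Matrix (Fin n) (Fin n) F) *ᵥ y) = lam e₀ * QuadraticMap.polar Q x y := by
    intro x y
    by_cases hy : Q y = 0
    · exact hsing y hy x
    · have hy0 : y ∉ (⊥ : Submodule F (Fin n → F)) := by
        intro h
        rw [Submodule.mem_bot] at h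
        apply hy
        rw [h]
        exact qf_zero9 hQ
      obtain ⟨φ, hφ1, -⟩ := exists_dual_one9 _ y hy0
      obtain ⟨e₁, he₁⟩ := qf_repr9 hQ φ
      obtain ⟨e, heS, he⟩ := qf_value9 hQ hodd (spanL9 [y]) (by
        have := finrank_spanL9 (F := F) [y]
        simp only [List.length_cons, List.length_nil] at this
        omega) e₁ 0
      have hye : QuadraticMap.polar Q y e = 1 := by rw [heS y (mem_spanL9 (by simp)), ← he₁, hφ1]
      have hy' : Q (y - Q y • e) = 0 := by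
        have e1 : y - Q y • e = (1 : F) • y + (-Q y) • e := by module
        rw [e1, qf_lin2_9 hQ, he, hye]
        ring
      have h1 := hsing (y - Q y • e) hy' x
      have h2' := hsing e he x
      have e2 : y = (y - Q y • e) + Q y • e := by abel
      have e3 : (g : Matrix (Fin n) (Fin n) F) *ᵥ y = (g : Matrix (Fin n) (Fin n) F) *ᵥ (y - Q y • e) + Q y • (g : Matrix (Fin n) (Fin n) F) *ᵥ e := by
        conv_lhs => rw [e2]
        rw [Matrix.mulVec_add, Matrix.mulVec_smul]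
      have e4 : QuadraticMap.polar Q x y = QuadraticMap.polar Q x (y - Q y • e) + Q y * QuadraticMap.polar Q x e := by
        conv_lhs => rw [e2]
        rw [hQ.polar_bilinear.add_right, hQ.polar_bilinear.smul_right]
      rw [e3, e4, hQ.polar_bilinear.add_right, hQ.polar_bilinear.smul_right, h1, h2']
      ring
  have hQg : ∀ x, Q ((g : Matrix (Fin n) (Fin n) F) *ᵥ x) = lam e₀ * Q x := by
    intro x
    have h := hallB x x
    rw [qf_self9 hQ, qf_self9 hQ] at h
    have : 2 * (Q ((g : Matrix (Fin n) (Fin n) F) *ᵥ x) - lam e₀ * Q x) = 0 := by linear_combination h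
    exact sub_eq_zero.mp ((mul_eq_zero.mp this).resolve_left h2)
  have hl0 : lam e₀ ≠ 0 := by
    intro h0
    have hQ0 : ∀ y, Q y = 0 := by
      intro y
      have := hQg (((g⁻¹ : GL (Fin n) F) : Matrix (Fin n) (Fin n) F) *ᵥ y)
      rw [gl_mul_inv_vec9, h0, zero_mul] at this
      exact this
    obtain ⟨⟨x, hx⟩, _⟩ := hQ.nondegenerate e₀ he₀0
    apply hx
    rw [QuadraticMap.polar, hQ0, hQ0, hQ0]
    ring
  exact hg ⟨Units.mk0 _ hl0, fun v => by rw [hQg, Units.val_mk0]⟩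

theorem qf_initial9 [Fintype F] (hQ : Cfsg.Geo.IsNondegenerateQuadraticForm Q) (hodd : Fintype.card F % 2 = 1) (h2 : (2 : F) ≠ 0)
    (hn : 13 ≤ n)
    (hHM : Cfsg.Geo.quadSimilarityGroup Q ⊓ Cfsg.Geo.specialLinear (Fin n) F ≤ M)
    (g : GL (Fin n) F) (hgM : g ∈ M) (hg : g ∉ Cfsg.Geo.quadSimilarityGroup Q) :
    ∃ u₀ a : Fin n → F, OT9 Q M u₀ a ∧ Q a = 0 ∧ a ∉ Submodule.span F {u₀} ∧ u₀ ≠ 0 := by
  obtain ⟨a₀, ha₀, hne⟩ := qf_noneig9 hQ hodd h2 hn g hg
  have hadj : ∀ z : Fin n → F, ∃ p : Fin n → F, ∀ x, QuadraticMap.polar Q x p = QuadraticMap.polar Q (((g⁻¹ : GL (Fin n) F) : Matrix (Fin n) (Fin n) F) *ᵥ x) z := by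
    intro z
    let ψ : Module.Dual F (Fin n → F) :=
      { toFun := fun x => QuadraticMap.polar Q (((g⁻¹ : GL (Fin n) F) : Matrix (Fin n) (Fin n) F) *ᵥ x) z
        map_add' := fun x x' => by rw [Matrix.mulVec_add, hQ.polar_bilinear.add_left]
        map_smul' := fun c x => by
          rw [Matrix.mulVec_smul, hQ.polar_bilinear.smul_left, RingHom.id_apply, smul_eq_mul] }
    obtain ⟨p, hp⟩ := qf_repr9 hQ ψ
    exact ⟨p, fun x => (hp x).symm⟩
  have hadj' : ∀ z : Fin n → F, ∃ p : Fin n → F, ∀ x, QuadraticMap.polar Q x p = QuadraticMap.polar Q ((g : Matrix (Fin n) (Fin n) F) *ᵥ x) z := by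
    intro z
    let ψ : Module.Dual F (Fin n → F) :=
      { toFun := fun x => QuadraticMap.polar Q ((g : Matrix (Fin n) (Fin n) F) *ᵥ x) z
        map_add' := fun x x' => by rw [Matrix.mulVec_add, hQ.polar_bilinear.add_left]
        map_smul' := fun c x => by
          rw [Matrix.mulVec_smul, hQ.polar_bilinear.smul_left, RingHom.id_apply, smul_eq_mul] }
    obtain ⟨p, hp⟩ := qf_repr9 hQ ψ
    exact ⟨p, fun x => (hp x).symm⟩
  obtain ⟨p₀, hp₀⟩ := hadj a₀
  obtain ⟨A, hA⟩ : ∃ A : Fin n → F, A = (g : Matrix (Fin n) (Fin n) F) *ᵥ a₀ := ⟨_, rfl⟩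
  have hAp₀ : A ∉ Submodule.span F {p₀} := by
    intro hm
    obtain ⟨l, hl⟩ := Submodule.mem_span_singleton.mp hm
    apply hne
    refine ⟨l, fun x => ?_⟩
    rw [← hA, ← hl, hQ.polar_bilinear.smul_right, hp₀, gl_inv_mul_vec9]
  obtain ⟨φ, hφ1, hφ0⟩ := exists_dual_one9 _ A hAp₀
  obtain ⟨y₀, hy₀⟩ := qf_repr9 hQ φ
  obtain ⟨y, hyS, hy⟩ := qf_value9 hQ hodd (spanL9 [A, p₀]) (by
    have := finrank_spanL9 (F := F) [A, p₀]
    simp only [List.length_cons, List.length_nil] at this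
    omega) y₀ 0
  have hAy : QuadraticMap.polar Q A y = 1 := by rw [hyS A (mem_spanL9 (by simp)), ← hy₀, hφ1]
  have hp₀y : QuadraticMap.polar Q p₀ y = 0 := by
    rw [hyS p₀ (mem_spanL9 (by simp)), ← hy₀]
    exact hφ0 p₀ (Submodule.mem_span_singleton_self p₀)
  obtain ⟨q₁, hq₁⟩ := hadj' y
  obtain ⟨d, hdQ, hdS, hdn⟩ := qf_gen9 hQ hodd h2 hn (spanL9 [a₀, ((g⁻¹ : GL (Fin n) F) : Matrix (Fin n) (Fin n) F) *ᵥ y, q₁]) (by
    have := finrank_spanL9 (F := F) [a₀, ((g⁻¹ : GL (Fin n) F) : Matrix (Fin n) (Fin n) F) *ᵥ y, q₁]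
    simp only [List.length_cons, List.length_nil] at this
    omega)
  have hd0 : d ≠ 0 := fun h => hdn (by rw [h]; exact Submodule.zero_mem _)
  have hd1 : QuadraticMap.polar Q a₀ d = 0 := hdS a₀ (mem_spanL9 (by simp))
  have hd2 : QuadraticMap.polar Q (((g⁻¹ : GL (Fin n) F) : Matrix (Fin n) (Fin n) F) *ᵥ y) d = 0 := hdS _ (mem_spanL9 (by simp))
  have hd3 : QuadraticMap.polar Q ((g : Matrix (Fin n) (Fin n) F) *ᵥ d) y = 0 := by
    rw [← hq₁, qf_comm9]
    exact hdS q₁ (mem_spanL9 (by simp))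
  obtain ⟨C, hC⟩ : ∃ C : Fin n → F, C = (g : Matrix (Fin n) (Fin n) F) *ᵥ d := ⟨_, rfl⟩
  obtain ⟨p₂, hp₂⟩ := hadj d
  obtain ⟨a, haQ, haS, han⟩ := qf_gen9 hQ hodd h2 hn (spanL9 [y, p₂, p₀, A, C]) (by
    have := finrank_spanL9 (F := F) [y, p₂, p₀, A, C]
    simp only [List.length_cons, List.length_nil] at this
    omega)
  have ha1 : QuadraticMap.polar Q y a = 0 := haS y (mem_spanL9 (by simp))
  have ha2 : QuadraticMap.polar Q p₂ a = 0 := haS p₂ (mem_spanL9 (by simp))
  have ha3 : QuadraticMap.polar Q p₀ a = 0 := haS p₀ (mem_spanL9 (by simp))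
  have ha4 : QuadraticMap.polar Q A a = 0 := haS A (mem_spanL9 (by simp))
  have ha5 : QuadraticMap.polar Q C a = 0 := haS C (mem_spanL9 (by simp))
  obtain ⟨E₁, hE₁H, -, hE₁⟩ := qf_siegel9 hQ a y haQ hy (by rw [qf_comm9]; exact ha1)
  obtain ⟨E₀, hE₀H, -, hE₀⟩ := qf_siegel9 hQ a₀ d ha₀ hdQ hd1
  have hE₂ : ∀ x, ((g * E₀ * g⁻¹ : GL (Fin n) F) : Matrix (Fin n) (Fin n) F) *ᵥ x = x + QuadraticMap.polar Q x p₂ • A - QuadraticMap.polar Q x p₀ • C := by
    intro x
    rw [gl_mul_vec9, gl_mul_vec9, hE₀, Matrix.mulVec_sub, Matrix.mulVec_add, Matrix.mulVec_smul,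
      Matrix.mulVec_smul, gl_mul_inv_vec9, hp₂, hp₀, hA, hC]
  have hE₂M : g * E₀ * g⁻¹ ∈ M := M.mul_mem (M.mul_mem hgM (hHM hE₀H)) (M.inv_mem hgM)
  have r1 : QuadraticMap.polar Q A p₂ = 0 := by rw [hp₂, hA, gl_inv_mul_vec9, hd1]
  have r2 : QuadraticMap.polar Q A p₀ = 0 := by rw [hp₀, hA, gl_inv_mul_vec9, qf_self9 hQ, ha₀, mul_zero]
  have r3 : QuadraticMap.polar Q C p₂ = 0 := by rw [hp₂, hC, gl_inv_mul_vec9, qf_self9 hQ, hdQ, mul_zero]
  have r4 : QuadraticMap.polar Q C p₀ = 0 := by rw [hp₀, hC, gl_inv_mul_vec9, qf_comm9, hd1]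
  have hOT : OT9 Q M p₂ a := sieg2_comm9 hQ (hHM hE₁H) hE₂M
    (by rw [qf_comm9]; exact ha1) (by rw [qf_self9 hQ, haQ, mul_zero])
    (by rw [qf_self9 hQ, hy, mul_zero]) ha1
    r1 r2 r3 r4
    (by rw [qf_comm9]; exact ha2) (by rw [qf_comm9]; exact ha3)
    (by rw [hp₂]; exact hd2) (by rw [qf_comm9]; exact hp₀y)
    hAy ha4 (by rw [hC]; exact hd3) ha5 hE₁ hE₂
  refine ⟨p₂, a, hOT, haQ, ?_, ?_⟩
  · intro hm
    apply han
    refine Submodule.span_le.mpr ?_ hm
    intro x hx
    rw [Set.mem_singleton_iff] at hx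
    rw [hx]
    exact mem_spanL9 (by simp)
  · intro h0
    obtain ⟨⟨x, hx⟩, _⟩ := hQ.nondegenerate d hd0
    apply hx
    have := hp₂ ((g : Matrix (Fin n) (Fin n) F) *ᵥ x)
    rw [gl_inv_mul_vec9, h0, qf_zr9 hQ] at this
    exact this.symm

/-- The similarity group of a non-degenerate quadratic form is maximal in the special linear
group over a field of odd order. -/
theorem quad_in_sl_maximal9 [Fintype F] (hn : 13 ≤ n) (hoddF : Odd (Fintype.card F)) (hQ : Cfsg.Geo.IsNondegenerateQuadraticForm Q) :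
    Cfsg.Geo.IsMaximalIn (Cfsg.Geo.specialLinear (Fin n) F)
      (Cfsg.Geo.quadSimilarityGroup Q ⊓ Cfsg.Geo.specialLinear (Fin n) F) := by
  have hodd : Fintype.card F % 2 = 1 := Nat.odd_iff.mp hoddF
  have h2 : (2 : F) ≠ 0 := by
    intro h
    have hc : ringChar F = 2 :=
      CharP.ringChar_of_prime_eq_zero Nat.prime_two (by exact_mod_cast h)
    have := FiniteField.even_card_of_char_two hc
    omega
  obtain ⟨e₀, he₀Q, -, he₀n⟩ := qf_gen9 hQ hodd h2 hn ⊥ (by
    rw [finrank_bot]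
    omega)
  have he₀0 : e₀ ≠ 0 := fun h => he₀n (by rw [h]; exact Submodule.zero_mem _)
  refine ⟨lt_of_le_of_ne inf_le_right fun heq => ?_, fun M hHM hMS => ?_⟩
  · have hee : QuadraticMap.polar Q e₀ e₀ = 0 := by rw [qf_self9 hQ, he₀Q, mul_zero]
    obtain ⟨t, htS, ht⟩ := exists_transv9 (qfFun9 hQ e₀) e₀ hee
    rw [← heq] at htS
    obtain ⟨c, hc⟩ := htS.1
    have hQt : ∀ x, Q ((t : Matrix (Fin n) (Fin n) F) *ᵥ x) = Q x + QuadraticMap.polar Q x e₀ * QuadraticMap.polar Q x e₀ := by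
      intro x
      rw [ht, qfFun9_apply, qf_add9 (Q := Q), hQ.smul, he₀Q, hQ.polar_bilinear.smul_right]
      ring
    obtain ⟨w, hwP, hw⟩ := qf_nonsing9 hQ (qfPerp9 hQ (spanL9 [e₀])) (by
      have h1 := qf_perp_dim9 hQ (spanL9 [e₀])
      have h3 := finrank_spanL9 (F := F) [e₀]
      simp only [List.length_cons, List.length_nil] at h3
      omega)
    have hwe : QuadraticMap.polar Q w e₀ = 0 := by
      rw [qf_comm9]
      exact (mem_qfPerp9 hQ).mp hwP e₀ (mem_spanL9 (by simp))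
    have hc1 : (c : F) = 1 := by
      have h1 := hc w
      rw [hQt, hwe, mul_zero, add_zero] at h1
      have : ((c : F) - 1) * Q w = 0 := by linear_combination -h1
      exact sub_eq_zero.mp ((mul_eq_zero.mp this).resolve_right hw)
    obtain ⟨⟨x, hx⟩, _⟩ := hQ.nondegenerate e₀ he₀0
    have h1 := hc x
    rw [hQt, hc1, one_mul] at h1
    have : QuadraticMap.polar Q x e₀ * QuadraticMap.polar Q x e₀ = 0 := by linear_combination h1
    exact hx (mul_self_eq_zero.mp this)
  · by_cases hMH : M ≤ Cfsg.Geo.quadSimilarityGroup Q ⊓ Cfsg.Geo.specialLinear (Fin n) F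
    · exact Or.inl (le_antisymm hMH hHM)
    · right
      refine le_antisymm hMS (sl_le_of_transv9 M ?_)
      obtain ⟨g, hgM, hgH⟩ := Set.not_subset.mp hMH
      have hgS := hMS hgM
      have hgsim : g ∉ Cfsg.Geo.quadSimilarityGroup Q := fun h => hgH ⟨h, hgS⟩
      obtain ⟨u₀, a, hOT, haQ, hau, hu₀⟩ := qf_initial9 hQ hodd h2 hn hHM g hgM hgsim
      have ha0 : a ≠ 0 := fun h => hau (by rw [h]; exact Submodule.zero_mem _)
      obtain ⟨c, hcQ, hcS, hcn⟩ := qf_gen9 hQ hodd h2 hn (spanL9 [a, u₀]) (by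
        have := finrank_spanL9 (F := F) [a, u₀]
        simp only [List.length_cons, List.length_nil] at this
        omega)
      have hOT2 : OT9 Q M c a := by
        refine ot_move_left9 hQ hodd hn hHM hOT hcQ ?_ ?_ ?_
        · rw [qf_comm9]
          exact hcS a (mem_spanL9 (by simp))
        · rw [qf_comm9]
          exact hcS u₀ (mem_spanL9 (by simp))
        · intro hm
          obtain ⟨α, β, hαβ⟩ := Submodule.mem_span_pair.mp hm
          by_cases hα : α = 0
          · rw [hα, zero_smul, zero_add] at hαβ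
            have hβ0 : β ≠ 0 := by
              intro h0
              rw [h0, zero_smul] at hαβ
              exact hu₀ hαβ.symm
            apply hau
            have : a = β⁻¹ • u₀ := by rw [← hαβ, smul_smul, inv_mul_cancel₀ hβ0, one_smul]
            rw [this]
            exact Submodule.smul_mem _ _ (Submodule.mem_span_singleton_self u₀)
          · apply hcn
            have : c = α⁻¹ • u₀ - (α⁻¹ * β) • a := by
              rw [← hαβ, smul_add, smul_smul, smul_smul, inv_mul_cancel₀ hα, one_smul]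
              abel
            rw [this]
            exact Submodule.sub_mem _ (Submodule.smul_mem _ _ (mem_spanL9 (by simp)))
              (Submodule.smul_mem _ _ (mem_spanL9 (by simp)))
      have hca : c ∉ Submodule.span F {a} := by
        intro hm
        apply hcn
        refine Submodule.span_le.mpr ?_ hm
        intro x hx
        rw [Set.mem_singleton_iff] at hx
        rw [hx]
        exact mem_spanL9 (by simp)
      have hOTS := ot_all_sing9 hQ hodd h2 hn hHM hOT2 hca ha0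
      have hall := ot_all9 hQ hodd h2 hn hOTS
      intro φ v hφv
      obtain ⟨u, hu⟩ := qf_repr9 hQ φ
      obtain ⟨_, s, hsM, hs⟩ := hall u v (by rw [← hu]; exact hφv)
      exact ⟨s, hsM, hMS hsM, fun x => by rw [hs, hu]⟩

end Cfsg.Agent.Helper9
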