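import Mathlib
import Cfsg.Agent.Helper9.QSim9
import Cfsg.Agent.Helper9.Tens2
import Cfsg.Agent.Helper9.SpGen

set_option autoImplicit false

namespace Cfsg.Agent.Helper9

open Cfsg
open scoped MatrixGroups Matrix commutatorElement

variable {n : ℕ} {F : Type*} [Field F] {Q : (Fin n → F) → F}

/-- A singular vector orthogonal to, and outside of, a small subspace, in characteristic two. -/
theorem qf_gen_even9 [Fintype F] (hQ : Cfsg.Geo.IsNondegenerateQuadraticForm Q) (h2 : (2 : F) = 0) (hn : 13 ≤ n)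
    (S : Submodule F (Fin n → F)) (hS : Module.finrank F S ≤ 5) :
    ∃ s, Q s = 0 ∧ (∀ p ∈ S, QuadraticMap.polar Q p s = 0) ∧ s ∉ S := by
  have hP := qf_perp_dim9 hQ S
  obtain ⟨u, huP, huS⟩ : ∃ u ∈ qfPerp9 hQ S, u ∉ S := by
    by_contra hcon
    push_neg at hcon
    have hle : qfPerp9 hQ S ≤ S := hcon
    have := Submodule.finrank_mono hle
    omega
  obtain ⟨S₁, hS₁⟩ : ∃ S₁ : Submodule F (Fin n → F), S₁ = S ⊔ Submodule.span F {u} := ⟨_, rfl⟩
  have hd₁ : Module.finrank F S₁ ≤ Module.finrank F S + 1 := by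
    rw [hS₁]
    exact finrank_sup_span9 S u
  have hP₁ := qf_perp_dim9 hQ S₁
  obtain ⟨v, hvP, hvS⟩ : ∃ v ∈ qfPerp9 hQ S₁, v ∉ S₁ := by
    by_contra hcon
    push_neg at hcon
    have hle : qfPerp9 hQ S₁ ≤ S₁ := hcon
    have := Submodule.finrank_mono hle
    omega
  have hu := (mem_qfPerp9 hQ).mp huP
  have hv := (mem_qfPerp9 hQ).mp hvP
  have hSS₁ : S ≤ S₁ := by
    rw [hS₁]
    exact le_sup_left
  have huS₁ : u ∈ S₁ := by
    rw [hS₁]
    exact Submodule.mem_sup_right (Submodule.mem_span_singleton_self u)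
  have huv : QuadraticMap.polar Q u v = 0 := hv u huS₁
  by_cases hQu : Q u = 0
  · exact ⟨u, hQu, hu, huS⟩
  · have hchar : ringChar F = 2 :=
      CharP.ringChar_of_prime_eq_zero Nat.prime_two (by rw [Nat.cast_ofNat]; exact h2)
    obtain ⟨α, hα⟩ := FiniteField.isSquare_of_char_two hchar (Q v / Q u)
    refine ⟨α • u + (1 : F) • v, ?_, fun p hp => ?_, fun hs => ?_⟩
    · rw [qf_lin2_9 hQ, huv]
      have e : α ^ 2 * Q u = Q v := by
        rw [pow_two, ← hα]
        field_simp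
      rw [e]
      linear_combination Q v * h2
    · rw [hQ.polar_bilinear.add_right, hQ.polar_bilinear.smul_right, hQ.polar_bilinear.smul_right, hu p hp, hv p (hSS₁ hp)]
      ring
    · apply hvS
      have e : v = (α • u + (1 : F) • v) - α • u := by module
      rw [e, hS₁]
      exact Submodule.sub_mem _ (Submodule.mem_sup_left hs)
        (Submodule.mem_sup_right (Submodule.smul_mem _ _ (Submodule.mem_span_singleton_self u)))

/-- A hyperbolic partner orthogonal to a subspace. -/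
theorem qf_partner9 [Finite F] (hQ : Cfsg.Geo.IsNondegenerateQuadraticForm Q) (S : Submodule F (Fin n → F)) (b : Fin n → F) (hb : Q b = 0)
    (hbp : ∀ p ∈ S, QuadraticMap.polar Q p b = 0) (hbS : b ∉ S) :
    ∃ c, Q c = 0 ∧ QuadraticMap.polar Q b c = 1 ∧ ∀ p ∈ S, QuadraticMap.polar Q p c = 0 := by
  obtain ⟨φ, hφ1, hφ0⟩ := exists_dual_one9 S b hbS
  obtain ⟨u, hu⟩ := qf_repr9 hQ φ
  have hbu : QuadraticMap.polar Q b u = 1 := by rw [← hu, hφ1]
  have hub : QuadraticMap.polar Q u b = 1 := by rw [qf_comm9, hbu]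
  refine ⟨(1 : F) • u + (-(Q u)) • b, ?_, ?_, fun p hp => ?_⟩
  · rw [qf_lin2_9 hQ, hb, hub]
    ring
  · rw [hQ.polar_bilinear.add_right, hQ.polar_bilinear.smul_right, hQ.polar_bilinear.smul_right, hbu, qf_self9 hQ, hb]
    ring
  · rw [hQ.polar_bilinear.add_right, hQ.polar_bilinear.smul_right, hQ.polar_bilinear.smul_right, ← hu p, hφ0 p hp, hbp p hp]
    ring

/-- A hyperbolic pair orthogonal to a small subspace. -/
theorem qf_hyp9 [Fintype F] (hQ : Cfsg.Geo.IsNondegenerateQuadraticForm Q)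
    (hchar : (2 : F) = 0 ∨ ((2 : F) ≠ 0 ∧ Fintype.card F % 2 = 1)) (hn : 13 ≤ n)
    (S : Submodule F (Fin n → F)) (hS : Module.finrank F S ≤ 5) :
    ∃ b c, Q b = 0 ∧ Q c = 0 ∧ QuadraticMap.polar Q b c = 1 ∧ (∀ p ∈ S, QuadraticMap.polar Q p b = 0) ∧ (∀ p ∈ S, QuadraticMap.polar Q p c = 0) := by
  obtain ⟨b, hb, hbp, hbS⟩ : ∃ s, Q s = 0 ∧ (∀ p ∈ S, QuadraticMap.polar Q p s = 0) ∧ s ∉ S := by
    rcases hchar with h2 | ⟨h2, hodd⟩
    · exact qf_gen_even9 hQ h2 hn S hS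
    · exact qf_gen9 hQ hodd h2 hn S hS
  obtain ⟨c, hc, hbc, hcp⟩ := qf_partner9 hQ S b hb hbp hbS
  exact ⟨b, c, hb, hc, hbc, hbp, hcp⟩

theorem omega_iso9 {g : GL (Fin n) F} (hg : g ∈ Cfsg.Geo.omegaGL Q) (v : Fin n → F) : Q ((g : Matrix (Fin n) (Fin n) F) *ᵥ v) = Q v := by
  obtain ⟨y, -, rfl⟩ := Subgroup.mem_map.mp hg
  exact y.2 v v

theorem comm_mem_omega9 {s s' : GL (Fin n) F} (hs : ∀ v, Q ((s : Matrix (Fin n) (Fin n) F) *ᵥ v) = Q v)
    (hs' : ∀ v, Q ((s' : Matrix (Fin n) (Fin n) F) *ᵥ v) = Q v) : s * s' * s⁻¹ * s'⁻¹ ∈ Cfsg.Geo.omegaGL Q := by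
  have hsI : s ∈ Cfsg.isometryGroup F Q := fun u _ => hs u
  have hs'I : s' ∈ Cfsg.isometryGroup F Q := fun u _ => hs' u
  obtain ⟨a, ha⟩ : ∃ a : Cfsg.isometryGroup F Q, (a : GL (Fin n) F) = s := ⟨⟨s, hsI⟩, rfl⟩
  obtain ⟨b, hb⟩ : ∃ b : Cfsg.isometryGroup F Q, (b : GL (Fin n) F) = s' := ⟨⟨s', hs'I⟩, rfl⟩
  have hmem : a * b * a⁻¹ * b⁻¹ ∈ commutator (Cfsg.isometryGroup F Q) := by
    have h := Subgroup.commutator_mem_commutator (Subgroup.mem_top a) (Subgroup.mem_top b)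
    rw [commutatorElement_def] at h
    rw [commutator_def]
    exact h
  refine Subgroup.mem_map.mpr ⟨a * b * a⁻¹ * b⁻¹, hmem, ?_⟩
  rw [Subgroup.coe_subtype, Subgroup.coe_mul, Subgroup.coe_mul, Subgroup.coe_mul, Subgroup.coe_inv,
    Subgroup.coe_inv, ha, hb]

/-- The Siegel element of a totally singular pair lies in `Ω` when the pair is orthogonal to a
hyperbolic pair. -/
theorem sieg_omega9 (hQ : Cfsg.Geo.IsNondegenerateQuadraticForm Q) (x y b c : Fin n → F) (hx : Q x = 0) (hy : Q y = 0) (hb : Q b = 0) (hc : Q c = 0)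
    (hxy : QuadraticMap.polar Q x y = 0) (hbc : QuadraticMap.polar Q b c = 1) (hxb : QuadraticMap.polar Q x b = 0) (hxc : QuadraticMap.polar Q x c = 0)
    (hyb : QuadraticMap.polar Q y b = 0) (hyc : QuadraticMap.polar Q y c = 0) :
    ∃ g ∈ Cfsg.Geo.omegaGL Q, ∀ v, (g : Matrix (Fin n) (Fin n) F) *ᵥ v = v + QuadraticMap.polar Q v y • x - QuadraticMap.polar Q v x • y := by
  have hxx : QuadraticMap.polar Q x x = 0 := by rw [qf_self9 hQ, hx, mul_zero]
  have hyy : QuadraticMap.polar Q y y = 0 := by rw [qf_self9 hQ, hy, mul_zero]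
  have hbb : QuadraticMap.polar Q b b = 0 := by rw [qf_self9 hQ, hb, mul_zero]
  have hcc : QuadraticMap.polar Q c c = 0 := by rw [qf_self9 hQ, hc, mul_zero]
  have hyx : QuadraticMap.polar Q y x = 0 := by rw [qf_comm9, hxy]
  have hcb : QuadraticMap.polar Q c b = 1 := by rw [qf_comm9, hbc]
  have hbx : QuadraticMap.polar Q b x = 0 := by rw [qf_comm9, hxb]
  have hcx : QuadraticMap.polar Q c x = 0 := by rw [qf_comm9, hxc]
  have hby : QuadraticMap.polar Q b y = 0 := by rw [qf_comm9, hyb]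
  have hcy : QuadraticMap.polar Q c y = 0 := by rw [qf_comm9, hyc]
  obtain ⟨s, -, hsI, hs⟩ := qf_siegel9 hQ x b hx hb hxb
  obtain ⟨s', -, hs'I, hs'⟩ := qf_siegel9 hQ c y hc hy hcy
  have hsi := sieg2_inv9 hQ hxb hxx hbb hbx hs
  have hs'i := sieg2_inv9 hQ hcy hcc hyy hyc hs'
  refine ⟨s * s' * s⁻¹ * s'⁻¹, comm_mem_omega9 hsI hs'I, fun v => ?_⟩
  rw [gl_mul_vec9, gl_mul_vec9, gl_mul_vec9, hs'i, hsi, hs', hs]
  simp only [hQ.polar_bilinear.add_left, qf_subl9 hQ, hQ.polar_bilinear.smul_left, hxx, hxy, hxb, hxc, hyx, hyy, hyb, hyc, hbx,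
    hby, hbb, hbc, hcx, hcy, hcb, hcc, mul_zero, sub_zero, add_zero, mul_one]
  module

/-- Over a field with at most three elements the stabiliser of a hyperbolic plane is not
maximal in `Ω`. -/
theorem plus_plane_notmax9 [Fintype F] (hn : 13 ≤ n) (hQ : Cfsg.Geo.IsNondegenerateQuadraticForm Q) (hq : Fintype.card F ≤ 3) (W : Submodule F (Fin n → F))
    (hdim : Module.finrank F W = 2) (hW : Cfsg.Geo.IsNondegenerateOn (QuadraticMap.polar Q) W)
    (hWp : Cfsg.Geo.IsPlusTypeOn Q W) :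
    ∃ K : Subgroup (GL (Fin n) F), Cfsg.Geo.subspaceStabilizer W ⊓ Cfsg.Geo.omegaGL Q < K ∧
      K < Cfsg.Geo.omegaGL Q := by
  classical
  have hcard1 : 1 < Fintype.card F := Fintype.one_lt_card
  have hc23 : Fintype.card F = 2 ∨ Fintype.card F = 3 := by omega
  have hchar : (2 : F) = 0 ∨ ((2 : F) ≠ 0 ∧ Fintype.card F % 2 = 1) := by
    rcases hc23 with hc | hc
    · left
      exact f2_two9 hc
    · right
      refine ⟨fun h2 => ?_, by rw [hc]⟩
      have h3 := FiniteField.cast_card_eq_zero F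
      rw [hc] at h3
      have h3' : (3 : F) = 0 := by exact_mod_cast h3
      have : (1 : F) = 0 := by linear_combination h3' - h2
      exact one_ne_zero this
  have hsq : ∀ a : F, a ≠ 0 → a * a = 1 := by
    intro a ha
    have hp := FiniteField.pow_card_sub_one_eq_one a ha
    rcases hc23 with hc | hc
    · rw [hc] at hp
      norm_num at hp
      rw [hp, mul_one]
    · rw [hc] at hp
      have hp' : a ^ 2 = 1 := hp
      rw [← pow_two]
      exact hp'
  -- the hyperbolic pair spanning W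
  obtain ⟨U, hUW, hUts, hUdim⟩ := hWp
  obtain ⟨e, heU, he0⟩ : ∃ e ∈ U, e ≠ 0 := by
    have hpos : 0 < Module.finrank F U := by omega
    obtain ⟨x, hx⟩ := Module.finrank_pos_iff_exists_ne_zero.mp hpos
    exact ⟨x.1, x.2, fun h => hx (Subtype.ext h)⟩
  have heW : e ∈ W := hUW heU
  have hQe : Q e = 0 := hUts e heU
  have hee : QuadraticMap.polar Q e e = 0 := by rw [qf_self9 hQ, hQe, mul_zero]
  obtain ⟨⟨x, hxW, hxe⟩, -⟩ := hW e heW he0
  obtain ⟨f₀, hf₀⟩ : ∃ f₀ : Fin n → F, f₀ = (QuadraticMap.polar Q x e)⁻¹ • x := ⟨_, rfl⟩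
  have hf₀e : QuadraticMap.polar Q f₀ e = 1 := by rw [hf₀, hQ.polar_bilinear.smul_left, inv_mul_cancel₀ hxe]
  have hf₀W : f₀ ∈ W := by
    rw [hf₀]
    exact W.smul_mem _ hxW
  obtain ⟨f, hf⟩ : ∃ f : Fin n → F, f = (1 : F) • f₀ + (-(Q f₀)) • e := ⟨_, rfl⟩
  have hfW : f ∈ W := by
    rw [hf]
    exact W.add_mem (W.smul_mem _ hf₀W) (W.smul_mem _ heW)
  have hQf : Q f = 0 := by
    rw [hf, qf_lin2_9 hQ, hQe, hf₀e]
    ring
  have hfe : QuadraticMap.polar Q f e = 1 := by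
    rw [hf, hQ.polar_bilinear.add_left, hQ.polar_bilinear.smul_left, hQ.polar_bilinear.smul_left, hf₀e, hee]
    ring
  have hef : QuadraticMap.polar Q e f = 1 := by rw [qf_comm9, hfe]
  have hff : QuadraticMap.polar Q f f = 0 := by rw [qf_self9 hQ, hQf, mul_zero]
  have hspan : ∀ w ∈ W, w = QuadraticMap.polar Q w f • e + QuadraticMap.polar Q w e • f := by
    obtain ⟨φ, hφ⟩ : ∃ φ : W →ₗ[F] F × F,
        φ = ((qfFun9 hQ f).prod (qfFun9 hQ e)).comp W.subtype := ⟨_, rfl⟩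
    have hφa : ∀ u : W, φ u = (QuadraticMap.polar Q u.1 f, QuadraticMap.polar Q u.1 e) := fun u => by rw [hφ]; rfl
    have hsurj : Function.Surjective φ := by
      rintro ⟨a', b'⟩
      refine ⟨⟨a' • e + b' • f, W.add_mem (W.smul_mem a' heW) (W.smul_mem b' hfW)⟩, ?_⟩
      rw [hφa]
      show (QuadraticMap.polar Q (a' • e + b' • f) f, QuadraticMap.polar Q (a' • e + b' • f) e) = (a', b')
      simp only [hQ.polar_bilinear.add_left, hQ.polar_bilinear.smul_left, hef, hfe, hee, hff, mul_one, mul_zero, add_zero,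
        zero_add]
    have hrn := LinearMap.finrank_range_add_finrank_ker φ
    rw [LinearMap.range_eq_top.mpr hsurj, finrank_top, Module.finrank_prod, Module.finrank_self,
      hdim] at hrn
    have hker : LinearMap.ker φ = ⊥ := Submodule.finrank_eq_zero.mp (by omega)
    intro w hwW
    obtain ⟨r, hr⟩ : ∃ r : Fin n → F, r = w - (QuadraticMap.polar Q w f • e + QuadraticMap.polar Q w e • f) := ⟨_, rfl⟩
    have hrW : r ∈ W := by
      rw [hr]
      exact W.sub_mem hwW (W.add_mem (W.smul_mem _ heW) (W.smul_mem _ hfW))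
    have hr1 : QuadraticMap.polar Q r f = 0 := by
      rw [hr, qf_subl9 hQ, hQ.polar_bilinear.add_left, hQ.polar_bilinear.smul_left, hQ.polar_bilinear.smul_left, hef, hff]
      ring
    have hr2 : QuadraticMap.polar Q r e = 0 := by
      rw [hr, qf_subl9 hQ, hQ.polar_bilinear.add_left, hQ.polar_bilinear.smul_left, hQ.polar_bilinear.smul_left, hee, hfe]
      ring
    have hmem : (⟨r, hrW⟩ : W) ∈ LinearMap.ker φ := by
      rw [LinearMap.mem_ker, hφa]
      show (QuadraticMap.polar Q r f, QuadraticMap.polar Q r e) = 0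
      rw [hr1, hr2]
      rfl
    rw [hker, Submodule.mem_bot] at hmem
    have hr0 : r = 0 := congrArg Subtype.val hmem
    rw [hr] at hr0
    exact sub_eq_zero.mp hr0
  obtain ⟨z, hz⟩ : ∃ z : Fin n → F, z = e + f := ⟨_, rfl⟩
  have hzW : z ∈ W := by
    rw [hz]
    exact W.add_mem heW hfW
  have hQz : Q z = 1 := by
    rw [hz, qf_add9 (Q := Q), hQe, hQf, hef]
    ring
  have hze : QuadraticMap.polar Q z e = 1 := by
    rw [hz, hQ.polar_bilinear.add_left, hee, hfe]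
    ring
  have hzf : QuadraticMap.polar Q z f = 1 := by
    rw [hz, hQ.polar_bilinear.add_left, hef, hff]
    ring
  have hA : ∀ g : GL (Fin n) F, (∀ v, Q ((g : Matrix (Fin n) (Fin n) F) *ᵥ v) = Q v) → g ∈ Cfsg.Geo.subspaceStabilizer W →
      g ∈ Cfsg.Geo.subspaceStabilizer (Submodule.span F {z}) := by
    intro g hgQ hgW
    have hgz : (g : Matrix (Fin n) (Fin n) F) *ᵥ z ∈ W := (mem_stabI9.mp hgW z).mp hzW
    obtain ⟨α, hα⟩ : ∃ α : F, α = QuadraticMap.polar Q ((g : Matrix (Fin n) (Fin n) F) *ᵥ z) f := ⟨_, rfl⟩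
    obtain ⟨β, hβ⟩ : ∃ β : F, β = QuadraticMap.polar Q ((g : Matrix (Fin n) (Fin n) F) *ᵥ z) e := ⟨_, rfl⟩
    have hgz_eq : (g : Matrix (Fin n) (Fin n) F) *ᵥ z = α • e + β • f := by
      rw [hα, hβ]
      exact hspan _ hgz
    have hαβ : α * β = 1 := by
      have h1 := hgQ z
      rw [hgz_eq, qf_lin2_9 hQ, hQe, hQf, hef, hQz] at h1
      linear_combination h1
    have hα0 : α ≠ 0 := by
      intro h
      rw [h, zero_mul] at hαβ
      exact zero_ne_one hαβ
    have hβα : β = α := by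
      have h1 := hsq α hα0
      have h2 : α * (β - α) = 0 := by linear_combination hαβ - h1
      rcases mul_eq_zero.mp h2 with h | h
      · exact absurd h hα0
      · exact sub_eq_zero.mp h
    refine stab_of_mapsI9 _ g (fun x hx => ?_)
    obtain ⟨c, rfl⟩ := Submodule.mem_span_singleton.mp hx
    rw [Matrix.mulVec_smul, hgz_eq, hβα]
    have e' : c • (α • e + α • f) = (c * α) • z := by
      rw [hz]
      module
    rw [e']
    exact Submodule.smul_mem _ _ (Submodule.mem_span_singleton_self z)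
  -- auxiliary vectors
  obtain ⟨b₁, c₁, hb₁, hc₁, hb₁c₁, hb₁p, -⟩ := qf_hyp9 hQ hchar hn (spanL9 [e, f]) (by
    have := finrank_spanL9 (F := F) [e, f]
    simp only [List.length_cons, List.length_nil] at this
    omega)
  have heb₁ : QuadraticMap.polar Q e b₁ = 0 := hb₁p e (mem_spanL9 (by simp))
  have hfb₁ : QuadraticMap.polar Q f b₁ = 0 := hb₁p f (mem_spanL9 (by simp))
  have hb₁e : QuadraticMap.polar Q b₁ e = 0 := by rw [qf_comm9, heb₁]
  have hb₁f : QuadraticMap.polar Q b₁ f = 0 := by rw [qf_comm9, hfb₁]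
  have hb₁0 : b₁ ≠ 0 := by
    intro h
    rw [h, qf_zl9 hQ] at hb₁c₁
    exact zero_ne_one hb₁c₁
  have hzb₁ : QuadraticMap.polar Q z b₁ = 0 := by rw [hz, hQ.polar_bilinear.add_left, heb₁, hfb₁, add_zero]
  obtain ⟨b₂, c₂, hb₂, hc₂, hb₂c₂, hb₂p, hc₂p⟩ := qf_hyp9 hQ hchar hn (spanL9 [e, f, b₁]) (by
    have := finrank_spanL9 (F := F) [e, f, b₁]
    simp only [List.length_cons, List.length_nil] at this
    omega)
  obtain ⟨w₂, hw₂⟩ : ∃ w₂ : Fin n → F, w₂ = b₂ + c₂ := ⟨_, rfl⟩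
  have hQw₂ : Q w₂ = 1 := by
    rw [hw₂, qf_add9 (Q := Q), hb₂, hc₂, hb₂c₂]
    ring
  have hw₂p : ∀ p ∈ spanL9 (F := F) [e, f, b₁], QuadraticMap.polar Q p w₂ = 0 := fun p hp => by
    rw [hw₂, hQ.polar_bilinear.add_right, hb₂p p hp, hc₂p p hp, add_zero]
  have hew₂ : QuadraticMap.polar Q e w₂ = 0 := hw₂p e (mem_spanL9 (by simp))
  have hfw₂ : QuadraticMap.polar Q f w₂ = 0 := hw₂p f (mem_spanL9 (by simp))
  have hb₁w₂ : QuadraticMap.polar Q b₁ w₂ = 0 := hw₂p b₁ (mem_spanL9 (by simp))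
  obtain ⟨b, c, hb, hc, hbc, hbp, hcp⟩ := qf_hyp9 hQ hchar hn (spanL9 [e, f, b₁, w₂]) (by
    have := finrank_spanL9 (F := F) [e, f, b₁, w₂]
    simp only [List.length_cons, List.length_nil] at this
    omega)
  have heb : QuadraticMap.polar Q e b = 0 := hbp e (mem_spanL9 (by simp))
  have hfb : QuadraticMap.polar Q f b = 0 := hbp f (mem_spanL9 (by simp))
  have hb₁b : QuadraticMap.polar Q b₁ b = 0 := hbp b₁ (mem_spanL9 (by simp))
  have hw₂b : QuadraticMap.polar Q w₂ b = 0 := hbp w₂ (mem_spanL9 (by simp))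
  have hec : QuadraticMap.polar Q e c = 0 := hcp e (mem_spanL9 (by simp))
  have hfc : QuadraticMap.polar Q f c = 0 := hcp f (mem_spanL9 (by simp))
  have hb₁c : QuadraticMap.polar Q b₁ c = 0 := hcp b₁ (mem_spanL9 (by simp))
  have hw₂c : QuadraticMap.polar Q w₂ c = 0 := hcp w₂ (mem_spanL9 (by simp))
  refine ⟨Cfsg.Geo.subspaceStabilizer (Submodule.span F {z}) ⊓ Cfsg.Geo.omegaGL Q, ?_, ?_⟩
  · refine lt_of_le_of_ne (fun g hg => ⟨hA g (omega_iso9 hg.2) hg.1, hg.2⟩) (fun heq => ?_)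
    obtain ⟨y, hy⟩ : ∃ y : Fin n → F, y = ((1 : F) • e + (-1 : F) • f) + w₂ := ⟨_, rfl⟩
    have hQy : Q y = 0 := by
      rw [hy, qf_add9 (Q := Q), qf_lin2_9 hQ, hQe, hQf, hef, hQw₂, hQ.polar_bilinear.add_left, hQ.polar_bilinear.smul_left,
        hQ.polar_bilinear.smul_left, hew₂, hfw₂]
      ring
    have hb₁y : QuadraticMap.polar Q b₁ y = 0 := by
      rw [hy, hQ.polar_bilinear.add_right, hQ.polar_bilinear.add_right, hQ.polar_bilinear.smul_right, hQ.polar_bilinear.smul_right, hb₁e, hb₁f, hb₁w₂]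
      ring
    have hyb : QuadraticMap.polar Q y b = 0 := by
      rw [hy, hQ.polar_bilinear.add_left, hQ.polar_bilinear.add_left, hQ.polar_bilinear.smul_left, hQ.polar_bilinear.smul_left, heb, hfb, hw₂b]
      ring
    have hyc : QuadraticMap.polar Q y c = 0 := by
      rw [hy, hQ.polar_bilinear.add_left, hQ.polar_bilinear.add_left, hQ.polar_bilinear.smul_left, hQ.polar_bilinear.smul_left, hec, hfc, hw₂c]
      ring
    obtain ⟨g₁, hg₁Ω, hg₁⟩ := sieg_omega9 hQ b₁ y b c hb₁ hQy hb hc hb₁y hbc hb₁b hb₁c hyb hyc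
    have hzy : QuadraticMap.polar Q z y = 0 := by
      rw [hy, hQ.polar_bilinear.add_right, hQ.polar_bilinear.add_right, hQ.polar_bilinear.smul_right, hQ.polar_bilinear.smul_right, hze, hzf, hz, hQ.polar_bilinear.add_left,
        hew₂, hfw₂]
      ring
    have hey : QuadraticMap.polar Q e y = -1 := by
      rw [hy, hQ.polar_bilinear.add_right, hQ.polar_bilinear.add_right, hQ.polar_bilinear.smul_right, hQ.polar_bilinear.smul_right, hee, hef, hew₂]
      ring
    have hg₁K : g₁ ∈ Cfsg.Geo.subspaceStabilizer (Submodule.span F {z}) ⊓ Cfsg.Geo.omegaGL Q := by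
      refine ⟨stab_of_mapsI9 _ g₁ (fun x hx => ?_), hg₁Ω⟩
      obtain ⟨c', rfl⟩ := Submodule.mem_span_singleton.mp hx
      rw [Matrix.mulVec_smul, hg₁, hzy, hzb₁, zero_smul, zero_smul, add_zero, sub_zero]
      exact Submodule.smul_mem _ _ (Submodule.mem_span_singleton_self z)
    rw [← heq] at hg₁K
    have h1 := (mem_stabI9.mp hg₁K.1 e).mp heW
    rw [hg₁, hey, heb₁, zero_smul, sub_zero] at h1
    have hb₁W : b₁ ∈ W := by
      have e' : b₁ = e - (e + (-1 : F) • b₁) := by module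
      rw [e']
      exact W.sub_mem heW h1
    have := hspan b₁ hb₁W
    rw [hb₁f, hb₁e, zero_smul, zero_smul, add_zero] at this
    exact hb₁0 this
  · refine lt_of_le_of_ne inf_le_right (fun heq => ?_)
    obtain ⟨g₂, hg₂Ω, hg₂⟩ := sieg_omega9 hQ b₁ e b c hb₁ hQe hb hc hb₁e hbc hb₁b hb₁c heb hec
    rw [← heq] at hg₂Ω
    have h1 := (mem_stabI9.mp hg₂Ω.1 z).mp (Submodule.mem_span_singleton_self z)
    rw [hg₂, hze, hzb₁, one_smul, zero_smul, sub_zero] at h1
    obtain ⟨l, hl⟩ := Submodule.mem_span_singleton.mp h1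
    have h2 := congrArg (fun v => QuadraticMap.polar Q v e) hl
    simp only [hQ.polar_bilinear.smul_left, hQ.polar_bilinear.add_left, hze, hb₁e, mul_one, add_zero] at h2
    rw [h2, one_smul] at hl
    apply hb₁0
    have e' : b₁ = (z + b₁) - z := by abel
    rw [e', ← hl, sub_self]

end Cfsg.Agent.Helper9
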