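import Mathlib
import Cfsg.Agent.Helper9.UPair3

set_option autoImplicit false

namespace Cfsg.Agent.Helper9

open Cfsg
open scoped MatrixGroups Matrix

variable {n : ℕ} {F : Type*} [Field F] {σ : F ≃+* F} {f : (Fin n → F) → (Fin n → F) → F}

theorem herm_unitary_frob9 {K : Type*} [Field K] [Fintype K] (n q : ℕ) (hK : Fintype.card K = q ^ 2) :
    ∃ τ : K ≃+* K, (∀ x, τ x = x ^ q) ∧ Cfsg.Geo.IsUnitaryForm τ (Cfsg.hermForm n K q) := by
  classical
  obtain ⟨τ, hτ, hinv, hne⟩ := exists_frob9 hK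
  refine ⟨τ, hτ, hne, hinv, fun x y v => ?_, fun c x v => ?_, fun v w => ?_, fun v hv => ?_⟩
  · unfold Cfsg.hermForm
    rw [← Finset.sum_add_distrib]
    exact Finset.sum_congr rfl (fun i _ => by rw [Pi.add_apply, add_mul])
  · unfold Cfsg.hermForm
    rw [Finset.mul_sum]
    exact Finset.sum_congr rfl (fun i _ => by rw [Pi.smul_apply, smul_eq_mul, mul_assoc])
  · unfold Cfsg.hermForm
    rw [map_sum]
    refine Finset.sum_congr rfl (fun i _ => ?_)
    rw [map_mul, map_pow, ← hτ (w i), ← hτ (τ (v i)), hinv, mul_comm]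
  · obtain ⟨i, hi⟩ : ∃ i, v i ≠ 0 := by
      by_contra hcon
      push_neg at hcon
      exact hv (funext hcon)
    refine ⟨⟨Pi.single i 1, ?_⟩, ⟨Pi.single i 1, ?_⟩⟩
    · unfold Cfsg.hermForm
      rw [Finset.sum_eq_single i (fun j _ hj => by rw [Pi.single_eq_of_ne hj, zero_mul])
        (fun h => absurd (Finset.mem_univ i) h), Pi.single_eq_same, one_mul]
      exact pow_ne_zero _ hi
    · unfold Cfsg.hermForm
      rw [Finset.sum_eq_single i (fun j _ hj => by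
        rw [Pi.single_eq_of_ne hj, zero_pow (by
          have h1 : 1 < Fintype.card K := Fintype.one_lt_card
          rw [hK] at h1
          intro h0
          rw [h0] at h1
          norm_num at h1), mul_zero])
        (fun h => absurd (Finset.mem_univ i) h), Pi.single_eq_same, one_pow, mul_one]
      exact hi

/-- A subspace on which the form does not vanish contains an anisotropic vector. -/
theorem uf_aniso9 (hf : Cfsg.Geo.IsUnitaryForm σ f) (P : Submodule F (Fin n → F)) (x w : Fin n → F) (hx : x ∈ P) (hw : w ∈ P) (hxw : f x w ≠ 0) :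
    ∃ a ∈ P, f a a ≠ 0 := by
  by_contra hcon
  push_neg at hcon
  obtain ⟨θ, hθ⟩ := uf_theta9 hf
  obtain ⟨c, hc⟩ : ∃ c : F, c = θ * (f x w)⁻¹ := ⟨_, rfl⟩
  have e1 : c * f x w = θ := by rw [hc, mul_assoc, inv_mul_cancel₀ hxw, mul_one]
  have e2 : σ c * f w x = σ θ := by rw [hf.herm w x, ← map_mul, e1]
  have h := hcon (c • x + w) (P.add_mem (P.smul_mem c hx) hw)
  simp only [hf.add_left, uf_add_right9 hf, hf.smul_left, uf_smul_right9 hf, hcon x hx, hcon w hw,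
    mul_zero, add_zero, zero_add] at h
  apply hθ
  linear_combination h - e1 - e2

/-- An orthonormal basis of a non-degenerate plane. -/
theorem uf_plane_basis9 [Finite F] (hf : Cfsg.Geo.IsUnitaryForm σ f) (D : Submodule F (Fin n → F)) (hdim : Module.finrank F D = 2)
    (hnd : Cfsg.Geo.IsNondegenerateOn f D) :
    ∃ e₁ e₂ : Fin n → F, e₁ ∈ D ∧ e₂ ∈ D ∧ f e₁ e₁ = 1 ∧ f e₂ e₂ = 1 ∧ f e₁ e₂ = 0 ∧ f e₂ e₁ = 0 ∧
      ∀ v ∈ D, v = f v e₁ • e₁ + f v e₂ • e₂ := by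
  have hnorm : ∀ a : Fin n → F, f a a ≠ 0 → ∃ l : F, f (l • a) (l • a) = 1 := by
    intro a ha
    obtain ⟨l, hl⟩ := uf_norm9 hf (f a a)⁻¹ (by rw [map_inv₀, uf_self9 hf])
    refine ⟨l, ?_⟩
    rw [hf.smul_left, uf_smul_right9 hf, ← mul_assoc, hl, inv_mul_cancel₀ ha]
  -- first vector
  obtain ⟨w, hwD, hw0⟩ : ∃ w ∈ D, w ≠ 0 := by
    have hpos : 0 < Module.finrank F D := by rw [hdim]; norm_num
    obtain ⟨x, hx⟩ := Module.finrank_pos_iff_exists_ne_zero.mp hpos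
    exact ⟨x.1, x.2, fun h => hx (Subtype.ext h)⟩
  obtain ⟨⟨x, hxD, hx⟩, _⟩ := hnd w hwD hw0
  obtain ⟨a, haD, haa⟩ := uf_aniso9 hf D x w hxD hwD hx
  obtain ⟨l, hl⟩ := hnorm a haa
  obtain ⟨e₁, he₁⟩ : ∃ e₁ : Fin n → F, e₁ = l • a := ⟨_, rfl⟩
  rw [← he₁] at hl
  have he₁D : e₁ ∈ D := by rw [he₁]; exact D.smul_mem l haD
  have he₁0 : e₁ ≠ 0 := by
    intro h
    rw [h, uf_zero_left9 hf] at hl
    exact zero_ne_one hl
  -- second vector
  obtain ⟨v, hvD, hv⟩ : ∃ v ∈ D, v ∉ Submodule.span F {e₁} := by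
    by_contra hcon
    push_neg at hcon
    have hle : D ≤ Submodule.span F {e₁} := hcon
    have h1 := Submodule.finrank_mono hle
    rw [hdim, finrank_span_singleton he₁0] at h1
    omega
  obtain ⟨b₀, hb₀⟩ : ∃ b₀ : Fin n → F, b₀ = v - f v e₁ • e₁ := ⟨_, rfl⟩
  have hb₀D : b₀ ∈ D := by rw [hb₀]; exact D.sub_mem hvD (D.smul_mem _ he₁D)
  have hb₀e : f b₀ e₁ = 0 := by
    rw [hb₀, uf_sub_left9 hf, hf.smul_left, hl, mul_one, sub_self]
  have hb₀0 : b₀ ≠ 0 := by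
    intro h
    apply hv
    have : v = f v e₁ • e₁ := by
      have h' := h
      rw [hb₀, sub_eq_zero] at h'
      exact h'
    rw [this]
    exact Submodule.smul_mem _ _ (Submodule.subset_span rfl)
  obtain ⟨⟨y, hyD, hy⟩, _⟩ := hnd b₀ hb₀D hb₀0
  obtain ⟨y', hy'⟩ : ∃ y' : Fin n → F, y' = y - f y e₁ • e₁ := ⟨_, rfl⟩
  have hy'D : y' ∈ D := by rw [hy']; exact D.sub_mem hyD (D.smul_mem _ he₁D)
  have hy'e : f y' e₁ = 0 := by
    rw [hy', uf_sub_left9 hf, hf.smul_left, hl, mul_one, sub_self]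
  have he₁b₀ : f e₁ b₀ = 0 := uf_swap_zero9 hf hb₀e
  have hy'b : f y' b₀ ≠ 0 := by
    rw [hy', uf_sub_left9 hf, hf.smul_left, he₁b₀, mul_zero, sub_zero]
    exact hy
  obtain ⟨P, hP⟩ : ∃ P : Submodule F (Fin n → F), P = D ⊓ LinearMap.ker (ufFun9 hf e₁) := ⟨_, rfl⟩
  have hmemP : ∀ u : Fin n → F, u ∈ P ↔ u ∈ D ∧ f u e₁ = 0 := by
    intro u
    rw [hP, Submodule.mem_inf, LinearMap.mem_ker]
    rfl
  obtain ⟨b, hbP, hbb⟩ := uf_aniso9 hf P y' b₀ ((hmemP _).mpr ⟨hy'D, hy'e⟩)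
    ((hmemP _).mpr ⟨hb₀D, hb₀e⟩) hy'b
  obtain ⟨hbD, hbe⟩ := (hmemP _).mp hbP
  obtain ⟨l₂, hl₂⟩ := hnorm b hbb
  obtain ⟨e₂, he₂⟩ : ∃ e₂ : Fin n → F, e₂ = l₂ • b := ⟨_, rfl⟩
  rw [← he₂] at hl₂
  have he₂D : e₂ ∈ D := by rw [he₂]; exact D.smul_mem l₂ hbD
  have h21 : f e₂ e₁ = 0 := by rw [he₂, hf.smul_left, hbe, mul_zero]
  have h12 : f e₁ e₂ = 0 := uf_swap_zero9 hf h21
  refine ⟨e₁, e₂, he₁D, he₂D, hl, hl₂, h12, h21, ?_⟩
  -- spanning
  obtain ⟨φ, hφ⟩ : ∃ φ : D →ₗ[F] F × F, φ = ((ufFun9 hf e₁).prod (ufFun9 hf e₂)).comp D.subtype :=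
    ⟨_, rfl⟩
  have hφa : ∀ u : D, φ u = (f u.1 e₁, f u.1 e₂) := fun u => by rw [hφ]; rfl
  have hsurj : Function.Surjective φ := by
    rintro ⟨a', b'⟩
    refine ⟨⟨a' • e₁ + b' • e₂, D.add_mem (D.smul_mem a' he₁D) (D.smul_mem b' he₂D)⟩, ?_⟩
    rw [hφa]
    show (f (a' • e₁ + b' • e₂) e₁, f (a' • e₁ + b' • e₂) e₂) = (a', b')
    simp only [hf.add_left, hf.smul_left, hl, hl₂, h12, h21, mul_one, mul_zero, add_zero, zero_add]
  have hrn := LinearMap.finrank_range_add_finrank_ker φ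
  rw [LinearMap.range_eq_top.mpr hsurj, finrank_top, Module.finrank_prod, Module.finrank_self,
    hdim] at hrn
  have hker : LinearMap.ker φ = ⊥ := Submodule.finrank_eq_zero.mp (by omega)
  intro u huD
  obtain ⟨r, hr⟩ : ∃ r : Fin n → F, r = u - (f u e₁ • e₁ + f u e₂ • e₂) := ⟨_, rfl⟩
  have hrD : r ∈ D := by
    rw [hr]
    exact D.sub_mem huD (D.add_mem (D.smul_mem _ he₁D) (D.smul_mem _ he₂D))
  have hr1 : f r e₁ = 0 := by
    rw [hr, uf_sub_left9 hf, hf.add_left, hf.smul_left, hf.smul_left, hl, h21]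
    ring
  have hr2 : f r e₂ = 0 := by
    rw [hr, uf_sub_left9 hf, hf.add_left, hf.smul_left, hf.smul_left, hl₂, h12]
    ring
  have hmem : (⟨r, hrD⟩ : D) ∈ LinearMap.ker φ := by
    rw [LinearMap.mem_ker, hφa]
    show (f r e₁, f r e₂) = 0
    rw [hr1, hr2]
    rfl
  rw [hker, Submodule.mem_bot] at hmem
  have hr0 : r = 0 := congrArg Subtype.val hmem
  rw [hr] at hr0
  exact sub_eq_zero.mp hr0

/-- Over the field with four elements, the stabiliser of a decomposition into non-degenerate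
planes is not maximal among the isometries of determinant one. -/
theorem uf_dec2_notmax9 [Fintype F] (hf : Cfsg.Geo.IsUnitaryForm σ f) (hσ : ∀ x, σ x = x ^ 2) (hF : Fintype.card F = 4) {t : ℕ}
    (D : Fin t → Submodule F (Fin n → F)) (hD : Cfsg.Geo.IsNondegenerateMDecomposition f 2 D) :
    ∃ K : Subgroup (GL (Fin n) F), Cfsg.Geo.decompositionStabilizer D ⊓ uG9 f < K ∧ K < uG9 f := by
  classical
  have h2 : (2 : F) = 0 := by
    have h4 := FiniteField.cast_card_eq_zero F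
    rw [hF] at h4
    have h4' : (2 : F) * 2 = 0 := by
      have e : ((4 : ℕ) : F) = 2 * 2 := by norm_num
      rw [← e]
      exact h4
    exact mul_self_eq_zero.mp h4'
  have hadd : ∀ x : F, x + x = 0 := fun x => by linear_combination x * h2
  have hcube : ∀ x : F, x ≠ 0 → x * σ x = 1 := fun x hx => by
    have h3 := FiniteField.pow_card_sub_one_eq_one x hx
    rw [hF] at h3
    norm_num at h3
    rw [hσ]
    linear_combination h3
  have hσ1 : σ (1 : F) = -1 := by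
    rw [map_one]
    linear_combination h2
  have ht2 := hD.decomp.two_le
  obtain ⟨i₀, i₁, hne⟩ : ∃ i₀ i₁ : Fin t, i₀ ≠ i₁ :=
    ⟨⟨0, by omega⟩, ⟨1, by omega⟩, fun h => by
      rw [Fin.mk.injEq] at h
      exact Nat.zero_ne_one h⟩
  have horth : ∀ i j, i ≠ j → ∀ u ∈ D i, ∀ v ∈ D j, f u v = 0 := hD.orthogonal
  obtain ⟨e₁, e₂, he₁D, he₂D, h11, h22, h12, h21, hsp0⟩ :=
    uf_plane_basis9 hf (D i₀) (hD.decomp.finrank_eq i₀) (hD.nondegenerate i₀)
  obtain ⟨e₃, e₄, he₃D, he₄D, h33, h44, h34, h43, hsp1⟩ :=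
    uf_plane_basis9 hf (D i₁) (hD.decomp.finrank_eq i₁) (hD.nondegenerate i₁)
  have h13 : f e₁ e₃ = 0 := horth i₀ i₁ hne e₁ he₁D e₃ he₃D
  have h14 : f e₁ e₄ = 0 := horth i₀ i₁ hne e₁ he₁D e₄ he₄D
  have h23 : f e₂ e₃ = 0 := horth i₀ i₁ hne e₂ he₂D e₃ he₃D
  have h24 : f e₂ e₄ = 0 := horth i₀ i₁ hne e₂ he₂D e₄ he₄D
  have h31 : f e₃ e₁ = 0 := horth i₁ i₀ hne.symm e₃ he₃D e₁ he₁D
  have h32 : f e₃ e₂ = 0 := horth i₁ i₀ hne.symm e₃ he₃D e₂ he₂D
  have h41 : f e₄ e₁ = 0 := horth i₁ i₀ hne.symm e₄ he₄D e₁ he₁D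
  have h42 : f e₄ e₂ = 0 := horth i₁ i₀ hne.symm e₄ he₄D e₂ he₂D
  obtain ⟨S, hS⟩ : ∃ S : Set (Fin n → F), S = {v | ∃ i, v ∈ D i ∧ f v v ≠ 0} := ⟨_, rfl⟩
  have hmemS : ∀ v : Fin n → F, v ∈ S ↔ ∃ i, v ∈ D i ∧ f v v ≠ 0 := fun v => by rw [hS]; rfl
  have hmemK : ∀ g : GL (Fin n) F, g ∈ Cfsg.stabilizing (Cfsg.glToMat (Fin n) F) S ↔
      ∀ v : Fin n → F, v ∈ S ↔ (g : Matrix (Fin n) (Fin n) F) *ᵥ v ∈ S := fun g => Iff.rfl
  -- the swapping lemma
  have hswap : ∀ (ia ib : Fin t) (p p₂ p' : Fin n → F), p ∈ D ia → p₂ ∈ D ia → p' ∈ D ib →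
      f p p = 1 → f p₂ p₂ = 1 → f p p₂ = 0 → f p₂ p = 0 →
      (∀ v ∈ D ia, v = f v p • p + f v p₂ • p₂) → ∀ v ∈ D ia, f v v ≠ 0 →
      (v + f v p • (p + p') ∈ D ia ∨ v + f v p • (p + p') ∈ D ib) := by
    intro ia ib p p₂ p' hp hp₂ hp' hpp hp₂p₂ hpp₂ hp₂p hsp v hvD hv
    obtain ⟨a, ha⟩ : ∃ a : F, a = f v p := ⟨_, rfl⟩
    obtain ⟨b, hb⟩ : ∃ b : F, b = f v p₂ := ⟨_, rfl⟩
    have hv_eq : v = a • p + b • p₂ := by rw [ha, hb]; exact hsp v hvD
    rw [← ha]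
    by_cases ha0 : a = 0
    · left
      rw [ha0, zero_smul, add_zero]
      exact hvD
    · right
      have hvv : f v v = a * σ a + b * σ b := by
        rw [hv_eq]
        simp only [hf.add_left, uf_add_right9 hf, hf.smul_left, uf_smul_right9 hf, hpp, hp₂p₂, hpp₂,
          hp₂p]
        ring
      have hb0 : b = 0 := by
        by_contra hb0
        apply hv
        rw [hvv, hcube a ha0, hcube b hb0]
        exact hadd 1
      have e : v + a • (p + p') = a • p' := by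
        rw [hv_eq, hb0]
        have e' : a • p + (0 : F) • p₂ + a • (p + p') = (a + a) • p + a • p' := by module
        rw [e', hadd, zero_smul, zero_add]
      rw [e]
      exact (D ib).smul_mem a hp'
  -- the transvection swapping e₁ and e₃
  obtain ⟨z, hz⟩ : ∃ z : Fin n → F, z = e₁ + e₃ := ⟨_, rfl⟩
  have hzz : f z z = 0 := by
    rw [hz]
    simp only [hf.add_left, uf_add_right9 hf, h11, h13, h31, h33]
    linear_combination h2
  obtain ⟨t₁, ht₁G, ht₁⟩ := uf_tv9 hf 1 hσ1 z hzz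
  have htt : ∀ v, (t₁ : Matrix (Fin n) (Fin n) F) *ᵥ ((t₁ : Matrix (Fin n) (Fin n) F) *ᵥ v) = v := fun v => by
    rw [ht₁ ((t₁ : Matrix (Fin n) (Fin n) F) *ᵥ v), ht₁ v, hf.add_left, hf.smul_left, hzz, mul_zero, add_zero, one_mul,
      add_assoc, ← add_smul, hadd, zero_smul, add_zero]
  have hfw : ∀ v, v ∈ S → (t₁ : Matrix (Fin n) (Fin n) F) *ᵥ v ∈ S := by
    intro v hv
    obtain ⟨i, hvD, hvv⟩ := (hmemS v).mp hv
    have hvv' : f ((t₁ : Matrix (Fin n) (Fin n) F) *ᵥ v) ((t₁ : Matrix (Fin n) (Fin n) F) *ᵥ v) ≠ 0 := by rw [uG_iso9 ht₁G]; exact hvv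
    rw [hmemS]
    by_cases hi0 : i = i₀
    · rw [hi0] at hvD
      have hvz : f v z = f v e₁ := by
        rw [hz, uf_add_right9 hf, horth i₀ i₁ hne v hvD e₃ he₃D, add_zero]
      have e : (t₁ : Matrix (Fin n) (Fin n) F) *ᵥ v = v + f v e₁ • (e₁ + e₃) := by rw [ht₁, hvz, one_mul, hz]
      rw [e] at hvv' ⊢
      rcases hswap i₀ i₁ e₁ e₂ e₃ he₁D he₂D he₃D h11 h22 h12 h21 hsp0 v hvD hvv with h | h
      · exact ⟨i₀, h, hvv'⟩
      · exact ⟨i₁, h, hvv'⟩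
    · by_cases hi1 : i = i₁
      · rw [hi1] at hvD
        have hvz : f v z = f v e₃ := by
          rw [hz, uf_add_right9 hf, horth i₁ i₀ hne.symm v hvD e₁ he₁D, zero_add]
        have e : (t₁ : Matrix (Fin n) (Fin n) F) *ᵥ v = v + f v e₃ • (e₃ + e₁) := by rw [ht₁, hvz, one_mul, hz, add_comm e₁ e₃]
        rw [e] at hvv' ⊢
        rcases hswap i₁ i₀ e₃ e₄ e₁ he₃D he₄D he₁D h33 h44 h34 h43 hsp1 v hvD hvv with h | h
        · exact ⟨i₁, h, hvv'⟩
        · exact ⟨i₀, h, hvv'⟩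
      · have hvz : f v z = 0 := by
          rw [hz, uf_add_right9 hf, horth i i₀ hi0 v hvD e₁ he₁D, horth i i₁ hi1 v hvD e₃ he₃D,
            add_zero]
        have e : (t₁ : Matrix (Fin n) (Fin n) F) *ᵥ v = v := by rw [ht₁, hvz, mul_zero, zero_smul, add_zero]
        rw [e]
        exact ⟨i, hvD, hvv⟩
  have ht₁K : t₁ ∈ Cfsg.stabilizing (Cfsg.glToMat (Fin n) F) S ⊓ uG9 f := by
    refine ⟨(hmemK t₁).mpr (fun v => ⟨hfw v, fun h => ?_⟩), ht₁G⟩
    have := hfw _ h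
    rwa [htt] at this
  refine ⟨Cfsg.stabilizing (Cfsg.glToMat (Fin n) F) S ⊓ uG9 f, ?_, ?_⟩
  · refine lt_of_le_of_ne (fun g hg => ⟨?_, hg.2⟩) (fun heq => ?_)
    · obtain ⟨π, hπ⟩ := hg.1
      refine (hmemK g).mpr ?_
      intro v
      rw [hmemS, hmemS]
      constructor
      · rintro ⟨i, hvD, hv⟩
        refine ⟨π i, ?_, ?_⟩
        · rw [← hπ i]
          exact Submodule.mem_map.mpr ⟨v, hvD, Matrix.toLin'_apply _ _⟩
        · rw [uG_iso9 hg.2]
          exact hv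
      · rintro ⟨j, hvD, hv⟩
        have hj := hπ (π.symm j)
        rw [Equiv.apply_symm_apply] at hj
        rw [← hj] at hvD
        obtain ⟨y, hyD, hy⟩ := Submodule.mem_map.mp hvD
        rw [Matrix.toLin'_apply] at hy
        have hyv : y = v := by
          have h' := congrArg (fun x => ((g⁻¹ : GL (Fin n) F) : Matrix (Fin n) (Fin n) F) *ᵥ x) hy
          simp only [gl_inv_mul_vec9] at h'
          exact h'
        rw [hyv] at hyD
        refine ⟨π.symm j, hyD, ?_⟩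
        rw [uG_iso9 hg.2] at hv
        exact hv
    · rw [← heq] at ht₁K
      obtain ⟨π, hπ⟩ := ht₁K.1
      have hte₂ : (t₁ : Matrix (Fin n) (Fin n) F) *ᵥ e₂ = e₂ := by
        rw [ht₁]
        have e' : f e₂ z = 0 := by rw [hz, uf_add_right9 hf, h21, h23, add_zero]
        rw [e', mul_zero, zero_smul, add_zero]
      have hte₁ : (t₁ : Matrix (Fin n) (Fin n) F) *ᵥ e₁ = e₃ := by
        rw [ht₁]
        have e' : f e₁ z = 1 := by rw [hz, uf_add_right9 hf, h11, h13, add_zero]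
        rw [e', mul_one, one_smul, hz, ← add_assoc]
        have e'' : e₁ + e₁ = (0 : Fin n → F) := by rw [← two_smul F e₁, h2, zero_smul]
        rw [e'', zero_add]
      have h1 : e₂ ∈ D (π i₀) := by
        rw [← hπ i₀]
        exact Submodule.mem_map.mpr ⟨e₂, he₂D, (Matrix.toLin'_apply _ _).trans hte₂⟩
      have h3 : e₃ ∈ D (π i₀) := by
        rw [← hπ i₀]
        exact Submodule.mem_map.mpr ⟨e₁, he₁D, (Matrix.toLin'_apply _ _).trans hte₁⟩
      have hπi : π i₀ = i₀ := by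
        by_contra hcon
        have := horth (π i₀) i₀ hcon e₂ h1 e₂ he₂D
        rw [h22] at this
        exact one_ne_zero this
      rw [hπi] at h3
      have := horth i₀ i₁ hne e₃ h3 e₃ he₃D
      rw [h33] at this
      exact one_ne_zero this
  · refine lt_of_le_of_ne inf_le_right (fun heq => ?_)
    obtain ⟨z', hz'⟩ : ∃ z' : Fin n → F, z' = e₁ + e₂ + e₃ + e₄ := ⟨_, rfl⟩
    have hz'z' : f z' z' = 0 := by
      rw [hz']
      simp only [hf.add_left, uf_add_right9 hf, h11, h12, h13, h14, h21, h22, h23, h24, h31, h32,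
        h33, h34, h41, h42, h43, h44]
      linear_combination 2 * h2
    obtain ⟨t₂, ht₂G, ht₂⟩ := uf_tv9 hf 1 hσ1 z' hz'z'
    rw [← heq] at ht₂G
    have he₁S : e₁ ∈ S := (hmemS e₁).mpr ⟨i₀, he₁D, by rw [h11]; exact one_ne_zero⟩
    have h1 := ((hmemK t₂).mp ht₂G.1 e₁).mp he₁S
    have he : (t₂ : Matrix (Fin n) (Fin n) F) *ᵥ e₁ = e₁ + z' := by
      rw [ht₂]
      have : f e₁ z' = 1 := by
        rw [hz']
        simp only [uf_add_right9 hf, h11, h12, h13, h14, add_zero]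
      rw [this, mul_one, one_smul]
    rw [he] at h1
    obtain ⟨j, hjD, -⟩ := (hmemS _).mp h1
    by_cases hj : j = i₀
    · rw [hj] at hjD
      have := horth i₀ i₁ hne _ hjD e₃ he₃D
      rw [hz'] at this
      simp only [hf.add_left, h13, h23, h33, h43, add_zero, zero_add] at this
      exact one_ne_zero this
    · have := horth j i₀ hj _ hjD e₂ he₂D
      rw [hz'] at this
      simp only [hf.add_left, h12, h22, h32, h42, add_zero, zero_add] at this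
      exact one_ne_zero this

end Cfsg.Agent.Helper9
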