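import Mathlib
import Cfsg.Prelude.Def_GeometricClasses
import Cfsg.Prelude.Def_Classical
import Cfsg.Agent.Helper9.UDec9

set_option autoImplicit false

namespace Cfsg.Agent.Helper9

open Cfsg
open scoped MatrixGroups Matrix Kronecker

variable {F : Type*} [Field F]

/-- Pure tensors as coordinate vectors. -/
def pure9 {n₁ n₂ : ℕ} (u : Fin n₁ → F) (y : Fin n₂ → F) : Fin n₁ × Fin n₂ → F :=
  fun p => u p.1 * y p.2

theorem pure_add_left9 {n₁ n₂ : ℕ} (u u' : Fin n₁ → F) (y : Fin n₂ → F) :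
    pure9 (u + u') y = pure9 u y + pure9 u' y := by
  funext p
  simp only [pure9, Pi.add_apply]
  ring

theorem pure_smul_left9 {n₁ n₂ : ℕ} (a : F) (u : Fin n₁ → F) (y : Fin n₂ → F) :
    pure9 (a • u) y = a • pure9 u y := by
  funext p
  simp only [pure9, Pi.smul_apply, smul_eq_mul]
  ring

theorem pure_add_right9 {n₁ n₂ : ℕ} (u : Fin n₁ → F) (y y' : Fin n₂ → F) :
    pure9 u (y + y') = pure9 u y + pure9 u y' := by
  funext p
  simp only [pure9, Pi.add_apply]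
  ring

theorem pure_smul_right9 {n₁ n₂ : ℕ} (a : F) (u : Fin n₁ → F) (y : Fin n₂ → F) :
    pure9 u (a • y) = a • pure9 u y := by
  funext p
  simp only [pure9, Pi.smul_apply, smul_eq_mul]
  ring

theorem pure_zero_right9 {n₁ n₂ : ℕ} (u : Fin n₁ → F) :
    pure9 u (0 : Fin n₂ → F) = 0 := by
  funext p
  simp only [pure9, Pi.zero_apply, mul_zero]

/-- A sesquilinear hermitian form is given by its Gram matrix. -/
theorem uf_gram9 {κ : Type} [Fintype κ] [DecidableEq κ] (τ : F ≃+* F)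
    (f : (κ → F) → (κ → F) → F)
    (hadd : ∀ x y v, f (x + y) v = f x v + f y v)
    (hsmul : ∀ (c : F) (x v : κ → F), f (c • x) v = c * f x v)
    (hherm : ∀ v w, f v w = τ (f w v)) (x y : κ → F) :
    f x y = Cfsg.Geo.formOfGram (fun a => τ a) (Cfsg.Geo.gramMatrix f) x y := by
  have hL : ∀ (y x : κ → F), f x y = ∑ a, x a * f (Pi.single a 1) y := by
    intro y x
    obtain ⟨L, hLdef⟩ : ∃ L : (κ → F) →ₗ[F] F, ∀ x, L x = f x y :=
      ⟨{ toFun := fun x => f x y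
         map_add' := fun x x' => hadd x x' y
         map_smul' := fun c x => hsmul c x y }, fun x => rfl⟩
    have h1 := LinearMap.pi_apply_eq_sum_univ L x
    rw [hLdef] at h1
    rw [h1]
    refine Finset.sum_congr rfl fun a _ => ?_
    have hs : (fun j => if a = j then (1 : F) else 0) = Pi.single a 1 := by
      funext j
      rw [Pi.single_apply]
      by_cases h : a = j
      · rw [if_pos h, if_pos h.symm]
      · rw [if_neg h, if_neg (fun h' => h h'.symm)]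
    rw [hLdef, smul_eq_mul, hs]
  unfold Cfsg.Geo.formOfGram Cfsg.Geo.gramMatrix
  beta_reduce
  rw [hL y x]
  refine Finset.sum_congr rfl fun a _ => ?_
  rw [hherm (Pi.single a 1) y, hL (Pi.single a 1) y, map_sum, Finset.mul_sum]
  refine Finset.sum_congr rfl fun b _ => ?_
  rw [map_mul, ← hherm]
  ring

/-- The tensor product form on pure tensors. -/
theorem fog_pure9 {n₁ n₂ : ℕ} (σ : F → F) (hσ : ∀ a b, σ (a * b) = σ a * σ b)
    (G₁ : Matrix (Fin n₁) (Fin n₁) F) (G₂ : Matrix (Fin n₂) (Fin n₂) F)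
    (u u' : Fin n₁ → F) (y y' : Fin n₂ → F) :
    Cfsg.Geo.formOfGram σ (G₁ ⊗ₖ G₂) (pure9 u y) (pure9 u' y') =
      Cfsg.Geo.formOfGram σ G₁ u u' * Cfsg.Geo.formOfGram σ G₂ y y' := by
  unfold Cfsg.Geo.formOfGram pure9
  simp only [Fintype.sum_prod_type, Matrix.kronecker_apply, hσ]
  rw [Finset.sum_mul]
  refine Finset.sum_congr rfl fun a _ => ?_
  rw [Finset.sum_mul, Finset.sum_comm]
  refine Finset.sum_congr rfl fun a' _ => ?_
  rw [Finset.mul_sum]
  refine Finset.sum_congr rfl fun b _ => ?_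
  rw [Finset.mul_sum]
  refine Finset.sum_congr rfl fun b' _ => ?_
  ring

theorem submatrix_mulVec_comp9 {n : ℕ} {κ : Type} [Fintype κ] (e : Fin n ≃ κ)
    (M : Matrix κ κ F) (z : κ → F) :
    (M.submatrix e e) *ᵥ (z ∘ e) = (M *ᵥ z) ∘ e := by
  funext i
  simp only [Matrix.mulVec, dotProduct, Matrix.submatrix_apply, Function.comp_apply]
  exact Equiv.sum_comp e (fun p => M (e i) p * z p)

theorem kron_mulVec_pure9 {n₁ n₂ : ℕ} (A : Matrix (Fin n₁) (Fin n₁) F)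
    (B : Matrix (Fin n₂) (Fin n₂) F) (u : Fin n₁ → F) (y : Fin n₂ → F) :
    (A ⊗ₖ B) *ᵥ (pure9 u y) = pure9 (A *ᵥ u) (B *ᵥ y) := by
  funext p
  obtain ⟨a, b⟩ := p
  simp only [Matrix.mulVec, dotProduct, pure9, Fintype.sum_prod_type, Matrix.kronecker_apply]
  rw [Finset.sum_mul_sum]
  refine Finset.sum_congr rfl fun a' _ => Finset.sum_congr rfl fun b' _ => ?_
  ring

/-- The action of the tensor product subgroup on pure tensors. -/
theorem tp_action9 {n n₂ : ℕ} (e : Fin n ≃ Fin 2 × Fin n₂) (P g : GL (Fin n) F)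
    (hg : g ∈ Cfsg.Geo.tensorProductSubgroup 2 n₂ e P) :
    ∃ (A : Matrix (Fin 2) (Fin 2) F) (B : Matrix (Fin n₂) (Fin n₂) F),
      ∀ (u : Fin 2 → F) (y : Fin n₂ → F),
        (g : Matrix (Fin n) (Fin n) F) *ᵥ ((P : Matrix (Fin n) (Fin n) F) *ᵥ (pure9 u y ∘ e)) = (P : Matrix (Fin n) (Fin n) F) *ᵥ (pure9 (A *ᵥ u) (B *ᵥ y) ∘ e) := by
  unfold Cfsg.Geo.tensorProductSubgroup at hg
  obtain ⟨g₁, hg₁, hgg⟩ := Subgroup.mem_map.mp hg
  obtain ⟨k, hk, hkg⟩ := Subgroup.mem_map.mp hg₁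
  obtain ⟨a, b, hab⟩ := hk
  refine ⟨(a : Matrix (Fin 2) (Fin 2) F), (b : Matrix (Fin n₂) (Fin n₂) F), fun u y => ?_⟩
  have h1 : g = P * Cfsg.Geo.glReindex e.symm k * P⁻¹ := by
    rw [← hgg, ← hkg]
    rfl
  have h2 : ((Cfsg.Geo.glReindex (F := F) e.symm k : GL (Fin n) F) : Matrix (Fin n) (Fin n) F) =
      (k : Matrix (Fin 2 × Fin n₂) (Fin 2 × Fin n₂) F).submatrix e e := rfl
  rw [h1, gl_mul_vec9, gl_mul_vec9, gl_inv_mul_vec9, h2, hab, submatrix_mulVec_comp9,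
    kron_mulVec_pure9]

/-- Over the field with four elements a unitary space of dimension at least two has a non-zero
isotropic vector. -/
theorem uf_iso_f4_9 [Fintype F] {n : ℕ} {σ : F ≃+* F} {f : (Fin n → F) → (Fin n → F) → F}
    (hf : Cfsg.Geo.IsUnitaryForm σ f) (hσ : ∀ x, σ x = x ^ 2) (h2 : (2 : F) = 0) (hn : 2 ≤ n) :
    ∃ w : Fin n → F, w ≠ 0 ∧ f w w = 0 := by
  classical
  have hfix : ∀ r : F, σ r = r → r ≠ 0 → r = 1 := by
    intro r hr hr0
    rw [hσ] at hr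
    have h3 : r * (r - 1) = 0 := by linear_combination hr
    rcases mul_eq_zero.mp h3 with h | h
    · exact absurd h hr0
    · exact sub_eq_zero.mp h
  obtain ⟨i₀⟩ : Nonempty (Fin n) := ⟨⟨0, by omega⟩⟩
  have hs : (Pi.single i₀ 1 : Fin n → F) ≠ 0 := by
    intro h
    have h3 := congrFun h i₀
    rw [Pi.single_eq_same, Pi.zero_apply] at h3
    exact one_ne_zero h3
  obtain ⟨x, hx⟩ := (hf.nondegenerate _ hs).1
  obtain ⟨y₀, -, hy₀⟩ := uf_aniso9 hf ⊤ x (Pi.single i₀ 1) Submodule.mem_top Submodule.mem_top hx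
  obtain ⟨φ, hφ⟩ : ∃ φ : (Fin n → F) →ₗ[F] F, ∀ x, φ x = f x y₀ :=
    ⟨{ toFun := fun x => f x y₀
       map_add' := fun a b => hf.add_left a b y₀
       map_smul' := fun c a => hf.smul_left c a y₀ }, fun x => rfl⟩
  have hker : LinearMap.ker φ ≠ ⊥ := by
    apply LinearMap.ker_ne_bot_of_finrank_lt
    rw [Module.finrank_self, Module.finrank_fin_fun]
    omega
  obtain ⟨y', hy'k, hy'0⟩ := Submodule.exists_mem_ne_zero_of_ne_bot hker
  have hy'y : f y' y₀ = 0 := by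
    rw [← hφ]
    exact LinearMap.mem_ker.mp hy'k
  by_cases hiso : f y' y' = 0
  · exact ⟨y', hy'0, hiso⟩
  · have h1 : f y₀ y₀ = 1 := hfix _ (uf_self9 hf y₀) hy₀
    have h1' : f y' y' = 1 := hfix _ (uf_self9 hf y') hiso
    have hyy' : f y₀ y' = 0 := uf_swap_zero9 hf hy'y
    refine ⟨y₀ + y', ?_, ?_⟩
    · intro h0
      have h3 : f (y₀ + y') y₀ = 0 := by
        rw [h0]
        exact uf_zero_left9 hf y₀
      rw [hf.add_left, h1, hy'y, add_zero] at h3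
      exact one_ne_zero h3
    · rw [hf.add_left, uf_add_right9 hf, uf_add_right9 hf, h1, h1', hy'y, hyy']
      linear_combination h2

/-- Over the field with four elements, the stabiliser of a tensor decomposition of a unitary
space with a factor of dimension two is not maximal among the isometries of determinant one. -/
theorem utens2_notmax9 [Fintype F] {n : ℕ} (hF : Fintype.card F = 4) (hn : 13 ≤ n) (n₂ : ℕ)
    (e : Fin n ≃ Fin 2 × Fin n₂) (P : GL (Fin n) F)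
    (f₁ : (Fin 2 → F) → (Fin 2 → F) → F) (f₂ : (Fin n₂ → F) → (Fin n₂ → F) → F)
    (hf₁ : Cfsg.Geo.IsUnitaryFormPow 2 f₁) (hf₂ : Cfsg.Geo.IsUnitaryFormPow 2 f₂)
    (hT : Cfsg.Geo.IsTensorFormStructure (fun x : F => x ^ 2) (Cfsg.hermForm n F 2) f₁ f₂ e P) :
    ∃ K : Subgroup (GL (Fin n) F),
      Cfsg.Geo.tensorProductSubgroup 2 n₂ e P ⊓ uG9 (Cfsg.hermForm n F 2) < K ∧
      K < uG9 (Cfsg.hermForm n F 2) := by
  classical
  have hF' : Fintype.card F = 2 ^ 2 := by rw [hF]; norm_num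
  obtain ⟨τ, hτx, hh⟩ := herm_unitary_frob9 n 2 hF'
  obtain ⟨h, hhdef⟩ : ∃ h, h = Cfsg.hermForm n F 2 := ⟨_, rfl⟩
  rw [← hhdef] at hh hT ⊢
  have hcard : n = 2 * n₂ := by
    have h3 := Fintype.card_congr e
    rw [Fintype.card_fin, Fintype.card_prod, Fintype.card_fin, Fintype.card_fin] at h3
    exact h3
  have hn₂ : 7 ≤ n₂ := by omega
  have h2 : (2 : F) = 0 := by
    have h4 := FiniteField.cast_card_eq_zero F
    rw [hF] at h4
    have h4' : (2 : F) * 2 = 0 := by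
      have e : ((4 : ℕ) : F) = 2 * 2 := by norm_num
      rw [← e]
      exact h4
    exact mul_self_eq_zero.mp h4'
  have hadd : ∀ x : F, x + x = 0 := fun x => by linear_combination x * h2
  have hcube : ∀ x : F, x ≠ 0 → x * τ x = 1 := fun x hx => by
    have h3 := FiniteField.pow_card_sub_one_eq_one x hx
    rw [hF] at h3
    norm_num at h3
    rw [hτx]
    linear_combination h3
  have hτ1 : τ (1 : F) = -1 := by
    rw [map_one]
    linear_combination h2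
  have hu₁ : Cfsg.Geo.IsUnitaryForm τ f₁ :=
    ⟨hh.ne_refl, hh.involutive, hf₁.add_left, hf₁.smul_left,
      fun v w => by rw [hτx]; exact hf₁.herm v w, hf₁.nondegenerate⟩
  have hu₂ : Cfsg.Geo.IsUnitaryForm τ f₂ :=
    ⟨hh.ne_refl, hh.involutive, hf₂.add_left, hf₂.smul_left,
      fun v w => by rw [hτx]; exact hf₂.herm v w, hf₂.nondegenerate⟩
  obtain ⟨c, hc0, hTc⟩ := hT
  obtain ⟨T, hT'⟩ : ∃ T : (Fin 2 × Fin n₂ → F) → (Fin n → F), ∀ z, T z = (P : Matrix (Fin n) (Fin n) F) *ᵥ (z ∘ e) :=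
    ⟨fun z => (P : Matrix (Fin n) (Fin n) F) *ᵥ (z ∘ e), fun z => rfl⟩
  have hTadd : ∀ z z', T (z + z') = T z + T z' := by
    intro z z'
    rw [hT', hT', hT', ← Matrix.mulVec_add]
    rfl
  have hTsmul : ∀ (a : F) z, T (a • z) = a • T z := by
    intro a z
    rw [hT', hT', ← Matrix.mulVec_smul]
    rfl
  have hTinj : ∀ z z', T z = T z' → z = z' := by
    intro z z' hzz
    rw [hT', hT'] at hzz
    have h3 : ((P⁻¹ : GL (Fin n) F) : Matrix (Fin n) (Fin n) F) *ᵥ ((P : Matrix (Fin n) (Fin n) F) *ᵥ (z ∘ e)) = ((P⁻¹ : GL (Fin n) F) : Matrix (Fin n) (Fin n) F) *ᵥ ((P : Matrix (Fin n) (Fin n) F) *ᵥ (z' ∘ e)) := by rw [hzz]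
    rw [gl_inv_mul_vec9, gl_inv_mul_vec9] at h3
    funext p
    have h4 := congrFun h3 (e.symm p)
    simp only [Function.comp_apply, Equiv.apply_symm_apply] at h4
    exact h4
  have hpure : ∀ u u' y y', h (T (pure9 u y)) (T (pure9 u' y')) = c * (f₁ u u' * f₂ y y') := by
    intro u u' y y'
    rw [hT', hT', hTc, fog_pure9 _ (fun a b => mul_pow a b 2)]
    have e1 : (fun x : F => x ^ 2) = fun a => τ a := by
      funext x
      exact (hτx x).symm
    rw [e1, ← uf_gram9 τ f₁ hf₁.add_left hf₁.smul_left hu₁.herm,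
      ← uf_gram9 τ f₂ hf₂.add_left hf₂.smul_left hu₂.herm]
  obtain ⟨u₁, u₂, -, -, h11, h22, h12, h21, hsp⟩ := uf_plane_basis9 hu₁ ⊤
    (by rw [finrank_top, Module.finrank_fin_fun])
    (fun w _ hw => ⟨(hf₁.nondegenerate w hw).1.elim fun x hx => ⟨x, Submodule.mem_top, hx⟩,
      (hf₁.nondegenerate w hw).2.elim fun x hx => ⟨x, Submodule.mem_top, hx⟩⟩)
  have hsp' : ∀ v, v = f₁ v u₁ • u₁ + f₁ v u₂ • u₂ := fun v => hsp v Submodule.mem_top
  obtain ⟨R, hRdef⟩ : ∃ R : (Fin n₂ → F) → (Fin n₂ → F) → (Fin n → F),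
      ∀ ya yb, R ya yb = T (pure9 u₁ ya + pure9 u₂ yb) :=
    ⟨fun ya yb => T (pure9 u₁ ya + pure9 u₂ yb), fun _ _ => rfl⟩
  have hRu1 : ∀ y, T (pure9 u₁ y) = R y 0 := by
    intro y
    rw [hRdef, pure_zero_right9, add_zero]
  have hRu2 : ∀ y, T (pure9 u₂ y) = R 0 y := by
    intro y
    rw [hRdef, pure_zero_right9, zero_add]
  have hRadd : ∀ ya yb ya' yb' (κ : F),
      R ya yb + κ • R ya' yb' = R (ya + κ • ya') (yb + κ • yb') := by
    intro ya yb ya' yb' κ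
    rw [hRdef, hRdef, hRdef, ← hTsmul, ← hTadd]
    congr 1
    rw [pure_add_right9, pure_add_right9, pure_smul_right9, pure_smul_right9, smul_add]
    abel
  have hRpure : ∀ u y, T (pure9 u y) = R (f₁ u u₁ • y) (f₁ u u₂ • y) := by
    intro u y
    rw [hRdef]
    congr 1
    rw [pure_smul_right9, pure_smul_right9, ← pure_smul_left9, ← pure_smul_left9,
      ← pure_add_left9, ← hsp' u]
  have hR : ∀ ya yb ya' yb', h (R ya yb) (R ya' yb') = c * (f₂ ya ya' + f₂ yb yb') := by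
    intro ya yb ya' yb'
    rw [hRdef, hRdef, hTadd, hTadd, hh.add_left, uf_add_right9 hh, uf_add_right9 hh, hpure,
      hpure, hpure, hpure, h11, h12, h21, h22]
    ring
  have hcol : ∀ (ya yb : Fin n₂ → F) (b : Fin n₂),
      (fun a => (pure9 u₁ ya + pure9 u₂ yb) (a, b)) = ya b • u₁ + yb b • u₂ := by
    intro ya yb b
    funext a
    simp only [pure9, Pi.add_apply, Pi.smul_apply, smul_eq_mul]
    ring
  have hRinj : ∀ ya yb ya' yb', R ya yb = R ya' yb' → ya = ya' ∧ yb = yb' := by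
    intro ya yb ya' yb' hRR
    rw [hRdef, hRdef] at hRR
    have hz := hTinj _ _ hRR
    constructor
    · funext b
      have h5 : f₁ (fun a => (pure9 u₁ ya + pure9 u₂ yb) (a, b)) u₁ =
          f₁ (fun a => (pure9 u₁ ya' + pure9 u₂ yb') (a, b)) u₁ := by rw [hz]
      rw [hcol, hcol, hu₁.add_left, hu₁.add_left, hu₁.smul_left, hu₁.smul_left, hu₁.smul_left,
        hu₁.smul_left, h11, h21] at h5
      linear_combination h5
    · funext b
      have h5 : f₁ (fun a => (pure9 u₁ ya + pure9 u₂ yb) (a, b)) u₂ =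
          f₁ (fun a => (pure9 u₁ ya' + pure9 u₂ yb') (a, b)) u₂ := by rw [hz]
      rw [hcol, hcol, hu₁.add_left, hu₁.add_left, hu₁.smul_left, hu₁.smul_left, hu₁.smul_left,
        hu₁.smul_left, h12, h22] at h5
      linear_combination h5
  obtain ⟨S, hS⟩ : ∃ S : Set (Fin n → F), S = {v | ∃ u y, f₁ u u ≠ 0 ∧ v = T (pure9 u y)} :=
    ⟨_, rfl⟩
  have hmemS : ∀ v : Fin n → F, v ∈ S ↔ ∃ u y, f₁ u u ≠ 0 ∧ v = T (pure9 u y) := fun v => by
    rw [hS]
    rfl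
  have hmemK : ∀ g : GL (Fin n) F, g ∈ Cfsg.stabilizing (Cfsg.glToMat (Fin n) F) S ↔
      ∀ v : Fin n → F, v ∈ S ↔ (g : Matrix (Fin n) (Fin n) F) *ᵥ v ∈ S := fun g => Iff.rfl
  have hSR : ∀ ya yb, R ya yb ∈ S ↔ (ya = 0 ∨ yb = 0) := by
    intro ya yb
    rw [hmemS]
    constructor
    · rintro ⟨u, y, hu, hv⟩
      rw [hRpure] at hv
      obtain ⟨e1, e2⟩ := hRinj _ _ _ _ hv
      obtain ⟨α, hα⟩ : ∃ α, α = f₁ u u₁ := ⟨_, rfl⟩
      obtain ⟨β, hβ⟩ : ∃ β, β = f₁ u u₂ := ⟨_, rfl⟩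
      rw [← hα] at e1
      rw [← hβ] at e2
      have hu_eq : u = α • u₁ + β • u₂ := by
        rw [hα, hβ]
        exact hsp' u
      have huu : f₁ (α • u₁ + β • u₂) (α • u₁ + β • u₂) = α * τ α + β * τ β := by
        simp only [hu₁.add_left, uf_add_right9 hu₁, hu₁.smul_left, uf_smul_right9 hu₁, h11, h22,
          h12, h21]
        ring
      by_cases hα0 : α = 0
      · left
        rw [e1, hα0, zero_smul]
      · right
        by_cases hβ0 : β = 0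
        · rw [e2, hβ0, zero_smul]
        · exfalso
          apply hu
          rw [hu_eq, huu, hcube α hα0, hcube β hβ0]
          exact hadd 1
    · rintro (h0 | h0)
      · rw [h0, ← hRu2]
        exact ⟨u₂, yb, by rw [h22]; exact one_ne_zero, rfl⟩
      · rw [h0, ← hRu1]
        exact ⟨u₁, ya, by rw [h11]; exact one_ne_zero, rfl⟩
  obtain ⟨w₀, hw₀0, hw₀⟩ := uf_iso_f4_9 hu₂ hτx h2 (by omega : 2 ≤ n₂)
  obtain ⟨ystar, hys⟩ := (hf₂.nondegenerate w₀ hw₀0).1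
  have hfw : ∀ g : GL (Fin n) F, g ∈ Cfsg.Geo.tensorProductSubgroup 2 n₂ e P ⊓ uG9 h →
      ∀ v, v ∈ S → (g : Matrix (Fin n) (Fin n) F) *ᵥ v ∈ S := by
    intro g hg v hv
    obtain ⟨u, y, hu, rfl⟩ := (hmemS v).mp hv
    obtain ⟨A, B, hAB⟩ := tp_action9 e P g hg.1
    have hAB' : ∀ u y, (g : Matrix (Fin n) (Fin n) F) *ᵥ (T (pure9 u y)) = T (pure9 (A *ᵥ u) (B *ᵥ y)) := by
      intro u y
      rw [hT', hT']
      exact hAB u y
    rw [hAB']
    refine (hmemS _).mpr ⟨A *ᵥ u, B *ᵥ y, ?_, rfl⟩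
    intro h0
    have h6 := uG_iso9 hg.2 (T (pure9 u ystar)) (T (pure9 u w₀))
    rw [hAB', hAB', hpure, hpure, h0, zero_mul, mul_zero] at h6
    exact mul_ne_zero hc0 (mul_ne_zero hu hys) h6.symm
  have hz₁ : h (R w₀ 0) (R w₀ 0) = 0 := by
    rw [hR, hw₀, uf_zero_left9 hu₂, add_zero, mul_zero]
  obtain ⟨t₁, ht₁G, ht₁⟩ := uf_tv9 hh 1 hτ1 (R w₀ 0) hz₁
  have ht₁R : ∀ ya yb, (t₁ : Matrix (Fin n) (Fin n) F) *ᵥ (R ya yb) = R (ya + (c * f₂ ya w₀) • w₀) yb := by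
    intro ya yb
    rw [ht₁, hR, uf_zero_right9 hu₂, add_zero, one_mul, hRadd, smul_zero, add_zero]
  have htt : ∀ v, (t₁ : Matrix (Fin n) (Fin n) F) *ᵥ ((t₁ : Matrix (Fin n) (Fin n) F) *ᵥ v) = v := fun v => by
    rw [ht₁ ((t₁ : Matrix (Fin n) (Fin n) F) *ᵥ v), ht₁ v, hh.add_left, hh.smul_left, hz₁, mul_zero, add_zero, one_mul,
      add_assoc, ← add_smul, hadd, zero_smul, add_zero]
  have hfw₁ : ∀ v, v ∈ S → (t₁ : Matrix (Fin n) (Fin n) F) *ᵥ v ∈ S := by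
    intro v hv
    obtain ⟨u, y, hu, rfl⟩ := (hmemS v).mp hv
    rw [hRpure, hSR] at hv
    rw [hRpure, ht₁R, hSR]
    rcases hv with h0 | h0
    · left
      rw [h0, uf_zero_left9 hu₂, mul_zero, zero_smul, add_zero]
    · right
      exact h0
  have ht₁K : t₁ ∈ Cfsg.stabilizing (Cfsg.glToMat (Fin n) F) S ⊓ uG9 h := by
    refine ⟨(hmemK t₁).mpr (fun v => ⟨hfw₁ v, fun hv => ?_⟩), ht₁G⟩
    have h8 := hfw₁ _ hv
    rwa [htt] at h8
  refine ⟨Cfsg.stabilizing (Cfsg.glToMat (Fin n) F) S ⊓ uG9 h, lt_of_le_of_ne ?_ ?_,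
    lt_of_le_of_ne inf_le_right ?_⟩
  · intro g hg
    refine ⟨(hmemK g).mpr (fun v => ⟨hfw g hg v, fun hv => ?_⟩), hg.2⟩
    have h8 := hfw g⁻¹ (inv_mem hg) _ hv
    rwa [gl_inv_mul_vec9] at h8
  · intro heq
    rw [← heq] at ht₁K
    obtain ⟨A, B, hAB⟩ := tp_action9 e P t₁ ht₁K.1
    have hAB' : ∀ u y, (t₁ : Matrix (Fin n) (Fin n) F) *ᵥ (T (pure9 u y)) = T (pure9 (A *ᵥ u) (B *ᵥ y)) := by
      intro u y
      rw [hT', hT']
      exact hAB u y
    have e1 := hAB' u₁ ystar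
    rw [hRu1, ht₁R, hRpure] at e1
    obtain ⟨e1a, -⟩ := hRinj _ _ _ _ e1
    have e2 := hAB' u₂ ystar
    rw [hRu2, ht₁R, hRpure] at e2
    obtain ⟨-, e2b⟩ := hRinj _ _ _ _ e2
    obtain ⟨a₁, ha₁⟩ : ∃ a₁, a₁ = f₁ (A *ᵥ u₁) u₁ := ⟨_, rfl⟩
    obtain ⟨b₂, hb₂⟩ : ∃ b₂, b₂ = f₁ (A *ᵥ u₂) u₂ := ⟨_, rfl⟩
    rw [← ha₁] at e1a
    rw [← hb₂] at e2b
    have hys0 : ystar ≠ 0 := by
      intro h0
      apply hys
      rw [h0]
      exact uf_zero_left9 hu₂ w₀
    have hb₂0 : b₂ ≠ 0 := by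
      intro h0
      apply hys0
      rw [e2b, h0, zero_smul]
    have hBy : B *ᵥ ystar = b₂⁻¹ • ystar := by
      conv_rhs => rw [e2b]
      rw [smul_smul, inv_mul_cancel₀ hb₂0, one_smul]
    rw [hBy, smul_smul] at e1a
    have h9 : f₂ (ystar + (c * f₂ ystar w₀) • w₀) w₀ = f₂ ((a₁ * b₂⁻¹) • ystar) w₀ := by
      rw [e1a]
    rw [hu₂.add_left, hu₂.smul_left, hu₂.smul_left, hw₀, mul_zero, add_zero] at h9
    have h10 : a₁ * b₂⁻¹ = 1 := by
      have h3 : (a₁ * b₂⁻¹ - 1) * f₂ ystar w₀ = 0 := by linear_combination -h9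
      rcases mul_eq_zero.mp h3 with h' | h'
      · exact sub_eq_zero.mp h'
      · exact absurd h' hys
    rw [h10, one_smul] at e1a
    have h11' : (c * f₂ ystar w₀) • w₀ = 0 :=
      add_left_cancel (e1a.trans (add_zero ystar).symm)
    rcases smul_eq_zero.mp h11' with h' | h'
    · exact mul_ne_zero hc0 hys h'
    · exact hw₀0 h'
  · intro heq
    have hz₂ : h (R w₀ w₀) (R w₀ w₀) = 0 := by
      rw [hR, hw₀, add_zero, mul_zero]
    obtain ⟨t₂, ht₂G, ht₂⟩ := uf_tv9 hh 1 hτ1 (R w₀ w₀) hz₂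
    have ht₂K : t₂ ∈ Cfsg.stabilizing (Cfsg.glToMat (Fin n) F) S ⊓ uG9 h := by
      rw [heq]
      exact ht₂G
    have h12' := ((hmemK t₂).mp ht₂K.1 (R ystar 0)).mp ((hSR _ _).mpr (Or.inr rfl))
    rw [ht₂, hR, uf_zero_left9 hu₂, add_zero, one_mul, hRadd, zero_add, hSR] at h12'
    rcases h12' with h' | h'
    · have h13 : f₂ (ystar + (c * f₂ ystar w₀) • w₀) w₀ = 0 := by
        rw [h']
        exact uf_zero_left9 hu₂ w₀
      rw [hu₂.add_left, hu₂.smul_left, hw₀, mul_zero, add_zero] at h13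
      exact hys h13
    · rcases smul_eq_zero.mp h' with h'' | h''
      · exact mul_ne_zero hc0 hys h''
      · exact hw₀0 h''

end Cfsg.Agent.Helper9
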