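import Mathlib
import Cfsg.Prelude.Def_GeometricClasses
import Cfsg.Prelude.Def_Classical
import Cfsg.Agent.Helper9.UTens9
import Cfsg.Agent.Helper9.F3Frame9
import Cfsg.Agent.Helper9.SpGen

set_option autoImplicit false

namespace Cfsg.Agent.Helper9

open Cfsg
open scoped MatrixGroups Matrix Kronecker

variable {F : Type*} [Field F]

theorem pure_zero_left9 {n₁ n₂ : ℕ} (u : Fin n₂ → F) :
    pure9 (0 : Fin n₁ → F) u = 0 := by
  funext p
  simp only [pure9, Pi.zero_apply, zero_mul]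

/-- A bilinear form is given by its Gram matrix. -/
theorem bf_gram9 {κ : Type} [Fintype κ] [DecidableEq κ] (f : (κ → F) → (κ → F) → F)
    (hf : Cfsg.Geo.IsBilinearForm f) (x y : κ → F) :
    f x y = Cfsg.Geo.formOfGram id (Cfsg.Geo.gramMatrix f) x y := by
  have hs : ∀ a : κ, (fun j => if a = j then (1 : F) else 0) = Pi.single a 1 := by
    intro a
    funext j
    rw [Pi.single_apply]
    by_cases h : a = j
    · rw [if_pos h, if_pos h.symm]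
    · rw [if_neg h, if_neg (fun h' => h h'.symm)]
  have hL : ∀ (y x : κ → F), f x y = ∑ a, x a * f (Pi.single a 1) y := by
    intro y x
    obtain ⟨L, hLdef⟩ : ∃ L : (κ → F) →ₗ[F] F, ∀ x, L x = f x y :=
      ⟨{ toFun := fun x => f x y
         map_add' := fun x x' => hf.add_left x x' y
         map_smul' := fun c x => hf.smul_left c x y }, fun x => rfl⟩
    have h1 := LinearMap.pi_apply_eq_sum_univ L x
    rw [hLdef] at h1
    rw [h1]
    refine Finset.sum_congr rfl fun a _ => ?_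
    rw [hLdef, smul_eq_mul, hs]
  have hRt : ∀ (x y : κ → F), f x y = ∑ b, y b * f x (Pi.single b 1) := by
    intro x y
    obtain ⟨L, hLdef⟩ : ∃ L : (κ → F) →ₗ[F] F, ∀ y, L y = f x y :=
      ⟨{ toFun := fun y => f x y
         map_add' := fun y y' => hf.add_right x y y'
         map_smul' := fun c y => hf.smul_right c x y }, fun y => rfl⟩
    have h1 := LinearMap.pi_apply_eq_sum_univ L y
    rw [hLdef] at h1
    rw [h1]
    refine Finset.sum_congr rfl fun b _ => ?_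
    rw [hLdef, smul_eq_mul, hs]
  unfold Cfsg.Geo.formOfGram Cfsg.Geo.gramMatrix
  beta_reduce
  simp only [id_eq]
  rw [hL y x]
  refine Finset.sum_congr rfl fun a _ => ?_
  rw [hRt (Pi.single a 1) y, Finset.mul_sum]
  refine Finset.sum_congr rfl fun b _ => ?_
  ring

theorem submatrix_mulVec_compI9 {ι κ : Type} [Fintype ι] [Fintype κ] (e : ι ≃ κ)
    (M : Matrix κ κ F) (z : κ → F) :
    (M.submatrix e e) *ᵥ (z ∘ e) = (M *ᵥ z) ∘ e := by
  funext i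
  simp only [Matrix.mulVec, dotProduct, Matrix.submatrix_apply, Function.comp_apply]
  exact Equiv.sum_comp e (fun p => M (e i) p * z p)

/-- The action of the tensor product subgroup on pure tensors, for a general index type. -/
theorem tp_actionI9 {ι : Type} [Fintype ι] [DecidableEq ι] {n₁ n₂ : ℕ}
    (e : ι ≃ Fin n₁ × Fin n₂) (P g : GL ι F)
    (hg : g ∈ Cfsg.Geo.tensorProductSubgroup n₁ n₂ e P) :
    ∃ (a : GL (Fin n₁) F) (b : GL (Fin n₂) F), ∀ (y : Fin n₁ → F) (u : Fin n₂ → F),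
      (g : Matrix ι ι F) *ᵥ ((P : Matrix ι ι F) *ᵥ (pure9 y u ∘ e)) =
        (P : Matrix ι ι F) *ᵥ (pure9 ((a : Matrix (Fin n₁) (Fin n₁) F) *ᵥ y)
          ((b : Matrix (Fin n₂) (Fin n₂) F) *ᵥ u) ∘ e) := by
  unfold Cfsg.Geo.tensorProductSubgroup at hg
  obtain ⟨g₁, hg₁, hgg⟩ := Subgroup.mem_map.mp hg
  obtain ⟨k, hk, hkg⟩ := Subgroup.mem_map.mp hg₁
  obtain ⟨a, b, hab⟩ := hk
  refine ⟨a, b, fun y u => ?_⟩
  have h1 : g = P * Cfsg.Geo.glReindex e.symm k * P⁻¹ := by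
    rw [← hgg, ← hkg]
    rfl
  have h2 : ((Cfsg.Geo.glReindex (F := F) e.symm k : GL ι F) : Matrix ι ι F) =
      (k : Matrix (Fin n₁ × Fin n₂) (Fin n₁ × Fin n₂) F).submatrix e e := rfl
  rw [h1, gl_mul_vecI9, gl_mul_vecI9, gl_inv_mul_vecI9, h2, hab, submatrix_mulVec_compI9,
    kron_mulVec_pure9]

/-- Over the field with three elements, the stabiliser of a tensor decomposition of a
symplectic space with an orthogonal factor of dimension three is not maximal. -/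
theorem sptens3_notmax9 [Fintype F] (m : ℕ) (hm : 7 ≤ m) (hq : Fintype.card F = 3) (n₁ : ℕ)
    (e : (Fin m ⊕ Fin m) ≃ Fin n₁ × Fin 3) (P : GL (Fin m ⊕ Fin m) F)
    (f₁ : (Fin n₁ → F) → (Fin n₁ → F) → F) (f₂ : (Fin 3 → F) → (Fin 3 → F) → F)
    (hf₁ : Cfsg.Geo.IsSymplecticForm f₁) (hf₂ : Cfsg.Geo.IsSymmetricForm f₂)
    (hT : Cfsg.Geo.IsTensorFormStructure id (Cfsg.sympForm m F) f₁ f₂ e P) :
    ∃ K : Subgroup (GL (Fin m ⊕ Fin m) F),
      Cfsg.Geo.tensorProductSubgroup n₁ 3 e P ⊓ Cfsg.spGL m F < K ∧ K < Cfsg.spGL m F := by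
  classical
  have h3 : (3 : F) = 0 := f3_three9 hq
  have h2 : (2 : F) ≠ 0 := f3_two9 hq
  have hsq : ∀ x : F, x ≠ 0 → x * x = 1 := by
    intro x hx
    rcases f3_cases9 hq x with h | h | h
    · exact absurd h hx
    · rw [h, mul_one]
    · rw [h]
      ring
  have hcard : 2 * m = n₁ * 3 := by
    have h4 := Fintype.card_congr e
    rw [Fintype.card_sum, Fintype.card_fin, Fintype.card_prod, Fintype.card_fin,
      Fintype.card_fin] at h4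
    omega
  have hn₁ : 0 < n₁ := by omega
  have hb₁ := hf₁.bilinear
  have hb₂ := hf₂.bilinear
  have h1z : ∀ v, f₁ 0 v = 0 := fun v => by
    have h := hb₁.smul_left 0 0 v
    rwa [zero_smul, zero_mul] at h
  have h1zr : ∀ v, f₁ v 0 = 0 := fun v => by
    have h := hb₁.smul_right 0 v 0
    rwa [zero_smul, zero_mul] at h
  have h2z : ∀ v, f₂ 0 v = 0 := fun v => by
    have h := hb₂.smul_left 0 0 v
    rwa [zero_smul, zero_mul] at h
  obtain ⟨c, hc0, hTc⟩ := hT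
  obtain ⟨T, hT'⟩ : ∃ T : (Fin n₁ × Fin 3 → F) → (Fin m ⊕ Fin m → F), ∀ z, T z = (P : Matrix (Fin m ⊕ Fin m) (Fin m ⊕ Fin m) F) *ᵥ (z ∘ e) :=
    ⟨fun z => (P : Matrix (Fin m ⊕ Fin m) (Fin m ⊕ Fin m) F) *ᵥ (z ∘ e), fun z => rfl⟩
  have hTadd : ∀ z z', T (z + z') = T z + T z' := by
    intro z z'
    rw [hT', hT', hT', ← Matrix.mulVec_add]
    rfl
  have hTsmul : ∀ (a : F) z, T (a • z) = a • T z := by
    intro a z
    rw [hT', hT', ← Matrix.mulVec_smul]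
    rfl
  have hTinj : ∀ z z', T z = T z' → z = z' := by
    intro z z' hzz
    rw [hT', hT'] at hzz
    have h4 : ((P⁻¹ : GL (Fin m ⊕ Fin m) F) : Matrix (Fin m ⊕ Fin m) (Fin m ⊕ Fin m) F) *ᵥ ((P : Matrix (Fin m ⊕ Fin m) (Fin m ⊕ Fin m) F) *ᵥ (z ∘ e)) = ((P⁻¹ : GL (Fin m ⊕ Fin m) F) : Matrix (Fin m ⊕ Fin m) (Fin m ⊕ Fin m) F) *ᵥ ((P : Matrix (Fin m ⊕ Fin m) (Fin m ⊕ Fin m) F) *ᵥ (z' ∘ e)) := by rw [hzz]
    rw [gl_inv_mul_vecI9, gl_inv_mul_vecI9] at h4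
    funext p
    have h5 := congrFun h4 (e.symm p)
    simp only [Function.comp_apply, Equiv.apply_symm_apply] at h5
    exact h5
  have hpure : ∀ y y' u u', Cfsg.sympForm m F (T (pure9 y u)) (T (pure9 y' u')) =
      c * (f₁ y y' * f₂ u u') := by
    intro y y' u u'
    rw [hT', hT', hTc, fog_pure9 id (fun a b => rfl), ← bf_gram9 f₁ hb₁, ← bf_gram9 f₂ hb₂]
  obtain ⟨ε, e₁, e₂, e₃, hε, h11, h22, h33, h12, h13, h23, hsp⟩ := f3_frame9 hq f₂ hf₂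
  have hε0 : ε ≠ 0 := by
    intro h0
    rw [h0, mul_zero] at hε
    exact zero_ne_one hε
  have h21 : f₂ e₂ e₁ = 0 := by rw [hf₂.symm]; exact h12
  have h31 : f₂ e₃ e₁ = 0 := by rw [hf₂.symm]; exact h13
  have h32 : f₂ e₃ e₂ = 0 := by rw [hf₂.symm]; exact h23
  obtain ⟨R, hRdef⟩ : ∃ R : (Fin n₁ → F) → (Fin n₁ → F) → (Fin n₁ → F) → (Fin m ⊕ Fin m → F),
      ∀ y₁ y₂ y₃, R y₁ y₂ y₃ = T (pure9 y₁ e₁ + pure9 y₂ e₂ + pure9 y₃ e₃) :=
    ⟨fun y₁ y₂ y₃ => T (pure9 y₁ e₁ + pure9 y₂ e₂ + pure9 y₃ e₃), fun _ _ _ => rfl⟩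
  have hRu1 : ∀ y, T (pure9 y e₁) = R y 0 0 := by
    intro y
    rw [hRdef, pure_zero_left9, pure_zero_left9, add_zero, add_zero]
  have hRu2 : ∀ y, T (pure9 y e₂) = R 0 y 0 := by
    intro y
    rw [hRdef, pure_zero_left9, pure_zero_left9, zero_add, add_zero]
  have hRu3 : ∀ y, T (pure9 y e₃) = R 0 0 y := by
    intro y
    rw [hRdef, pure_zero_left9, pure_zero_left9, zero_add, zero_add]
  have hRadd : ∀ y₁ y₂ y₃ y₁' y₂' y₃' (κ : F), R y₁ y₂ y₃ + κ • R y₁' y₂' y₃' =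
      R (y₁ + κ • y₁') (y₂ + κ • y₂') (y₃ + κ • y₃') := by
    intro y₁ y₂ y₃ y₁' y₂' y₃' κ
    rw [hRdef, hRdef, hRdef, ← hTsmul, ← hTadd]
    congr 1
    rw [pure_add_left9, pure_add_left9, pure_add_left9, pure_smul_left9, pure_smul_left9,
      pure_smul_left9, smul_add, smul_add]
    abel
  have hRpure : ∀ y u, T (pure9 y u) =
      R ((ε * f₂ u e₁) • y) ((ε * f₂ u e₂) • y) ((ε * f₂ u e₃) • y) := by
    intro y u
    rw [hRdef]
    congr 1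
    rw [pure_smul_left9, pure_smul_left9, pure_smul_left9, ← pure_smul_right9,
      ← pure_smul_right9, ← pure_smul_right9, ← pure_add_right9, ← pure_add_right9, ← hsp u]
  have hR : ∀ y₁ y₂ y₃ y₁' y₂' y₃', Cfsg.sympForm m F (R y₁ y₂ y₃) (R y₁' y₂' y₃') =
      c * ε * (f₁ y₁ y₁' + f₁ y₂ y₂' + f₁ y₃ y₃') := by
    intro y₁ y₂ y₃ y₁' y₂' y₃'
    rw [hRdef, hRdef, hTadd, hTadd, hTadd, hTadd]
    simp only [sf_add_left9, sf_add_right9, hpure, h11, h22, h33, h12, h13, h23, h21, h31, h32]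
    ring
  have hcol : ∀ (y₁ y₂ y₃ : Fin n₁ → F) (a : Fin n₁),
      (fun b => (pure9 y₁ e₁ + pure9 y₂ e₂ + pure9 y₃ e₃) (a, b)) =
        y₁ a • e₁ + y₂ a • e₂ + y₃ a • e₃ := by
    intro y₁ y₂ y₃ a
    funext b
    simp only [pure9, Pi.add_apply, Pi.smul_apply, smul_eq_mul]
  have hRinj : ∀ y₁ y₂ y₃ y₁' y₂' y₃', R y₁ y₂ y₃ = R y₁' y₂' y₃' →
      y₁ = y₁' ∧ y₂ = y₂' ∧ y₃ = y₃' := by
    intro y₁ y₂ y₃ y₁' y₂' y₃' hRR
    rw [hRdef, hRdef] at hRR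
    have hz := hTinj _ _ hRR
    have hrow : ∀ (a : Fin n₁) (w : Fin 3 → F),
        f₂ (fun b => (pure9 y₁ e₁ + pure9 y₂ e₂ + pure9 y₃ e₃) (a, b)) w =
          f₂ (fun b => (pure9 y₁' e₁ + pure9 y₂' e₂ + pure9 y₃' e₃) (a, b)) w := by
      intro a w
      rw [hz]
    refine ⟨?_, ?_, ?_⟩
    · funext a
      have h5 := hrow a e₁
      rw [hcol, hcol] at h5
      simp only [hb₂.add_left, hb₂.smul_left, h11, h21, h31, mul_zero, add_zero] at h5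
      exact mul_right_cancel₀ hε0 h5
    · funext a
      have h5 := hrow a e₂
      rw [hcol, hcol] at h5
      simp only [hb₂.add_left, hb₂.smul_left, h12, h22, h32, mul_zero, add_zero, zero_add] at h5
      exact mul_right_cancel₀ hε0 h5
    · funext a
      have h5 := hrow a e₃
      rw [hcol, hcol] at h5
      simp only [hb₂.add_left, hb₂.smul_left, h13, h23, h33, mul_zero, zero_add] at h5
      exact mul_right_cancel₀ hε0 h5
  obtain ⟨Frm, hFrm⟩ : ∃ Frm : (Fin 3 → F) → Prop,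
      ∀ u, Frm u ↔ (f₂ u u ≠ 0 ∧ ∀ w, f₂ u w = 0 → f₂ w w = 0 → w = 0) :=
    ⟨fun u => f₂ u u ≠ 0 ∧ ∀ w, f₂ u w = 0 → f₂ w w = 0 → w = 0, fun u => Iff.rfl⟩
  have hFrmE : ∀ (p q r : Fin 3 → F), f₂ p p = ε → f₂ q q = ε → f₂ r r = ε → f₂ q r = 0 →
      (∀ v, v = (ε * f₂ v p) • p + (ε * f₂ v q) • q + (ε * f₂ v r) • r) → Frm p := by
    intro p q r hpp hqq hrr hqr hexp
    rw [hFrm]
    refine ⟨by rw [hpp]; exact hε0, fun w hpw hww => ?_⟩
    have hwp : f₂ w p = 0 := by rw [hf₂.symm]; exact hpw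
    obtain ⟨β, hβ⟩ : ∃ β, β = ε * f₂ w q := ⟨_, rfl⟩
    obtain ⟨γ, hγ⟩ : ∃ γ, γ = ε * f₂ w r := ⟨_, rfl⟩
    have hw_eq : w = β • q + γ • r := by
      have h4 := hexp w
      rw [hwp, mul_zero, zero_smul, zero_add, ← hβ, ← hγ] at h4
      exact h4
    have hrq : f₂ r q = 0 := by rw [hf₂.symm]; exact hqr
    have hnorm : f₂ (β • q + γ • r) (β • q + γ • r) = ε * (β * β + γ * γ) := by
      simp only [hb₂.add_left, hb₂.add_right, hb₂.smul_left, hb₂.smul_right, hqq, hrr, hqr, hrq]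
      ring
    have hww' : f₂ (β • q + γ • r) (β • q + γ • r) = 0 := by
      rw [← hw_eq]
      exact hww
    rw [hnorm] at hww'
    have hsum : β * β + γ * γ = 0 := by
      rcases mul_eq_zero.mp hww' with h | h
      · exact absurd h hε0
      · exact h
    have hβ0 : β = 0 := by
      by_contra hβ0
      by_cases hγ0 : γ = 0
      · rw [hγ0, mul_zero, add_zero, hsq β hβ0] at hsum
        exact one_ne_zero hsum
      · rw [hsq β hβ0, hsq γ hγ0] at hsum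
        exact h2 (by linear_combination hsum)
    have hγ0 : γ = 0 := by
      by_contra hγ0
      rw [hβ0, mul_zero, zero_add, hsq γ hγ0] at hsum
      exact one_ne_zero hsum
    rw [hw_eq, hβ0, hγ0, zero_smul, zero_smul, add_zero]
  have hF1 : Frm e₁ := hFrmE e₁ e₂ e₃ h11 h22 h33 h23 hsp
  have hF2 : Frm e₂ := hFrmE e₂ e₁ e₃ h22 h11 h33 h13 (fun v => (hsp v).trans (by abel))
  have hF3 : Frm e₃ := hFrmE e₃ e₁ e₂ h33 h11 h22 h12 (fun v => (hsp v).trans (by abel))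
  have hFrmNot : ∀ (p q r : Fin 3 → F), f₂ p p = ε → f₂ q q = ε → f₂ r r = ε → f₂ p q = 0 →
      f₂ p r = 0 → f₂ q r = 0 → ∀ (a b c' : F), a ≠ 0 → b ≠ 0 →
      ¬ Frm (a • p + b • q + c' • r) := by
    intro p q r hpp hqq hrr hpq hpr hqr a b c' ha hb hF
    rw [hFrm] at hF
    obtain ⟨hFa, hFb⟩ := hF
    have hqp : f₂ q p = 0 := by rw [hf₂.symm]; exact hpq
    have hrp : f₂ r p = 0 := by rw [hf₂.symm]; exact hpr
    have hrq : f₂ r q = 0 := by rw [hf₂.symm]; exact hqr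
    have ha2 := hsq a ha
    have hb2 := hsq b hb
    by_cases hc : c' = 0
    · have hw := hFb (b • p + (-a) • q + r) ?_ ?_
      · have h5 : f₂ (b • p + (-a) • q + r) r = 0 := by
          rw [hw]
          exact h2z r
        simp only [hb₂.add_left, hb₂.smul_left, hpr, hqr, hrr] at h5
        apply hε0
        linear_combination h5
      · rw [hc]
        simp only [hb₂.add_left, hb₂.add_right, hb₂.smul_left, hb₂.smul_right, hpp, hqq, hrr,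
          hpq, hpr, hqr, hqp, hrp, hrq]
        ring
      · simp only [hb₂.add_left, hb₂.add_right, hb₂.smul_left, hb₂.smul_right, hpp, hqq, hrr,
          hpq, hpr, hqr, hqp, hrp, hrq]
        linear_combination ε * hb2 + ε * ha2 + ε * h3
    · apply hFa
      have hc2 := hsq c' hc
      simp only [hb₂.add_left, hb₂.add_right, hb₂.smul_left, hb₂.smul_right, hpp, hqq, hrr,
        hpq, hpr, hqr, hqp, hrp, hrq]
      linear_combination ε * hb2 + ε * ha2 + ε * hc2 + ε * h3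
  obtain ⟨S, hS⟩ : ∃ S : Set (Fin m ⊕ Fin m → F), S = {v | ∃ y u, Frm u ∧ v = T (pure9 y u)} := ⟨_, rfl⟩
  have hmemS : ∀ v : Fin m ⊕ Fin m → F, v ∈ S ↔ ∃ y u, Frm u ∧ v = T (pure9 y u) := fun v => by
    rw [hS]
    rfl
  have hmemK : ∀ g : GL (Fin m ⊕ Fin m) F, g ∈ Cfsg.stabilizing (Cfsg.glToMat (Fin m ⊕ Fin m) F) S ↔
      ∀ v : Fin m ⊕ Fin m → F, v ∈ S ↔ (g : Matrix (Fin m ⊕ Fin m) (Fin m ⊕ Fin m) F) *ᵥ v ∈ S := fun g => Iff.rfl
  have hSR : ∀ y₁ y₂ y₃, R y₁ y₂ y₃ ∈ S ↔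
      ((y₂ = 0 ∧ y₃ = 0) ∨ (y₁ = 0 ∧ y₃ = 0) ∨ (y₁ = 0 ∧ y₂ = 0)) := by
    intro y₁ y₂ y₃
    rw [hmemS]
    constructor
    · rintro ⟨y, u, hu, hv⟩
      rw [hRpure] at hv
      obtain ⟨e1, e2, e3⟩ := hRinj _ _ _ _ _ _ hv
      obtain ⟨α₁, hα₁⟩ : ∃ α₁, α₁ = ε * f₂ u e₁ := ⟨_, rfl⟩
      obtain ⟨α₂, hα₂⟩ : ∃ α₂, α₂ = ε * f₂ u e₂ := ⟨_, rfl⟩
      obtain ⟨α₃, hα₃⟩ : ∃ α₃, α₃ = ε * f₂ u e₃ := ⟨_, rfl⟩
      rw [← hα₁] at e1
      rw [← hα₂] at e2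
      rw [← hα₃] at e3
      have hu_eq : u = α₁ • e₁ + α₂ • e₂ + α₃ • e₃ := by
        rw [hα₁, hα₂, hα₃]
        exact hsp u
      by_cases h1 : α₁ = 0
      · by_cases h2' : α₂ = 0
        · right
          right
          exact ⟨by rw [e1, h1, zero_smul], by rw [e2, h2', zero_smul]⟩
        · by_cases h3' : α₃ = 0
          · right
            left
            exact ⟨by rw [e1, h1, zero_smul], by rw [e3, h3', zero_smul]⟩
          · exfalso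
            have hu' : u = α₂ • e₂ + α₃ • e₃ + α₁ • e₁ := hu_eq.trans (by abel)
            rw [hu'] at hu
            exact hFrmNot e₂ e₃ e₁ h22 h33 h11 h23 h21 h31 α₂ α₃ α₁ h2' h3' hu
      · by_cases h2' : α₂ = 0
        · by_cases h3' : α₃ = 0
          · left
            exact ⟨by rw [e2, h2', zero_smul], by rw [e3, h3', zero_smul]⟩
          · exfalso
            have hu' : u = α₁ • e₁ + α₃ • e₃ + α₂ • e₂ := hu_eq.trans (by abel)
            rw [hu'] at hu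
            exact hFrmNot e₁ e₃ e₂ h11 h33 h22 h13 h12 h32 α₁ α₃ α₂ h1 h3' hu
        · exfalso
          rw [hu_eq] at hu
          exact hFrmNot e₁ e₂ e₃ h11 h22 h33 h12 h13 h23 α₁ α₂ α₃ h1 h2' hu
    · rintro (⟨h0, h0'⟩ | ⟨h0, h0'⟩ | ⟨h0, h0'⟩)
      · rw [h0, h0', ← hRu1]
        exact ⟨y₁, e₁, hF1, rfl⟩
      · rw [h0, h0', ← hRu2]
        exact ⟨y₂, e₂, hF2, rfl⟩
      · rw [h0, h0', ← hRu3]
        exact ⟨y₃, e₃, hF3, rfl⟩
  obtain ⟨w₀, hw₀0⟩ : ∃ w₀ : Fin n₁ → F, w₀ ≠ 0 := by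
    refine ⟨Pi.single ⟨0, hn₁⟩ 1, fun h => ?_⟩
    have h4 := congrFun h ⟨0, hn₁⟩
    rw [Pi.single_eq_same, Pi.zero_apply] at h4
    exact one_ne_zero h4
  obtain ⟨ystar, hys⟩ := (hf₁.nondegenerate w₀ hw₀0).1
  have hfw : ∀ g : GL (Fin m ⊕ Fin m) F, g ∈ Cfsg.Geo.tensorProductSubgroup n₁ 3 e P ⊓ Cfsg.spGL m F →
      ∀ v, v ∈ S → (g : Matrix (Fin m ⊕ Fin m) (Fin m ⊕ Fin m) F) *ᵥ v ∈ S := by
    intro g hg v hv
    obtain ⟨y, u, hu, rfl⟩ := (hmemS v).mp hv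
    obtain ⟨a, b, hAB⟩ := tp_actionI9 e P g hg.1
    have hAB' : ∀ y u, (g : Matrix (Fin m ⊕ Fin m) (Fin m ⊕ Fin m) F) *ᵥ (T (pure9 y u)) =
        T (pure9 ((a : Matrix (Fin n₁) (Fin n₁) F) *ᵥ y) ((b : Matrix (Fin 3) (Fin 3) F) *ᵥ u)) := by
      intro y u
      rw [hT', hT']
      exact hAB y u
    rw [hAB']
    refine (hmemS _).mpr ⟨_, _, ?_, rfl⟩
    have hsim : ∀ u u', f₁ ((a : Matrix (Fin n₁) (Fin n₁) F) *ᵥ ystar)
        ((a : Matrix (Fin n₁) (Fin n₁) F) *ᵥ w₀) *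
        f₂ ((b : Matrix (Fin 3) (Fin 3) F) *ᵥ u) ((b : Matrix (Fin 3) (Fin 3) F) *ᵥ u') =
        f₁ ystar w₀ * f₂ u u' := by
      intro u u'
      have h6 := mem_spGL9.mp hg.2 (T (pure9 ystar u)) (T (pure9 w₀ u'))
      rw [hAB', hAB', hpure, hpure] at h6
      exact mul_left_cancel₀ hc0 h6
    rw [hFrm] at hu ⊢
    obtain ⟨hua, hub⟩ := hu
    refine ⟨fun h0 => ?_, fun w hw1 hw2 => ?_⟩
    · have h7 := hsim u u
      rw [h0, mul_zero] at h7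
      exact mul_ne_zero hys hua h7.symm
    · obtain ⟨w', hw'⟩ : ∃ w' : Fin 3 → F, (b : Matrix (Fin 3) (Fin 3) F) *ᵥ w' = w :=
        ⟨((b⁻¹ : GL (Fin 3) F) : Matrix (Fin 3) (Fin 3) F) *ᵥ w, gl_mul_inv_vec9 b w⟩
      rw [← hw'] at hw1 hw2
      have h7 := hsim u w'
      rw [hw1, mul_zero] at h7
      have h8 := hsim w' w'
      rw [hw2, mul_zero] at h8
      have h9 : f₂ u w' = 0 := by
        rcases mul_eq_zero.mp h7.symm with h | h
        · exact absurd h hys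
        · exact h
      have h10 : f₂ w' w' = 0 := by
        rcases mul_eq_zero.mp h8.symm with h | h
        · exact absurd h hys
        · exact h
      rw [← hw', hub w' h9 h10, Matrix.mulVec_zero]
  have htR : ∀ (a' : F) (t : GL (Fin m ⊕ Fin m) F), (∀ x, (t : Matrix (Fin m ⊕ Fin m) (Fin m ⊕ Fin m) F) *ᵥ x =
      x + (a' * Cfsg.sympForm m F x (R w₀ 0 0)) • R w₀ 0 0) → ∀ y₁ y₂ y₃,
      (t : Matrix (Fin m ⊕ Fin m) (Fin m ⊕ Fin m) F) *ᵥ (R y₁ y₂ y₃) = R (y₁ + (a' * (c * ε * f₁ y₁ w₀)) • w₀) y₂ y₃ := by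
    intro a' t ht y₁ y₂ y₃
    rw [ht, hR, h1zr, h1zr, add_zero, add_zero, hRadd, smul_zero, add_zero, add_zero]
  have hfwa : ∀ (a' : F) (t : GL (Fin m ⊕ Fin m) F), (∀ x, (t : Matrix (Fin m ⊕ Fin m) (Fin m ⊕ Fin m) F) *ᵥ x =
      x + (a' * Cfsg.sympForm m F x (R w₀ 0 0)) • R w₀ 0 0) → ∀ v, v ∈ S → (t : Matrix (Fin m ⊕ Fin m) (Fin m ⊕ Fin m) F) *ᵥ v ∈ S := by
    intro a' t ht v hv
    obtain ⟨y, u, hu, rfl⟩ := (hmemS v).mp hv
    rw [hRpure, hSR] at hv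
    rw [hRpure, htR a' t ht, hSR]
    rcases hv with ⟨h0, h0'⟩ | ⟨h0, h0'⟩ | ⟨h0, h0'⟩
    · left
      exact ⟨h0, h0'⟩
    · right
      left
      refine ⟨?_, h0'⟩
      rw [h0, h1z, mul_zero, mul_zero, zero_smul, add_zero]
    · right
      right
      refine ⟨?_, h0'⟩
      rw [h0, h1z, mul_zero, mul_zero, zero_smul, add_zero]
  obtain ⟨t₁, ht₁G, ht₁⟩ := sp_transv9 (1 : F) (R w₀ 0 0)
  obtain ⟨t₁', -, ht₁'⟩ := sp_transv9 (-1 : F) (R w₀ 0 0)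
  have hinv : ∀ v, (t₁' : Matrix (Fin m ⊕ Fin m) (Fin m ⊕ Fin m) F) *ᵥ ((t₁ : Matrix (Fin m ⊕ Fin m) (Fin m ⊕ Fin m) F) *ᵥ v) = v := by
    intro v
    rw [ht₁' ((t₁ : Matrix (Fin m ⊕ Fin m) (Fin m ⊕ Fin m) F) *ᵥ v), ht₁ v]
    simp only [sf_add_left9, sf_smul_left9, sf_self9, mul_zero, add_zero, one_mul]
    module
  have ht₁K : t₁ ∈ Cfsg.stabilizing (Cfsg.glToMat (Fin m ⊕ Fin m) F) S ⊓ Cfsg.spGL m F := by
    refine ⟨(hmemK t₁).mpr (fun v => ⟨hfwa 1 t₁ ht₁ v, fun hv => ?_⟩), ht₁G⟩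
    have h8 := hfwa (-1) t₁' ht₁' _ hv
    rwa [hinv] at h8
  have hκ : (1 : F) * (c * ε * f₁ ystar w₀) ≠ 0 := by
    rw [one_mul]
    exact mul_ne_zero (mul_ne_zero hc0 hε0) hys
  have hfs : ∀ κ : F, f₁ (ystar + κ • w₀) w₀ = f₁ ystar w₀ := by
    intro κ
    rw [hb₁.add_left, hb₁.smul_left, hf₁.alternating, mul_zero, add_zero]
  refine ⟨Cfsg.stabilizing (Cfsg.glToMat (Fin m ⊕ Fin m) F) S ⊓ Cfsg.spGL m F,
    lt_of_le_of_ne ?_ ?_, lt_of_le_of_ne inf_le_right ?_⟩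
  · intro g hg
    refine ⟨(hmemK g).mpr (fun v => ⟨hfw g hg v, fun hv => ?_⟩), hg.2⟩
    have h8 := hfw g⁻¹ (inv_mem hg) _ hv
    rwa [gl_inv_mul_vecI9] at h8
  · intro heq
    rw [← heq] at ht₁K
    obtain ⟨a, b, hAB⟩ := tp_actionI9 e P t₁ ht₁K.1
    have hAB' : ∀ y u, (t₁ : Matrix (Fin m ⊕ Fin m) (Fin m ⊕ Fin m) F) *ᵥ (T (pure9 y u)) =
        T (pure9 ((a : Matrix (Fin n₁) (Fin n₁) F) *ᵥ y) ((b : Matrix (Fin 3) (Fin 3) F) *ᵥ u)) := by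
      intro y u
      rw [hT', hT']
      exact hAB y u
    have e1 := hAB' ystar e₁
    rw [hRu1, htR 1 t₁ ht₁, hRpure] at e1
    obtain ⟨e1a, -, -⟩ := hRinj _ _ _ _ _ _ e1
    have e2 := hAB' ystar e₂
    rw [hRu2, htR 1 t₁ ht₁, hRpure] at e2
    obtain ⟨-, e2b, -⟩ := hRinj _ _ _ _ _ _ e2
    obtain ⟨γ₁, hγ₁⟩ : ∃ γ₁, γ₁ = ε * f₂ ((b : Matrix (Fin 3) (Fin 3) F) *ᵥ e₁) e₁ := ⟨_, rfl⟩
    obtain ⟨β₂, hβ₂⟩ : ∃ β₂, β₂ = ε * f₂ ((b : Matrix (Fin 3) (Fin 3) F) *ᵥ e₂) e₂ := ⟨_, rfl⟩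
    rw [← hγ₁] at e1a
    rw [← hβ₂] at e2b
    have hys0 : ystar ≠ 0 := by
      intro h0
      apply hys
      rw [h0]
      exact h1z w₀
    have hβ₂0 : β₂ ≠ 0 := by
      intro h0
      apply hys0
      rw [e2b, h0, zero_smul]
    have hAy : (a : Matrix (Fin n₁) (Fin n₁) F) *ᵥ ystar = β₂⁻¹ • ystar := by
      conv_rhs => rw [e2b]
      rw [smul_smul, inv_mul_cancel₀ hβ₂0, one_smul]
    rw [hAy, smul_smul] at e1a
    have h9 : f₁ (ystar + ((1 : F) * (c * ε * f₁ ystar w₀)) • w₀) w₀ =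
        f₁ ((γ₁ * β₂⁻¹) • ystar) w₀ := by
      rw [e1a]
    rw [hfs, hb₁.smul_left] at h9
    have h10 : γ₁ * β₂⁻¹ = 1 := by
      have h4 : (γ₁ * β₂⁻¹ - 1) * f₁ ystar w₀ = 0 := by linear_combination -h9
      rcases mul_eq_zero.mp h4 with h' | h'
      · exact sub_eq_zero.mp h'
      · exact absurd h' hys
    rw [h10, one_smul] at e1a
    have h11' : ((1 : F) * (c * ε * f₁ ystar w₀)) • w₀ = 0 :=
      add_left_cancel (e1a.trans (add_zero ystar).symm)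
    rcases smul_eq_zero.mp h11' with h' | h'
    · exact hκ h'
    · exact hw₀0 h'
  · intro heq
    obtain ⟨t₂, ht₂G, ht₂⟩ := sp_transv9 (1 : F) (R w₀ w₀ 0)
    have ht₂K : t₂ ∈ Cfsg.stabilizing (Cfsg.glToMat (Fin m ⊕ Fin m) F) S ⊓ Cfsg.spGL m F := by
      rw [heq]
      exact ht₂G
    have h12' := ((hmemK t₂).mp ht₂K.1 (R ystar 0 0)).mp
      ((hSR _ _ _).mpr (Or.inl ⟨rfl, rfl⟩))
    rw [ht₂, hR, h1z, h1z, add_zero, add_zero, hRadd] at h12'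
    simp only [zero_add, smul_zero, add_zero] at h12'
    rw [hSR] at h12'
    have hk1 : ((1 : F) * (c * ε * f₁ ystar w₀)) • w₀ ≠ 0 := by
      intro h'
      rcases smul_eq_zero.mp h' with h'' | h''
      · exact hκ h''
      · exact hw₀0 h''
    have hk2 : ystar + ((1 : F) * (c * ε * f₁ ystar w₀)) • w₀ ≠ 0 := by
      intro h'
      have h13 := hfs ((1 : F) * (c * ε * f₁ ystar w₀))
      rw [h', h1z] at h13
      exact hys h13.symm
    rcases h12' with ⟨h', -⟩ | ⟨h', -⟩ | ⟨h', -⟩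
    · exact hk1 h'
    · exact hk2 h'
    · exact hk2 h'

end Cfsg.Agent.Helper9
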