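import Mathlib
import Cfsg.Prelude.Def_GeometricClasses
import Cfsg.Prelude.Def_Classical
import Cfsg.Agent.Helper9.SpTens9
import Cfsg.Agent.Helper9.QOmega9

set_option autoImplicit false

namespace Cfsg.Agent.Helper9

open Cfsg
open scoped MatrixGroups Matrix Kronecker

variable {F : Type*} [Field F]

theorem f3_sq9 [Fintype F] (hq : Fintype.card F = 3) (x : F) (hx : x ≠ 0) : x * x = 1 := by
  rcases f3_cases9 hq x with h | h | h
  · exact absurd h hx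
  · rw [h, mul_one]
  · rw [h]
    ring

/-- Frame vectors of a symmetric form: non-isotropic vectors with anisotropic perp. -/
def frm9 {k : ℕ} (f : (Fin k → F) → (Fin k → F) → F) (u : Fin k → F) : Prop :=
  f u u ≠ 0 ∧ ∀ w, f u w = 0 → f w w = 0 → w = 0

theorem frm_frame9 [Fintype F] (hq : Fintype.card F = 3) (f : (Fin 3 → F) → (Fin 3 → F) → F)
    (hf : Cfsg.Geo.IsSymmetricForm f) (ε : F) (hε0 : ε ≠ 0) (p q r : Fin 3 → F)
    (hpp : f p p = ε) (hqq : f q q = ε) (hrr : f r r = ε) (hqr : f q r = 0)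
    (hexp : ∀ v, v = (ε * f v p) • p + (ε * f v q) • q + (ε * f v r) • r) : frm9 f p := by
  have h2 : (2 : F) ≠ 0 := f3_two9 hq
  have hsq := f3_sq9 hq
  have hb₂ := hf.bilinear
  refine ⟨by rw [hpp]; exact hε0, fun w hpw hww => ?_⟩
  have hwp : f w p = 0 := by rw [hf.symm]; exact hpw
  obtain ⟨β, hβ⟩ : ∃ β, β = ε * f w q := ⟨_, rfl⟩
  obtain ⟨γ, hγ⟩ : ∃ γ, γ = ε * f w r := ⟨_, rfl⟩
  have hw_eq : w = β • q + γ • r := by
    have h4 := hexp w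
    rw [hwp, mul_zero, zero_smul, zero_add, ← hβ, ← hγ] at h4
    exact h4
  have hrq : f r q = 0 := by rw [hf.symm]; exact hqr
  have hnorm : f (β • q + γ • r) (β • q + γ • r) = ε * (β * β + γ * γ) := by
    simp only [hb₂.add_left, hb₂.add_right, hb₂.smul_left, hb₂.smul_right, hqq, hrr, hqr, hrq]
    ring
  have hww' : f (β • q + γ • r) (β • q + γ • r) = 0 := by
    rw [← hw_eq]
    exact hww
  rw [hnorm] at hww'
  have hsum : β * β + γ * γ = 0 := by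
    rcases mul_eq_zero.mp hww' with h | h
    · exact absurd h hε0
    · exact h
  have hβ0 : β = 0 := by
    by_contra hβ0
    by_cases hγ0 : γ = 0
    · rw [hγ0, mul_zero, add_zero, hsq β hβ0] at hsum
      exact one_ne_zero hsum
    · rw [hsq β hβ0, hsq γ hγ0] at hsum
      exact h2 (by linear_combination hsum)
  have hγ0 : γ = 0 := by
    by_contra hγ0
    rw [hβ0, mul_zero, zero_add, hsq γ hγ0] at hsum
    exact one_ne_zero hsum
  rw [hw_eq, hβ0, hγ0, zero_smul, zero_smul, add_zero]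

theorem frm_not9 [Fintype F] (hq : Fintype.card F = 3) (f : (Fin 3 → F) → (Fin 3 → F) → F)
    (hf : Cfsg.Geo.IsSymmetricForm f) (ε : F) (hε0 : ε ≠ 0) (p q r : Fin 3 → F)
    (hpp : f p p = ε) (hqq : f q q = ε) (hrr : f r r = ε) (hpq : f p q = 0) (hpr : f p r = 0)
    (hqr : f q r = 0) (a b c' : F) (ha : a ≠ 0) (hb : b ≠ 0) :
    ¬ frm9 f (a • p + b • q + c' • r) := by
  intro hF
  have h3 : (3 : F) = 0 := f3_three9 hq
  have hsq := f3_sq9 hq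
  have hb₂ := hf.bilinear
  have h2z : ∀ v, f 0 v = 0 := fun v => by
    have h := hb₂.smul_left 0 0 v
    rwa [zero_smul, zero_mul] at h
  obtain ⟨hFa, hFb⟩ := hF
  have hqp : f q p = 0 := by rw [hf.symm]; exact hpq
  have hrp : f r p = 0 := by rw [hf.symm]; exact hpr
  have hrq : f r q = 0 := by rw [hf.symm]; exact hqr
  have ha2 := hsq a ha
  have hb2 := hsq b hb
  by_cases hc : c' = 0
  · have hw := hFb (b • p + (-a) • q + r) ?_ ?_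
    · have h5 : f (b • p + (-a) • q + r) r = 0 := by
        rw [hw]
        exact h2z r
      simp only [hb₂.add_left, hb₂.smul_left, hpr, hqr, hrr] at h5
      apply hε0
      linear_combination h5
    · rw [hc]
      simp only [hb₂.add_left, hb₂.add_right, hb₂.smul_left, hb₂.smul_right, hpp, hqq, hrr,
        hpq, hpr, hqr, hqp, hrp, hrq]
      ring
    · simp only [hb₂.add_left, hb₂.add_right, hb₂.smul_left, hb₂.smul_right, hpp, hqq, hrr,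
        hpq, hpr, hqr, hqp, hrp, hrq]
      linear_combination ε * hb2 + ε * ha2 + ε * h3
  · apply hFa
    have hc2 := hsq c' hc
    simp only [hb₂.add_left, hb₂.add_right, hb₂.smul_left, hb₂.smul_right, hpp, hqq, hrr,
      hpq, hpr, hqr, hqp, hrp, hrq]
    linear_combination ε * hb2 + ε * ha2 + ε * hc2 + ε * h3

theorem frm_sim9 (f : (Fin 3 → F) → (Fin 3 → F) → F) (A : GL (Fin 3) F) (lam d : F)
    (hd : d ≠ 0)
    (hsim : ∀ u u', lam * f ((A : Matrix (Fin 3) (Fin 3) F) *ᵥ u)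
      ((A : Matrix (Fin 3) (Fin 3) F) *ᵥ u') = d * f u u')
    (u : Fin 3 → F) (hu : frm9 f u) : frm9 f ((A : Matrix (Fin 3) (Fin 3) F) *ᵥ u) := by
  obtain ⟨hua, hub⟩ := hu
  refine ⟨fun h0 => ?_, fun w hw1 hw2 => ?_⟩
  · have h7 := hsim u u
    rw [h0, mul_zero] at h7
    exact mul_ne_zero hd hua h7.symm
  · obtain ⟨w', hw'⟩ : ∃ w' : Fin 3 → F, (A : Matrix (Fin 3) (Fin 3) F) *ᵥ w' = w :=
      ⟨((A⁻¹ : GL (Fin 3) F) : Matrix (Fin 3) (Fin 3) F) *ᵥ w, gl_mul_inv_vec9 A w⟩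
    rw [← hw'] at hw1 hw2
    have h7 := hsim u w'
    rw [hw1, mul_zero] at h7
    have h8 := hsim w' w'
    rw [hw2, mul_zero] at h8
    have h9 : f u w' = 0 := by
      rcases mul_eq_zero.mp h7.symm with h | h
      · exact absurd h hd
      · exact h
    have h10 : f w' w' = 0 := by
      rcases mul_eq_zero.mp h8.symm with h | h
      · exact absurd h hd
      · exact h
    rw [← hw', hub w' h9 h10, Matrix.mulVec_zero]

/-- An orthogonal family of non-isotropic vectors indexed by the coordinates. -/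
theorem sym_orth_basis9 {k : ℕ} (h2 : (2 : F) ≠ 0) (f : (Fin k → F) → (Fin k → F) → F)
    (hf : Cfsg.Geo.IsSymmetricForm f) :
    ∃ b : Fin k → (Fin k → F), (∀ i j, i ≠ j → f (b i) (b j) = 0) ∧
      ∀ i, f (b i) (b i) ≠ 0 := by
  classical
  have hbl := hf.bilinear
  obtain ⟨B, hB⟩ : ∃ B : LinearMap.BilinForm F (Fin k → F), ∀ x y, B x y = f x y :=
    ⟨LinearMap.mk₂ F f hbl.add_left (fun c x v => hbl.smul_left c x v) hbl.add_right
      (fun c v x => hbl.smul_right c v x), fun x y => rfl⟩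
  have hBs : LinearMap.BilinForm.IsSymm B := ⟨fun x y => by
    rw [hB, hB]
    exact hf.symm x y⟩
  have hinv2 : Invertible (2 : F) := invertibleOfNonzero h2
  obtain ⟨v, hv⟩ := LinearMap.BilinForm.exists_orthogonal_basis
    (LinearMap.BilinForm.isSymm_iff.mp hBs)
  have hfr : Module.finrank F (Fin k → F) = k := Module.finrank_fin_fun F
  obtain ⟨b, hb⟩ : ∃ b : Module.Basis (Fin k) F (Fin k → F),
      ∀ i j, i ≠ j → f (b i) (b j) = 0 := by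
    refine ⟨v.reindex (finCongr hfr), fun i j hij => ?_⟩
    rw [← hB]
    simp only [Module.Basis.reindex_apply]
    exact hv (fun h => hij ((finCongr hfr).symm.injective h))
  refine ⟨fun i => b i, hb, fun i h0 => ?_⟩
  obtain ⟨x, hx⟩ := (hf.nondegenerate (b i) (b.ne_zero i)).2
  apply hx
  rw [← hB, ← b.sum_repr x, map_sum]
  refine Finset.sum_eq_zero fun j _ => ?_
  rw [map_smul, hB, smul_eq_mul]
  by_cases hij : i = j
  · rw [← hij, h0, mul_zero]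
  · rw [hb i j hij, mul_zero]

theorem iso3_9 [Fintype F] (hq : Fintype.card F = 3) {k : ℕ}
    (f : (Fin k → F) → (Fin k → F) → F) (hf : Cfsg.Geo.IsSymmetricForm f)
    (p q r : Fin k → F) (hpq : f p q = 0) (hpr : f p r = 0) (hqr : f q r = 0)
    (hp : f p p ≠ 0) (hq' : f q q ≠ 0) (hr : f r r ≠ 0) :
    ∃ β γ : F, f (p + β • q + γ • r) (p + β • q + γ • r) = 0 := by
  have h3 := f3_three9 hq
  have hbl := hf.bilinear
  have hqp : f q p = 0 := by rw [hf.symm]; exact hpq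
  have hrp : f r p = 0 := by rw [hf.symm]; exact hpr
  have hrq : f r q = 0 := by rw [hf.symm]; exact hqr
  have hN : ∀ β γ : F, f (p + β • q + γ • r) (p + β • q + γ • r) =
      f p p + β * β * f q q + γ * γ * f r r := by
    intro β γ
    simp only [hbl.add_left, hbl.add_right, hbl.smul_left, hbl.smul_right, hpq, hpr, hqr, hqp,
      hrp, hrq]
    ring
  have hpm : ∀ x : F, x ≠ 0 → x = 1 ∨ x = -1 := fun x hx => (f3_cases9 hq x).resolve_left hx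
  by_cases h1 : f q q = - f p p
  · exact ⟨1, 0, by rw [hN, h1]; ring⟩
  · by_cases h2' : f r r = - f p p
    · exact ⟨0, 1, by rw [hN, h2']; ring⟩
    · have hqq : f q q = f p p := by
        rcases hpm _ hp with h | h <;> rcases hpm _ hq' with h' | h'
        · rw [h, h']
        · exact absurd (by rw [h, h']) h1
        · exact absurd (by rw [h, h', neg_neg]) h1
        · rw [h, h']
      have hrr : f r r = f p p := by
        rcases hpm _ hp with h | h <;> rcases hpm _ hr with h' | h'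
        · rw [h, h']
        · exact absurd (by rw [h, h']) h2'
        · exact absurd (by rw [h, h', neg_neg]) h2'
        · rw [h, h']
      exact ⟨1, 1, by rw [hN, hqq, hrr]; linear_combination (f p p) * h3⟩

/-- Over the field with three elements, the stabiliser of a tensor decomposition of an
orthogonal space with a factor of dimension three is not maximal in `Ω`. -/
theorem otens3_notmax9 [Fintype F] {n : ℕ} (hn : 13 ≤ n) (heven : Even n) (Q : (Fin n → F) → F)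
    (hQ : Cfsg.Geo.IsNondegenerateQuadraticForm Q) (hq : Fintype.card F = 3) (n₂ : ℕ)
    (e : Fin n ≃ Fin 3 × Fin n₂) (P : GL (Fin n) F)
    (f₁ : (Fin 3 → F) → (Fin 3 → F) → F) (f₂ : (Fin n₂ → F) → (Fin n₂ → F) → F)
    (hf₁ : Cfsg.Geo.IsSymmetricForm f₁) (hf₂ : Cfsg.Geo.IsSymmetricForm f₂)
    (hT : Cfsg.Geo.IsTensorFormStructure id (QuadraticMap.polar Q) f₁ f₂ e P) :
    ∃ K : Subgroup (GL (Fin n) F),
      Cfsg.Geo.tensorProductSubgroup 3 n₂ e P ⊓ Cfsg.Geo.omegaGL Q < K ∧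
      K < Cfsg.Geo.omegaGL Q := by
  classical
  have h3 : (3 : F) = 0 := f3_three9 hq
  have h2 : (2 : F) ≠ 0 := f3_two9 hq
  have hchar : (2 : F) = 0 ∨ ((2 : F) ≠ 0 ∧ Fintype.card F % 2 = 1) := Or.inr ⟨h2, by rw [hq]⟩
  have hcard : n = 3 * n₂ := by
    have h4 := Fintype.card_congr e
    rw [Fintype.card_fin, Fintype.card_prod, Fintype.card_fin, Fintype.card_fin] at h4
    exact h4
  have hn₂ : 6 ≤ n₂ := by
    obtain ⟨k, hk⟩ := heven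
    omega
  have hb₁ := hf₁.bilinear
  have hb₂ := hf₂.bilinear
  have h2z : ∀ v, f₂ 0 v = 0 := fun v => by
    have h := hb₂.smul_left 0 0 v
    rwa [zero_smul, zero_mul] at h
  have h2zr : ∀ v, f₂ v 0 = 0 := fun v => by
    have h := hb₂.smul_right 0 v 0
    rwa [zero_smul, zero_mul] at h
  obtain ⟨c, hc0, hTc⟩ := hT
  obtain ⟨T, hT'⟩ : ∃ T : (Fin 3 × Fin n₂ → F) → (Fin n → F), ∀ z, T z = (P : Matrix (Fin n) (Fin n) F) *ᵥ (z ∘ e) :=
    ⟨fun z => (P : Matrix (Fin n) (Fin n) F) *ᵥ (z ∘ e), fun z => rfl⟩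
  have hTadd : ∀ z z', T (z + z') = T z + T z' := by
    intro z z'
    rw [hT', hT', hT', ← Matrix.mulVec_add]
    rfl
  have hTsmul : ∀ (a : F) z, T (a • z) = a • T z := by
    intro a z
    rw [hT', hT', ← Matrix.mulVec_smul]
    rfl
  have hTinj : ∀ z z', T z = T z' → z = z' := by
    intro z z' hzz
    rw [hT', hT'] at hzz
    have h4 : ((P⁻¹ : GL (Fin n) F) : Matrix (Fin n) (Fin n) F) *ᵥ ((P : Matrix (Fin n) (Fin n) F) *ᵥ (z ∘ e)) = ((P⁻¹ : GL (Fin n) F) : Matrix (Fin n) (Fin n) F) *ᵥ ((P : Matrix (Fin n) (Fin n) F) *ᵥ (z' ∘ e)) := by rw [hzz]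
    rw [gl_inv_mul_vec9, gl_inv_mul_vec9] at h4
    funext p
    have h5 := congrFun h4 (e.symm p)
    simp only [Function.comp_apply, Equiv.apply_symm_apply] at h5
    exact h5
  have hpure : ∀ u u' y y', QuadraticMap.polar Q (T (pure9 u y)) (T (pure9 u' y')) =
      c * (f₁ u u' * f₂ y y') := by
    intro u u' y y'
    rw [hT', hT', hTc, fog_pure9 id (fun a b => rfl), ← bf_gram9 f₁ hb₁, ← bf_gram9 f₂ hb₂]
  obtain ⟨ε, e₁, e₂, e₃, hε, h11, h22, h33, h12, h13, h23, hsp⟩ := f3_frame9 hq f₁ hf₁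
  have hε0 : ε ≠ 0 := by
    intro h0
    rw [h0, mul_zero] at hε
    exact zero_ne_one hε
  have h21 : f₁ e₂ e₁ = 0 := by rw [hf₁.symm]; exact h12
  have h31 : f₁ e₃ e₁ = 0 := by rw [hf₁.symm]; exact h13
  have h32 : f₁ e₃ e₂ = 0 := by rw [hf₁.symm]; exact h23
  have hF1 : frm9 f₁ e₁ := frm_frame9 hq f₁ hf₁ ε hε0 e₁ e₂ e₃ h11 h22 h33 h23 hsp
  have hF2 : frm9 f₁ e₂ := frm_frame9 hq f₁ hf₁ ε hε0 e₂ e₁ e₃ h22 h11 h33 h13
    (fun v => (hsp v).trans (by abel))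
  have hF3 : frm9 f₁ e₃ := frm_frame9 hq f₁ hf₁ ε hε0 e₃ e₁ e₂ h33 h11 h22 h12
    (fun v => (hsp v).trans (by abel))
  obtain ⟨R, hRdef⟩ : ∃ R : (Fin n₂ → F) → (Fin n₂ → F) → (Fin n₂ → F) → (Fin n → F),
      ∀ y₁ y₂ y₃, R y₁ y₂ y₃ = T (pure9 e₁ y₁ + pure9 e₂ y₂ + pure9 e₃ y₃) :=
    ⟨fun y₁ y₂ y₃ => T (pure9 e₁ y₁ + pure9 e₂ y₂ + pure9 e₃ y₃), fun _ _ _ => rfl⟩
  have hRu1 : ∀ y, T (pure9 e₁ y) = R y 0 0 := by
    intro y
    rw [hRdef, pure_zero_right9, pure_zero_right9, add_zero, add_zero]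
  have hRu2 : ∀ y, T (pure9 e₂ y) = R 0 y 0 := by
    intro y
    rw [hRdef, pure_zero_right9, pure_zero_right9, zero_add, add_zero]
  have hRu3 : ∀ y, T (pure9 e₃ y) = R 0 0 y := by
    intro y
    rw [hRdef, pure_zero_right9, pure_zero_right9, zero_add, zero_add]
  have hRadd : ∀ y₁ y₂ y₃ y₁' y₂' y₃' (κ : F), R y₁ y₂ y₃ + κ • R y₁' y₂' y₃' =
      R (y₁ + κ • y₁') (y₂ + κ • y₂') (y₃ + κ • y₃') := by
    intro y₁ y₂ y₃ y₁' y₂' y₃' κ
    rw [hRdef, hRdef, hRdef, ← hTsmul, ← hTadd]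
    congr 1
    rw [pure_add_right9, pure_add_right9, pure_add_right9, pure_smul_right9, pure_smul_right9,
      pure_smul_right9, smul_add, smul_add]
    abel
  have hRpure : ∀ u y, T (pure9 u y) =
      R ((ε * f₁ u e₁) • y) ((ε * f₁ u e₂) • y) ((ε * f₁ u e₃) • y) := by
    intro u y
    rw [hRdef]
    congr 1
    rw [pure_smul_right9, pure_smul_right9, pure_smul_right9, ← pure_smul_left9,
      ← pure_smul_left9, ← pure_smul_left9, ← pure_add_left9, ← pure_add_left9, ← hsp u]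
  have hR : ∀ y₁ y₂ y₃ y₁' y₂' y₃', QuadraticMap.polar Q (R y₁ y₂ y₃) (R y₁' y₂' y₃') =
      c * ε * (f₂ y₁ y₁' + f₂ y₂ y₂' + f₂ y₃ y₃') := by
    intro y₁ y₂ y₃ y₁' y₂' y₃'
    rw [hRdef, hRdef, hTadd, hTadd, hTadd, hTadd]
    simp only [hQ.polar_bilinear.add_left, hQ.polar_bilinear.add_right, hpure, h11, h22, h33,
      h12, h13, h23, h21, h31, h32]
    ring
  have hcol : ∀ (y₁ y₂ y₃ : Fin n₂ → F) (b : Fin n₂),
      (fun a => (pure9 e₁ y₁ + pure9 e₂ y₂ + pure9 e₃ y₃) (a, b)) =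
        y₁ b • e₁ + y₂ b • e₂ + y₃ b • e₃ := by
    intro y₁ y₂ y₃ b
    funext a
    simp only [pure9, Pi.add_apply, Pi.smul_apply, smul_eq_mul]
    ring
  have hRinj : ∀ y₁ y₂ y₃ y₁' y₂' y₃', R y₁ y₂ y₃ = R y₁' y₂' y₃' →
      y₁ = y₁' ∧ y₂ = y₂' ∧ y₃ = y₃' := by
    intro y₁ y₂ y₃ y₁' y₂' y₃' hRR
    rw [hRdef, hRdef] at hRR
    have hz := hTinj _ _ hRR
    have hrow : ∀ (b : Fin n₂) (w : Fin 3 → F),
        f₁ (fun a => (pure9 e₁ y₁ + pure9 e₂ y₂ + pure9 e₃ y₃) (a, b)) w =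
          f₁ (fun a => (pure9 e₁ y₁' + pure9 e₂ y₂' + pure9 e₃ y₃') (a, b)) w := by
      intro b w
      rw [hz]
    refine ⟨?_, ?_, ?_⟩
    · funext b
      have h5 := hrow b e₁
      rw [hcol, hcol] at h5
      simp only [hb₁.add_left, hb₁.smul_left, h11, h21, h31, mul_zero, add_zero] at h5
      exact mul_right_cancel₀ hε0 h5
    · funext b
      have h5 := hrow b e₂
      rw [hcol, hcol] at h5
      simp only [hb₁.add_left, hb₁.smul_left, h12, h22, h32, mul_zero, add_zero, zero_add] at h5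
      exact mul_right_cancel₀ hε0 h5
    · funext b
      have h5 := hrow b e₃
      rw [hcol, hcol] at h5
      simp only [hb₁.add_left, hb₁.smul_left, h13, h23, h33, mul_zero, zero_add] at h5
      exact mul_right_cancel₀ hε0 h5
  obtain ⟨S, hS⟩ : ∃ S : Set (Fin n → F), S = {v | ∃ u y, frm9 f₁ u ∧ v = T (pure9 u y)} := ⟨_, rfl⟩
  have hmemS : ∀ v : Fin n → F, v ∈ S ↔ ∃ u y, frm9 f₁ u ∧ v = T (pure9 u y) := fun v => by
    rw [hS]
    rfl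
  have hmemK : ∀ g : GL (Fin n) F, g ∈ Cfsg.stabilizing (Cfsg.glToMat (Fin n) F) S ↔
      ∀ v : Fin n → F, v ∈ S ↔ (g : Matrix (Fin n) (Fin n) F) *ᵥ v ∈ S := fun g => Iff.rfl
  have hSR : ∀ y₁ y₂ y₃, R y₁ y₂ y₃ ∈ S ↔
      ((y₂ = 0 ∧ y₃ = 0) ∨ (y₁ = 0 ∧ y₃ = 0) ∨ (y₁ = 0 ∧ y₂ = 0)) := by
    intro y₁ y₂ y₃
    rw [hmemS]
    constructor
    · rintro ⟨u, y, hu, hv⟩
      rw [hRpure] at hv
      obtain ⟨e1, e2, e3⟩ := hRinj _ _ _ _ _ _ hv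
      obtain ⟨α₁, hα₁⟩ : ∃ α₁, α₁ = ε * f₁ u e₁ := ⟨_, rfl⟩
      obtain ⟨α₂, hα₂⟩ : ∃ α₂, α₂ = ε * f₁ u e₂ := ⟨_, rfl⟩
      obtain ⟨α₃, hα₃⟩ : ∃ α₃, α₃ = ε * f₁ u e₃ := ⟨_, rfl⟩
      rw [← hα₁] at e1
      rw [← hα₂] at e2
      rw [← hα₃] at e3
      have hu_eq : u = α₁ • e₁ + α₂ • e₂ + α₃ • e₃ := by
        rw [hα₁, hα₂, hα₃]
        exact hsp u
      by_cases h1 : α₁ = 0
      · by_cases h2' : α₂ = 0
        · right
          right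
          exact ⟨by rw [e1, h1, zero_smul], by rw [e2, h2', zero_smul]⟩
        · by_cases h3' : α₃ = 0
          · right
            left
            exact ⟨by rw [e1, h1, zero_smul], by rw [e3, h3', zero_smul]⟩
          · exfalso
            have hu' : u = α₂ • e₂ + α₃ • e₃ + α₁ • e₁ := hu_eq.trans (by abel)
            rw [hu'] at hu
            exact frm_not9 hq f₁ hf₁ ε hε0 e₂ e₃ e₁ h22 h33 h11 h23 h21 h31 α₂ α₃ α₁ h2' h3' hu
      · by_cases h2' : α₂ = 0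
        · by_cases h3' : α₃ = 0
          · left
            exact ⟨by rw [e2, h2', zero_smul], by rw [e3, h3', zero_smul]⟩
          · exfalso
            have hu' : u = α₁ • e₁ + α₃ • e₃ + α₂ • e₂ := hu_eq.trans (by abel)
            rw [hu'] at hu
            exact frm_not9 hq f₁ hf₁ ε hε0 e₁ e₃ e₂ h11 h33 h22 h13 h12 h32 α₁ α₃ α₂ h1 h3' hu
        · exfalso
          rw [hu_eq] at hu
          exact frm_not9 hq f₁ hf₁ ε hε0 e₁ e₂ e₃ h11 h22 h33 h12 h13 h23 α₁ α₂ α₃ h1 h2' hu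
    · rintro (⟨h0, h0'⟩ | ⟨h0, h0'⟩ | ⟨h0, h0'⟩)
      · rw [h0, h0', ← hRu1]
        exact ⟨e₁, y₁, hF1, rfl⟩
      · rw [h0, h0', ← hRu2]
        exact ⟨e₂, y₂, hF2, rfl⟩
      · rw [h0, h0', ← hRu3]
        exact ⟨e₃, y₃, hF3, rfl⟩
  -- isotropic vectors of the second factor
  obtain ⟨bb, hbo, hbn⟩ := sym_orth_basis9 h2 f₂ hf₂
  obtain ⟨i0, i1, i2, i3, i4, i5, hi⟩ : ∃ i0 i1 i2 i3 i4 i5 : Fin n₂,
      i0 ≠ i1 ∧ i0 ≠ i2 ∧ i1 ≠ i2 ∧ i3 ≠ i4 ∧ i3 ≠ i5 ∧ i4 ≠ i5 ∧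
      i0 ≠ i3 ∧ i0 ≠ i4 ∧ i0 ≠ i5 ∧ i1 ≠ i3 ∧ i1 ≠ i4 ∧ i1 ≠ i5 ∧ i2 ≠ i3 ∧ i2 ≠ i4 ∧ i2 ≠ i5 := by
    refine ⟨⟨0, by omega⟩, ⟨1, by omega⟩, ⟨2, by omega⟩, ⟨3, by omega⟩, ⟨4, by omega⟩,
      ⟨5, by omega⟩, ?_⟩
    simp only [ne_eq, Fin.mk.injEq]
    omega
  obtain ⟨h01, h02, h12', h34, h35, h45, h03, h04, h05, h13', h14, h15, h23', h24, h25⟩ := hi
  obtain ⟨β, γ, hw₁⟩ := iso3_9 hq f₂ hf₂ (bb i0) (bb i1) (bb i2) (hbo _ _ h01) (hbo _ _ h02)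
    (hbo _ _ h12') (hbn i0) (hbn i1) (hbn i2)
  obtain ⟨β', γ', hw₂⟩ := iso3_9 hq f₂ hf₂ (bb i3) (bb i4) (bb i5) (hbo _ _ h34) (hbo _ _ h35)
    (hbo _ _ h45) (hbn i3) (hbn i4) (hbn i5)
  obtain ⟨w₁, hw₁def⟩ : ∃ w₁, w₁ = bb i0 + β • bb i1 + γ • bb i2 := ⟨_, rfl⟩
  obtain ⟨w₂, hw₂def⟩ : ∃ w₂, w₂ = bb i3 + β' • bb i4 + γ' • bb i5 := ⟨_, rfl⟩
  rw [← hw₁def] at hw₁
  rw [← hw₂def] at hw₂
  obtain ⟨y₀, hy₀def⟩ : ∃ y₀, y₀ = bb i0 := ⟨_, rfl⟩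
  have hw₁w₂ : f₂ w₁ w₂ = 0 := by
    rw [hw₁def, hw₂def]
    simp only [hb₂.add_left, hb₂.add_right, hb₂.smul_left, hb₂.smul_right, hbo _ _ h03,
      hbo _ _ h04, hbo _ _ h05, hbo _ _ h13', hbo _ _ h14, hbo _ _ h15, hbo _ _ h23',
      hbo _ _ h24, hbo _ _ h25, mul_zero, add_zero]
  have hy₀w₁ : f₂ y₀ w₁ ≠ 0 := by
    rw [hy₀def, hw₁def]
    simp only [hb₂.add_right, hb₂.smul_right, hbo _ _ h01, hbo _ _ h02, mul_zero, add_zero]
    exact hbn i0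
  have hy₀w₂ : f₂ y₀ w₂ = 0 := by
    rw [hy₀def, hw₂def]
    simp only [hb₂.add_right, hb₂.smul_right, hbo _ _ h03, hbo _ _ h04, hbo _ _ h05, mul_zero,
      add_zero]
  have hw₂b : f₂ w₂ (bb i3) ≠ 0 := by
    rw [hw₂def]
    simp only [hb₂.add_left, hb₂.smul_left, hbo _ _ h34.symm, hbo _ _ h35.symm, mul_zero,
      add_zero]
    exact hbn i3
  have hy₀b : f₂ y₀ (bb i3) = 0 := by
    rw [hy₀def]
    exact hbo _ _ h03
  have hy₀y₀ : f₂ y₀ y₀ ≠ 0 := by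
    rw [hy₀def]
    exact hbn i0
  have hw₁0 : w₁ ≠ 0 := by
    intro h0
    apply hy₀w₁
    rw [h0]
    exact h2zr y₀
  have hy₀0 : y₀ ≠ 0 := by
    intro h0
    apply hy₀y₀
    rw [h0]
    exact h2z 0
  -- the tensor subgroup stabilises S
  have hfw : ∀ g : GL (Fin n) F, g ∈ Cfsg.Geo.tensorProductSubgroup 3 n₂ e P ⊓ Cfsg.Geo.omegaGL Q →
      ∀ v, v ∈ S → (g : Matrix (Fin n) (Fin n) F) *ᵥ v ∈ S := by
    intro g hg v hv
    obtain ⟨u, y, hu, rfl⟩ := (hmemS v).mp hv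
    obtain ⟨a, b, hAB⟩ := tp_actionI9 e P g hg.1
    have hAB' : ∀ u y, (g : Matrix (Fin n) (Fin n) F) *ᵥ (T (pure9 u y)) =
        T (pure9 ((a : Matrix (Fin 3) (Fin 3) F) *ᵥ u) ((b : Matrix (Fin n₂) (Fin n₂) F) *ᵥ y)) := by
      intro u y
      rw [hT', hT']
      exact hAB u y
    rw [hAB']
    refine (hmemS _).mpr ⟨_, _, ?_, rfl⟩
    have hgQ : ∀ v, Q ((g : Matrix (Fin n) (Fin n) F) *ᵥ v) = Q v := fun v => omega_iso9 hg.2 v
    have hsim : ∀ u u', f₂ ((b : Matrix (Fin n₂) (Fin n₂) F) *ᵥ y₀)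
        ((b : Matrix (Fin n₂) (Fin n₂) F) *ᵥ y₀) *
        f₁ ((a : Matrix (Fin 3) (Fin 3) F) *ᵥ u) ((a : Matrix (Fin 3) (Fin 3) F) *ᵥ u') =
        f₂ y₀ y₀ * f₁ u u' := by
      intro u u'
      have h6 := qf_iso_polar9 hgQ (T (pure9 u y₀)) (T (pure9 u' y₀))
      rw [hAB', hAB', hpure, hpure] at h6
      have h7 := mul_left_cancel₀ hc0 h6
      linear_combination h7
    exact frm_sim9 f₁ a _ _ hy₀y₀ hsim u hu
  have hstab : ∀ t : GL (Fin n) F, (∀ v, v ∈ S → (t : Matrix (Fin n) (Fin n) F) *ᵥ v ∈ S) →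
      t ∈ Cfsg.stabilizing (Cfsg.glToMat (Fin n) F) S := by
    intro t ht
    refine (hmemK t).mpr (fun v => ⟨ht v, fun hv => ?_⟩)
    have hinj : Function.Injective (fun s : S => (⟨(t : Matrix (Fin n) (Fin n) F) *ᵥ s.1, ht s.1 s.2⟩ : S)) := by
      intro s s' hss
      have h4 : (t : Matrix (Fin n) (Fin n) F) *ᵥ s.1 = (t : Matrix (Fin n) (Fin n) F) *ᵥ s'.1 := congrArg Subtype.val hss
      have h5 : ((t⁻¹ : GL (Fin n) F) : Matrix (Fin n) (Fin n) F) *ᵥ ((t : Matrix (Fin n) (Fin n) F) *ᵥ s.1) = ((t⁻¹ : GL (Fin n) F) : Matrix (Fin n) (Fin n) F) *ᵥ ((t : Matrix (Fin n) (Fin n) F) *ᵥ s'.1) := by rw [h4]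
      rw [gl_inv_mul_vec9, gl_inv_mul_vec9] at h5
      exact Subtype.ext h5
    obtain ⟨s, hs⟩ := (Finite.surjective_of_injective hinj) ⟨(t : Matrix (Fin n) (Fin n) F) *ᵥ v, hv⟩
    have h6 : (t : Matrix (Fin n) (Fin n) F) *ᵥ s.1 = (t : Matrix (Fin n) (Fin n) F) *ᵥ v := congrArg Subtype.val hs
    have h7 : ((t⁻¹ : GL (Fin n) F) : Matrix (Fin n) (Fin n) F) *ᵥ ((t : Matrix (Fin n) (Fin n) F) *ᵥ s.1) = ((t⁻¹ : GL (Fin n) F) : Matrix (Fin n) (Fin n) F) *ᵥ ((t : Matrix (Fin n) (Fin n) F) *ᵥ v) := by rw [h6]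
    rw [gl_inv_mul_vec9, gl_inv_mul_vec9] at h7
    rw [← h7]
    exact s.2
  have hQs1 : ∀ w, f₂ w w = 0 → Q (R w 0 0) = 0 := by
    intro w hw
    have h5 := qf_self9 hQ (R w 0 0)
    rw [hR, hw, h2z, add_zero, add_zero, mul_zero] at h5
    rcases mul_eq_zero.mp h5.symm with h | h
    · exact absurd h h2
    · exact h
  have hQs2 : ∀ w, f₂ w w = 0 → Q (R 0 w 0) = 0 := by
    intro w hw
    have h5 := qf_self9 hQ (R 0 w 0)
    rw [hR, hw, h2z, add_zero, add_zero, mul_zero] at h5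
    rcases mul_eq_zero.mp h5.symm with h | h
    · exact absurd h h2
    · exact h
  -- the Siegel element inside the first summand
  have hx₁x₂ : QuadraticMap.polar Q (R w₁ 0 0) (R w₂ 0 0) = 0 := by
    rw [hR, hw₁w₂, h2z, add_zero, add_zero, mul_zero]
  obtain ⟨p₁, q₁, hp₁, hq₁, hp₁q₁, hp₁p, hq₁p⟩ := qf_hyp9 hQ hchar hn
    (spanL9 [R w₁ 0 0, R w₂ 0 0]) (by
      have := finrank_spanL9 (F := F) [R w₁ 0 0, R w₂ 0 0]
      simp only [List.length_cons, List.length_nil] at this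
      omega)
  obtain ⟨g₁, hg₁Ω, hg₁⟩ := sieg_omega9 hQ (R w₁ 0 0) (R w₂ 0 0) p₁ q₁ (hQs1 w₁ hw₁)
    (hQs1 w₂ hw₂) hp₁ hq₁ hx₁x₂ hp₁q₁ (hp₁p _ (mem_spanL9 (by simp)))
    (hq₁p _ (mem_spanL9 (by simp))) (hp₁p _ (mem_spanL9 (by simp)))
    (hq₁p _ (mem_spanL9 (by simp)))
  have hg₁R : ∀ y₁ y₂ y₃, (g₁ : Matrix (Fin n) (Fin n) F) *ᵥ (R y₁ y₂ y₃) =
      R (y₁ + (c * ε * f₂ y₁ w₂) • w₁ + (-(c * ε * f₂ y₁ w₁)) • w₂) y₂ y₃ := by
    intro y₁ y₂ y₃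
    rw [hg₁, hR, hR]
    simp only [h2zr, add_zero]
    rw [sub_eq_add_neg, ← neg_smul, hRadd, hRadd]
    simp only [smul_zero, add_zero]
  have hfw₁ : ∀ v, v ∈ S → (g₁ : Matrix (Fin n) (Fin n) F) *ᵥ v ∈ S := by
    intro v hv
    obtain ⟨u, y, hu, rfl⟩ := (hmemS v).mp hv
    rw [hRpure, hSR] at hv
    rw [hRpure, hg₁R, hSR]
    rcases hv with ⟨h0, h0'⟩ | ⟨h0, h0'⟩ | ⟨h0, h0'⟩
    · left
      exact ⟨h0, h0'⟩
    · right
      left
      refine ⟨?_, h0'⟩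
      simp only [h0, h2z, mul_zero, neg_zero, zero_smul, add_zero]
    · right
      right
      refine ⟨?_, h0'⟩
      simp only [h0, h2z, mul_zero, neg_zero, zero_smul, add_zero]
  have hg₁K : g₁ ∈ Cfsg.stabilizing (Cfsg.glToMat (Fin n) F) S ⊓ Cfsg.Geo.omegaGL Q :=
    ⟨hstab g₁ hfw₁, hg₁Ω⟩
  refine ⟨Cfsg.stabilizing (Cfsg.glToMat (Fin n) F) S ⊓ Cfsg.Geo.omegaGL Q,
    lt_of_le_of_ne ?_ ?_, lt_of_le_of_ne inf_le_right ?_⟩
  · intro g hg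
    exact ⟨hstab g (hfw g hg), hg.2⟩
  · intro heq
    rw [← heq] at hg₁K
    obtain ⟨a, b, hAB⟩ := tp_actionI9 e P g₁ hg₁K.1
    have hAB' : ∀ u y, (g₁ : Matrix (Fin n) (Fin n) F) *ᵥ (T (pure9 u y)) =
        T (pure9 ((a : Matrix (Fin 3) (Fin 3) F) *ᵥ u) ((b : Matrix (Fin n₂) (Fin n₂) F) *ᵥ y)) := by
      intro u y
      rw [hT', hT']
      exact hAB u y
    have e1 := hAB' e₁ y₀
    rw [hRu1, hg₁R, hRpure] at e1
    obtain ⟨e1a, -, -⟩ := hRinj _ _ _ _ _ _ e1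
    have e2 := hAB' e₂ y₀
    rw [hRu2, hg₁R, hRpure] at e2
    obtain ⟨-, e2b, -⟩ := hRinj _ _ _ _ _ _ e2
    obtain ⟨γ₁, hγ₁⟩ : ∃ γ₁, γ₁ = ε * f₁ ((a : Matrix (Fin 3) (Fin 3) F) *ᵥ e₁) e₁ := ⟨_, rfl⟩
    obtain ⟨β₂, hβ₂⟩ : ∃ β₂, β₂ = ε * f₁ ((a : Matrix (Fin 3) (Fin 3) F) *ᵥ e₂) e₂ := ⟨_, rfl⟩
    rw [← hγ₁] at e1a
    rw [← hβ₂] at e2b
    have hβ₂0 : β₂ ≠ 0 := by
      intro h0
      apply hy₀0
      rw [e2b, h0, zero_smul]
    have hBy : (b : Matrix (Fin n₂) (Fin n₂) F) *ᵥ y₀ = β₂⁻¹ • y₀ := by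
      conv_rhs => rw [e2b]
      rw [smul_smul, inv_mul_cancel₀ hβ₂0, one_smul]
    rw [hBy, smul_smul, hy₀w₂, mul_zero, zero_smul, add_zero] at e1a
    have h9 : f₂ (y₀ + (-(c * ε * f₂ y₀ w₁)) • w₂) (bb i3) = f₂ ((γ₁ * β₂⁻¹) • y₀) (bb i3) := by
      rw [e1a]
    rw [hb₂.add_left, hb₂.smul_left, hb₂.smul_left, hy₀b, mul_zero, zero_add] at h9
    have h10 : c * ε * f₂ y₀ w₁ * f₂ w₂ (bb i3) ≠ 0 :=
      mul_ne_zero (mul_ne_zero (mul_ne_zero hc0 hε0) hy₀w₁) hw₂b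
    apply h10
    linear_combination -h9
  · intro heq
    have hx₁x₃ : QuadraticMap.polar Q (R w₁ 0 0) (R 0 w₁ 0) = 0 := by
      rw [hR, h2zr, h2z, h2z, add_zero, add_zero, mul_zero]
    obtain ⟨p₂, q₂, hp₂, hq₂, hp₂q₂, hp₂p, hq₂p⟩ := qf_hyp9 hQ hchar hn
      (spanL9 [R w₁ 0 0, R 0 w₁ 0]) (by
        have := finrank_spanL9 (F := F) [R w₁ 0 0, R 0 w₁ 0]
        simp only [List.length_cons, List.length_nil] at this
        omega)
    obtain ⟨g₂, hg₂Ω, hg₂⟩ := sieg_omega9 hQ (R w₁ 0 0) (R 0 w₁ 0) p₂ q₂ (hQs1 w₁ hw₁)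
      (hQs2 w₁ hw₁) hp₂ hq₂ hx₁x₃ hp₂q₂ (hp₂p _ (mem_spanL9 (by simp)))
      (hq₂p _ (mem_spanL9 (by simp))) (hp₂p _ (mem_spanL9 (by simp)))
      (hq₂p _ (mem_spanL9 (by simp)))
    have hg₂K : g₂ ∈ Cfsg.stabilizing (Cfsg.glToMat (Fin n) F) S ⊓ Cfsg.Geo.omegaGL Q := by
      rw [heq]
      exact hg₂Ω
    have hE : (g₂ : Matrix (Fin n) (Fin n) F) *ᵥ (R y₀ 0 0) = R y₀ ((-(c * ε * f₂ y₀ w₁)) • w₁) 0 := by
      rw [hg₂, hR, hR]
      simp only [h2z, h2zr, add_zero, zero_add, mul_zero, zero_smul]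
      rw [sub_eq_add_neg, ← neg_smul, hRadd]
      simp only [smul_zero, add_zero, zero_add]
    have h12'' := ((hmemK g₂).mp hg₂K.1 (R y₀ 0 0)).mp ((hSR _ _ _).mpr (Or.inl ⟨rfl, rfl⟩))
    rw [hE, hSR] at h12''
    have hk1 : (-(c * ε * f₂ y₀ w₁)) • w₁ ≠ 0 := by
      intro h'
      rcases smul_eq_zero.mp h' with h'' | h''
      · exact mul_ne_zero (mul_ne_zero hc0 hε0) hy₀w₁ (neg_eq_zero.mp h'')
      · exact hw₁0 h''
    rcases h12'' with ⟨h', -⟩ | ⟨h', -⟩ | ⟨h', -⟩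
    · exact hk1 h'
    · exact hy₀0 h'
    · exact hy₀0 h'

end Cfsg.Agent.Helper9
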