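import Mathlib
import Cfsg.Agent.Helper9.QOmega9

set_option autoImplicit false

namespace Cfsg.Agent.Helper9

open Cfsg
open scoped MatrixGroups Matrix

variable {F : Type*} [Field F] {ι : Type} [Fintype ι] [DecidableEq ι] {n : ℕ}

/-- Transport of vectors along a bijection of index types. -/
noncomputable def vecL9 (F : Type*) [Field F] (ε : ι ≃ Fin n) : (ι → F) ≃ₗ[F] (Fin n → F) :=
  LinearEquiv.funCongrLeft F F ε.symm

theorem vecL_apply9 (ε : ι ≃ Fin n) (v : ι → F) (j : Fin n) : vecL9 F ε v j = v (ε.symm j) := rfl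

theorem vecL_symm_apply9 (ε : ι ≃ Fin n) (v : Fin n → F) (i : ι) :
    (vecL9 F ε).symm v i = v (ε i) := rfl

theorem glReindex_mulVec9 (ε : ι ≃ Fin n) (g : GL ι F) (v : ι → F) :
    ((Cfsg.Geo.glReindex (F := F) ε g : GL (Fin n) F) : Matrix (Fin n) (Fin n) F) *ᵥ
      (vecL9 F ε v) = vecL9 F ε ((g : Matrix ι ι F) *ᵥ v) := by
  have h1 : ((Cfsg.Geo.glReindex (F := F) ε g : GL (Fin n) F) : Matrix (Fin n) (Fin n) F) =
      (g : Matrix ι ι F).submatrix ε.symm ε.symm := rfl
  rw [h1]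
  funext j
  simp only [Matrix.mulVec, dotProduct, Matrix.submatrix_apply, vecL_apply9]
  exact Equiv.sum_comp ε.symm (fun i => (g : Matrix ι ι F) (ε.symm j) i * v i)

/-- The transported quadratic form. -/
noncomputable def qL9 (ε : ι ≃ Fin n) (Q : (ι → F) → F) : (Fin n → F) → F :=
  fun v => Q ((vecL9 F ε).symm v)

theorem qL_apply9 (ε : ι ≃ Fin n) (Q : (ι → F) → F) (v : ι → F) : qL9 ε Q (vecL9 F ε v) = Q v := by
  unfold qL9
  rw [LinearEquiv.symm_apply_apply]

theorem qL_polar9 (ε : ι ≃ Fin n) (Q : (ι → F) → F) (x y : Fin n → F) :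
    QuadraticMap.polar (qL9 ε Q) x y =
      QuadraticMap.polar Q ((vecL9 F ε).symm x) ((vecL9 F ε).symm y) := by
  unfold QuadraticMap.polar qL9
  rw [map_add]

theorem qL_polar_apply9 (ε : ι ≃ Fin n) (Q : (ι → F) → F) (x y : ι → F) :
    QuadraticMap.polar (qL9 ε Q) (vecL9 F ε x) (vecL9 F ε y) = QuadraticMap.polar Q x y := by
  rw [qL_polar9, LinearEquiv.symm_apply_apply, LinearEquiv.symm_apply_apply]

theorem qL_nondeg9 (ε : ι ≃ Fin n) (Q : (ι → F) → F)
    (hQ : Cfsg.Geo.IsNondegenerateQuadraticForm Q) :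
    Cfsg.Geo.IsNondegenerateQuadraticForm (qL9 ε Q) := by
  refine ⟨fun c v => ?_, ⟨fun x y v => ?_, fun c x v => ?_, fun v x y => ?_, fun c v x => ?_⟩,
    fun v hv => ?_⟩
  · unfold qL9
    rw [map_smul, hQ.smul]
  · rw [qL_polar9, qL_polar9, qL_polar9, map_add, hQ.polar_bilinear.add_left]
  · rw [qL_polar9, qL_polar9, map_smul, hQ.polar_bilinear.smul_left]
  · rw [qL_polar9, qL_polar9, qL_polar9, map_add, hQ.polar_bilinear.add_right]
  · rw [qL_polar9, qL_polar9, map_smul, hQ.polar_bilinear.smul_right]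
  · have hv' : (vecL9 F ε).symm v ≠ 0 := fun h => hv ((LinearEquiv.map_eq_zero_iff _).mp h)
    obtain ⟨⟨x, hx⟩, ⟨y, hy⟩⟩ := hQ.nondegenerate _ hv'
    refine ⟨⟨vecL9 F ε x, ?_⟩, ⟨vecL9 F ε y, ?_⟩⟩
    · rw [qL_polar9, LinearEquiv.symm_apply_apply]
      exact hx
    · rw [qL_polar9, LinearEquiv.symm_apply_apply]
      exact hy

theorem iso_transport9 (ε : ι ≃ Fin n) (Q : (ι → F) → F) (g : GL ι F) :
    g ∈ Cfsg.isometryGroup F Q ↔
      Cfsg.Geo.glReindex (F := F) ε g ∈ Cfsg.isometryGroup F (qL9 ε Q) := by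
  constructor
  · intro hg u v
    show qL9 ε Q (((Cfsg.Geo.glReindex (F := F) ε g : GL (Fin n) F) :
      Matrix (Fin n) (Fin n) F) *ᵥ u) = qL9 ε Q u
    have hu : u = vecL9 F ε ((vecL9 F ε).symm u) := (LinearEquiv.apply_symm_apply _ _).symm
    rw [hu, glReindex_mulVec9, qL_apply9, qL_apply9]
    exact hg ((vecL9 F ε).symm u) ((vecL9 F ε).symm u)
  · intro hg u v
    show Q ((g : Matrix ι ι F) *ᵥ u) = Q u
    have h := hg (vecL9 F ε u) (vecL9 F ε u)
    have h' : qL9 ε Q (((Cfsg.Geo.glReindex (F := F) ε g : GL (Fin n) F) :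
        Matrix (Fin n) (Fin n) F) *ᵥ (vecL9 F ε u)) = qL9 ε Q (vecL9 F ε u) := h
    rw [glReindex_mulVec9, qL_apply9, qL_apply9] at h'
    exact h'

theorem omega_eq_comm9 {κ : Type} [Fintype κ] [DecidableEq κ] (Q : (κ → F) → F) :
    Cfsg.Geo.omegaGL Q = ⁅Cfsg.isometryGroup F Q, Cfsg.isometryGroup F Q⁆ :=
  Subgroup.map_subtype_commutator _

theorem omega_transport9 (ε : ι ≃ Fin n) (Q : (ι → F) → F) :
    (Cfsg.Geo.omegaGL Q).map (Cfsg.Geo.glReindex (F := F) ε).toMonoidHom =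
      Cfsg.Geo.omegaGL (qL9 ε Q) := by
  have hI : (Cfsg.isometryGroup F Q).map (Cfsg.Geo.glReindex (F := F) ε).toMonoidHom =
      Cfsg.isometryGroup F (qL9 ε Q) := by
    apply le_antisymm
    · rintro h ⟨g, hg, rfl⟩
      exact (iso_transport9 ε Q g).mp hg
    · intro h hh
      refine ⟨(Cfsg.Geo.glReindex (F := F) ε).symm h, ?_, ?_⟩
      · refine (iso_transport9 ε Q _).mpr ?_
        rw [MulEquiv.apply_symm_apply]
        exact hh
      · exact MulEquiv.apply_symm_apply _ h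
  rw [omega_eq_comm9, omega_eq_comm9, Subgroup.map_commutator, hI]

theorem omega_mem_transport9 (ε : ι ≃ Fin n) (Q : (ι → F) → F) (g : GL ι F) :
    g ∈ Cfsg.Geo.omegaGL Q ↔ Cfsg.Geo.glReindex (F := F) ε g ∈ Cfsg.Geo.omegaGL (qL9 ε Q) := by
  rw [← omega_transport9]
  exact (Subgroup.mem_map_iff_mem (f := (Cfsg.Geo.glReindex (F := F) ε).toMonoidHom)
    (Cfsg.Geo.glReindex (F := F) ε).injective).symm

theorem stab_transport9 (ε : ι ≃ Fin n) (W : Submodule F (ι → F)) (g : GL ι F) :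
    g ∈ Cfsg.Geo.subspaceStabilizer W ↔ Cfsg.Geo.glReindex (F := F) ε g ∈
      Cfsg.Geo.subspaceStabilizer (W.map ((vecL9 F ε : (ι → F) ≃ₗ[F] (Fin n → F)) :
        (ι → F) →ₗ[F] (Fin n → F))) := by
  rw [mem_stabI9, mem_stabI9]
  constructor
  · intro h x
    have hx : x = vecL9 F ε ((vecL9 F ε).symm x) := (LinearEquiv.apply_symm_apply _ _).symm
    rw [hx, glReindex_mulVec9, Submodule.mem_map_equiv, Submodule.mem_map_equiv,
      LinearEquiv.symm_apply_apply, LinearEquiv.symm_apply_apply]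
    exact h _
  · intro h x
    have h' := h (vecL9 F ε x)
    rw [glReindex_mulVec9, Submodule.mem_map_equiv, Submodule.mem_map_equiv,
      LinearEquiv.symm_apply_apply, LinearEquiv.symm_apply_apply] at h'
    exact h'

/-- The plus-type plane statement over an arbitrary index type. -/
theorem plus_plane_notmaxI9 [Fintype F] (hι : 13 ≤ Fintype.card ι) (Q : (ι → F) → F)
    (hQ : Cfsg.Geo.IsNondegenerateQuadraticForm Q) (hq : Fintype.card F ≤ 3)
    (W : Submodule F (ι → F)) (hdim : Module.finrank F W = 2)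
    (hW : Cfsg.Geo.IsNondegenerateOn (QuadraticMap.polar Q) W)
    (hWp : Cfsg.Geo.IsPlusTypeOn Q W) :
    ∃ K : Subgroup (GL ι F), Cfsg.Geo.subspaceStabilizer W ⊓ Cfsg.Geo.omegaGL Q < K ∧
      K < Cfsg.Geo.omegaGL Q := by
  classical
  obtain ⟨ε⟩ : Nonempty (ι ≃ Fin (Fintype.card ι)) := ⟨Fintype.equivFin ι⟩
  obtain ⟨W', hW'⟩ : ∃ W' : Submodule F (Fin (Fintype.card ι) → F),
      W' = W.map ((vecL9 F ε : (ι → F) ≃ₗ[F] (Fin (Fintype.card ι) → F)) :
        (ι → F) →ₗ[F] (Fin (Fintype.card ι) → F)) := ⟨_, rfl⟩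
  have hmemW' : ∀ x, x ∈ W' ↔ (vecL9 F ε).symm x ∈ W := fun x => by
    rw [hW', Submodule.mem_map_equiv]
  have hdim' : Module.finrank F W' = 2 := by
    rw [hW', LinearEquiv.finrank_map_eq, hdim]
  have hWn : Cfsg.Geo.IsNondegenerateOn (QuadraticMap.polar (qL9 ε Q)) W' := by
    intro w hw hw0
    have hw' : (vecL9 F ε).symm w ≠ 0 := fun h => hw0 ((LinearEquiv.map_eq_zero_iff _).mp h)
    obtain ⟨⟨x, hxW, hx⟩, ⟨y, hyW, hy⟩⟩ := hW _ ((hmemW' w).mp hw) hw'
    refine ⟨⟨vecL9 F ε x, ?_, ?_⟩, ⟨vecL9 F ε y, ?_, ?_⟩⟩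
    · rw [hmemW', LinearEquiv.symm_apply_apply]
      exact hxW
    · rw [qL_polar9, LinearEquiv.symm_apply_apply]
      exact hx
    · rw [hmemW', LinearEquiv.symm_apply_apply]
      exact hyW
    · rw [qL_polar9, LinearEquiv.symm_apply_apply]
      exact hy
  have hWp' : Cfsg.Geo.IsPlusTypeOn (qL9 ε Q) W' := by
    obtain ⟨U, hUW, hUts, hUdim⟩ := hWp
    refine ⟨U.map ((vecL9 F ε : (ι → F) ≃ₗ[F] (Fin (Fintype.card ι) → F)) :
        (ι → F) →ₗ[F] (Fin (Fintype.card ι) → F)), ?_, ?_, ?_⟩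
    · rw [hW']
      exact Submodule.map_mono hUW
    · intro u hu
      rw [Submodule.mem_map_equiv] at hu
      exact hUts _ hu
    · rw [LinearEquiv.finrank_map_eq, hdim', hUdim, hdim]
  obtain ⟨K', h1, h2⟩ := plus_plane_notmax9 hι (qL_nondeg9 ε Q hQ) hq W' hdim' hWn hWp'
  have hsurj : Function.Surjective (Cfsg.Geo.glReindex (F := F) ε).toMonoidHom :=
    (Cfsg.Geo.glReindex (F := F) ε).surjective
  have hH : Cfsg.Geo.subspaceStabilizer W ⊓ Cfsg.Geo.omegaGL Q =
      (Cfsg.Geo.subspaceStabilizer W' ⊓ Cfsg.Geo.omegaGL (qL9 ε Q)).comap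
        (Cfsg.Geo.glReindex (F := F) ε).toMonoidHom := by
    ext g
    rw [Subgroup.mem_comap, Subgroup.mem_inf, Subgroup.mem_inf, hW']
    exact and_congr (stab_transport9 ε W g) (omega_mem_transport9 ε Q g)
  have hΩ : Cfsg.Geo.omegaGL Q =
      (Cfsg.Geo.omegaGL (qL9 ε Q)).comap (Cfsg.Geo.glReindex (F := F) ε).toMonoidHom := by
    ext g
    rw [Subgroup.mem_comap]
    exact omega_mem_transport9 ε Q g
  refine ⟨K'.comap (Cfsg.Geo.glReindex (F := F) ε).toMonoidHom, ?_, ?_⟩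
  · rw [hH]
    exact (Subgroup.comap_lt_comap_of_surjective hsurj).mpr h1
  · rw [hΩ]
    exact (Subgroup.comap_lt_comap_of_surjective hsurj).mpr h2

/-- The standard odd-dimensional quadratic form is non-degenerate in odd characteristic. -/
theorem quadFormOdd_nondeg9 (m : ℕ) (h2 : (2 : F) ≠ 0) :
    Cfsg.Geo.IsNondegenerateQuadraticForm (Cfsg.quadFormOdd m F) := by
  classical
  have hpolar : ∀ v w : Unit ⊕ (Fin m ⊕ Fin m) → F,
      QuadraticMap.polar (Cfsg.quadFormOdd m F) v w =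
        2 * v (.inl ()) * w (.inl ()) +
          ∑ i : Fin m, (v (.inr (.inl i)) * w (.inr (.inr i)) +
            w (.inr (.inl i)) * v (.inr (.inr i))) := by
    intro v w
    unfold QuadraticMap.polar Cfsg.quadFormOdd
    simp only [Pi.add_apply]
    have e : ∑ i : Fin m, (v (.inr (.inl i)) + w (.inr (.inl i))) *
        (v (.inr (.inr i)) + w (.inr (.inr i))) =
        ∑ i : Fin m, v (.inr (.inl i)) * v (.inr (.inr i)) +
        ∑ i : Fin m, w (.inr (.inl i)) * w (.inr (.inr i)) +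
        ∑ i : Fin m, (v (.inr (.inl i)) * w (.inr (.inr i)) +
            w (.inr (.inl i)) * v (.inr (.inr i))) := by
      rw [← Finset.sum_add_distrib, ← Finset.sum_add_distrib]
      exact Finset.sum_congr rfl (fun i _ => by ring)
    rw [e]
    ring
  refine ⟨fun c v => ?_, ⟨fun x y v => ?_, fun c x v => ?_, fun v x y => ?_, fun c v x => ?_⟩,
    fun v hv => ?_⟩
  · unfold Cfsg.quadFormOdd
    simp only [Pi.smul_apply, smul_eq_mul]
    rw [mul_add, Finset.mul_sum]
    congr 1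
    · ring
    · exact Finset.sum_congr rfl (fun i _ => by ring)
  · rw [hpolar, hpolar, hpolar]
    simp only [Pi.add_apply]
    have e : ∀ a b c d : F, ∀ s₁ s₂ s₃ : F, s₁ = s₂ + s₃ →
        2 * (a + b) * c + s₁ = 2 * a * c + s₂ + (2 * b * c + s₃) := by
      intro a b c d s₁ s₂ s₃ h
      rw [h]
      ring
    refine e _ _ _ 0 _ _ _ ?_
    rw [← Finset.sum_add_distrib]
    exact Finset.sum_congr rfl (fun i _ => by ring)
  · rw [hpolar, hpolar]
    simp only [Pi.smul_apply, smul_eq_mul]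
    rw [mul_add, Finset.mul_sum]
    congr 1
    · ring
    · exact Finset.sum_congr rfl (fun i _ => by ring)
  · rw [hpolar, hpolar, hpolar]
    simp only [Pi.add_apply]
    have e : ∀ a b c : F, ∀ s₁ s₂ s₃ : F, s₁ = s₂ + s₃ →
        2 * a * (b + c) + s₁ = 2 * a * b + s₂ + (2 * a * c + s₃) := by
      intro a b c s₁ s₂ s₃ h
      rw [h]
      ring
    refine e _ _ _ _ _ _ ?_
    rw [← Finset.sum_add_distrib]
    exact Finset.sum_congr rfl (fun i _ => by ring)
  · rw [hpolar, hpolar]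
    simp only [Pi.smul_apply, smul_eq_mul]
    rw [mul_add, Finset.mul_sum]
    congr 1
    · ring
    · exact Finset.sum_congr rfl (fun i _ => by ring)
  · have hex : ∃ x : Unit ⊕ (Fin m ⊕ Fin m) → F,
        QuadraticMap.polar (Cfsg.quadFormOdd m F) x v ≠ 0 := by
      obtain ⟨j, hj⟩ : ∃ j, v j ≠ 0 := by
        by_contra hcon
        push_neg at hcon
        exact hv (funext hcon)
      rcases j with u | i | i
      · refine ⟨Pi.single (.inl ()) 1, ?_⟩
        rw [hpolar]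
        have e : ∑ i : Fin m, ((Pi.single (Sum.inl ()) (1 : F) : Unit ⊕ (Fin m ⊕ Fin m) → F)
            (.inr (.inl i)) * v (.inr (.inr i)) +
            v (.inr (.inl i)) * (Pi.single (Sum.inl ()) (1 : F) : Unit ⊕ (Fin m ⊕ Fin m) → F)
              (.inr (.inr i))) = 0 := by
          refine Finset.sum_eq_zero (fun i _ => ?_)
          rw [Pi.single_eq_of_ne (by simp), Pi.single_eq_of_ne (by simp)]
          ring
        rw [e, Pi.single_eq_same, add_zero, mul_one]
        exact mul_ne_zero h2 hj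
      · refine ⟨Pi.single (.inr (.inr i)) 1, ?_⟩
        rw [hpolar, Pi.single_eq_of_ne (by simp), mul_zero, zero_mul, zero_add]
        rw [Finset.sum_eq_single i]
        · rw [Pi.single_eq_of_ne (by simp), Pi.single_eq_same, zero_mul, zero_add, mul_one]
          exact hj
        · intro k _ hk
          rw [Pi.single_eq_of_ne (by simp), Pi.single_eq_of_ne (by simpa using hk)]
          ring
        · intro h
          exact absurd (Finset.mem_univ i) h
      · refine ⟨Pi.single (.inr (.inl i)) 1, ?_⟩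
        rw [hpolar, Pi.single_eq_of_ne (by simp), mul_zero, zero_mul, zero_add]
        rw [Finset.sum_eq_single i]
        · rw [Pi.single_eq_same, Pi.single_eq_of_ne (by simp), mul_zero, add_zero, one_mul]
          exact hj
        · intro k _ hk
          rw [Pi.single_eq_of_ne (by simpa using hk), Pi.single_eq_of_ne (by simp)]
          ring
        · intro h
          exact absurd (Finset.mem_univ i) h
    obtain ⟨x, hx⟩ := hex
    exact ⟨⟨x, hx⟩, ⟨x, by rw [QuadraticMap.polar_comm]; exact hx⟩⟩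

end Cfsg.Agent.Helper9
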