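import Mathlib
import Cfsg.Prelude.Def_GeometricClasses
import Cfsg.Prelude.Def_Classical
import Cfsg.Agent.Helper9.OTens9
import Cfsg.Agent.Helper9.QTrans9

set_option autoImplicit false

namespace Cfsg.Agent.Helper9

open Cfsg
open scoped MatrixGroups Matrix Kronecker

variable {F : Type*} [Field F]

theorem tiA9 [Fintype F] (hq : Fintype.card F = 3) {k : ℕ}
    (f : (Fin k → F) → (Fin k → F) → F) (hf : Cfsg.Geo.IsSymmetricForm f)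
    (bb : Fin k → (Fin k → F)) (ho : ∀ i j, i ≠ j → f (bb i) (bb j) = 0)
    (hn : ∀ i, f (bb i) (bb i) ≠ 0) (j0 j1 j2 j3 j4 : Fin k)
    (h01 : j0 ≠ j1) (h02 : j0 ≠ j2) (h03 : j0 ≠ j3) (h04 : j0 ≠ j4) (h12 : j1 ≠ j2)
    (h13 : j1 ≠ j3) (h14 : j1 ≠ j4) (h23 : j2 ≠ j3) (h24 : j2 ≠ j4) (h34 : j3 ≠ j4)
    (h : f (bb j1) (bb j1) = - f (bb j0) (bb j0)) :
    ∃ w₁ w₂ y₀ t₂ : Fin k → F, f w₁ w₁ = 0 ∧ f w₂ w₂ = 0 ∧ f w₁ w₂ = 0 ∧ f y₀ w₁ ≠ 0 ∧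
      f y₀ w₂ = 0 ∧ f w₂ t₂ ≠ 0 ∧ f y₀ t₂ = 0 ∧ f y₀ y₀ ≠ 0 := by
  have hbl := hf.bilinear
  obtain ⟨β, γ, hw₂⟩ := iso3_9 hq f hf (bb j2) (bb j3) (bb j4) (ho _ _ h23) (ho _ _ h24)
    (ho _ _ h34) (hn j2) (hn j3) (hn j4)
  refine ⟨bb j0 + bb j1, bb j2 + β • bb j3 + γ • bb j4, bb j0, bb j2, ?_, hw₂, ?_, ?_, ?_, ?_,
    ho _ _ h02, hn j0⟩
  · rw [hbl.add_left, hbl.add_right, hbl.add_right, ho _ _ h01, ho _ _ h01.symm, h]
    ring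
  · simp only [hbl.add_left, hbl.add_right, hbl.smul_right, ho _ _ h02, ho _ _ h03, ho _ _ h04,
      ho _ _ h12, ho _ _ h13, ho _ _ h14, mul_zero, add_zero]
  · rw [hbl.add_right, ho _ _ h01, add_zero]
    exact hn j0
  · simp only [hbl.add_right, hbl.smul_right, ho _ _ h02, ho _ _ h03, ho _ _ h04, mul_zero,
      add_zero]
  · simp only [hbl.add_left, hbl.smul_left, ho _ _ h23.symm, ho _ _ h24.symm, mul_zero,
      add_zero]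
    exact hn j2

theorem tiC9 [Fintype F] (hq : Fintype.card F = 3) {k : ℕ}
    (f : (Fin k → F) → (Fin k → F) → F) (hf : Cfsg.Geo.IsSymmetricForm f)
    (bb : Fin k → (Fin k → F)) (ho : ∀ i j, i ≠ j → f (bb i) (bb j) = 0)
    (hn : ∀ i, f (bb i) (bb i) ≠ 0) (j0 j1 j2 j3 j4 : Fin k)
    (h01 : j0 ≠ j1) (h02 : j0 ≠ j2) (h03 : j0 ≠ j3) (h04 : j0 ≠ j4) (h12 : j1 ≠ j2)
    (h13 : j1 ≠ j3) (h14 : j1 ≠ j4) (h23 : j2 ≠ j3) (h24 : j2 ≠ j4) (h34 : j3 ≠ j4)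
    (h1 : f (bb j1) (bb j1) = f (bb j0) (bb j0)) (h2 : f (bb j2) (bb j2) = f (bb j0) (bb j0)) :
    ∃ w₁ w₂ y₀ t₂ : Fin k → F, f w₁ w₁ = 0 ∧ f w₂ w₂ = 0 ∧ f w₁ w₂ = 0 ∧ f y₀ w₁ ≠ 0 ∧
      f y₀ w₂ = 0 ∧ f w₂ t₂ ≠ 0 ∧ f y₀ t₂ = 0 ∧ f y₀ y₀ ≠ 0 := by
  have h3 := f3_three9 hq
  have hbl := hf.bilinear
  have hpm : ∀ x : F, x ≠ 0 → x = 1 ∨ x = -1 := fun x hx => (f3_cases9 hq x).resolve_left hx
  obtain ⟨a, ha⟩ : ∃ a, a = f (bb j0) (bb j0) := ⟨_, rfl⟩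
  rw [← ha] at h1 h2
  have ha0 : a ≠ 0 := by
    rw [ha]
    exact hn j0
  have hN : ∀ δ η : F, f (bb j0 + (-1 : F) • bb j1 + δ • bb j3 + η • bb j4)
      (bb j0 + (-1 : F) • bb j1 + δ • bb j3 + η • bb j4) =
      a + a + δ * δ * f (bb j3) (bb j3) + η * η * f (bb j4) (bb j4) := by
    intro δ η
    simp only [hbl.add_left, hbl.add_right, hbl.smul_left, hbl.smul_right, ho _ _ h01,
      ho _ _ h01.symm, ho _ _ h03, ho _ _ h03.symm, ho _ _ h04, ho _ _ h04.symm, ho _ _ h13,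
      ho _ _ h13.symm, ho _ _ h14, ho _ _ h14.symm, ho _ _ h34, ho _ _ h34.symm, h1, ← ha]
    ring
  obtain ⟨δ, η, hδη⟩ : ∃ δ η : F, a + a + δ * δ * f (bb j3) (bb j3) +
      η * η * f (bb j4) (bb j4) = 0 := by
    by_cases h3a : f (bb j3) (bb j3) = a
    · exact ⟨1, 0, by rw [h3a]; linear_combination a * h3⟩
    · by_cases h4a : f (bb j4) (bb j4) = a
      · exact ⟨0, 1, by rw [h4a]; linear_combination a * h3⟩
      · have h3n : f (bb j3) (bb j3) = -a := by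
          rcases hpm _ ha0 with h | h <;> rcases hpm _ (hn j3) with h' | h'
          · exact absurd (h'.trans h.symm) h3a
          · rw [h', h]
          · rw [h', h, neg_neg]
          · exact absurd (h'.trans h.symm) h3a
        have h4n : f (bb j4) (bb j4) = -a := by
          rcases hpm _ ha0 with h | h <;> rcases hpm _ (hn j4) with h' | h'
          · exact absurd (h'.trans h.symm) h4a
          · rw [h', h]
          · rw [h', h, neg_neg]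
          · exact absurd (h'.trans h.symm) h4a
        exact ⟨1, 1, by rw [h3n, h4n]; ring⟩
  refine ⟨bb j0 + bb j1 + bb j2, bb j0 + (-1 : F) • bb j1 + δ • bb j3 + η • bb j4, bb j2, bb j1,
    ?_, ?_, ?_, ?_, ?_, ?_, ho _ _ h12.symm, hn j2⟩
  · simp only [hbl.add_left, hbl.add_right, ho _ _ h01, ho _ _ h01.symm, ho _ _ h02,
      ho _ _ h02.symm, ho _ _ h12, ho _ _ h12.symm, h1, h2, ← ha]
    linear_combination a * h3
  · rw [hN]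
    exact hδη
  · simp only [hbl.add_left, hbl.add_right, hbl.smul_right, ho _ _ h01, ho _ _ h01.symm,
      ho _ _ h02.symm, ho _ _ h03, ho _ _ h04, ho _ _ h12.symm, ho _ _ h13, ho _ _ h14,
      ho _ _ h23, ho _ _ h24, h1, ← ha]
    ring
  · simp only [hbl.add_right, ho _ _ h02.symm, ho _ _ h12.symm, h2, zero_add]
    exact ha0
  · simp only [hbl.add_right, hbl.smul_right, ho _ _ h02.symm, ho _ _ h12.symm, ho _ _ h23,
      ho _ _ h24, mul_zero, add_zero]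
  · simp only [hbl.add_left, hbl.smul_left, ho _ _ h01, ho _ _ h13.symm, ho _ _ h14.symm, h1,
      mul_zero, add_zero, zero_add]
    intro h0
    apply ha0
    linear_combination -h0

theorem ti_data9 [Fintype F] (hq : Fintype.card F = 3) {k : ℕ}
    (f : (Fin k → F) → (Fin k → F) → F) (hf : Cfsg.Geo.IsSymmetricForm f) (hk : 5 ≤ k) :
    ∃ w₁ w₂ y₀ t₂ : Fin k → F, f w₁ w₁ = 0 ∧ f w₂ w₂ = 0 ∧ f w₁ w₂ = 0 ∧ f y₀ w₁ ≠ 0 ∧
      f y₀ w₂ = 0 ∧ f w₂ t₂ ≠ 0 ∧ f y₀ t₂ = 0 ∧ f y₀ y₀ ≠ 0 := by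
  have h2 : (2 : F) ≠ 0 := f3_two9 hq
  have hpm : ∀ x : F, x ≠ 0 → x = 1 ∨ x = -1 := fun x hx => (f3_cases9 hq x).resolve_left hx
  obtain ⟨bb, ho, hn⟩ := sym_orth_basis9 h2 f hf
  obtain ⟨i0, i1, i2, i3, i4, hi⟩ : ∃ i0 i1 i2 i3 i4 : Fin k,
      i0 ≠ i1 ∧ i0 ≠ i2 ∧ i0 ≠ i3 ∧ i0 ≠ i4 ∧ i1 ≠ i2 ∧ i1 ≠ i3 ∧ i1 ≠ i4 ∧ i2 ≠ i3 ∧
      i2 ≠ i4 ∧ i3 ≠ i4 := by
    refine ⟨⟨0, by omega⟩, ⟨1, by omega⟩, ⟨2, by omega⟩, ⟨3, by omega⟩, ⟨4, by omega⟩, ?_⟩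
    simp only [ne_eq, Fin.mk.injEq]
    omega
  obtain ⟨h01, h02, h03, h04, h12, h13, h14, h23, h24, h34⟩ := hi
  by_cases hA : f (bb i1) (bb i1) = - f (bb i0) (bb i0)
  · exact tiA9 hq f hf bb ho hn i0 i1 i2 i3 i4 h01 h02 h03 h04 h12 h13 h14 h23 h24 h34 hA
  · by_cases hB : f (bb i2) (bb i2) = - f (bb i0) (bb i0)
    · exact tiA9 hq f hf bb ho hn i0 i2 i1 i3 i4 h02 h01 h03 h04 h12.symm h23 h24 h13 h14 h34 hB
    · have h1 : f (bb i1) (bb i1) = f (bb i0) (bb i0) := by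
        rcases hpm _ (hn i0) with h | h <;> rcases hpm _ (hn i1) with h' | h'
        · rw [h, h']
        · exact absurd (by rw [h, h']) hA
        · exact absurd (by rw [h, h', neg_neg]) hA
        · rw [h, h']
      have h2' : f (bb i2) (bb i2) = f (bb i0) (bb i0) := by
        rcases hpm _ (hn i0) with h | h <;> rcases hpm _ (hn i2) with h' | h'
        · rw [h, h']
        · exact absurd (by rw [h, h']) hB
        · exact absurd (by rw [h, h', neg_neg]) hB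
        · rw [h, h']
      exact tiC9 hq f hf bb ho hn i0 i1 i2 i3 i4 h01 h02 h03 h04 h12 h13 h14 h23 h24 h34 h1 h2'

/-- Over the field with three elements, the stabiliser of a tensor decomposition of an
orthogonal space with a factor of dimension three is not maximal in `Ω`. -/
theorem otens3_gen9 [Fintype F] {n : ℕ} (hn : 13 ≤ n) (Q : (Fin n → F) → F)
    (hQ : Cfsg.Geo.IsNondegenerateQuadraticForm Q) (hq : Fintype.card F = 3) (n₂ : ℕ) (hn₂ : 5 ≤ n₂)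
    (e : Fin n ≃ Fin 3 × Fin n₂) (P : GL (Fin n) F)
    (f₁ : (Fin 3 → F) → (Fin 3 → F) → F) (f₂ : (Fin n₂ → F) → (Fin n₂ → F) → F)
    (hf₁ : Cfsg.Geo.IsSymmetricForm f₁) (hf₂ : Cfsg.Geo.IsSymmetricForm f₂)
    (hT : Cfsg.Geo.IsTensorFormStructure id (QuadraticMap.polar Q) f₁ f₂ e P) :
    ∃ K : Subgroup (GL (Fin n) F),
      Cfsg.Geo.tensorProductSubgroup 3 n₂ e P ⊓ Cfsg.Geo.omegaGL Q < K ∧
      K < Cfsg.Geo.omegaGL Q := by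
  classical
  have h3 : (3 : F) = 0 := f3_three9 hq
  have h2 : (2 : F) ≠ 0 := f3_two9 hq
  have hchar : (2 : F) = 0 ∨ ((2 : F) ≠ 0 ∧ Fintype.card F % 2 = 1) := Or.inr ⟨h2, by rw [hq]⟩
  have hcard : n = 3 * n₂ := by
    have h4 := Fintype.card_congr e
    rw [Fintype.card_fin, Fintype.card_prod, Fintype.card_fin, Fintype.card_fin] at h4
    exact h4
  have hb₁ := hf₁.bilinear
  have hb₂ := hf₂.bilinear
  have h2z : ∀ v, f₂ 0 v = 0 := fun v => by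
    have h := hb₂.smul_left 0 0 v
    rwa [zero_smul, zero_mul] at h
  have h2zr : ∀ v, f₂ v 0 = 0 := fun v => by
    have h := hb₂.smul_right 0 v 0
    rwa [zero_smul, zero_mul] at h
  obtain ⟨c, hc0, hTc⟩ := hT
  obtain ⟨T, hT'⟩ : ∃ T : (Fin 3 × Fin n₂ → F) → (Fin n → F), ∀ z, T z = (P : Matrix (Fin n) (Fin n) F) *ᵥ (z ∘ e) :=
    ⟨fun z => (P : Matrix (Fin n) (Fin n) F) *ᵥ (z ∘ e), fun z => rfl⟩
  have hTadd : ∀ z z', T (z + z') = T z + T z' := by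
    intro z z'
    rw [hT', hT', hT', ← Matrix.mulVec_add]
    rfl
  have hTsmul : ∀ (a : F) z, T (a • z) = a • T z := by
    intro a z
    rw [hT', hT', ← Matrix.mulVec_smul]
    rfl
  have hTinj : ∀ z z', T z = T z' → z = z' := by
    intro z z' hzz
    rw [hT', hT'] at hzz
    have h4 : ((P⁻¹ : GL (Fin n) F) : Matrix (Fin n) (Fin n) F) *ᵥ ((P : Matrix (Fin n) (Fin n) F) *ᵥ (z ∘ e)) = ((P⁻¹ : GL (Fin n) F) : Matrix (Fin n) (Fin n) F) *ᵥ ((P : Matrix (Fin n) (Fin n) F) *ᵥ (z' ∘ e)) := by rw [hzz]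
    rw [gl_inv_mul_vec9, gl_inv_mul_vec9] at h4
    funext p
    have h5 := congrFun h4 (e.symm p)
    simp only [Function.comp_apply, Equiv.apply_symm_apply] at h5
    exact h5
  have hpure : ∀ u u' y y', QuadraticMap.polar Q (T (pure9 u y)) (T (pure9 u' y')) =
      c * (f₁ u u' * f₂ y y') := by
    intro u u' y y'
    rw [hT', hT', hTc, fog_pure9 id (fun a b => rfl), ← bf_gram9 f₁ hb₁, ← bf_gram9 f₂ hb₂]
  obtain ⟨ε, e₁, e₂, e₃, hε, h11, h22, h33, h12, h13, h23, hsp⟩ := f3_frame9 hq f₁ hf₁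
  have hε0 : ε ≠ 0 := by
    intro h0
    rw [h0, mul_zero] at hε
    exact zero_ne_one hε
  have h21 : f₁ e₂ e₁ = 0 := by rw [hf₁.symm]; exact h12
  have h31 : f₁ e₃ e₁ = 0 := by rw [hf₁.symm]; exact h13
  have h32 : f₁ e₃ e₂ = 0 := by rw [hf₁.symm]; exact h23
  have hF1 : frm9 f₁ e₁ := frm_frame9 hq f₁ hf₁ ε hε0 e₁ e₂ e₃ h11 h22 h33 h23 hsp
  have hF2 : frm9 f₁ e₂ := frm_frame9 hq f₁ hf₁ ε hε0 e₂ e₁ e₃ h22 h11 h33 h13
    (fun v => (hsp v).trans (by abel))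
  have hF3 : frm9 f₁ e₃ := frm_frame9 hq f₁ hf₁ ε hε0 e₃ e₁ e₂ h33 h11 h22 h12
    (fun v => (hsp v).trans (by abel))
  obtain ⟨R, hRdef⟩ : ∃ R : (Fin n₂ → F) → (Fin n₂ → F) → (Fin n₂ → F) → (Fin n → F),
      ∀ y₁ y₂ y₃, R y₁ y₂ y₃ = T (pure9 e₁ y₁ + pure9 e₂ y₂ + pure9 e₃ y₃) :=
    ⟨fun y₁ y₂ y₃ => T (pure9 e₁ y₁ + pure9 e₂ y₂ + pure9 e₃ y₃), fun _ _ _ => rfl⟩
  have hRu1 : ∀ y, T (pure9 e₁ y) = R y 0 0 := by
    intro y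
    rw [hRdef, pure_zero_right9, pure_zero_right9, add_zero, add_zero]
  have hRu2 : ∀ y, T (pure9 e₂ y) = R 0 y 0 := by
    intro y
    rw [hRdef, pure_zero_right9, pure_zero_right9, zero_add, add_zero]
  have hRu3 : ∀ y, T (pure9 e₃ y) = R 0 0 y := by
    intro y
    rw [hRdef, pure_zero_right9, pure_zero_right9, zero_add, zero_add]
  have hRadd : ∀ y₁ y₂ y₃ y₁' y₂' y₃' (κ : F), R y₁ y₂ y₃ + κ • R y₁' y₂' y₃' =
      R (y₁ + κ • y₁') (y₂ + κ • y₂') (y₃ + κ • y₃') := by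
    intro y₁ y₂ y₃ y₁' y₂' y₃' κ
    rw [hRdef, hRdef, hRdef, ← hTsmul, ← hTadd]
    congr 1
    rw [pure_add_right9, pure_add_right9, pure_add_right9, pure_smul_right9, pure_smul_right9,
      pure_smul_right9, smul_add, smul_add]
    abel
  have hRpure : ∀ u y, T (pure9 u y) =
      R ((ε * f₁ u e₁) • y) ((ε * f₁ u e₂) • y) ((ε * f₁ u e₃) • y) := by
    intro u y
    rw [hRdef]
    congr 1
    rw [pure_smul_right9, pure_smul_right9, pure_smul_right9, ← pure_smul_left9,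
      ← pure_smul_left9, ← pure_smul_left9, ← pure_add_left9, ← pure_add_left9, ← hsp u]
  have hR : ∀ y₁ y₂ y₃ y₁' y₂' y₃', QuadraticMap.polar Q (R y₁ y₂ y₃) (R y₁' y₂' y₃') =
      c * ε * (f₂ y₁ y₁' + f₂ y₂ y₂' + f₂ y₃ y₃') := by
    intro y₁ y₂ y₃ y₁' y₂' y₃'
    rw [hRdef, hRdef, hTadd, hTadd, hTadd, hTadd]
    simp only [hQ.polar_bilinear.add_left, hQ.polar_bilinear.add_right, hpure, h11, h22, h33,
      h12, h13, h23, h21, h31, h32]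
    ring
  have hcol : ∀ (y₁ y₂ y₃ : Fin n₂ → F) (b : Fin n₂),
      (fun a => (pure9 e₁ y₁ + pure9 e₂ y₂ + pure9 e₃ y₃) (a, b)) =
        y₁ b • e₁ + y₂ b • e₂ + y₃ b • e₃ := by
    intro y₁ y₂ y₃ b
    funext a
    simp only [pure9, Pi.add_apply, Pi.smul_apply, smul_eq_mul]
    ring
  have hRinj : ∀ y₁ y₂ y₃ y₁' y₂' y₃', R y₁ y₂ y₃ = R y₁' y₂' y₃' →
      y₁ = y₁' ∧ y₂ = y₂' ∧ y₃ = y₃' := by
    intro y₁ y₂ y₃ y₁' y₂' y₃' hRR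
    rw [hRdef, hRdef] at hRR
    have hz := hTinj _ _ hRR
    have hrow : ∀ (b : Fin n₂) (w : Fin 3 → F),
        f₁ (fun a => (pure9 e₁ y₁ + pure9 e₂ y₂ + pure9 e₃ y₃) (a, b)) w =
          f₁ (fun a => (pure9 e₁ y₁' + pure9 e₂ y₂' + pure9 e₃ y₃') (a, b)) w := by
      intro b w
      rw [hz]
    refine ⟨?_, ?_, ?_⟩
    · funext b
      have h5 := hrow b e₁
      rw [hcol, hcol] at h5
      simp only [hb₁.add_left, hb₁.smul_left, h11, h21, h31, mul_zero, add_zero] at h5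
      exact mul_right_cancel₀ hε0 h5
    · funext b
      have h5 := hrow b e₂
      rw [hcol, hcol] at h5
      simp only [hb₁.add_left, hb₁.smul_left, h12, h22, h32, mul_zero, add_zero, zero_add] at h5
      exact mul_right_cancel₀ hε0 h5
    · funext b
      have h5 := hrow b e₃
      rw [hcol, hcol] at h5
      simp only [hb₁.add_left, hb₁.smul_left, h13, h23, h33, mul_zero, zero_add] at h5
      exact mul_right_cancel₀ hε0 h5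
  obtain ⟨S, hS⟩ : ∃ S : Set (Fin n → F), S = {v | ∃ u y, frm9 f₁ u ∧ v = T (pure9 u y)} := ⟨_, rfl⟩
  have hmemS : ∀ v : Fin n → F, v ∈ S ↔ ∃ u y, frm9 f₁ u ∧ v = T (pure9 u y) := fun v => by
    rw [hS]
    rfl
  have hmemK : ∀ g : GL (Fin n) F, g ∈ Cfsg.stabilizing (Cfsg.glToMat (Fin n) F) S ↔
      ∀ v : Fin n → F, v ∈ S ↔ (g : Matrix (Fin n) (Fin n) F) *ᵥ v ∈ S := fun g => Iff.rfl
  have hSR : ∀ y₁ y₂ y₃, R y₁ y₂ y₃ ∈ S ↔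
      ((y₂ = 0 ∧ y₃ = 0) ∨ (y₁ = 0 ∧ y₃ = 0) ∨ (y₁ = 0 ∧ y₂ = 0)) := by
    intro y₁ y₂ y₃
    rw [hmemS]
    constructor
    · rintro ⟨u, y, hu, hv⟩
      rw [hRpure] at hv
      obtain ⟨e1, e2, e3⟩ := hRinj _ _ _ _ _ _ hv
      obtain ⟨α₁, hα₁⟩ : ∃ α₁, α₁ = ε * f₁ u e₁ := ⟨_, rfl⟩
      obtain ⟨α₂, hα₂⟩ : ∃ α₂, α₂ = ε * f₁ u e₂ := ⟨_, rfl⟩
      obtain ⟨α₃, hα₃⟩ : ∃ α₃, α₃ = ε * f₁ u e₃ := ⟨_, rfl⟩
      rw [← hα₁] at e1
      rw [← hα₂] at e2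
      rw [← hα₃] at e3
      have hu_eq : u = α₁ • e₁ + α₂ • e₂ + α₃ • e₃ := by
        rw [hα₁, hα₂, hα₃]
        exact hsp u
      by_cases h1 : α₁ = 0
      · by_cases h2' : α₂ = 0
        · right
          right
          exact ⟨by rw [e1, h1, zero_smul], by rw [e2, h2', zero_smul]⟩
        · by_cases h3' : α₃ = 0
          · right
            left
            exact ⟨by rw [e1, h1, zero_smul], by rw [e3, h3', zero_smul]⟩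
          · exfalso
            have hu' : u = α₂ • e₂ + α₃ • e₃ + α₁ • e₁ := hu_eq.trans (by abel)
            rw [hu'] at hu
            exact frm_not9 hq f₁ hf₁ ε hε0 e₂ e₃ e₁ h22 h33 h11 h23 h21 h31 α₂ α₃ α₁ h2' h3' hu
      · by_cases h2' : α₂ = 0
        · by_cases h3' : α₃ = 0
          · left
            exact ⟨by rw [e2, h2', zero_smul], by rw [e3, h3', zero_smul]⟩
          · exfalso
            have hu' : u = α₁ • e₁ + α₃ • e₃ + α₂ • e₂ := hu_eq.trans (by abel)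
            rw [hu'] at hu
            exact frm_not9 hq f₁ hf₁ ε hε0 e₁ e₃ e₂ h11 h33 h22 h13 h12 h32 α₁ α₃ α₂ h1 h3' hu
        · exfalso
          rw [hu_eq] at hu
          exact frm_not9 hq f₁ hf₁ ε hε0 e₁ e₂ e₃ h11 h22 h33 h12 h13 h23 α₁ α₂ α₃ h1 h2' hu
    · rintro (⟨h0, h0'⟩ | ⟨h0, h0'⟩ | ⟨h0, h0'⟩)
      · rw [h0, h0', ← hRu1]
        exact ⟨e₁, y₁, hF1, rfl⟩
      · rw [h0, h0', ← hRu2]
        exact ⟨e₂, y₂, hF2, rfl⟩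
      · rw [h0, h0', ← hRu3]
        exact ⟨e₃, y₃, hF3, rfl⟩
  obtain ⟨w₁, w₂, y₀, t₂, hw₁, hw₂, hw₁w₂, hy₀w₁, hy₀w₂, hw₂b, hy₀b, hy₀y₀⟩ :=
    ti_data9 hq f₂ hf₂ hn₂
  have hw₁0 : w₁ ≠ 0 := by
    intro h0
    apply hy₀w₁
    rw [h0]
    exact h2zr y₀
  have hy₀0 : y₀ ≠ 0 := by
    intro h0
    apply hy₀y₀
    rw [h0]
    exact h2z 0
  -- the tensor subgroup stabilises S
  have hfw : ∀ g : GL (Fin n) F, g ∈ Cfsg.Geo.tensorProductSubgroup 3 n₂ e P ⊓ Cfsg.Geo.omegaGL Q →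
      ∀ v, v ∈ S → (g : Matrix (Fin n) (Fin n) F) *ᵥ v ∈ S := by
    intro g hg v hv
    obtain ⟨u, y, hu, rfl⟩ := (hmemS v).mp hv
    obtain ⟨a, b, hAB⟩ := tp_actionI9 e P g hg.1
    have hAB' : ∀ u y, (g : Matrix (Fin n) (Fin n) F) *ᵥ (T (pure9 u y)) =
        T (pure9 ((a : Matrix (Fin 3) (Fin 3) F) *ᵥ u) ((b : Matrix (Fin n₂) (Fin n₂) F) *ᵥ y)) := by
      intro u y
      rw [hT', hT']
      exact hAB u y
    rw [hAB']
    refine (hmemS _).mpr ⟨_, _, ?_, rfl⟩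
    have hgQ : ∀ v, Q ((g : Matrix (Fin n) (Fin n) F) *ᵥ v) = Q v := fun v => omega_iso9 hg.2 v
    have hsim : ∀ u u', f₂ ((b : Matrix (Fin n₂) (Fin n₂) F) *ᵥ y₀)
        ((b : Matrix (Fin n₂) (Fin n₂) F) *ᵥ y₀) *
        f₁ ((a : Matrix (Fin 3) (Fin 3) F) *ᵥ u) ((a : Matrix (Fin 3) (Fin 3) F) *ᵥ u') =
        f₂ y₀ y₀ * f₁ u u' := by
      intro u u'
      have h6 := qf_iso_polar9 hgQ (T (pure9 u y₀)) (T (pure9 u' y₀))
      rw [hAB', hAB', hpure, hpure] at h6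
      have h7 := mul_left_cancel₀ hc0 h6
      linear_combination h7
    exact frm_sim9 f₁ a _ _ hy₀y₀ hsim u hu
  have hstab : ∀ t : GL (Fin n) F, (∀ v, v ∈ S → (t : Matrix (Fin n) (Fin n) F) *ᵥ v ∈ S) →
      t ∈ Cfsg.stabilizing (Cfsg.glToMat (Fin n) F) S := by
    intro t ht
    refine (hmemK t).mpr (fun v => ⟨ht v, fun hv => ?_⟩)
    have hinj : Function.Injective (fun s : S => (⟨(t : Matrix (Fin n) (Fin n) F) *ᵥ s.1, ht s.1 s.2⟩ : S)) := by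
      intro s s' hss
      have h4 : (t : Matrix (Fin n) (Fin n) F) *ᵥ s.1 = (t : Matrix (Fin n) (Fin n) F) *ᵥ s'.1 := congrArg Subtype.val hss
      have h5 : ((t⁻¹ : GL (Fin n) F) : Matrix (Fin n) (Fin n) F) *ᵥ ((t : Matrix (Fin n) (Fin n) F) *ᵥ s.1) = ((t⁻¹ : GL (Fin n) F) : Matrix (Fin n) (Fin n) F) *ᵥ ((t : Matrix (Fin n) (Fin n) F) *ᵥ s'.1) := by rw [h4]
      rw [gl_inv_mul_vec9, gl_inv_mul_vec9] at h5
      exact Subtype.ext h5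
    obtain ⟨s, hs⟩ := (Finite.surjective_of_injective hinj) ⟨(t : Matrix (Fin n) (Fin n) F) *ᵥ v, hv⟩
    have h6 : (t : Matrix (Fin n) (Fin n) F) *ᵥ s.1 = (t : Matrix (Fin n) (Fin n) F) *ᵥ v := congrArg Subtype.val hs
    have h7 : ((t⁻¹ : GL (Fin n) F) : Matrix (Fin n) (Fin n) F) *ᵥ ((t : Matrix (Fin n) (Fin n) F) *ᵥ s.1) = ((t⁻¹ : GL (Fin n) F) : Matrix (Fin n) (Fin n) F) *ᵥ ((t : Matrix (Fin n) (Fin n) F) *ᵥ v) := by rw [h6]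
    rw [gl_inv_mul_vec9, gl_inv_mul_vec9] at h7
    rw [← h7]
    exact s.2
  have hQs1 : ∀ w, f₂ w w = 0 → Q (R w 0 0) = 0 := by
    intro w hw
    have h5 := qf_self9 hQ (R w 0 0)
    rw [hR, hw, h2z, add_zero, add_zero, mul_zero] at h5
    rcases mul_eq_zero.mp h5.symm with h | h
    · exact absurd h h2
    · exact h
  have hQs2 : ∀ w, f₂ w w = 0 → Q (R 0 w 0) = 0 := by
    intro w hw
    have h5 := qf_self9 hQ (R 0 w 0)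
    rw [hR, hw, h2z, add_zero, add_zero, mul_zero] at h5
    rcases mul_eq_zero.mp h5.symm with h | h
    · exact absurd h h2
    · exact h
  -- the Siegel element inside the first summand
  have hx₁x₂ : QuadraticMap.polar Q (R w₁ 0 0) (R w₂ 0 0) = 0 := by
    rw [hR, hw₁w₂, h2z, add_zero, add_zero, mul_zero]
  obtain ⟨p₁, q₁, hp₁, hq₁, hp₁q₁, hp₁p, hq₁p⟩ := qf_hyp9 hQ hchar hn
    (spanL9 [R w₁ 0 0, R w₂ 0 0]) (by
      have := finrank_spanL9 (F := F) [R w₁ 0 0, R w₂ 0 0]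
      simp only [List.length_cons, List.length_nil] at this
      omega)
  obtain ⟨g₁, hg₁Ω, hg₁⟩ := sieg_omega9 hQ (R w₁ 0 0) (R w₂ 0 0) p₁ q₁ (hQs1 w₁ hw₁)
    (hQs1 w₂ hw₂) hp₁ hq₁ hx₁x₂ hp₁q₁ (hp₁p _ (mem_spanL9 (by simp)))
    (hq₁p _ (mem_spanL9 (by simp))) (hp₁p _ (mem_spanL9 (by simp)))
    (hq₁p _ (mem_spanL9 (by simp)))
  have hg₁R : ∀ y₁ y₂ y₃, (g₁ : Matrix (Fin n) (Fin n) F) *ᵥ (R y₁ y₂ y₃) =
      R (y₁ + (c * ε * f₂ y₁ w₂) • w₁ + (-(c * ε * f₂ y₁ w₁)) • w₂) y₂ y₃ := by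
    intro y₁ y₂ y₃
    rw [hg₁, hR, hR]
    simp only [h2zr, add_zero]
    rw [sub_eq_add_neg, ← neg_smul, hRadd, hRadd]
    simp only [smul_zero, add_zero]
  have hfw₁ : ∀ v, v ∈ S → (g₁ : Matrix (Fin n) (Fin n) F) *ᵥ v ∈ S := by
    intro v hv
    obtain ⟨u, y, hu, rfl⟩ := (hmemS v).mp hv
    rw [hRpure, hSR] at hv
    rw [hRpure, hg₁R, hSR]
    rcases hv with ⟨h0, h0'⟩ | ⟨h0, h0'⟩ | ⟨h0, h0'⟩
    · left
      exact ⟨h0, h0'⟩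
    · right
      left
      refine ⟨?_, h0'⟩
      simp only [h0, h2z, mul_zero, neg_zero, zero_smul, add_zero]
    · right
      right
      refine ⟨?_, h0'⟩
      simp only [h0, h2z, mul_zero, neg_zero, zero_smul, add_zero]
  have hg₁K : g₁ ∈ Cfsg.stabilizing (Cfsg.glToMat (Fin n) F) S ⊓ Cfsg.Geo.omegaGL Q :=
    ⟨hstab g₁ hfw₁, hg₁Ω⟩
  refine ⟨Cfsg.stabilizing (Cfsg.glToMat (Fin n) F) S ⊓ Cfsg.Geo.omegaGL Q,
    lt_of_le_of_ne ?_ ?_, lt_of_le_of_ne inf_le_right ?_⟩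
  · intro g hg
    exact ⟨hstab g (hfw g hg), hg.2⟩
  · intro heq
    rw [← heq] at hg₁K
    obtain ⟨a, b, hAB⟩ := tp_actionI9 e P g₁ hg₁K.1
    have hAB' : ∀ u y, (g₁ : Matrix (Fin n) (Fin n) F) *ᵥ (T (pure9 u y)) =
        T (pure9 ((a : Matrix (Fin 3) (Fin 3) F) *ᵥ u) ((b : Matrix (Fin n₂) (Fin n₂) F) *ᵥ y)) := by
      intro u y
      rw [hT', hT']
      exact hAB u y
    have e1 := hAB' e₁ y₀
    rw [hRu1, hg₁R, hRpure] at e1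
    obtain ⟨e1a, -, -⟩ := hRinj _ _ _ _ _ _ e1
    have e2 := hAB' e₂ y₀
    rw [hRu2, hg₁R, hRpure] at e2
    obtain ⟨-, e2b, -⟩ := hRinj _ _ _ _ _ _ e2
    obtain ⟨γ₁, hγ₁⟩ : ∃ γ₁, γ₁ = ε * f₁ ((a : Matrix (Fin 3) (Fin 3) F) *ᵥ e₁) e₁ := ⟨_, rfl⟩
    obtain ⟨β₂, hβ₂⟩ : ∃ β₂, β₂ = ε * f₁ ((a : Matrix (Fin 3) (Fin 3) F) *ᵥ e₂) e₂ := ⟨_, rfl⟩
    rw [← hγ₁] at e1a
    rw [← hβ₂] at e2b
    have hβ₂0 : β₂ ≠ 0 := by
      intro h0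
      apply hy₀0
      rw [e2b, h0, zero_smul]
    have hBy : (b : Matrix (Fin n₂) (Fin n₂) F) *ᵥ y₀ = β₂⁻¹ • y₀ := by
      conv_rhs => rw [e2b]
      rw [smul_smul, inv_mul_cancel₀ hβ₂0, one_smul]
    rw [hBy, smul_smul, hy₀w₂, mul_zero, zero_smul, add_zero] at e1a
    have h9 : f₂ (y₀ + (-(c * ε * f₂ y₀ w₁)) • w₂) t₂ = f₂ ((γ₁ * β₂⁻¹) • y₀) t₂ := by
      rw [e1a]
    rw [hb₂.add_left, hb₂.smul_left, hb₂.smul_left, hy₀b, mul_zero, zero_add] at h9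
    have h10 : c * ε * f₂ y₀ w₁ * f₂ w₂ t₂ ≠ 0 :=
      mul_ne_zero (mul_ne_zero (mul_ne_zero hc0 hε0) hy₀w₁) hw₂b
    apply h10
    linear_combination -h9
  · intro heq
    have hx₁x₃ : QuadraticMap.polar Q (R w₁ 0 0) (R 0 w₁ 0) = 0 := by
      rw [hR, h2zr, h2z, h2z, add_zero, add_zero, mul_zero]
    obtain ⟨p₂, q₂, hp₂, hq₂, hp₂q₂, hp₂p, hq₂p⟩ := qf_hyp9 hQ hchar hn
      (spanL9 [R w₁ 0 0, R 0 w₁ 0]) (by
        have := finrank_spanL9 (F := F) [R w₁ 0 0, R 0 w₁ 0]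
        simp only [List.length_cons, List.length_nil] at this
        omega)
    obtain ⟨g₂, hg₂Ω, hg₂⟩ := sieg_omega9 hQ (R w₁ 0 0) (R 0 w₁ 0) p₂ q₂ (hQs1 w₁ hw₁)
      (hQs2 w₁ hw₁) hp₂ hq₂ hx₁x₃ hp₂q₂ (hp₂p _ (mem_spanL9 (by simp)))
      (hq₂p _ (mem_spanL9 (by simp))) (hp₂p _ (mem_spanL9 (by simp)))
      (hq₂p _ (mem_spanL9 (by simp)))
    have hg₂K : g₂ ∈ Cfsg.stabilizing (Cfsg.glToMat (Fin n) F) S ⊓ Cfsg.Geo.omegaGL Q := by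
      rw [heq]
      exact hg₂Ω
    have hE : (g₂ : Matrix (Fin n) (Fin n) F) *ᵥ (R y₀ 0 0) = R y₀ ((-(c * ε * f₂ y₀ w₁)) • w₁) 0 := by
      rw [hg₂, hR, hR]
      simp only [h2z, h2zr, add_zero, zero_add, mul_zero, zero_smul]
      rw [sub_eq_add_neg, ← neg_smul, hRadd]
      simp only [smul_zero, add_zero, zero_add]
    have h12'' := ((hmemK g₂).mp hg₂K.1 (R y₀ 0 0)).mp ((hSR _ _ _).mpr (Or.inl ⟨rfl, rfl⟩))
    rw [hE, hSR] at h12''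
    have hk1 : (-(c * ε * f₂ y₀ w₁)) • w₁ ≠ 0 := by
      intro h'
      rcases smul_eq_zero.mp h' with h'' | h''
      · exact mul_ne_zero (mul_ne_zero hc0 hε0) hy₀w₁ (neg_eq_zero.mp h'')
      · exact hw₁0 h''
    rcases h12'' with ⟨h', -⟩ | ⟨h', -⟩ | ⟨h', -⟩
    · exact hk1 h'
    · exact hy₀0 h'
    · exact hy₀0 h'


theorem mem_tp9 {ι : Type} [Fintype ι] [DecidableEq ι] {n₁ n₂ : ℕ} (e : ι ≃ Fin n₁ × Fin n₂)
    (P g : GL ι F) :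
    g ∈ Cfsg.Geo.tensorProductSubgroup n₁ n₂ e P ↔
      ∃ k ∈ Cfsg.Geo.kroneckerSubgroup n₁ n₂ F, g = P * Cfsg.Geo.glReindex e.symm k * P⁻¹ := by
  unfold Cfsg.Geo.tensorProductSubgroup
  constructor
  · intro hg
    obtain ⟨g₁, hg₁, hgg⟩ := Subgroup.mem_map.mp hg
    obtain ⟨k, hk, hkg⟩ := Subgroup.mem_map.mp hg₁
    refine ⟨k, hk, ?_⟩
    rw [← hgg, ← hkg]
    rfl
  · rintro ⟨k, hk, rfl⟩
    exact Subgroup.mem_map.mpr ⟨_, Subgroup.mem_map.mpr ⟨k, hk, rfl⟩, rfl⟩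

theorem tp_transport9 {ι : Type} [Fintype ι] [DecidableEq ι] {n n₁ n₂ : ℕ} (ε : ι ≃ Fin n)
    (e : ι ≃ Fin n₁ × Fin n₂) (P g : GL ι F) :
    g ∈ Cfsg.Geo.tensorProductSubgroup n₁ n₂ e P ↔
      Cfsg.Geo.glReindex ε g ∈ Cfsg.Geo.tensorProductSubgroup n₁ n₂ (ε.symm.trans e)
        (Cfsg.Geo.glReindex ε P) := by
  have hcomp : ∀ k : GL (Fin n₁ × Fin n₂) F,
      Cfsg.Geo.glReindex ε (Cfsg.Geo.glReindex e.symm k) =
        Cfsg.Geo.glReindex (ε.symm.trans e).symm k := by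
    intro k
    apply Units.ext
    rfl
  rw [mem_tp9, mem_tp9]
  constructor
  · rintro ⟨k, hk, rfl⟩
    refine ⟨k, hk, ?_⟩
    rw [map_mul, map_mul, map_inv, hcomp]
  · rintro ⟨k, hk, hg⟩
    refine ⟨k, hk, ?_⟩
    apply (Cfsg.Geo.glReindex (F := F) ε).injective
    rw [hg, map_mul, map_mul, map_inv, hcomp]

/-- The odd-dimensional case, by transport of the index type. -/
theorem otens3_odd9 [Fintype F] (hq : Fintype.card F = 3) (m : ℕ) (hm : 6 ≤ m) (n₂ : ℕ)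
    (e : (Unit ⊕ (Fin m ⊕ Fin m)) ≃ Fin 3 × Fin n₂) (P : GL (Unit ⊕ (Fin m ⊕ Fin m)) F)
    (f₁ : (Fin 3 → F) → (Fin 3 → F) → F) (f₂ : (Fin n₂ → F) → (Fin n₂ → F) → F)
    (hf₁ : Cfsg.Geo.IsSymmetricForm f₁) (hf₂ : Cfsg.Geo.IsSymmetricForm f₂)
    (hT : Cfsg.Geo.IsTensorFormStructure id (QuadraticMap.polar (Cfsg.quadFormOdd m F)) f₁ f₂
      e P) :
    ∃ K : Subgroup (GL (Unit ⊕ (Fin m ⊕ Fin m)) F),
      Cfsg.Geo.tensorProductSubgroup 3 n₂ e P ⊓ Cfsg.Geo.omegaGL (Cfsg.quadFormOdd m F) < K ∧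
      K < Cfsg.Geo.omegaGL (Cfsg.quadFormOdd m F) := by
  classical
  have h2 : (2 : F) ≠ 0 := f3_two9 hq
  obtain ⟨Q, hQdef⟩ : ∃ Q, Q = Cfsg.quadFormOdd m F := ⟨_, rfl⟩
  rw [← hQdef] at hT ⊢
  have hQ : Cfsg.Geo.IsNondegenerateQuadraticForm Q := by
    rw [hQdef]
    exact quadFormOdd_nondeg9 m h2
  obtain ⟨ε⟩ : Nonempty ((Unit ⊕ (Fin m ⊕ Fin m)) ≃
      Fin (Fintype.card (Unit ⊕ (Fin m ⊕ Fin m)))) := ⟨Fintype.equivFin _⟩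
  have hcardι : Fintype.card (Unit ⊕ (Fin m ⊕ Fin m)) = 1 + (m + m) := by
    rw [Fintype.card_sum, Fintype.card_sum, Fintype.card_fin, Fintype.card_unit]
  have hcard2 : Fintype.card (Unit ⊕ (Fin m ⊕ Fin m)) = 3 * n₂ := by
    have h4 := Fintype.card_congr e
    rw [Fintype.card_prod, Fintype.card_fin, Fintype.card_fin] at h4
    exact h4
  have hn : 13 ≤ Fintype.card (Unit ⊕ (Fin m ⊕ Fin m)) := by omega
  have hn₂ : 5 ≤ n₂ := by omega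
  obtain ⟨c, hc0, hTc⟩ := hT
  have hT2 : Cfsg.Geo.IsTensorFormStructure id (QuadraticMap.polar (qL9 ε Q)) f₁ f₂
      (ε.symm.trans e) (Cfsg.Geo.glReindex ε P) := by
    refine ⟨c, hc0, fun x y => ?_⟩
    have e1 : ∀ z : Fin 3 × Fin n₂ → F,
        ((Cfsg.Geo.glReindex (F := F) ε P : GL (Fin (Fintype.card (Unit ⊕ (Fin m ⊕ Fin m)))) F) :
          Matrix (Fin (Fintype.card (Unit ⊕ (Fin m ⊕ Fin m))))
            (Fin (Fintype.card (Unit ⊕ (Fin m ⊕ Fin m)))) F) *ᵥ (z ∘ (ε.symm.trans e)) =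
        vecL9 F ε ((P : Matrix (Unit ⊕ (Fin m ⊕ Fin m)) (Unit ⊕ (Fin m ⊕ Fin m)) F) *ᵥ
          (z ∘ e)) := by
      intro z
      rw [← glReindex_mulVec9]
      rfl
    rw [e1, e1, qL_polar_apply9, hTc]
  obtain ⟨K', h1, h2'⟩ := otens3_gen9 hn (qL9 ε Q) (qL_nondeg9 ε Q hQ) hq n₂ hn₂
    (ε.symm.trans e) (Cfsg.Geo.glReindex ε P) f₁ f₂ hf₁ hf₂ hT2
  have hsurj : Function.Surjective (Cfsg.Geo.glReindex (F := F) ε).toMonoidHom :=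
    (Cfsg.Geo.glReindex (F := F) ε).surjective
  have hH : Cfsg.Geo.tensorProductSubgroup 3 n₂ e P ⊓ Cfsg.Geo.omegaGL Q =
      (Cfsg.Geo.tensorProductSubgroup 3 n₂ (ε.symm.trans e) (Cfsg.Geo.glReindex ε P) ⊓
        Cfsg.Geo.omegaGL (qL9 ε Q)).comap (Cfsg.Geo.glReindex (F := F) ε).toMonoidHom := by
    ext g
    rw [Subgroup.mem_comap, Subgroup.mem_inf, Subgroup.mem_inf]
    exact and_congr (tp_transport9 ε e P g) (omega_mem_transport9 ε Q g)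
  have hΩ : Cfsg.Geo.omegaGL Q =
      (Cfsg.Geo.omegaGL (qL9 ε Q)).comap (Cfsg.Geo.glReindex (F := F) ε).toMonoidHom := by
    ext g
    rw [Subgroup.mem_comap]
    exact omega_mem_transport9 ε Q g
  refine ⟨K'.comap (Cfsg.Geo.glReindex (F := F) ε).toMonoidHom, ?_, ?_⟩
  · rw [hH]
    exact (Subgroup.comap_lt_comap_of_surjective hsurj).mpr h1
  · rw [hΩ]
    exact (Subgroup.comap_lt_comap_of_surjective hsurj).mpr h2'

end Cfsg.Agent.Helper9
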