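import Mathlib
import Cfsg.Agent.Helper9.OTens9b

set_option autoImplicit false

namespace Cfsg.Agent.Helper9

open Cfsg
open scoped MatrixGroups Matrix commutatorElement

variable {ι : Type} [Fintype ι] [DecidableEq ι] {F : Type*} [Field F] {Q : (ι → F) → F}

theorem qI_add9 (x y : ι → F) : Q (x + y) = Q x + Q y + QuadraticMap.polar Q x y := by
  rw [QuadraticMap.polar]
  ring

theorem qI_self9 (hQ : Cfsg.Geo.IsNondegenerateQuadraticForm Q) (x : ι → F) : QuadraticMap.polar Q x x = 2 * Q x := by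
  rw [QuadraticMap.polar, ← two_smul F x, hQ.smul]
  ring

theorem qI_nl9 (hQ : Cfsg.Geo.IsNondegenerateQuadraticForm Q) (x v : ι → F) : QuadraticMap.polar Q (-x) v = -QuadraticMap.polar Q x v := by
  have := hQ.polar_bilinear.smul_left (-1) x v
  rw [neg_one_smul, neg_one_mul] at this
  exact this

theorem qI_nr9 (hQ : Cfsg.Geo.IsNondegenerateQuadraticForm Q) (v x : ι → F) : QuadraticMap.polar Q v (-x) = -QuadraticMap.polar Q v x := by
  rw [QuadraticMap.polar_comm, qI_nl9 hQ, QuadraticMap.polar_comm]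

theorem qI_subl9 (hQ : Cfsg.Geo.IsNondegenerateQuadraticForm Q) (x y v : ι → F) : QuadraticMap.polar Q (x - y) v = QuadraticMap.polar Q x v - QuadraticMap.polar Q y v := by
  rw [sub_eq_add_neg, hQ.polar_bilinear.add_left, qI_nl9 hQ, ← sub_eq_add_neg]

theorem qI_subr9 (hQ : Cfsg.Geo.IsNondegenerateQuadraticForm Q) (v x y : ι → F) : QuadraticMap.polar Q v (x - y) = QuadraticMap.polar Q v x - QuadraticMap.polar Q v y := by
  rw [sub_eq_add_neg, hQ.polar_bilinear.add_right, qI_nr9 hQ, ← sub_eq_add_neg]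

theorem qI_lin2_9 (hQ : Cfsg.Geo.IsNondegenerateQuadraticForm Q) (α β : F) (a b : ι → F) :
    Q (α • a + β • b) = α ^ 2 * Q a + β ^ 2 * Q b + α * β * QuadraticMap.polar Q a b := by
  rw [qI_add9 (Q := Q), hQ.smul, hQ.smul, hQ.polar_bilinear.smul_left, hQ.polar_bilinear.smul_right]
  ring

theorem qI_sub9 (hQ : Cfsg.Geo.IsNondegenerateQuadraticForm Q) (a b : ι → F) :
    Q (a - b) = Q a + Q b - QuadraticMap.polar Q a b := by
  have h1 : a - b = (1 : F) • a + (-1 : F) • b := by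
    rw [one_smul, neg_one_smul, sub_eq_add_neg]
  rw [h1, qI_lin2_9 hQ]
  ring

theorem qI_iso_polar9 {h : GL ι F} (hh : ∀ x, Q ((h : Matrix ι ι F) *ᵥ x) = Q x) (x y : ι → F) :
    QuadraticMap.polar Q ((h : Matrix ι ι F) *ᵥ x) ((h : Matrix ι ι F) *ᵥ y) = QuadraticMap.polar Q x y := by
  rw [QuadraticMap.polar, QuadraticMap.polar, ← Matrix.mulVec_add, hh, hh, hh]

theorem omegaI_iso9 {g : GL ι F} (hg : g ∈ Cfsg.Geo.omegaGL Q) (v : ι → F) : Q ((g : Matrix ι ι F) *ᵥ v) = Q v := by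
  obtain ⟨y, -, rfl⟩ := Subgroup.mem_map.mp hg
  exact y.2 v v

theorem commI_mem_omega9 {s s' : GL ι F} (hs : ∀ v, Q ((s : Matrix ι ι F) *ᵥ v) = Q v)
    (hs' : ∀ v, Q ((s' : Matrix ι ι F) *ᵥ v) = Q v) : s * s' * s⁻¹ * s'⁻¹ ∈ Cfsg.Geo.omegaGL Q := by
  have hsI : s ∈ Cfsg.isometryGroup F Q := fun u _ => hs u
  have hs'I : s' ∈ Cfsg.isometryGroup F Q := fun u _ => hs' u
  obtain ⟨a, ha⟩ : ∃ a : Cfsg.isometryGroup F Q, (a : GL ι F) = s := ⟨⟨s, hsI⟩, rfl⟩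
  obtain ⟨b, hb⟩ : ∃ b : Cfsg.isometryGroup F Q, (b : GL ι F) = s' := ⟨⟨s', hs'I⟩, rfl⟩
  have hmem : a * b * a⁻¹ * b⁻¹ ∈ commutator (Cfsg.isometryGroup F Q) := by
    have h := Subgroup.commutator_mem_commutator (Subgroup.mem_top a) (Subgroup.mem_top b)
    rw [commutatorElement_def] at h
    rw [commutator_def]
    exact h
  refine Subgroup.mem_map.mpr ⟨a * b * a⁻¹ * b⁻¹, hmem, ?_⟩
  rw [Subgroup.coe_subtype, Subgroup.coe_mul, Subgroup.coe_mul, Subgroup.coe_mul, Subgroup.coe_inv,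
    Subgroup.coe_inv, ha, hb]

/-- The reflection in a non-singular vector. -/
theorem exists_refl9 (hQ : Cfsg.Geo.IsNondegenerateQuadraticForm Q) (v : ι → F) (hv : Q v ≠ 0) :
    ∃ g : GL ι F, (∀ x, (g : Matrix ι ι F) *ᵥ x = x - (QuadraticMap.polar Q x v * (Q v)⁻¹) • v) ∧
      (∀ x, ((g⁻¹ : GL ι F) : Matrix ι ι F) *ᵥ x = x - (QuadraticMap.polar Q x v * (Q v)⁻¹) • v) ∧ ∀ x, Q ((g : Matrix ι ι F) *ᵥ x) = Q x := by
  classical
  have hbl := hQ.polar_bilinear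
  have hc : (Q v)⁻¹ * Q v = 1 := inv_mul_cancel₀ hv
  obtain ⟨r, hr⟩ : ∃ r : (ι → F) →ₗ[F] (ι → F), ∀ x, r x = x - (QuadraticMap.polar Q x v * (Q v)⁻¹) • v := by
    refine ⟨{ toFun := fun x => x - (QuadraticMap.polar Q x v * (Q v)⁻¹) • v, map_add' := ?_, map_smul' := ?_ },
      fun _ => rfl⟩
    · intro x y
      show x + y - (QuadraticMap.polar Q (x + y) v * (Q v)⁻¹) • v =
        (x - (QuadraticMap.polar Q x v * (Q v)⁻¹) • v) + (y - (QuadraticMap.polar Q y v * (Q v)⁻¹) • v)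
      rw [hbl.add_left, add_mul, add_smul]
      abel
    · intro c x
      show c • x - (QuadraticMap.polar Q (c • x) v * (Q v)⁻¹) • v = c • (x - (QuadraticMap.polar Q x v * (Q v)⁻¹) • v)
      rw [hbl.smul_left, smul_sub, smul_smul, mul_assoc]
  have hrr : ∀ x, r (r x) = x := by
    intro x
    have h1 : QuadraticMap.polar Q (x - (QuadraticMap.polar Q x v * (Q v)⁻¹) • v) v = - QuadraticMap.polar Q x v := by
      rw [qI_subl9 hQ, hbl.smul_left, qI_self9 hQ]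
      linear_combination (-2 * QuadraticMap.polar Q x v) * hc
    have h2 : r (r x) = x - (QuadraticMap.polar Q x v * (Q v)⁻¹) • v -
        (QuadraticMap.polar Q (x - (QuadraticMap.polar Q x v * (Q v)⁻¹) • v) v * (Q v)⁻¹) • v := by
      rw [hr (r x), hr x]
    rw [h2, h1, neg_mul, neg_smul]
    abel
  have hMM : LinearMap.toMatrix' r * LinearMap.toMatrix' r = 1 := by
    rw [← LinearMap.toMatrix'_comp]
    have h1 : r ∘ₗ r = LinearMap.id := LinearMap.ext hrr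
    rw [h1, LinearMap.toMatrix'_id]
  have hMv : ∀ x, LinearMap.toMatrix' r *ᵥ x = r x := by
    intro x
    rw [← Matrix.toLin'_apply, Matrix.toLin'_toMatrix']
  refine ⟨⟨LinearMap.toMatrix' r, LinearMap.toMatrix' r, hMM, hMM⟩, ?_, ?_, ?_⟩
  · intro x
    show LinearMap.toMatrix' r *ᵥ x = _
    rw [hMv, hr]
  · intro x
    show LinearMap.toMatrix' r *ᵥ x = _
    rw [hMv, hr]
  · intro x
    show Q (LinearMap.toMatrix' r *ᵥ x) = _
    rw [hMv, hr]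
    have h2 : x - (QuadraticMap.polar Q x v * (Q v)⁻¹) • v = (1 : F) • x + (-(QuadraticMap.polar Q x v * (Q v)⁻¹)) • v := by
      rw [one_smul, neg_smul, sub_eq_add_neg]
    rw [h2, qI_lin2_9 hQ]
    linear_combination (QuadraticMap.polar Q x v) ^ 2 * (Q v)⁻¹ * hc

/-- The product of the reflections in two vectors of one norm lies in `Ω`. -/
theorem refl_mul_omega9 (hQ : Cfsg.Geo.IsNondegenerateQuadraticForm Q) (v w : ι → F) (hv : Q v ≠ 0)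
    (hvw : Q w = Q v) (hs : Q (v + w) ≠ 0) (g h : GL ι F)
    (hg : ∀ x, (g : Matrix ι ι F) *ᵥ x = x - (QuadraticMap.polar Q x v * (Q v)⁻¹) • v)
    (hgi : ∀ x, ((g⁻¹ : GL ι F) : Matrix ι ι F) *ᵥ x = x - (QuadraticMap.polar Q x v * (Q v)⁻¹) • v)
    (hgQ : ∀ x, Q ((g : Matrix ι ι F) *ᵥ x) = Q x)
    (hh : ∀ x, (h : Matrix ι ι F) *ᵥ x = x - (QuadraticMap.polar Q x w * (Q w)⁻¹) • w) : g * h ∈ Cfsg.Geo.omegaGL Q := by
  have hbl := hQ.polar_bilinear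
  obtain ⟨k, hk, hki, hkQ⟩ := exists_refl9 hQ (v + w) hs
  have hkv : (k : Matrix ι ι F) *ᵥ v = -w := by
    rw [hk]
    have h1 : QuadraticMap.polar Q v (v + w) = Q (v + w) := by
      rw [hbl.add_right, qI_self9 hQ, qI_add9 (Q := Q) v w, hvw]
      ring
    rw [h1, mul_inv_cancel₀ hs, one_smul]
    abel
  have hkk : ∀ x, (k : Matrix ι ι F) *ᵥ ((k : Matrix ι ι F) *ᵥ x) = x := by
    intro x
    have h1 := gl_inv_mul_vecI9 k x
    have h2 : ((k⁻¹ : GL ι F) : Matrix ι ι F) *ᵥ ((k : Matrix ι ι F) *ᵥ x) = (k : Matrix ι ι F) *ᵥ ((k : Matrix ι ι F) *ᵥ x) := by rw [hki, hk ((k : Matrix ι ι F) *ᵥ x)]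
    rw [← h2]
    exact h1
  have hkey : ∀ x, (k : Matrix ι ι F) *ᵥ ((g : Matrix ι ι F) *ᵥ ((k : Matrix ι ι F) *ᵥ x)) = (h : Matrix ι ι F) *ᵥ x := by
    intro x
    have h1 : QuadraticMap.polar Q ((k : Matrix ι ι F) *ᵥ x) v = - QuadraticMap.polar Q x w := by
      have h2 := qI_iso_polar9 hkQ x ((k : Matrix ι ι F) *ᵥ v)
      rw [hkk, hkv, qI_nr9 hQ] at h2
      exact h2
    rw [hg ((k : Matrix ι ι F) *ᵥ x), Matrix.mulVec_sub, Matrix.mulVec_smul, hkk, hkv, hh, h1, hvw]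
    rw [neg_mul, neg_smul, smul_neg, neg_neg]
  have e1 : ∀ y, ((k⁻¹ : GL ι F) : Matrix ι ι F) *ᵥ y = (k : Matrix ι ι F) *ᵥ y := fun y => by rw [hki, hk]
  have e2 : ∀ y, ((g⁻¹ : GL ι F) : Matrix ι ι F) *ᵥ y = (g : Matrix ι ι F) *ᵥ y := fun y => by rw [hgi, hg]
  have heq : g * h = g * k * g⁻¹ * k⁻¹ := by
    apply Units.ext
    apply Matrix.toLin'.injective
    apply LinearMap.ext
    intro x
    rw [Matrix.toLin'_apply, Matrix.toLin'_apply, gl_mul_vecI9, gl_mul_vecI9 (g * k * g⁻¹) k⁻¹,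
      gl_mul_vecI9 (g * k) g⁻¹, gl_mul_vecI9 g k, e1, e2, hkey]
  rw [heq]
  exact commI_mem_omega9 hgQ hkQ

theorem odec_dim9 {t k : ℕ} (D : Fin t → Submodule F (ι → F)) (hD : Cfsg.Geo.IsMDecomposition k D) :
    t * k = Fintype.card ι := by
  classical
  have hint : DirectSum.IsInternal D :=
    DirectSum.isInternal_submodule_of_iSupIndep_of_iSup_eq_top hD.indep hD.iSup_eq_top
  have B := hint.collectedBasis (fun i => Module.finBasisOfFinrankEq F (D i) (hD.finrank_eq i))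
  have h1 := Module.finrank_eq_card_basis B
  rw [Module.finrank_fintype_fun_eq_card] at h1
  rw [h1]
  simp

/-- The core: a frame of one norm adapted to the decomposition gives an overgroup. -/
theorem odec_core9 [Fintype F] (hq : Fintype.card F = 3)
    (hQ : Cfsg.Geo.IsNondegenerateQuadraticForm Q) {t k : ℕ} (D : Fin t → Submodule F (ι → F))
    (hD : Cfsg.Geo.IsOrthogonalMDecomposition Q k D) (s₀ : F) (hs₀ : s₀ ≠ 0)
    (E : Fin t → Fin k → ι → F) (hE : ∀ i j, E i j ∈ D i) (hN : ∀ i j, Q (E i j) = s₀)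
    (hO : ∀ i j j', j ≠ j' → QuadraticMap.polar Q (E i j) (E i j') = 0)
    (hC : ∀ i v, v ∈ D i → Q v = s₀ → ∃ j, v = E i j ∨ v = -E i j)
    (i₁ i₂ i₃ : Fin t) (h12 : i₁ ≠ i₂) (h13 : i₁ ≠ i₃) (h23 : i₂ ≠ i₃) (j₁ j₂ : Fin k)
    (hj : j₁ ≠ j₂) :
    ∃ K : Subgroup (GL ι F), Cfsg.Geo.decompositionStabilizer D ⊓ Cfsg.Geo.omegaGL Q < K ∧
      K < Cfsg.Geo.omegaGL Q := by
  classical
  have hbl := hQ.polar_bilinear
  have h3 : (3 : F) = 0 := f3_three9 hq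
  have h2 : (2 : F) ≠ 0 := f3_two9 hq
  have horth := hD.decomp.orthogonal
  have hOO : ∀ i j i' j', (i ≠ i' ∨ j ≠ j') → QuadraticMap.polar Q (E i j) (E i' j') = 0 := by
    intro i j i' j' h
    by_cases hi : i = i'
    · rw [← hi]
      rcases h with h | h
      · exact absurd hi h
      · exact hO i j j' h
    · exact horth i i' hi _ (hE i j) _ (hE i' j')
  have h2s : 2 * s₀ ≠ 0 := mul_ne_zero h2 hs₀
  have hEE : ∀ i j, QuadraticMap.polar Q (E i j) (E i j) = 2 * s₀ := by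
    intro i j
    rw [qI_self9 hQ, hN]
  obtain ⟨S, hS⟩ : ∃ S : Set (ι → F), ∀ v, v ∈ S ↔ ∃ i, v ∈ D i ∧ Q v = s₀ :=
    ⟨{v | ∃ i, v ∈ D i ∧ Q v = s₀}, fun _ => Iff.rfl⟩
  have hmemK : ∀ g : GL ι F, g ∈ Cfsg.stabilizing (Cfsg.glToMat ι F) S ↔
      ∀ v : ι → F, v ∈ S ↔ (g : Matrix ι ι F) *ᵥ v ∈ S := fun g => Iff.rfl
  have hstab : ∀ t : GL ι F, (∀ v, v ∈ S → (t : Matrix ι ι F) *ᵥ v ∈ S) →
      t ∈ Cfsg.stabilizing (Cfsg.glToMat ι F) S := by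
    intro t ht
    refine (hmemK t).mpr (fun v => ⟨ht v, fun hv => ?_⟩)
    have hinj : Function.Injective (fun s : S => (⟨(t : Matrix ι ι F) *ᵥ s.1, ht s.1 s.2⟩ : S)) := by
      intro s s' hss
      have h4 : (t : Matrix ι ι F) *ᵥ s.1 = (t : Matrix ι ι F) *ᵥ s'.1 := congrArg Subtype.val hss
      have h5 : ((t⁻¹ : GL ι F) : Matrix ι ι F) *ᵥ ((t : Matrix ι ι F) *ᵥ s.1) = ((t⁻¹ : GL ι F) : Matrix ι ι F) *ᵥ ((t : Matrix ι ι F) *ᵥ s'.1) := by rw [h4]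
      rw [gl_inv_mul_vecI9, gl_inv_mul_vecI9] at h5
      exact Subtype.ext h5
    obtain ⟨s, hs⟩ := (Finite.surjective_of_injective hinj) ⟨(t : Matrix ι ι F) *ᵥ v, hv⟩
    have h6 : (t : Matrix ι ι F) *ᵥ s.1 = (t : Matrix ι ι F) *ᵥ v := congrArg Subtype.val hs
    have h7 : ((t⁻¹ : GL ι F) : Matrix ι ι F) *ᵥ ((t : Matrix ι ι F) *ᵥ s.1) = ((t⁻¹ : GL ι F) : Matrix ι ι F) *ᵥ ((t : Matrix ι ι F) *ᵥ v) := by rw [h6]
    rw [gl_inv_mul_vecI9, gl_inv_mul_vecI9] at h7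
    rw [← h7]
    exact s.2
  have hblk : ∀ x i i', x ∈ D i → x ∈ D i' → QuadraticMap.polar Q x x ≠ 0 → i = i' := by
    intro x i i' hx hx' hne
    by_contra hii
    exact hne (horth i i' hii x hx x hx')
  obtain ⟨a, ha⟩ : ∃ a, a = E i₁ j₁ := ⟨_, rfl⟩
  obtain ⟨b, hb⟩ : ∃ b, b = E i₁ j₂ := ⟨_, rfl⟩
  obtain ⟨c, hc⟩ : ∃ c, c = E i₂ j₁ := ⟨_, rfl⟩
  obtain ⟨d, hd⟩ : ∃ d, d = E i₃ j₁ := ⟨_, rfl⟩
  have hQa : Q a = s₀ := by rw [ha]; exact hN _ _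
  have hQb : Q b = s₀ := by rw [hb]; exact hN _ _
  have hQc : Q c = s₀ := by rw [hc]; exact hN _ _
  have hQd : Q d = s₀ := by rw [hd]; exact hN _ _
  have haa : QuadraticMap.polar Q a a = 2 * s₀ := by rw [ha]; exact hEE _ _
  have hbb : QuadraticMap.polar Q b b = 2 * s₀ := by rw [hb]; exact hEE _ _
  have hcc : QuadraticMap.polar Q c c = 2 * s₀ := by rw [hc]; exact hEE _ _
  have hdd : QuadraticMap.polar Q d d = 2 * s₀ := by rw [hd]; exact hEE _ _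
  have hab : QuadraticMap.polar Q a b = 0 := by rw [ha, hb]; exact hOO _ _ _ _ (Or.inr hj)
  have hac : QuadraticMap.polar Q a c = 0 := by rw [ha, hc]; exact hOO _ _ _ _ (Or.inl h12)
  have had : QuadraticMap.polar Q a d = 0 := by rw [ha, hd]; exact hOO _ _ _ _ (Or.inl h13)
  have hbc : QuadraticMap.polar Q b c = 0 := by rw [hb, hc]; exact hOO _ _ _ _ (Or.inl h12)
  have hbd : QuadraticMap.polar Q b d = 0 := by rw [hb, hd]; exact hOO _ _ _ _ (Or.inl h13)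
  have hcd : QuadraticMap.polar Q c d = 0 := by rw [hc, hd]; exact hOO _ _ _ _ (Or.inl h23)
  have hba : QuadraticMap.polar Q b a = 0 := by rw [QuadraticMap.polar_comm]; exact hab
  have hca : QuadraticMap.polar Q c a = 0 := by rw [QuadraticMap.polar_comm]; exact hac
  have hda : QuadraticMap.polar Q d a = 0 := by rw [QuadraticMap.polar_comm]; exact had
  have hcb : QuadraticMap.polar Q c b = 0 := by rw [QuadraticMap.polar_comm]; exact hbc
  have hdb : QuadraticMap.polar Q d b = 0 := by rw [QuadraticMap.polar_comm]; exact hbd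
  have hdc : QuadraticMap.polar Q d c = 0 := by rw [QuadraticMap.polar_comm]; exact hcd
  -- the first witness
  obtain ⟨u, hu⟩ : ∃ u, u = a - c := ⟨_, rfl⟩
  obtain ⟨w, hw⟩ : ∃ w, w = b - d := ⟨_, rfl⟩
  have hQu : Q u = 2 * s₀ := by
    rw [hu, qI_sub9 hQ, hQa, hQc, hac]
    ring
  have hQw : Q w = 2 * s₀ := by
    rw [hw, qI_sub9 hQ, hQb, hQd, hbd]
    ring
  have hu0 : Q u ≠ 0 := by rw [hQu]; exact h2s
  have hw0 : Q w ≠ 0 := by rw [hQw]; exact h2s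
  have huw : QuadraticMap.polar Q u w = 0 := by
    rw [hu, hw, qI_subl9 hQ, qI_subr9 hQ, qI_subr9 hQ, hab, had, hcb, hcd]
    ring
  have huw0 : Q (u + w) ≠ 0 := by
    rw [qI_add9 (Q := Q), hQu, hQw, huw]
    intro h
    apply hs₀
    linear_combination h - s₀ * h3
  obtain ⟨r₁, hr₁, hr₁i, hr₁Q⟩ := exists_refl9 hQ u hu0
  obtain ⟨r₂, hr₂, hr₂i, hr₂Q⟩ := exists_refl9 hQ w hw0
  have hg₁Ω : r₁ * r₂ ∈ Cfsg.Geo.omegaGL Q :=
    refl_mul_omega9 hQ u w hu0 (hQw.trans hQu.symm) huw0 r₁ r₂ hr₁ hr₁i hr₁Q hr₂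
  have hr₁fix : ∀ x, QuadraticMap.polar Q x u = 0 → (r₁ : Matrix ι ι F) *ᵥ x = x := by
    intro x hx
    rw [hr₁, hx, zero_mul, zero_smul, sub_zero]
  have hr₂fix : ∀ x, QuadraticMap.polar Q x w = 0 → (r₂ : Matrix ι ι F) *ᵥ x = x := by
    intro x hx
    rw [hr₂, hx, zero_mul, zero_smul, sub_zero]
  have hr₁a : (r₁ : Matrix ι ι F) *ᵥ a = c := by
    have h1 : QuadraticMap.polar Q a u = 2 * s₀ := by
      rw [hu, qI_subr9 hQ, haa, hac, sub_zero]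
    rw [hr₁, h1, hQu, mul_inv_cancel₀ h2s, one_smul, hu]
    abel
  have hr₁c : (r₁ : Matrix ι ι F) *ᵥ c = a := by
    have h1 : QuadraticMap.polar Q c u = -(2 * s₀) := by
      rw [hu, qI_subr9 hQ, hcc, hca, zero_sub]
    rw [hr₁, h1, hQu, neg_mul, mul_inv_cancel₀ h2s, neg_smul, one_smul, hu]
    abel
  have hr₂b : (r₂ : Matrix ι ι F) *ᵥ b = d := by
    have h1 : QuadraticMap.polar Q b w = 2 * s₀ := by
      rw [hw, qI_subr9 hQ, hbb, hbd, sub_zero]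
    rw [hr₂, h1, hQw, mul_inv_cancel₀ h2s, one_smul, hw]
    abel
  have hr₂d : (r₂ : Matrix ι ι F) *ᵥ d = b := by
    have h1 : QuadraticMap.polar Q d w = -(2 * s₀) := by
      rw [hw, qI_subr9 hQ, hdd, hdb, zero_sub]
    rw [hr₂, h1, hQw, neg_mul, mul_inv_cancel₀ h2s, neg_smul, one_smul, hw]
    abel
  have hdu : QuadraticMap.polar Q d u = 0 := by rw [hu, qI_subr9 hQ, hda, hdc, sub_zero]
  have hbu : QuadraticMap.polar Q b u = 0 := by rw [hu, qI_subr9 hQ, hba, hbc, sub_zero]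
  have haw : QuadraticMap.polar Q a w = 0 := by rw [hw, qI_subr9 hQ, hab, had, sub_zero]
  have hg₁E : ∀ i j, ∃ i' j', ((r₁ * r₂ : GL ι F) : Matrix ι ι F) *ᵥ (E i j) = E i' j' := by
    intro i j
    by_cases hB : i = i₁ ∧ j = j₂
    · refine ⟨i₃, j₁, ?_⟩
      rw [gl_mul_vecI9, hB.1, hB.2, ← hb, hr₂b, hr₁fix d hdu, hd]
    · by_cases hDd : i = i₃ ∧ j = j₁
      · refine ⟨i₁, j₂, ?_⟩
        rw [gl_mul_vecI9, hDd.1, hDd.2, ← hd, hr₂d, hr₁fix b hbu, hb]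
      · have hxw : QuadraticMap.polar Q (E i j) w = 0 := by
          rw [hw, qI_subr9 hQ, hb, hd, hOO _ _ _ _ (not_and_or.mp hB),
            hOO _ _ _ _ (not_and_or.mp hDd), sub_zero]
        by_cases hA : i = i₁ ∧ j = j₁
        · refine ⟨i₂, j₁, ?_⟩
          rw [gl_mul_vecI9, hr₂fix _ hxw, hA.1, hA.2, ← ha, hr₁a, hc]
        · by_cases hCc : i = i₂ ∧ j = j₁
          · refine ⟨i₁, j₁, ?_⟩
            rw [gl_mul_vecI9, hr₂fix _ hxw, hCc.1, hCc.2, ← hc, hr₁c, ha]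
          · have hxu : QuadraticMap.polar Q (E i j) u = 0 := by
              rw [hu, qI_subr9 hQ, ha, hc, hOO _ _ _ _ (not_and_or.mp hA),
                hOO _ _ _ _ (not_and_or.mp hCc), sub_zero]
            refine ⟨i, j, ?_⟩
            rw [gl_mul_vecI9, hr₂fix _ hxw, hr₁fix _ hxu]
  have hfw₁ : ∀ v, v ∈ S → ((r₁ * r₂ : GL ι F) : Matrix ι ι F) *ᵥ v ∈ S := by
    intro v hv
    obtain ⟨i, hvi, hvQ⟩ := (hS v).mp hv
    have hQg : Q (((r₁ * r₂ : GL ι F) : Matrix ι ι F) *ᵥ v) = s₀ := by rw [omegaI_iso9 hg₁Ω, hvQ]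
    obtain ⟨j, hj' | hj'⟩ := hC i v hvi hvQ
    · obtain ⟨i', j', hij⟩ := hg₁E i j
      refine (hS _).mpr ⟨i', ?_, hQg⟩
      rw [hj', hij]
      exact hE i' j'
    · obtain ⟨i', j', hij⟩ := hg₁E i j
      refine (hS _).mpr ⟨i', ?_, hQg⟩
      rw [hj', Matrix.mulVec_neg, hij]
      exact (D i').neg_mem (hE i' j')
  have hg₁D : r₁ * r₂ ∉ Cfsg.Geo.decompositionStabilizer D := by
    rintro ⟨σ, hσ⟩
    have h1 : ∀ x ∈ D i₁, ((r₁ * r₂ : GL ι F) : Matrix ι ι F) *ᵥ x ∈ D (σ i₁) := by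
      intro x hx
      rw [← hσ i₁]
      exact Submodule.mem_map.mpr ⟨x, hx, Matrix.toLin'_apply _ _⟩
    have hga : ((r₁ * r₂ : GL ι F) : Matrix ι ι F) *ᵥ a = c := by rw [gl_mul_vecI9, hr₂fix a haw, hr₁a]
    have hgb : ((r₁ * r₂ : GL ι F) : Matrix ι ι F) *ᵥ b = d := by rw [gl_mul_vecI9, hr₂b, hr₁fix d hdu]
    have h4 := h1 a (by rw [ha]; exact hE i₁ j₁)
    rw [hga] at h4
    have h5 := h1 b (by rw [hb]; exact hE i₁ j₂)
    rw [hgb] at h5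
    have h6 : σ i₁ = i₂ := hblk c _ _ h4 (by rw [hc]; exact hE i₂ j₁) (by rw [hcc]; exact h2s)
    have h7 : σ i₁ = i₃ := hblk d _ _ h5 (by rw [hd]; exact hE i₃ j₁) (by rw [hdd]; exact h2s)
    exact h23 (h6.symm.trans h7)
  -- the second witness
  obtain ⟨x, hx⟩ : ∃ x, x = a + b + c + d := ⟨_, rfl⟩
  have hQx : Q x = s₀ := by
    have e1 : Q (a + b) = 2 * s₀ := by
      rw [qI_add9 (Q := Q), hQa, hQb, hab]
      ring
    have e2 : Q (a + b + c) = 3 * s₀ := by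
      rw [qI_add9 (Q := Q), e1, hQc, hbl.add_left, hac, hbc]
      ring
    rw [hx, qI_add9 (Q := Q), e2, hQd, hbl.add_left, hbl.add_left, had, hbd, hcd]
    linear_combination s₀ * h3
  have hxa : QuadraticMap.polar Q x a = 2 * s₀ := by
    rw [hx, hbl.add_left, hbl.add_left, hbl.add_left, haa, hba, hca, hda]
    ring
  have hxb : QuadraticMap.polar Q x b = 2 * s₀ := by
    rw [hx, hbl.add_left, hbl.add_left, hbl.add_left, hab, hbb, hcb, hdb]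
    ring
  have hx0 : Q x ≠ 0 := by rw [hQx]; exact hs₀
  have ha0 : Q a ≠ 0 := by rw [hQa]; exact hs₀
  have hxa0 : Q (x + a) ≠ 0 := by
    rw [qI_add9 (Q := Q), hQx, hQa, hxa]
    intro h
    apply hs₀
    linear_combination h - s₀ * h3
  obtain ⟨ρ₁, hρ₁, hρ₁i, hρ₁Q⟩ := exists_refl9 hQ x hx0
  obtain ⟨ρ₂, hρ₂, hρ₂i, hρ₂Q⟩ := exists_refl9 hQ a ha0
  have hg₂Ω : ρ₁ * ρ₂ ∈ Cfsg.Geo.omegaGL Q :=
    refl_mul_omega9 hQ x a hx0 (hQa.trans hQx.symm) hxa0 ρ₁ ρ₂ hρ₁ hρ₁i hρ₁Q hρ₂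
  obtain ⟨y, hy⟩ : ∃ y, y = ((ρ₁ * ρ₂ : GL ι F) : Matrix ι ι F) *ᵥ a := ⟨_, rfl⟩
  have hs₀i : s₀ * s₀⁻¹ = 1 := mul_inv_cancel₀ hs₀
  have hy' : y = (2 : F) • x - a := by
    have e1 : (ρ₂ : Matrix ι ι F) *ᵥ a = -a := by
      rw [hρ₂, haa, hQa, mul_assoc, hs₀i, mul_one, two_smul]
      abel
    have e3 : QuadraticMap.polar Q a x = 2 * s₀ := by rw [QuadraticMap.polar_comm]; exact hxa
    rw [hy, gl_mul_vecI9, e1, Matrix.mulVec_neg, hρ₁, e3, hQx, mul_assoc, hs₀i, mul_one]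
    abel
  have hya : QuadraticMap.polar Q y a = 2 * s₀ := by
    rw [hy', qI_subl9 hQ, hbl.smul_left, hxa, haa]
    ring
  have hyb : QuadraticMap.polar Q y b = 4 * s₀ := by
    rw [hy', qI_subl9 hQ, hbl.smul_left, hxb, hab]
    ring
  have hya0 : QuadraticMap.polar Q y a ≠ 0 := by rw [hya]; exact h2s
  have hyb0 : QuadraticMap.polar Q y b ≠ 0 := by
    rw [hyb]
    intro h
    apply hs₀
    linear_combination h - s₀ * h3
  have haS : a ∈ S := (hS a).mpr ⟨i₁, by rw [ha]; exact hE i₁ j₁, hQa⟩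
  refine ⟨Cfsg.stabilizing (Cfsg.glToMat ι F) S ⊓ Cfsg.Geo.omegaGL Q,
    lt_of_le_of_ne ?_ ?_, lt_of_le_of_ne inf_le_right ?_⟩
  · intro g hg
    refine ⟨hstab g ?_, hg.2⟩
    intro v hv
    obtain ⟨i, hvi, hvQ⟩ := (hS v).mp hv
    obtain ⟨σ, hσ⟩ := hg.1
    refine (hS _).mpr ⟨σ i, ?_, ?_⟩
    · rw [← hσ i]
      exact Submodule.mem_map.mpr ⟨v, hvi, Matrix.toLin'_apply _ _⟩
    · rw [omegaI_iso9 hg.2, hvQ]
  · intro heq
    have h1 : r₁ * r₂ ∈ Cfsg.Geo.decompositionStabilizer D ⊓ Cfsg.Geo.omegaGL Q := by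
      rw [heq]
      exact ⟨hstab _ hfw₁, hg₁Ω⟩
    exact hg₁D h1.1
  · intro heq
    have h1 : ρ₁ * ρ₂ ∈ Cfsg.stabilizing (Cfsg.glToMat ι F) S ⊓ Cfsg.Geo.omegaGL Q := by
      rw [heq]
      exact hg₂Ω
    have h4 := ((hmemK _).mp h1.1 a).mp haS
    rw [← hy] at h4
    obtain ⟨i, hyi, hyQ⟩ := (hS y).mp h4
    obtain ⟨j, hyj⟩ := hC i y hyi hyQ
    have h5 : QuadraticMap.polar Q (E i j) a ≠ 0 ∧ QuadraticMap.polar Q (E i j) b ≠ 0 := by
      rcases hyj with h | h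
      · rw [← h]
        exact ⟨hya0, hyb0⟩
      · have h6 : E i j = -y := by rw [h, neg_neg]
        rw [h6, qI_nl9 hQ, qI_nl9 hQ]
        exact ⟨neg_ne_zero.mpr hya0, neg_ne_zero.mpr hyb0⟩
    have h7 : i = i₁ ∧ j = j₁ := by
      by_contra hne
      exact h5.1 (by rw [ha]; exact hOO _ _ _ _ (not_and_or.mp hne))
    have h8 : i = i₁ ∧ j = j₂ := by
      by_contra hne
      exact h5.2 (by rw [hb]; exact hOO _ _ _ _ (not_and_or.mp hne))
    exact hj (h7.2.symm.trans h8.2)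

end Cfsg.Agent.Helper9
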