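import Mathlib
import Cfsg.Agent.Helper9.ODec9

set_option autoImplicit false

namespace Cfsg.Agent.Helper9

open Cfsg
open scoped MatrixGroups Matrix

variable {ι : Type} [Fintype ι] [DecidableEq ι] {F : Type*} [Field F] {Q : (ι → F) → F}

/-- A frame of one norm in an anisotropic plane over the field with three elements. -/
theorem frame2_9 [Fintype F] (hq : Fintype.card F = 3)
    (hQ : Cfsg.Geo.IsNondegenerateQuadraticForm Q) (W : Submodule F (ι → F))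
    (hW : Module.finrank F W = 2) (haniso : ∀ v ∈ W, v ≠ 0 → Q v ≠ 0) :
    ∃ (s₀ : F) (f : Fin 2 → ι → F), s₀ ≠ 0 ∧ (∀ j, f j ∈ W) ∧ (∀ j, Q (f j) = s₀) ∧
      (∀ j j', j ≠ j' → QuadraticMap.polar Q (f j) (f j') = 0) ∧
      ∀ v ∈ W, Q v = s₀ → ∃ j, v = f j ∨ v = -f j := by
  classical
  have hbl := hQ.polar_bilinear
  have h3 : (3 : F) = 0 := f3_three9 hq
  have h2 : (2 : F) ≠ 0 := f3_two9 hq
  obtain ⟨β⟩ : Nonempty (Module.Basis (Fin 2) F W) := ⟨Module.finBasisOfFinrankEq F W hW⟩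
  obtain ⟨b₀, hb₀⟩ : ∃ b₀ : ι → F, b₀ = ((β 0 : W) : ι → F) := ⟨_, rfl⟩
  obtain ⟨p, hp⟩ : ∃ p : ι → F, p = ((β 1 : W) : ι → F) := ⟨_, rfl⟩
  have hb₀W : b₀ ∈ W := by rw [hb₀]; exact (β 0).2
  have hpW : p ∈ W := by rw [hp]; exact (β 1).2
  have hspan : ∀ v ∈ W, ∃ x y : F, v = x • b₀ + y • p := by
    intro v hv
    have h1 := β.sum_repr ⟨v, hv⟩
    rw [Fin.sum_univ_two] at h1
    refine ⟨β.repr ⟨v, hv⟩ 0, β.repr ⟨v, hv⟩ 1, ?_⟩
    have h4 := congrArg Subtype.val h1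
    rw [Submodule.coe_add, Submodule.coe_smul, Submodule.coe_smul, ← hb₀, ← hp] at h4
    exact h4.symm
  have hne : ∀ c : F, p ≠ c • b₀ := by
    intro c h
    have h1 : β 1 = c • β 0 := by
      apply Subtype.ext
      rw [Submodule.coe_smul, ← hb₀, ← hp]
      exact h
    have h4 := congrArg (fun z => β.repr z 1) h1
    simp at h4
  have hb₀0 : b₀ ≠ 0 := by
    intro h
    apply β.ne_zero 0
    apply Subtype.ext
    rw [← hb₀, h]
    rfl
  obtain ⟨s₀, hs₀⟩ : ∃ s₀, s₀ = Q b₀ := ⟨_, rfl⟩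
  have hs₀0 : s₀ ≠ 0 := by rw [hs₀]; exact haniso b₀ hb₀W hb₀0
  have h2s : 2 * s₀ ≠ 0 := mul_ne_zero h2 hs₀0
  have hb₀b₀ : QuadraticMap.polar Q b₀ b₀ = 2 * s₀ := by rw [qI_self9 hQ, hs₀]
  obtain ⟨c, hc⟩ : ∃ c, c = QuadraticMap.polar Q p b₀ * (2 * s₀)⁻¹ := ⟨_, rfl⟩
  obtain ⟨b₁, hb₁⟩ : ∃ b₁, b₁ = p - c • b₀ := ⟨_, rfl⟩
  have hb₁W : b₁ ∈ W := by
    rw [hb₁]
    exact W.sub_mem hpW (W.smul_mem _ hb₀W)
  have hb₁0 : b₁ ≠ 0 := by
    intro h
    rw [hb₁] at h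
    exact hne c (sub_eq_zero.mp h)
  have h10 : QuadraticMap.polar Q b₁ b₀ = 0 := by
    rw [hb₁, qI_subl9 hQ, hbl.smul_left, hb₀b₀, hc, mul_assoc, inv_mul_cancel₀ h2s, mul_one, sub_self]
  have h01 : QuadraticMap.polar Q b₀ b₁ = 0 := by rw [QuadraticMap.polar_comm]; exact h10
  have hQb₁0 : Q b₁ ≠ 0 := haniso b₁ hb₁W hb₁0
  have hQb₁ : Q b₁ = s₀ := by
    have e1 : Q b₁ * Q b₁ = s₀ * s₀ := by rw [f3_sq9 hq _ hQb₁0, f3_sq9 hq _ hs₀0]
    rcases mul_self_eq_mul_self_iff.mp e1 with h | h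
    · exact h
    · exfalso
      have e2 : Q (b₀ + b₁) = 0 := by
        rw [qI_add9 (Q := Q), ← hs₀, h, h01]
        ring
      have e3 : b₀ + b₁ ≠ 0 := by
        intro h0
        have e4 : QuadraticMap.polar Q (b₀ + b₁) b₀ = 2 * s₀ := by rw [hbl.add_left, hb₀b₀, h10, add_zero]
        rw [h0] at e4
        have e5 : QuadraticMap.polar Q (0 : ι → F) b₀ = 0 := by
          have := hbl.smul_left 0 0 b₀
          rw [zero_smul, zero_mul] at this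
          exact this
        rw [e5] at e4
        exact h2s e4.symm
      exact haniso _ (W.add_mem hb₀W hb₁W) e3 e2
  obtain ⟨f, hf0, hf1⟩ : ∃ f : Fin 2 → ι → F, f 0 = b₀ ∧ f 1 = b₁ := ⟨![b₀, b₁], rfl, rfl⟩
  refine ⟨s₀, f, hs₀0, ?_, ?_, ?_, ?_⟩
  · rw [Fin.forall_fin_two, hf0, hf1]
    exact ⟨hb₀W, hb₁W⟩
  · rw [Fin.forall_fin_two, hf0, hf1]
    exact ⟨hs₀.symm, hQb₁⟩
  · rw [Fin.forall_fin_two]
    constructor
    · rw [Fin.forall_fin_two]
      refine ⟨fun h => absurd rfl h, fun _ => ?_⟩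
      rw [hf0, hf1]
      exact h01
    · rw [Fin.forall_fin_two]
      refine ⟨fun _ => ?_, fun h => absurd rfl h⟩
      rw [hf0, hf1]
      exact h10
  · intro v hv hvQ
    obtain ⟨x, y, hxy⟩ := hspan v hv
    obtain ⟨x', hx'⟩ : ∃ x', x' = x + y * c := ⟨_, rfl⟩
    have hv' : v = x' • b₀ + y • b₁ := by
      rw [hxy, hx', hb₁, smul_sub, add_smul, mul_smul]
      abel
    have hsum : x' * x' + y * y = 1 := by
      have e1 : Q v = x' ^ 2 * s₀ + y ^ 2 * s₀ := by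
        rw [hv', qI_lin2_9 hQ, ← hs₀, hQb₁, h01]
        ring
      rw [hvQ] at e1
      have e2 : s₀ * (x' * x' + y * y) = s₀ * 1 := by linear_combination -e1
      exact mul_left_cancel₀ hs₀0 e2
    rcases f3_cases9 hq x' with hx | hx | hx <;> rcases f3_cases9 hq y with hy | hy | hy <;>
      rw [hx, hy] at hsum hv' <;>
      simp only [one_smul, zero_smul, add_zero, zero_add, neg_one_smul, neg_smul] at hv'
    · exact absurd (show (1 : F) = 0 by linear_combination (-1 : F) * hsum) one_ne_zero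
    · exact ⟨1, Or.inl (hv'.trans hf1.symm)⟩
    · exact ⟨1, Or.inr (hv'.trans (congrArg Neg.neg hf1.symm))⟩
    · exact ⟨0, Or.inl (hv'.trans hf0.symm)⟩
    · exact absurd (show (1 : F) = 0 by linear_combination hsum) one_ne_zero
    · exact absurd (show (1 : F) = 0 by linear_combination hsum) one_ne_zero
    · exact ⟨0, Or.inr (hv'.trans (congrArg Neg.neg hf0.symm))⟩
    · exact absurd (show (1 : F) = 0 by linear_combination hsum) one_ne_zero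
    · exact absurd (show (1 : F) = 0 by linear_combination hsum) one_ne_zero

/-- A frame of one norm in a non-degenerate three-dimensional space over the field with three
elements. -/
theorem frame3_9 [Fintype F] (hq : Fintype.card F = 3)
    (hQ : Cfsg.Geo.IsNondegenerateQuadraticForm Q) (W : Submodule F (ι → F))
    (hW : Module.finrank F W = 3) (hnd : Cfsg.Geo.IsNondegenerateOn (QuadraticMap.polar Q) W) :
    ∃ (s₀ : F) (f : Fin 3 → ι → F), s₀ ≠ 0 ∧ (∀ j, f j ∈ W) ∧ (∀ j, Q (f j) = s₀) ∧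
      (∀ j j', j ≠ j' → QuadraticMap.polar Q (f j) (f j') = 0) ∧
      ∀ v ∈ W, Q v = s₀ → ∃ j, v = f j ∨ v = -f j := by
  classical
  have hbl := hQ.polar_bilinear
  have h3 : (3 : F) = 0 := f3_three9 hq
  have h2 : (2 : F) ≠ 0 := f3_two9 hq
  obtain ⟨β⟩ : Nonempty (Module.Basis (Fin 3) F W) := ⟨Module.finBasisOfFinrankEq F W hW⟩
  obtain ⟨φ, hφW, hφsurj, hφinj⟩ : ∃ φ : (Fin 3 → F) →ₗ[F] (ι → F), (∀ y, φ y ∈ W) ∧
      (∀ v ∈ W, ∃ y, φ y = v) ∧ (∀ y, φ y = 0 → y = 0) := by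
    refine ⟨W.subtype ∘ₗ (β.equivFun.symm : (Fin 3 → F) →ₗ[F] W), fun y => ?_, fun v hv => ?_,
      fun y hy => ?_⟩
    · exact (β.equivFun.symm y).2
    · refine ⟨β.equivFun ⟨v, hv⟩, ?_⟩
      show ((β.equivFun.symm (β.equivFun ⟨v, hv⟩) : W) : ι → F) = v
      rw [LinearEquiv.symm_apply_apply]
    · have h1 : β.equivFun.symm y = 0 := Subtype.ext hy
      exact (LinearEquiv.map_eq_zero_iff β.equivFun.symm).mp h1
  obtain ⟨f₀, hf₀⟩ : ∃ f₀ : (Fin 3 → F) → (Fin 3 → F) → F, ∀ x y, f₀ x y = QuadraticMap.polar Q (φ x) (φ y) :=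
    ⟨fun x y => QuadraticMap.polar Q (φ x) (φ y), fun _ _ => rfl⟩
  have hf : Cfsg.Geo.IsSymmetricForm f₀ := by
    refine ⟨⟨?_, ?_, ?_, ?_⟩, ?_, ?_⟩
    · intro x y v
      rw [hf₀, hf₀, hf₀, map_add, hbl.add_left]
    · intro c x v
      rw [hf₀, hf₀, map_smul, hbl.smul_left]
    · intro v x y
      rw [hf₀, hf₀, hf₀, map_add, hbl.add_right]
    · intro c v x
      rw [hf₀, hf₀, map_smul, hbl.smul_right]
    · intro u v
      rw [hf₀, hf₀]
      exact QuadraticMap.polar_comm Q _ _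
    · intro v hv
      have hφv : φ v ≠ 0 := fun h => hv (hφinj v h)
      obtain ⟨⟨x, hxW, hx⟩, ⟨x', hx'W, hx'⟩⟩ := hnd (φ v) (hφW v) hφv
      obtain ⟨y, rfl⟩ := hφsurj x hxW
      obtain ⟨y', rfl⟩ := hφsurj x' hx'W
      exact ⟨⟨y, by rw [hf₀]; exact hx⟩, ⟨y', by rw [hf₀]; exact hx'⟩⟩
  obtain ⟨ε, e₁, e₂, e₃, hε, h11, h22, h33, h12, h13, h23, hexp⟩ := f3_frame9 hq f₀ hf
  rw [hf₀] at h11 h22 h33 h12 h13 h23
  have hε0 : ε ≠ 0 := by
    intro h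
    rw [h, mul_zero] at hε
    exact zero_ne_one hε
  have hnorm : ∀ z : ι → F, QuadraticMap.polar Q z z = ε → Q z = -ε := by
    intro z hz
    have e1 := qI_self9 hQ z
    rw [hz] at e1
    linear_combination (Q z) * h3 + e1
  have h21 : QuadraticMap.polar Q (φ e₂) (φ e₁) = 0 := by rw [QuadraticMap.polar_comm]; exact h12
  have h31 : QuadraticMap.polar Q (φ e₃) (φ e₁) = 0 := by rw [QuadraticMap.polar_comm]; exact h13
  have h32 : QuadraticMap.polar Q (φ e₃) (φ e₂) = 0 := by rw [QuadraticMap.polar_comm]; exact h23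
  obtain ⟨f, hf0, hf1, hf2⟩ : ∃ f : Fin 3 → ι → F, f 0 = φ e₁ ∧ f 1 = φ e₂ ∧ f 2 = φ e₃ :=
    ⟨![φ e₁, φ e₂, φ e₃], rfl, rfl, rfl⟩
  have hall : ∀ P : Fin 3 → Prop, (∀ j, P j) ↔ P 0 ∧ P 1 ∧ P 2 := by
    intro P
    constructor
    · intro h
      exact ⟨h 0, h 1, h 2⟩
    · rintro ⟨h0, h1, h2'⟩ j
      fin_cases j
      · exact h0
      · exact h1
      · exact h2'
  refine ⟨-ε, f, neg_ne_zero.mpr hε0, ?_, ?_, ?_, ?_⟩
  · rw [hall, hf0, hf1, hf2]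
    exact ⟨hφW _, hφW _, hφW _⟩
  · rw [hall, hf0, hf1, hf2]
    exact ⟨hnorm _ h11, hnorm _ h22, hnorm _ h33⟩
  · rw [hall]
    refine ⟨?_, ?_, ?_⟩
    · rw [hall, hf0, hf1, hf2]
      exact ⟨fun h => absurd rfl h, fun _ => h12, fun _ => h13⟩
    · rw [hall, hf0, hf1, hf2]
      exact ⟨fun _ => h21, fun h => absurd rfl h, fun _ => h23⟩
    · rw [hall, hf0, hf1, hf2]
      exact ⟨fun _ => h31, fun _ => h32, fun h => absurd rfl h⟩
  · intro v hv hvQ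
    obtain ⟨y, hy⟩ := hφsurj v hv
    obtain ⟨α₁, hα₁⟩ : ∃ α₁, α₁ = ε * f₀ y e₁ := ⟨_, rfl⟩
    obtain ⟨α₂, hα₂⟩ : ∃ α₂, α₂ = ε * f₀ y e₂ := ⟨_, rfl⟩
    obtain ⟨α₃, hα₃⟩ : ∃ α₃, α₃ = ε * f₀ y e₃ := ⟨_, rfl⟩
    have hy' := hexp y
    rw [← hα₁, ← hα₂, ← hα₃] at hy'
    have hv' : v = α₁ • φ e₁ + α₂ • φ e₂ + α₃ • φ e₃ := by
      rw [← hy]
      conv_lhs => rw [hy']
      rw [map_add, map_add, map_smul, map_smul, map_smul]
    have hsum : α₁ * α₁ + α₂ * α₂ + α₃ * α₃ = 1 := by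
      have e1 : Q v = (α₁ ^ 2 + α₂ ^ 2 + α₃ ^ 2) * (-ε) := by
        rw [hv', qI_add9 (Q := Q), qI_lin2_9 hQ, hQ.smul, hbl.add_left, hbl.smul_left,
          hbl.smul_left, hbl.smul_right, hbl.smul_right, hnorm _ h11, hnorm _ h22, hnorm _ h33,
          h12, h13, h23]
        ring
      rw [hvQ] at e1
      have e2 : (-ε) * (α₁ * α₁ + α₂ * α₂ + α₃ * α₃) = (-ε) * 1 := by linear_combination -e1
      exact mul_left_cancel₀ (neg_ne_zero.mpr hε0) e2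
    rcases f3_cases9 hq α₁ with h1 | h1 | h1 <;> rcases f3_cases9 hq α₂ with h2' | h2' | h2' <;>
      rcases f3_cases9 hq α₃ with h3' | h3' | h3' <;>
      rw [h1, h2', h3'] at hsum hv' <;>
      simp only [one_smul, zero_smul, add_zero, zero_add, neg_one_smul, neg_smul] at hv' <;>
      first
      | exact ⟨0, Or.inl (hv'.trans hf0.symm)⟩
      | exact ⟨0, Or.inr (hv'.trans (congrArg Neg.neg hf0.symm))⟩
      | exact ⟨1, Or.inl (hv'.trans hf1.symm)⟩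
      | exact ⟨1, Or.inr (hv'.trans (congrArg Neg.neg hf1.symm))⟩
      | exact ⟨2, Or.inl (hv'.trans hf2.symm)⟩
      | exact ⟨2, Or.inr (hv'.trans (congrArg Neg.neg hf2.symm))⟩
      | exact absurd (show (1 : F) = 0 by linear_combination hsum) one_ne_zero
      | exact absurd (show (1 : F) = 0 by linear_combination (-1 : F) * hsum) one_ne_zero
      | exact absurd (show (1 : F) = 0 by linear_combination h3 - hsum) one_ne_zero

/-- Not maximal, given a frame in the first block. -/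
theorem odec_notmax9 [Fintype F] (hq : Fintype.card F = 3)
    (hQ : Cfsg.Geo.IsNondegenerateQuadraticForm Q) {t k : ℕ} (hk2 : 2 ≤ k)
    (D : Fin t → Submodule F (ι → F)) (hD : Cfsg.Geo.IsOrthogonalMDecomposition Q k D) (ht : 3 ≤ t)
    (hfr : ∃ (s₀ : F) (f : Fin k → ι → F), s₀ ≠ 0 ∧ (∀ j, f j ∈ D ⟨0, by omega⟩) ∧
      (∀ j, Q (f j) = s₀) ∧ (∀ j j', j ≠ j' → QuadraticMap.polar Q (f j) (f j') = 0) ∧
      ∀ v ∈ D ⟨0, by omega⟩, Q v = s₀ → ∃ j, v = f j ∨ v = -f j) :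
    ∃ K : Subgroup (GL ι F), Cfsg.Geo.decompositionStabilizer D ⊓ Cfsg.Geo.omegaGL Q < K ∧
      K < Cfsg.Geo.omegaGL Q := by
  classical
  obtain ⟨s₀, f, hs₀, hfW, hfQ, hfO, hfC⟩ := hfr
  obtain ⟨i₀, hi₀⟩ : ∃ i₀ : Fin t, i₀ = ⟨0, by omega⟩ := ⟨_, rfl⟩
  rw [← hi₀] at hfW hfC
  have hiso : ∀ i, ∃ e : D i₀ ≃ₗ[F] D i, ∀ w : D i₀, Q ((e w : D i) : ι → F) = Q (w : ι → F) :=
    fun i => hD.isometric i₀ i
  choose e he using hiso
  obtain ⟨E, hEdef⟩ : ∃ E : Fin t → Fin k → ι → F,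
      ∀ i j, E i j = ((e i ⟨f j, hfW j⟩ : D i) : ι → F) :=
    ⟨fun i j => ((e i ⟨f j, hfW j⟩ : D i) : ι → F), fun _ _ => rfl⟩
  have hE : ∀ i j, E i j ∈ D i := by
    intro i j
    rw [hEdef]
    exact (e i _).2
  have hN : ∀ i j, Q (E i j) = s₀ := by
    intro i j
    rw [hEdef, he]
    exact hfQ j
  have hpol : ∀ i (x y : D i₀), QuadraticMap.polar Q ((e i x : D i) : ι → F) ((e i y : D i) : ι → F) =
      QuadraticMap.polar Q (x : ι → F) (y : ι → F) := by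
    intro i x y
    have h1 := he i (x + y)
    rw [map_add, Submodule.coe_add, Submodule.coe_add] at h1
    rw [QuadraticMap.polar, QuadraticMap.polar, h1, he, he]
  have hO : ∀ i j j', j ≠ j' → QuadraticMap.polar Q (E i j) (E i j') = 0 := by
    intro i j j' hjj
    rw [hEdef, hEdef, hpol]
    exact hfO j j' hjj
  have hC : ∀ i v, v ∈ D i → Q v = s₀ → ∃ j, v = E i j ∨ v = -E i j := by
    intro i v hv hvQ
    have h1 := he i ((e i).symm ⟨v, hv⟩)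
    rw [LinearEquiv.apply_symm_apply] at h1
    obtain ⟨j, hj | hj⟩ := hfC _ ((e i).symm ⟨v, hv⟩).2 (h1.symm.trans hvQ)
    · refine ⟨j, Or.inl ?_⟩
      rw [hEdef]
      have h2 : (e i).symm ⟨v, hv⟩ = ⟨f j, hfW j⟩ := Subtype.ext hj
      rw [← h2, LinearEquiv.apply_symm_apply]
    · refine ⟨j, Or.inr ?_⟩
      rw [hEdef]
      have h2 : (e i).symm ⟨v, hv⟩ = -⟨f j, hfW j⟩ := Subtype.ext hj
      have h3 : (⟨v, hv⟩ : D i) = -(e i ⟨f j, hfW j⟩) := by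
        rw [← map_neg, ← h2, LinearEquiv.apply_symm_apply]
      exact congrArg Subtype.val h3
  exact odec_core9 hq hQ D hD s₀ hs₀ E hE hN hO hC ⟨0, by omega⟩ ⟨1, by omega⟩ ⟨2, by omega⟩
    (Fin.ne_of_val_ne (by norm_num)) (Fin.ne_of_val_ne (by norm_num))
    (Fin.ne_of_val_ne (by norm_num)) ⟨0, by omega⟩ ⟨1, by omega⟩ (Fin.ne_of_val_ne (by norm_num))

/-- Minus-type and general statement on `Fin n`. -/
theorem odec_fin9 [Fintype F] {n : ℕ} (hn : 13 ≤ n) (Q : (Fin n → F) → F)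
    (hQ : Cfsg.Geo.IsNondegenerateQuadraticForm Q) (hq : Fintype.card F = 3) {t : ℕ} (k : ℕ)
    (hk : k = 2 ∨ k = 3) (D : Fin t → Submodule F (Fin n → F))
    (hD : Cfsg.Geo.IsOrthogonalMDecomposition Q k D)
    (hke : Even k → ∀ i, ¬ Cfsg.Geo.IsPlusTypeOn Q (D i)) :
    ∃ K : Subgroup (GL (Fin n) F),
      Cfsg.Geo.decompositionStabilizer D ⊓ Cfsg.Geo.omegaGL Q < K ∧ K < Cfsg.Geo.omegaGL Q := by
  classical
  have hfin := hD.decomp.decomp.finrank_eq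
  have hdim := odec_dim9 D hD.decomp.decomp
  rw [Fintype.card_fin] at hdim
  rcases hk with rfl | rfl
  · have ht : 3 ≤ t := by omega
    have hminusD := hke (by decide)
    refine odec_notmax9 hq hQ (le_refl 2) D hD ht
      (frame2_9 hq hQ (D ⟨0, by omega⟩) (hfin _) ?_)
    intro v hv hv0 hQv
    apply hminusD ⟨0, by omega⟩
    refine ⟨Submodule.span F {v}, ?_, ?_, ?_⟩
    · rw [Submodule.span_singleton_le_iff_mem]
      exact hv
    · intro w hw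
      obtain ⟨c, rfl⟩ := Submodule.mem_span_singleton.mp hw
      rw [hQ.smul, hQv, mul_zero]
    · rw [finrank_span_singleton hv0, hfin]
  · have ht : 3 ≤ t := by omega
    exact odec_notmax9 hq hQ (by norm_num) D hD ht
      (frame3_9 hq hQ (D ⟨0, by omega⟩) (hfin _) (hD.decomp.nondegenerate _))

/-- The odd-dimensional statement. -/
theorem odec_odd9 [Fintype F] (hq : Fintype.card F = 3) (m : ℕ) (hm : 6 ≤ m) {t : ℕ}
    (D : Fin t → Submodule F (Unit ⊕ (Fin m ⊕ Fin m) → F))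
    (hD : Cfsg.Geo.IsOrthogonalMDecomposition (Cfsg.quadFormOdd m F) 3 D) :
    ∃ K : Subgroup (GL (Unit ⊕ (Fin m ⊕ Fin m)) F),
      Cfsg.Geo.decompositionStabilizer D ⊓ Cfsg.Geo.omegaGL (Cfsg.quadFormOdd m F) < K ∧
      K < Cfsg.Geo.omegaGL (Cfsg.quadFormOdd m F) := by
  classical
  have h2 : (2 : F) ≠ 0 := f3_two9 hq
  obtain ⟨Q, hQdef⟩ : ∃ Q, Q = Cfsg.quadFormOdd m F := ⟨_, rfl⟩
  rw [← hQdef] at hD ⊢
  have hQ : Cfsg.Geo.IsNondegenerateQuadraticForm Q := by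
    rw [hQdef]
    exact quadFormOdd_nondeg9 m h2
  have hdim := odec_dim9 D hD.decomp.decomp
  rw [Fintype.card_sum, Fintype.card_sum, Fintype.card_fin, Fintype.card_unit] at hdim
  have ht : 3 ≤ t := by omega
  exact odec_notmax9 hq hQ (by norm_num) D hD ht
    (frame3_9 hq hQ (D ⟨0, by omega⟩) (hD.decomp.decomp.finrank_eq _) (hD.decomp.nondegenerate _))

end Cfsg.Agent.Helper9
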