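import Mathlib
import Cfsg.Agent.Helper9.ODec9b

set_option autoImplicit false

namespace Cfsg.Agent.Helper9

open Cfsg
open scoped MatrixGroups Matrix

variable {ι : Type} [Fintype ι] [DecidableEq ι] {F : Type*} [Field F] {Q : (ι → F) → F}

theorem span2_9 (W : Submodule F (ι → F)) (hW : Module.finrank F W = 2) (e f : ι → F) (he : e ∈ W)
    (hf : f ∈ W) (hind : ∀ s t : F, s • e + t • f = 0 → s = 0 ∧ t = 0) :
    ∀ v ∈ W, ∃ x y : F, v = x • e + y • f := by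
  classical
  have hli : LinearIndependent F ![(⟨e, he⟩ : W), ⟨f, hf⟩] := by
    rw [LinearIndependent.pair_iff]
    intro s t hst
    apply hind
    have h1 := congrArg Subtype.val hst
    simpa using h1
  obtain ⟨β, hβ⟩ : ∃ β : Module.Basis (Fin 2) F W, ⇑β = ![(⟨e, he⟩ : W), ⟨f, hf⟩] :=
    ⟨basisOfLinearIndependentOfCardEqFinrank hli (by rw [Fintype.card_fin, hW]),
      coe_basisOfLinearIndependentOfCardEqFinrank _ _⟩
  intro v hv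
  have h1 := β.sum_repr ⟨v, hv⟩
  rw [Fin.sum_univ_two, hβ] at h1
  refine ⟨β.repr ⟨v, hv⟩ 0, β.repr ⟨v, hv⟩ 1, ?_⟩
  have h2 := congrArg Subtype.val h1
  simpa using h2.symm

/-- A hyperbolic pair spanning a plus-type plane. -/
theorem hyp_pair9 (hQ : Cfsg.Geo.IsNondegenerateQuadraticForm Q) (W : Submodule F (ι → F))
    (hW : Module.finrank F W = 2) (hnd : Cfsg.Geo.IsNondegenerateOn (QuadraticMap.polar Q) W)
    (hplus : Cfsg.Geo.IsPlusTypeOn Q W) :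
    ∃ e f : ι → F, e ∈ W ∧ f ∈ W ∧ Q e = 0 ∧ Q f = 0 ∧ QuadraticMap.polar Q e f = 1 ∧
      ∀ v ∈ W, ∃ x y : F, v = x • e + y • f := by
  classical
  have hbl := hQ.polar_bilinear
  obtain ⟨U, hUW, hUts, hUdim⟩ := hplus
  rw [hW] at hUdim
  have hU1 : Module.finrank F U = 1 := by omega
  have hUbot : U ≠ ⊥ := by
    intro h
    rw [h, finrank_bot] at hU1
    exact zero_ne_one hU1
  obtain ⟨e, heU, he0⟩ := Submodule.exists_mem_ne_zero_of_ne_bot hUbot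
  have he : e ∈ W := hUW heU
  have hQe : Q e = 0 := hUts e heU
  have hee : QuadraticMap.polar Q e e = 0 := by rw [qI_self9 hQ, hQe, mul_zero]
  obtain ⟨⟨x, hxW, hx⟩, -⟩ := hnd e he he0
  obtain ⟨f₀, hf₀⟩ : ∃ f₀, f₀ = (QuadraticMap.polar Q x e)⁻¹ • x := ⟨_, rfl⟩
  have hf₀W : f₀ ∈ W := by rw [hf₀]; exact W.smul_mem _ hxW
  have hf₀e : QuadraticMap.polar Q f₀ e = 1 := by rw [hf₀, hbl.smul_left, inv_mul_cancel₀ hx]
  obtain ⟨f, hf⟩ : ∃ f, f = f₀ - Q f₀ • e := ⟨_, rfl⟩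
  have hfW : f ∈ W := by rw [hf]; exact W.sub_mem hf₀W (W.smul_mem _ he)
  have hQf : Q f = 0 := by
    have h1 : f₀ - Q f₀ • e = (1 : F) • f₀ + (-(Q f₀)) • e := by
      rw [one_smul, neg_smul, sub_eq_add_neg]
    rw [hf, h1, qI_lin2_9 hQ, hQe, hf₀e]
    ring
  have hfe : QuadraticMap.polar Q f e = 1 := by
    rw [hf, qI_subl9 hQ, hbl.smul_left, hee, mul_zero, sub_zero, hf₀e]
  have hef : QuadraticMap.polar Q e f = 1 := by rw [QuadraticMap.polar_comm]; exact hfe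
  have hff : QuadraticMap.polar Q f f = 0 := by rw [qI_self9 hQ, hQf, mul_zero]
  have hz : ∀ v : ι → F, QuadraticMap.polar Q 0 v = 0 := by
    intro v
    have h := hbl.smul_left 0 0 v
    rwa [zero_smul, zero_mul] at h
  refine ⟨e, f, he, hfW, hQe, hQf, hef, span2_9 W hW e f he hfW ?_⟩
  intro s t hst
  have h1 : QuadraticMap.polar Q (s • e + t • f) e = t := by
    rw [hbl.add_left, hbl.smul_left, hbl.smul_left, hee, hfe, mul_zero, zero_add, mul_one]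
  have h2 : QuadraticMap.polar Q (s • e + t • f) f = s := by
    rw [hbl.add_left, hbl.smul_left, hbl.smul_left, hef, hff, mul_zero, add_zero, mul_one]
  rw [hst, hz] at h1 h2
  exact ⟨h2.symm, h1.symm⟩

/-- The generic core for frames of one norm. -/
theorem odec_coreG9 [Fintype F] (hQ : Cfsg.Geo.IsNondegenerateQuadraticForm Q) (h2 : (2 : F) ≠ 0)
    {t k : ℕ} (D : Fin t → Submodule F (ι → F))
    (hD : Cfsg.Geo.IsOrthogonalMDecomposition Q k D) (s₀ : F) (hs₀ : s₀ ≠ 0)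
    {P : Type} (E : P → ι → F) (blk : P → Fin t)
    (hE : ∀ p, E p ∈ D (blk p)) (hN : ∀ p, Q (E p) = s₀)
    (hO : ∀ p p', p ≠ p' → QuadraticMap.polar Q (E p) (E p') = 0)
    (hC : ∀ i v, v ∈ D i → Q v = s₀ → ∃ p, v = E p ∨ v = -E p)
    (pa pb pc pd : P) (hpab : pa ≠ pb) (hpac : pa ≠ pc) (hpad : pa ≠ pd) (hpbc : pb ≠ pc)
    (hpbd : pb ≠ pd) (hpcd : pc ≠ pd)
    (hw : (blk pb = blk pa ∧ blk pd ≠ blk pc) ∨
      (∃ p', p' ∈ D (blk pa) ∧ QuadraticMap.polar Q p' p' ≠ 0 ∧ QuadraticMap.polar Q p' (E pa) = 0 ∧ QuadraticMap.polar Q p' (E pb) = 0 ∧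
        QuadraticMap.polar Q p' (E pc) = 0 ∧ QuadraticMap.polar Q p' (E pd) = 0 ∧ blk pa ≠ blk pc))
    (α β γ δ : F) (hsq : α * α + β * β + γ * γ + δ * δ = 1) (hα1 : 1 + α ≠ 0)
    (hα2 : 2 * (α * α) - 1 ≠ 0) (hα : α ≠ 0) (hβ : β ≠ 0) :
    ∃ K : Subgroup (GL ι F), Cfsg.Geo.decompositionStabilizer D ⊓ Cfsg.Geo.omegaGL Q < K ∧
      K < Cfsg.Geo.omegaGL Q := by
  classical
  have hbl := hQ.polar_bilinear
  have horth := hD.decomp.orthogonal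
  have h2s : 2 * s₀ ≠ 0 := mul_ne_zero h2 hs₀
  have hEE : ∀ p, QuadraticMap.polar Q (E p) (E p) = 2 * s₀ := by
    intro p
    rw [qI_self9 hQ, hN]
  obtain ⟨S, hS⟩ : ∃ S : Set (ι → F), ∀ v, v ∈ S ↔ ∃ i, v ∈ D i ∧ Q v = s₀ :=
    ⟨{v | ∃ i, v ∈ D i ∧ Q v = s₀}, fun _ => Iff.rfl⟩
  have hmemK : ∀ g : GL ι F, g ∈ Cfsg.stabilizing (Cfsg.glToMat ι F) S ↔
      ∀ v : ι → F, v ∈ S ↔ (g : Matrix ι ι F) *ᵥ v ∈ S := fun g => Iff.rfl
  have hstab : ∀ t : GL ι F, (∀ v, v ∈ S → (t : Matrix ι ι F) *ᵥ v ∈ S) →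
      t ∈ Cfsg.stabilizing (Cfsg.glToMat ι F) S := by
    intro t ht
    refine (hmemK t).mpr (fun v => ⟨ht v, fun hv => ?_⟩)
    have hinj : Function.Injective (fun s : S => (⟨(t : Matrix ι ι F) *ᵥ s.1, ht s.1 s.2⟩ : S)) := by
      intro s s' hss
      have h4 : (t : Matrix ι ι F) *ᵥ s.1 = (t : Matrix ι ι F) *ᵥ s'.1 := congrArg Subtype.val hss
      have h5 : ((t⁻¹ : GL ι F) : Matrix ι ι F) *ᵥ ((t : Matrix ι ι F) *ᵥ s.1) = ((t⁻¹ : GL ι F) : Matrix ι ι F) *ᵥ ((t : Matrix ι ι F) *ᵥ s'.1) := by rw [h4]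
      rw [gl_inv_mul_vecI9, gl_inv_mul_vecI9] at h5
      exact Subtype.ext h5
    obtain ⟨s, hs⟩ := (Finite.surjective_of_injective hinj) ⟨(t : Matrix ι ι F) *ᵥ v, hv⟩
    have h6 : (t : Matrix ι ι F) *ᵥ s.1 = (t : Matrix ι ι F) *ᵥ v := congrArg Subtype.val hs
    have h7 : ((t⁻¹ : GL ι F) : Matrix ι ι F) *ᵥ ((t : Matrix ι ι F) *ᵥ s.1) = ((t⁻¹ : GL ι F) : Matrix ι ι F) *ᵥ ((t : Matrix ι ι F) *ᵥ v) := by rw [h6]
    rw [gl_inv_mul_vecI9, gl_inv_mul_vecI9] at h7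
    rw [← h7]
    exact s.2
  have hblk : ∀ x i i', x ∈ D i → x ∈ D i' → QuadraticMap.polar Q x x ≠ 0 → i = i' := by
    intro x i i' hx hx' hne
    by_contra hii
    exact hne (horth i i' hii x hx x hx')
  obtain ⟨a, ha⟩ : ∃ a, a = E pa := ⟨_, rfl⟩
  obtain ⟨b, hb⟩ : ∃ b, b = E pb := ⟨_, rfl⟩
  obtain ⟨c, hc⟩ : ∃ c, c = E pc := ⟨_, rfl⟩
  obtain ⟨d, hd⟩ : ∃ d, d = E pd := ⟨_, rfl⟩
  have hQa : Q a = s₀ := by rw [ha]; exact hN _
  have hQb : Q b = s₀ := by rw [hb]; exact hN _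
  have hQc : Q c = s₀ := by rw [hc]; exact hN _
  have hQd : Q d = s₀ := by rw [hd]; exact hN _
  have haa : QuadraticMap.polar Q a a = 2 * s₀ := by rw [ha]; exact hEE _
  have hbb : QuadraticMap.polar Q b b = 2 * s₀ := by rw [hb]; exact hEE _
  have hcc : QuadraticMap.polar Q c c = 2 * s₀ := by rw [hc]; exact hEE _
  have hdd : QuadraticMap.polar Q d d = 2 * s₀ := by rw [hd]; exact hEE _
  have hab : QuadraticMap.polar Q a b = 0 := by rw [ha, hb]; exact hO _ _ hpab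
  have hac : QuadraticMap.polar Q a c = 0 := by rw [ha, hc]; exact hO _ _ hpac
  have had : QuadraticMap.polar Q a d = 0 := by rw [ha, hd]; exact hO _ _ hpad
  have hbc : QuadraticMap.polar Q b c = 0 := by rw [hb, hc]; exact hO _ _ hpbc
  have hbd : QuadraticMap.polar Q b d = 0 := by rw [hb, hd]; exact hO _ _ hpbd
  have hcd : QuadraticMap.polar Q c d = 0 := by rw [hc, hd]; exact hO _ _ hpcd
  have hba : QuadraticMap.polar Q b a = 0 := by rw [QuadraticMap.polar_comm]; exact hab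
  have hca : QuadraticMap.polar Q c a = 0 := by rw [QuadraticMap.polar_comm]; exact hac
  have hda : QuadraticMap.polar Q d a = 0 := by rw [QuadraticMap.polar_comm]; exact had
  have hcb : QuadraticMap.polar Q c b = 0 := by rw [QuadraticMap.polar_comm]; exact hbc
  have hdb : QuadraticMap.polar Q d b = 0 := by rw [QuadraticMap.polar_comm]; exact hbd
  have hdc : QuadraticMap.polar Q d c = 0 := by rw [QuadraticMap.polar_comm]; exact hcd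
  -- the first witness
  obtain ⟨u, hu⟩ : ∃ u, u = a - c := ⟨_, rfl⟩
  obtain ⟨w, hw'⟩ : ∃ w, w = b - d := ⟨_, rfl⟩
  have hQu : Q u = 2 * s₀ := by
    rw [hu, qI_sub9 hQ, hQa, hQc, hac]
    ring
  have hQw : Q w = 2 * s₀ := by
    rw [hw', qI_sub9 hQ, hQb, hQd, hbd]
    ring
  have hu0 : Q u ≠ 0 := by rw [hQu]; exact h2s
  have hw0 : Q w ≠ 0 := by rw [hQw]; exact h2s
  have huw : QuadraticMap.polar Q u w = 0 := by
    rw [hu, hw', qI_subl9 hQ, qI_subr9 hQ, qI_subr9 hQ, hab, had, hcb, hcd]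
    ring
  have huw0 : Q (u + w) ≠ 0 := by
    rw [qI_add9 (Q := Q), hQu, hQw, huw]
    intro h
    exact mul_ne_zero h2s h2 (by linear_combination h)
  obtain ⟨r₁, hr₁, hr₁i, hr₁Q⟩ := exists_refl9 hQ u hu0
  obtain ⟨r₂, hr₂, hr₂i, hr₂Q⟩ := exists_refl9 hQ w hw0
  have hg₁Ω : r₁ * r₂ ∈ Cfsg.Geo.omegaGL Q :=
    refl_mul_omega9 hQ u w hu0 (hQw.trans hQu.symm) huw0 r₁ r₂ hr₁ hr₁i hr₁Q hr₂
  have hr₁fix : ∀ x, QuadraticMap.polar Q x u = 0 → (r₁ : Matrix ι ι F) *ᵥ x = x := by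
    intro x hx
    rw [hr₁, hx, zero_mul, zero_smul, sub_zero]
  have hr₂fix : ∀ x, QuadraticMap.polar Q x w = 0 → (r₂ : Matrix ι ι F) *ᵥ x = x := by
    intro x hx
    rw [hr₂, hx, zero_mul, zero_smul, sub_zero]
  have hr₁a : (r₁ : Matrix ι ι F) *ᵥ a = c := by
    have h1 : QuadraticMap.polar Q a u = 2 * s₀ := by
      rw [hu, qI_subr9 hQ, haa, hac, sub_zero]
    rw [hr₁, h1, hQu, mul_inv_cancel₀ h2s, one_smul, hu]
    abel
  have hr₁c : (r₁ : Matrix ι ι F) *ᵥ c = a := by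
    have h1 : QuadraticMap.polar Q c u = -(2 * s₀) := by
      rw [hu, qI_subr9 hQ, hcc, hca, zero_sub]
    rw [hr₁, h1, hQu, neg_mul, mul_inv_cancel₀ h2s, neg_smul, one_smul, hu]
    abel
  have hr₂b : (r₂ : Matrix ι ι F) *ᵥ b = d := by
    have h1 : QuadraticMap.polar Q b w = 2 * s₀ := by
      rw [hw', qI_subr9 hQ, hbb, hbd, sub_zero]
    rw [hr₂, h1, hQw, mul_inv_cancel₀ h2s, one_smul, hw']
    abel
  have hr₂d : (r₂ : Matrix ι ι F) *ᵥ d = b := by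
    have h1 : QuadraticMap.polar Q d w = -(2 * s₀) := by
      rw [hw', qI_subr9 hQ, hdd, hdb, zero_sub]
    rw [hr₂, h1, hQw, neg_mul, mul_inv_cancel₀ h2s, neg_smul, one_smul, hw']
    abel
  have hdu : QuadraticMap.polar Q d u = 0 := by rw [hu, qI_subr9 hQ, hda, hdc, sub_zero]
  have hbu : QuadraticMap.polar Q b u = 0 := by rw [hu, qI_subr9 hQ, hba, hbc, sub_zero]
  have haw : QuadraticMap.polar Q a w = 0 := by rw [hw', qI_subr9 hQ, hab, had, sub_zero]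
  have hg₁E : ∀ p, ∃ p', ((r₁ * r₂ : GL ι F) : Matrix ι ι F) *ᵥ (E p) = E p' := by
    intro p
    by_cases hB : p = pb
    · refine ⟨pd, ?_⟩
      rw [gl_mul_vecI9, hB, ← hb, hr₂b, hr₁fix d hdu, hd]
    · by_cases hDd : p = pd
      · refine ⟨pb, ?_⟩
        rw [gl_mul_vecI9, hDd, ← hd, hr₂d, hr₁fix b hbu, hb]
      · have hxw : QuadraticMap.polar Q (E p) w = 0 := by
          rw [hw', qI_subr9 hQ, hb, hd, hO _ _ hB, hO _ _ hDd, sub_zero]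
        by_cases hA : p = pa
        · refine ⟨pc, ?_⟩
          rw [gl_mul_vecI9, hr₂fix _ hxw, hA, ← ha, hr₁a, hc]
        · by_cases hCc : p = pc
          · refine ⟨pa, ?_⟩
            rw [gl_mul_vecI9, hr₂fix _ hxw, hCc, ← hc, hr₁c, ha]
          · have hxu : QuadraticMap.polar Q (E p) u = 0 := by
              rw [hu, qI_subr9 hQ, ha, hc, hO _ _ hA, hO _ _ hCc, sub_zero]
            refine ⟨p, ?_⟩
            rw [gl_mul_vecI9, hr₂fix _ hxw, hr₁fix _ hxu]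
  have hfw₁ : ∀ v, v ∈ S → ((r₁ * r₂ : GL ι F) : Matrix ι ι F) *ᵥ v ∈ S := by
    intro v hv
    obtain ⟨i, hvi, hvQ⟩ := (hS v).mp hv
    have hQg : Q (((r₁ * r₂ : GL ι F) : Matrix ι ι F) *ᵥ v) = s₀ := by rw [omegaI_iso9 hg₁Ω, hvQ]
    obtain ⟨p, hj' | hj'⟩ := hC i v hvi hvQ
    · obtain ⟨p', hij⟩ := hg₁E p
      refine (hS _).mpr ⟨blk p', ?_, hQg⟩
      rw [hj', hij]
      exact hE p'
    · obtain ⟨p', hij⟩ := hg₁E p
      refine (hS _).mpr ⟨blk p', ?_, hQg⟩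
      rw [hj', Matrix.mulVec_neg, hij]
      exact (D (blk p')).neg_mem (hE p')
  have hg₁D : r₁ * r₂ ∉ Cfsg.Geo.decompositionStabilizer D := by
    rintro ⟨σ, hσ⟩
    have h1 : ∀ x ∈ D (blk pa), ((r₁ * r₂ : GL ι F) : Matrix ι ι F) *ᵥ x ∈ D (σ (blk pa)) := by
      intro x hx
      rw [← hσ (blk pa)]
      exact Submodule.mem_map.mpr ⟨x, hx, Matrix.toLin'_apply _ _⟩
    have hga : ((r₁ * r₂ : GL ι F) : Matrix ι ι F) *ᵥ a = c := by rw [gl_mul_vecI9, hr₂fix a haw, hr₁a]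
    have hgb : ((r₁ * r₂ : GL ι F) : Matrix ι ι F) *ᵥ b = d := by rw [gl_mul_vecI9, hr₂b, hr₁fix d hdu]
    have h4 := h1 a (by rw [ha]; exact hE pa)
    rw [hga] at h4
    have h6 : σ (blk pa) = blk pc :=
      hblk c _ _ h4 (by rw [hc]; exact hE pc) (by rw [hcc]; exact h2s)
    rcases hw with ⟨hbk, hdk⟩ | ⟨p', hp'D, hp'p', hp'a, hp'b, hp'c, hp'd, hne⟩
    · have h5 := h1 b (by rw [hb, ← hbk]; exact hE pb)
      rw [hgb] at h5
      have h7 : σ (blk pa) = blk pd :=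
        hblk d _ _ h5 (by rw [hd]; exact hE pd) (by rw [hdd]; exact h2s)
      exact hdk (h7.symm.trans h6)
    · have hp'u : QuadraticMap.polar Q p' u = 0 := by rw [hu, qI_subr9 hQ, ha, hc, hp'a, hp'c, sub_zero]
      have hp'w : QuadraticMap.polar Q p' w = 0 := by rw [hw', qI_subr9 hQ, hb, hd, hp'b, hp'd, sub_zero]
      have h5 := h1 p' hp'D
      rw [gl_mul_vecI9, hr₂fix _ hp'w, hr₁fix _ hp'u] at h5
      have h7 : σ (blk pa) = blk pa := hblk p' _ _ h5 hp'D hp'p'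
      exact hne (h7.symm.trans h6)
  -- the second witness
  obtain ⟨x, hx⟩ : ∃ x, x = α • a + β • b + γ • c + δ • d := ⟨_, rfl⟩
  have hQx : Q x = s₀ := by
    have e1 : Q (α • a + β • b) = α ^ 2 * s₀ + β ^ 2 * s₀ := by
      rw [qI_lin2_9 hQ, hQa, hQb, hab]
      ring
    have e2 : Q (α • a + β • b + γ • c) = α ^ 2 * s₀ + β ^ 2 * s₀ + γ ^ 2 * s₀ := by
      rw [qI_add9 (Q := Q), e1, hQ.smul, hQc]
      simp only [hbl.add_left, hbl.smul_left, hbl.smul_right, hac, hbc, mul_zero, add_zero]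
    rw [hx, qI_add9 (Q := Q), e2, hQ.smul, hQd]
    simp only [hbl.add_left, hbl.smul_left, hbl.smul_right, had, hbd, hcd, mul_zero, add_zero]
    linear_combination s₀ * hsq
  have hxa : QuadraticMap.polar Q x a = α * (2 * s₀) := by
    rw [hx]
    simp only [hbl.add_left, hbl.smul_left, haa, hba, hca, hda, mul_zero, add_zero]
  have hxb : QuadraticMap.polar Q x b = β * (2 * s₀) := by
    rw [hx]
    simp only [hbl.add_left, hbl.smul_left, hab, hbb, hcb, hdb, mul_zero, add_zero, zero_add]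
  have hx0 : Q x ≠ 0 := by rw [hQx]; exact hs₀
  have ha0 : Q a ≠ 0 := by rw [hQa]; exact hs₀
  have hxa0 : Q (x + a) ≠ 0 := by
    rw [qI_add9 (Q := Q), hQx, hQa, hxa]
    intro h
    exact mul_ne_zero h2s hα1 (by linear_combination h)
  obtain ⟨ρ₁, hρ₁, hρ₁i, hρ₁Q⟩ := exists_refl9 hQ x hx0
  obtain ⟨ρ₂, hρ₂, hρ₂i, hρ₂Q⟩ := exists_refl9 hQ a ha0
  have hg₂Ω : ρ₁ * ρ₂ ∈ Cfsg.Geo.omegaGL Q :=
    refl_mul_omega9 hQ x a hx0 (hQa.trans hQx.symm) hxa0 ρ₁ ρ₂ hρ₁ hρ₁i hρ₁Q hρ₂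
  obtain ⟨y, hy⟩ : ∃ y, y = ((ρ₁ * ρ₂ : GL ι F) : Matrix ι ι F) *ᵥ a := ⟨_, rfl⟩
  have hs₀i : s₀ * s₀⁻¹ = 1 := mul_inv_cancel₀ hs₀
  have hy' : y = (2 * α) • x - a := by
    have e1 : (ρ₂ : Matrix ι ι F) *ᵥ a = -a := by
      rw [hρ₂, haa, hQa, mul_assoc, hs₀i, mul_one, two_smul]
      abel
    have e3 : QuadraticMap.polar Q a x = α * (2 * s₀) := by rw [QuadraticMap.polar_comm]; exact hxa
    have e4 : α * (2 * s₀) * s₀⁻¹ = 2 * α := by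
      rw [mul_assoc, mul_assoc, hs₀i, mul_one, mul_comm]
    rw [hy, gl_mul_vecI9, e1, Matrix.mulVec_neg, hρ₁, e3, hQx, e4]
    abel
  have hya : QuadraticMap.polar Q y a = 2 * s₀ * (2 * (α * α) - 1) := by
    rw [hy', qI_subl9 hQ, hbl.smul_left, hxa, haa]
    ring
  have hyb : QuadraticMap.polar Q y b = 2 * α * (β * (2 * s₀)) := by
    rw [hy', qI_subl9 hQ, hbl.smul_left, hxb, hab, sub_zero]
  have hya0 : QuadraticMap.polar Q y a ≠ 0 := by rw [hya]; exact mul_ne_zero h2s hα2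
  have hyb0 : QuadraticMap.polar Q y b ≠ 0 := by
    rw [hyb]
    exact mul_ne_zero (mul_ne_zero h2 hα) (mul_ne_zero hβ h2s)
  have haS : a ∈ S := (hS a).mpr ⟨blk pa, by rw [ha]; exact hE pa, hQa⟩
  refine ⟨Cfsg.stabilizing (Cfsg.glToMat ι F) S ⊓ Cfsg.Geo.omegaGL Q,
    lt_of_le_of_ne ?_ ?_, lt_of_le_of_ne inf_le_right ?_⟩
  · intro g hg
    refine ⟨hstab g ?_, hg.2⟩
    intro v hv
    obtain ⟨i, hvi, hvQ⟩ := (hS v).mp hv
    obtain ⟨σ, hσ⟩ := hg.1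
    refine (hS _).mpr ⟨σ i, ?_, ?_⟩
    · rw [← hσ i]
      exact Submodule.mem_map.mpr ⟨v, hvi, Matrix.toLin'_apply _ _⟩
    · rw [omegaI_iso9 hg.2, hvQ]
  · intro heq
    have h1 : r₁ * r₂ ∈ Cfsg.Geo.decompositionStabilizer D ⊓ Cfsg.Geo.omegaGL Q := by
      rw [heq]
      exact ⟨hstab _ hfw₁, hg₁Ω⟩
    exact hg₁D h1.1
  · intro heq
    have h1 : ρ₁ * ρ₂ ∈ Cfsg.stabilizing (Cfsg.glToMat ι F) S ⊓ Cfsg.Geo.omegaGL Q := by
      rw [heq]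
      exact hg₂Ω
    have h4 := ((hmemK _).mp h1.1 a).mp haS
    rw [← hy] at h4
    obtain ⟨i, hyi, hyQ⟩ := (hS y).mp h4
    obtain ⟨p, hyj⟩ := hC i y hyi hyQ
    have h5 : QuadraticMap.polar Q (E p) a ≠ 0 ∧ QuadraticMap.polar Q (E p) b ≠ 0 := by
      rcases hyj with h | h
      · rw [← h]
        exact ⟨hya0, hyb0⟩
      · have h6 : E p = -y := by rw [h, neg_neg]
        rw [h6, qI_nl9 hQ, qI_nl9 hQ]
        exact ⟨neg_ne_zero.mpr hya0, neg_ne_zero.mpr hyb0⟩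
    have h7 : p = pa := by
      by_contra hne
      exact h5.1 (by rw [ha]; exact hO _ _ hne)
    have h8 : p = pb := by
      by_contra hne
      exact h5.2 (by rw [hb]; exact hO _ _ hne)
    exact hpab (h7.symm.trans h8)

/-- Not maximal, given a frame of one norm in the first block. -/
theorem odec_notmaxG9 [Fintype F] (hQ : Cfsg.Geo.IsNondegenerateQuadraticForm Q)
    (h2 : (2 : F) ≠ 0) {t k m : ℕ} (D : Fin t → Submodule F (ι → F))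
    (hD : Cfsg.Geo.IsOrthogonalMDecomposition Q k D) (ht : 4 ≤ t) (s₀ : F) (hs₀ : s₀ ≠ 0)
    (hm : 0 < m) (f : Fin m → ι → F) (hfW : ∀ j, f j ∈ D ⟨0, by omega⟩)
    (hfQ : ∀ j, Q (f j) = s₀) (hfO : ∀ j j', j ≠ j' → QuadraticMap.polar Q (f j) (f j') = 0)
    (hfC : ∀ v ∈ D ⟨0, by omega⟩, Q v = s₀ → ∃ j, v = f j ∨ v = -f j)
    (hw : 2 ≤ m ∨ ∃ b₀, b₀ ∈ D ⟨0, by omega⟩ ∧ QuadraticMap.polar Q b₀ b₀ ≠ 0 ∧ ∀ j, QuadraticMap.polar Q b₀ (f j) = 0)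
    (α β γ δ : F) (hsq : α * α + β * β + γ * γ + δ * δ = 1) (hα1 : 1 + α ≠ 0)
    (hα2 : 2 * (α * α) - 1 ≠ 0) (hα : α ≠ 0) (hβ : β ≠ 0) :
    ∃ K : Subgroup (GL ι F), Cfsg.Geo.decompositionStabilizer D ⊓ Cfsg.Geo.omegaGL Q < K ∧
      K < Cfsg.Geo.omegaGL Q := by
  classical
  obtain ⟨i₀, hi₀⟩ : ∃ i₀ : Fin t, i₀ = ⟨0, by omega⟩ := ⟨_, rfl⟩
  rw [← hi₀] at hfW hfC hw
  have horth := hD.decomp.orthogonal
  have hiso : ∀ i, ∃ e : D i₀ ≃ₗ[F] D i, ∀ w : D i₀, Q ((e w : D i) : ι → F) = Q (w : ι → F) :=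
    fun i => hD.isometric i₀ i
  choose e he using hiso
  obtain ⟨E, hEdef⟩ : ∃ E : Fin t × Fin m → ι → F,
      ∀ p, E p = ((e p.1 ⟨f p.2, hfW p.2⟩ : D p.1) : ι → F) :=
    ⟨fun p => ((e p.1 ⟨f p.2, hfW p.2⟩ : D p.1) : ι → F), fun _ => rfl⟩
  have hE : ∀ p : Fin t × Fin m, E p ∈ D p.1 := by
    intro p
    rw [hEdef]
    exact (e p.1 _).2
  have hN : ∀ p, Q (E p) = s₀ := by
    intro p
    rw [hEdef, he]
    exact hfQ p.2
  have hpol : ∀ i (x y : D i₀), QuadraticMap.polar Q ((e i x : D i) : ι → F) ((e i y : D i) : ι → F) =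
      QuadraticMap.polar Q (x : ι → F) (y : ι → F) := by
    intro i x y
    have h1 := he i (x + y)
    rw [map_add, Submodule.coe_add, Submodule.coe_add] at h1
    rw [QuadraticMap.polar, QuadraticMap.polar, h1, he, he]
  have hO : ∀ p p' : Fin t × Fin m, p ≠ p' → QuadraticMap.polar Q (E p) (E p') = 0 := by
    intro p p' hpp
    by_cases h1 : p.1 = p'.1
    · have h3 : p.2 ≠ p'.2 := fun h => hpp (Prod.ext h1 h)
      obtain ⟨p1, p2⟩ := p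
      obtain ⟨p1', p2'⟩ := p'
      simp only at h1 h3
      subst h1
      rw [hEdef, hEdef, hpol]
      exact hfO _ _ h3
    · exact horth _ _ h1 _ (hE p) _ (hE p')
  have hC : ∀ i v, v ∈ D i → Q v = s₀ → ∃ p, v = E p ∨ v = -E p := by
    intro i v hv hvQ
    have h1 := he i ((e i).symm ⟨v, hv⟩)
    rw [LinearEquiv.apply_symm_apply] at h1
    obtain ⟨j, hj | hj⟩ := hfC _ ((e i).symm ⟨v, hv⟩).2 (h1.symm.trans hvQ)
    · refine ⟨(i, j), Or.inl ?_⟩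
      rw [hEdef]
      have h2 : (e i).symm ⟨v, hv⟩ = ⟨f j, hfW j⟩ := Subtype.ext hj
      rw [← h2, LinearEquiv.apply_symm_apply]
    · refine ⟨(i, j), Or.inr ?_⟩
      rw [hEdef]
      have h2 : (e i).symm ⟨v, hv⟩ = -⟨f j, hfW j⟩ := Subtype.ext hj
      have h3 : (⟨v, hv⟩ : D i) = -(e i ⟨f j, hfW j⟩) := by
        rw [← map_neg, ← h2, LinearEquiv.apply_symm_apply]
      exact congrArg Subtype.val h3
  have hne : ∀ (a b : ℕ) (ha : a < t) (hb : b < t) (j j' : Fin m), a ≠ b →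
      ((⟨a, ha⟩ : Fin t), j) ≠ ((⟨b, hb⟩ : Fin t), j') := by
    intro a b ha hb j j' hab h
    have h1 := congrArg (fun p : Fin t × Fin m => (p.1 : ℕ)) h
    exact hab h1
  have hneF : ∀ (a b : ℕ) (ha : a < t) (hb : b < t), a ≠ b → (⟨a, ha⟩ : Fin t) ≠ ⟨b, hb⟩ := by
    intro a b ha hb hab h
    exact hab (congrArg Fin.val h)
  rcases hw with hm2 | ⟨b₀, hb₀W, hb₀b₀, hb₀f⟩
  · refine odec_coreG9 hQ h2 D hD s₀ hs₀ E Prod.fst hE hN hO hC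
      (⟨0, by omega⟩, ⟨0, by omega⟩) (⟨0, by omega⟩, ⟨1, by omega⟩)
      (⟨1, by omega⟩, ⟨0, by omega⟩) (⟨2, by omega⟩, ⟨0, by omega⟩) ?_
      (hne _ _ _ _ _ _ (by norm_num)) (hne _ _ _ _ _ _ (by norm_num))
      (hne _ _ _ _ _ _ (by norm_num)) (hne _ _ _ _ _ _ (by norm_num))
      (hne _ _ _ _ _ _ (by norm_num)) (Or.inl ⟨rfl, hneF _ _ _ _ (by norm_num)⟩)
      α β γ δ hsq hα1 hα2 hα hβ
    intro h
    have h1 := congrArg (fun p : Fin t × Fin m => (p.2 : ℕ)) h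
    exact absurd h1 (by norm_num)
  · have hne' : ∀ (i i' : Fin t) (j j' : Fin m), i ≠ i' → (i, j) ≠ (i', j') :=
      fun i i' j j' h heq => h (congrArg Prod.fst heq)
    have h01 : i₀ ≠ (⟨1, by omega⟩ : Fin t) := by rw [hi₀]; exact hneF _ _ _ _ (by norm_num)
    have h02 : i₀ ≠ (⟨2, by omega⟩ : Fin t) := by rw [hi₀]; exact hneF _ _ _ _ (by norm_num)
    have h03 : i₀ ≠ (⟨3, by omega⟩ : Fin t) := by rw [hi₀]; exact hneF _ _ _ _ (by norm_num)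
    refine odec_coreG9 hQ h2 D hD s₀ hs₀ E Prod.fst hE hN hO hC
      (i₀, ⟨0, hm⟩) (⟨1, by omega⟩, ⟨0, hm⟩) (⟨2, by omega⟩, ⟨0, hm⟩) (⟨3, by omega⟩, ⟨0, hm⟩)
      (hne' _ _ _ _ h01) (hne' _ _ _ _ h02) (hne' _ _ _ _ h03)
      (hne _ _ _ _ _ _ (by norm_num)) (hne _ _ _ _ _ _ (by norm_num))
      (hne _ _ _ _ _ _ (by norm_num))
      (Or.inr ⟨((e i₀ ⟨b₀, hb₀W⟩ : D i₀) : ι → F), ?_, ?_, ?_, ?_, ?_, ?_, ?_⟩)
      α β γ δ hsq hα1 hα2 hα hβ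
    · exact (e i₀ _).2
    · rw [hpol]
      exact hb₀b₀
    · rw [hEdef]
      exact (hpol i₀ _ _).trans (hb₀f _)
    · exact horth _ _ h01 _ (e i₀ _).2 _ (hE (⟨1, by omega⟩, ⟨0, hm⟩))
    · exact horth _ _ h02 _ (e i₀ _).2 _ (hE (⟨2, by omega⟩, ⟨0, hm⟩))
    · exact horth _ _ h03 _ (e i₀ _).2 _ (hE (⟨3, by omega⟩, ⟨0, hm⟩))
    · exact h02

end Cfsg.Agent.Helper9
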