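import Mathlib
import Cfsg.Agent.Helper9.ODecG9

set_option autoImplicit false

namespace Cfsg.Agent.Helper9

open Cfsg
open scoped MatrixGroups Matrix

section general

variable {ι : Type} [Fintype ι] [DecidableEq ι] {F : Type*} [Field F] {Q : (ι → F) → F}

theorem f5_cases9 [Fintype F] (hq : Fintype.card F = 5) (x : F) :
    x = 0 ∨ x = 1 ∨ x = 2 ∨ x = -2 ∨ x = -1 := by
  have h := FiniteField.pow_card x
  rw [hq] at h
  have h5 : (5 : F) = 0 := by
    have h' := FiniteField.cast_card_eq_zero F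
    rw [hq] at h'
    exact_mod_cast h'
  have h1 : x * (x - 1) * (x - 2) * (x + 2) * (x + 1) = 0 := by
    linear_combination h + (x - x ^ 3) * h5
  rcases mul_eq_zero.mp h1 with h1 | h1
  · rcases mul_eq_zero.mp h1 with h1 | h1
    · rcases mul_eq_zero.mp h1 with h1 | h1
      · rcases mul_eq_zero.mp h1 with h1 | h1
        · exact Or.inl h1
        · exact Or.inr (Or.inl (sub_eq_zero.mp h1))
      · exact Or.inr (Or.inr (Or.inl (sub_eq_zero.mp h1)))
    · exact Or.inr (Or.inr (Or.inr (Or.inl (eq_neg_of_add_eq_zero_left h1))))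
  · exact Or.inr (Or.inr (Or.inr (Or.inr (eq_neg_of_add_eq_zero_left h1))))

/-- The frame of a hyperbolic plane over the field with three elements. -/
theorem frameH3_9 [Fintype F] (hq : Fintype.card F = 3)
    (hQ : Cfsg.Geo.IsNondegenerateQuadraticForm Q) (W : Submodule F (ι → F))
    (hW : Module.finrank F W = 2) (hnd : Cfsg.Geo.IsNondegenerateOn (QuadraticMap.polar Q) W)
    (hplus : Cfsg.Geo.IsPlusTypeOn Q W) :
    ∃ f : Fin 1 → (ι → F), (∀ j, f j ∈ W) ∧ (∀ j, Q (f j) = 1) ∧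
      (∀ j j', j ≠ j' → QuadraticMap.polar Q (f j) (f j') = 0) ∧
      (∀ v ∈ W, Q v = 1 → ∃ j, v = f j ∨ v = -f j) ∧
      ∃ b₀, b₀ ∈ W ∧ QuadraticMap.polar Q b₀ b₀ ≠ 0 ∧ ∀ j, QuadraticMap.polar Q b₀ (f j) = 0 := by
  classical
  have hbl := hQ.polar_bilinear
  have h2 := f3_two9 hq
  obtain ⟨e, f', heW, hfW, hQe, hQf, hef, hspan⟩ := hyp_pair9 hQ W hW hnd hplus
  have hfe : QuadraticMap.polar Q f' e = 1 := by rw [QuadraticMap.polar_comm]; exact hef
  have hee : QuadraticMap.polar Q e e = 0 := by rw [qI_self9 hQ, hQe, mul_zero]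
  have hff : QuadraticMap.polar Q f' f' = 0 := by rw [qI_self9 hQ, hQf, mul_zero]
  have hQa : Q (e + f') = 1 := by
    rw [qI_add9 (Q := Q), hQe, hQf, hef]
    ring
  refine ⟨fun _ => e + f', fun _ => W.add_mem heW hfW, fun _ => hQa,
    fun j j' h => absurd (Subsingleton.elim j j') h, ?_, e - f', W.sub_mem heW hfW, ?_,
    fun _ => ?_⟩
  · intro v hv hvQ
    obtain ⟨x, y, hxy⟩ := hspan v hv
    have hsum : x * y = 1 := by
      rw [hxy, qI_lin2_9 hQ, hQe, hQf, hef] at hvQ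
      linear_combination hvQ
    refine ⟨0, ?_⟩
    show v = e + f' ∨ v = -(e + f')
    rcases f3_cases9 hq x with hx | hx | hx <;> rcases f3_cases9 hq y with hy | hy | hy <;>
      rw [hx, hy] at hsum hxy <;>
      first
      | exact absurd (show (1 : F) = 0 by linear_combination (-1 : F) * hsum) one_ne_zero
      | exact absurd (show (2 : F) = 0 by linear_combination (-1 : F) * hsum) h2
      | exact Or.inl (by rw [hxy]; module)
      | exact Or.inr (by rw [hxy]; module)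
  · rw [qI_subl9 hQ, qI_subr9 hQ, qI_subr9 hQ, hee, hef, hfe, hff]
    intro h
    exact h2 (by linear_combination -h)
  · show QuadraticMap.polar Q (e - f') (e + f') = 0
    rw [qI_subl9 hQ, hbl.add_right, hbl.add_right, hee, hef, hfe, hff]
    ring

/-- The frame of a hyperbolic plane over the field with five elements. -/
theorem frameH5_9 [Fintype F] (hq : Fintype.card F = 5)
    (hQ : Cfsg.Geo.IsNondegenerateQuadraticForm Q) (W : Submodule F (ι → F))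
    (hW : Module.finrank F W = 2) (hnd : Cfsg.Geo.IsNondegenerateOn (QuadraticMap.polar Q) W)
    (hplus : Cfsg.Geo.IsPlusTypeOn Q W) :
    ∃ f : Fin 2 → (ι → F), (∀ j, f j ∈ W) ∧ (∀ j, Q (f j) = 1) ∧
      (∀ j j', j ≠ j' → QuadraticMap.polar Q (f j) (f j') = 0) ∧
      (∀ v ∈ W, Q v = 1 → ∃ j, v = f j ∨ v = -f j) := by
  classical
  have hbl := hQ.polar_bilinear
  have h5 : (5 : F) = 0 := by
    have h' := FiniteField.cast_card_eq_zero F
    rw [hq] at h'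
    exact_mod_cast h'
  obtain ⟨e, f', heW, hfW, hQe, hQf, hef, hspan⟩ := hyp_pair9 hQ W hW hnd hplus
  have hfe : QuadraticMap.polar Q f' e = 1 := by rw [QuadraticMap.polar_comm]; exact hef
  have hee : QuadraticMap.polar Q e e = 0 := by rw [qI_self9 hQ, hQe, mul_zero]
  have hff : QuadraticMap.polar Q f' f' = 0 := by rw [qI_self9 hQ, hQf, mul_zero]
  obtain ⟨a, ha⟩ : ∃ a, a = e + f' := ⟨_, rfl⟩
  obtain ⟨b, hb⟩ : ∃ b, b = (2 : F) • e + (-2 : F) • f' := ⟨_, rfl⟩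
  have haW : a ∈ W := by rw [ha]; exact W.add_mem heW hfW
  have hbW : b ∈ W := by rw [hb]; exact W.add_mem (W.smul_mem _ heW) (W.smul_mem _ hfW)
  have hQa : Q a = 1 := by
    rw [ha, qI_add9 (Q := Q), hQe, hQf, hef]
    ring
  have hQb : Q b = 1 := by
    rw [hb, qI_lin2_9 hQ, hQe, hQf, hef]
    linear_combination (-1 : F) * h5
  have hab : QuadraticMap.polar Q a b = 0 := by
    rw [ha, hb]
    simp only [hbl.add_left, hbl.add_right, hbl.smul_right, hee, hff, hef, hfe]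
    ring
  have hba : QuadraticMap.polar Q b a = 0 := by rw [QuadraticMap.polar_comm]; exact hab
  obtain ⟨f, hf0, hf1⟩ : ∃ f : Fin 2 → (ι → F), f 0 = a ∧ f 1 = b := ⟨![a, b], rfl, rfl⟩
  refine ⟨f, ?_, ?_, ?_, ?_⟩
  · rw [Fin.forall_fin_two, hf0, hf1]
    exact ⟨haW, hbW⟩
  · rw [Fin.forall_fin_two, hf0, hf1]
    exact ⟨hQa, hQb⟩
  · rw [Fin.forall_fin_two]
    constructor
    · rw [Fin.forall_fin_two]
      refine ⟨fun h => absurd rfl h, fun _ => ?_⟩
      rw [hf0, hf1]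
      exact hab
    · rw [Fin.forall_fin_two]
      refine ⟨fun _ => ?_, fun h => absurd rfl h⟩
      rw [hf0, hf1]
      exact hba
  · intro v hv hvQ
    obtain ⟨x, y, hxy⟩ := hspan v hv
    have hsum : x * y = 1 := by
      rw [hxy, qI_lin2_9 hQ, hQe, hQf, hef] at hvQ
      linear_combination hvQ
    rcases f5_cases9 hq x with hx | hx | hx | hx | hx <;> rw [hx] at hsum hxy
    · exact absurd (show (1 : F) = 0 by linear_combination (-1 : F) * hsum) one_ne_zero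
    · have hy : y = 1 := by linear_combination hsum
      exact ⟨0, Or.inl (by rw [hf0, ha, hxy, hy]; module)⟩
    · have hy : y = -2 := by linear_combination (-2 : F) * hsum + y * h5
      exact ⟨1, Or.inl (by rw [hf1, hb, hxy, hy])⟩
    · have hy : y = 2 := by linear_combination (2 : F) * hsum + y * h5
      exact ⟨1, Or.inr (by rw [hf1, hb, hxy, hy]; module)⟩
    · have hy : y = -1 := by linear_combination (-1 : F) * hsum
      exact ⟨0, Or.inr (by rw [hf0, ha, hxy, hy]; module)⟩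

end general

variable {n : ℕ} {F : Type*} [Field F]

/-- Hyperbolic planes over the field with two elements. -/
theorem odec_q2_9 [Fintype F] (hn : 13 ≤ n) (Q : (Fin n → F) → F)
    (hQ : Cfsg.Geo.IsNondegenerateQuadraticForm Q) (hq : Fintype.card F = 2) {t : ℕ}
    (D : Fin t → Submodule F (Fin n → F)) (hD : Cfsg.Geo.IsOrthogonalMDecomposition Q 2 D)
    (hplus : ∀ i, Cfsg.Geo.IsPlusTypeOn Q (D i)) :
    ∃ K : Subgroup (GL (Fin n) F),
      Cfsg.Geo.decompositionStabilizer D ⊓ Cfsg.Geo.omegaGL Q < K ∧ K < Cfsg.Geo.omegaGL Q := by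
  classical
  have h2 : (2 : F) = 0 := f2_two9 hq
  have hchar : (2 : F) = 0 ∨ ((2 : F) ≠ 0 ∧ Fintype.card F % 2 = 1) := Or.inl h2
  have hbl := hQ.polar_bilinear
  have horth := hD.decomp.orthogonal
  have hfin := hD.decomp.decomp.finrank_eq
  have hdim := odec_dim9 D hD.decomp.decomp
  rw [Fintype.card_fin] at hdim
  have ht : 3 ≤ t := by omega
  have hone : ∀ a : F, a ≠ 0 → a = 1 := by
    intro a ha
    rcases f2_cases9 hq a with h | h
    · exact absurd h ha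
    · exact h
  have hblock : ∀ i, ∃ v, v ∈ D i ∧ Q v = 1 ∧ ∀ v' ∈ D i, Q v' = 1 → v' = v := by
    intro i
    obtain ⟨e, f', heW, hfW, hQe, hQf, hef, hspan⟩ :=
      hyp_pair9 hQ (D i) (hfin i) (hD.decomp.nondegenerate i) (hplus i)
    refine ⟨e + f', (D i).add_mem heW hfW, ?_, ?_⟩
    · rw [qI_add9 (Q := Q), hQe, hQf, hef]
      ring
    · intro v' hv' hv'Q
      obtain ⟨x, y, hxy⟩ := hspan v' hv'
      have hsum : x * y = 1 := by
        rw [hxy, qI_lin2_9 hQ, hQe, hQf, hef] at hv'Q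
        linear_combination hv'Q
      have hx : x = 1 := hone x (fun h => by rw [h, zero_mul] at hsum; exact zero_ne_one hsum)
      have hy : y = 1 := hone y (fun h => by rw [h, mul_zero] at hsum; exact zero_ne_one hsum)
      rw [hxy, hx, hy, one_smul, one_smul]
  choose V hVD hVQ hVu using hblock
  have hV0 : ∀ i, V i ≠ 0 := by
    intro i h
    have h1 := hVQ i
    rw [h, qf_zero9 hQ] at h1
    exact zero_ne_one h1
  have hX : ∀ i, ∃ x, x ∈ D i ∧ QuadraticMap.polar Q x (V i) = 1 := by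
    intro i
    obtain ⟨⟨x, hxD, hx⟩, -⟩ := hD.decomp.nondegenerate i (V i) (hVD i) (hV0 i)
    exact ⟨x, hxD, hone _ hx⟩
  choose X hXD hXV using hX
  have hVV : ∀ j l, QuadraticMap.polar Q (V j) (V l) = 0 := by
    intro j l
    by_cases hjl : j = l
    · rw [hjl, qI_self9 hQ, hVQ, mul_one]
      exact h2
    · exact horth j l hjl _ (hVD j) _ (hVD l)
  have hXQ : ∀ i, Q (X i) = 0 := by
    intro i
    by_contra h
    have h1 := hVu i (X i) (hXD i) (hone _ h)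
    have h3 := hXV i
    rw [h1, hVV] at h3
    exact zero_ne_one h3
  have hXVne : ∀ i j, i ≠ j → QuadraticMap.polar Q (X i) (V j) = 0 := by
    intro i j hij
    exact horth i j hij _ (hXD i) _ (hVD j)
  obtain ⟨i₀, hi₀⟩ : ∃ i₀ : Fin t, i₀ = ⟨0, by omega⟩ := ⟨_, rfl⟩
  obtain ⟨i₁, hi₁⟩ : ∃ i₁ : Fin t, i₁ = ⟨1, by omega⟩ := ⟨_, rfl⟩
  obtain ⟨i₂, hi₂⟩ : ∃ i₂ : Fin t, i₂ = ⟨2, by omega⟩ := ⟨_, rfl⟩
  have h01 : i₀ ≠ i₁ := by
    rw [hi₀, hi₁]
    exact fun h => absurd (congrArg Fin.val h) (by norm_num)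
  have h02 : i₀ ≠ i₂ := by
    rw [hi₀, hi₂]
    exact fun h => absurd (congrArg Fin.val h) (by norm_num)
  have h12 : i₁ ≠ i₂ := by
    rw [hi₁, hi₂]
    exact fun h => absurd (congrArg Fin.val h) (by norm_num)
  obtain ⟨S, hS⟩ : ∃ S : Set (Fin n → F), ∀ v, v ∈ S ↔ ∃ i, v ∈ D i ∧ Q v = 1 :=
    ⟨{v | ∃ i, v ∈ D i ∧ Q v = 1}, fun _ => Iff.rfl⟩
  have hmemK : ∀ g : GL (Fin n) F, g ∈ Cfsg.stabilizing (Cfsg.glToMat (Fin n) F) S ↔
      ∀ v : Fin n → F, v ∈ S ↔ (g : Matrix (Fin n) (Fin n) F) *ᵥ v ∈ S := fun g => Iff.rfl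
  have hstab : ∀ t : GL (Fin n) F, (∀ v, v ∈ S → (t : Matrix (Fin n) (Fin n) F) *ᵥ v ∈ S) →
      t ∈ Cfsg.stabilizing (Cfsg.glToMat (Fin n) F) S := by
    intro t ht
    refine (hmemK t).mpr (fun v => ⟨ht v, fun hv => ?_⟩)
    have hinj : Function.Injective (fun s : S => (⟨(t : Matrix (Fin n) (Fin n) F) *ᵥ s.1, ht s.1 s.2⟩ : S)) := by
      intro s s' hss
      have h4 : (t : Matrix (Fin n) (Fin n) F) *ᵥ s.1 = (t : Matrix (Fin n) (Fin n) F) *ᵥ s'.1 := congrArg Subtype.val hss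
      have h5 : ((t⁻¹ : GL (Fin n) F) : Matrix (Fin n) (Fin n) F) *ᵥ ((t : Matrix (Fin n) (Fin n) F) *ᵥ s.1) = ((t⁻¹ : GL (Fin n) F) : Matrix (Fin n) (Fin n) F) *ᵥ ((t : Matrix (Fin n) (Fin n) F) *ᵥ s'.1) := by rw [h4]
      rw [gl_inv_mul_vec9, gl_inv_mul_vec9] at h5
      exact Subtype.ext h5
    obtain ⟨s, hs⟩ := (Finite.surjective_of_injective hinj) ⟨(t : Matrix (Fin n) (Fin n) F) *ᵥ v, hv⟩
    have h6 : (t : Matrix (Fin n) (Fin n) F) *ᵥ s.1 = (t : Matrix (Fin n) (Fin n) F) *ᵥ v := congrArg Subtype.val hs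
    have h7 : ((t⁻¹ : GL (Fin n) F) : Matrix (Fin n) (Fin n) F) *ᵥ ((t : Matrix (Fin n) (Fin n) F) *ᵥ s.1) = ((t⁻¹ : GL (Fin n) F) : Matrix (Fin n) (Fin n) F) *ᵥ ((t : Matrix (Fin n) (Fin n) F) *ᵥ v) := by rw [h6]
    rw [gl_inv_mul_vec9, gl_inv_mul_vec9] at h7
    rw [← h7]
    exact s.2
  -- the first witness
  obtain ⟨u, hu⟩ : ∃ u, u = V i₀ + V i₁ := ⟨_, rfl⟩
  obtain ⟨w, hw⟩ : ∃ w, w = V i₀ + V i₂ := ⟨_, rfl⟩
  have hQu : Q u = 0 := by
    rw [hu, qI_add9 (Q := Q), hVQ, hVQ, hVV]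
    linear_combination h2
  have hQw : Q w = 0 := by
    rw [hw, qI_add9 (Q := Q), hVQ, hVQ, hVV]
    linear_combination h2
  have hVu' : ∀ j, QuadraticMap.polar Q (V j) u = 0 := by
    intro j
    rw [hu, hbl.add_right, hVV, hVV, add_zero]
  have hVw' : ∀ j, QuadraticMap.polar Q (V j) w = 0 := by
    intro j
    rw [hw, hbl.add_right, hVV, hVV, add_zero]
  have huw : QuadraticMap.polar Q u w = 0 := by
    rw [hu, hbl.add_left, hVw', hVw', add_zero]
  obtain ⟨bp, cp, hbpQ, hcpQ, hbpcp, hbpS, hcpS⟩ := qf_hyp9 hQ hchar hn (spanL9 [u, w]) (by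
    have := finrank_spanL9 (F := F) [u, w]
    simp only [List.length_cons, List.length_nil] at this
    omega)
  obtain ⟨g₁, hg₁Ω, hg₁⟩ := sieg_omega9 hQ u w bp cp hQu hQw hbpQ hcpQ huw hbpcp
    (hbpS _ (mem_spanL9 (by simp))) (hcpS _ (mem_spanL9 (by simp)))
    (hbpS _ (mem_spanL9 (by simp))) (hcpS _ (mem_spanL9 (by simp)))
  have hg₁V : ∀ j, (g₁ : Matrix (Fin n) (Fin n) F) *ᵥ (V j) = V j := by
    intro j
    rw [hg₁, hVu', hVw', zero_smul, zero_smul, add_zero, sub_zero]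
  have hfw₁ : ∀ v, v ∈ S → (g₁ : Matrix (Fin n) (Fin n) F) *ᵥ v ∈ S := by
    intro v hv
    obtain ⟨i, hvi, hvQ⟩ := (hS v).mp hv
    rw [hVu i v hvi hvQ, hg₁V]
    exact (hS _).mpr ⟨i, hVD i, hVQ i⟩
  have hg₁D : g₁ ∉ Cfsg.Geo.decompositionStabilizer D := by
    rintro ⟨σ, hσ⟩
    have h1 : ∀ x ∈ D i₀, (g₁ : Matrix (Fin n) (Fin n) F) *ᵥ x ∈ D (σ i₀) := by
      intro x hx
      rw [← hσ i₀]
      exact Submodule.mem_map.mpr ⟨x, hx, Matrix.toLin'_apply _ _⟩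
    have h3 := h1 (V i₀) (hVD i₀)
    rw [hg₁V] at h3
    have h4 : σ i₀ = i₀ := by
      by_contra hne
      have h5 := horth i₀ (σ i₀) (Ne.symm hne) _ (hXD i₀) _ h3
      rw [hXV] at h5
      exact one_ne_zero h5
    have h5 := h1 (X i₀) (hXD i₀)
    rw [h4, hg₁] at h5
    have e1 : QuadraticMap.polar Q (X i₀) w = 1 := by
      rw [hw, hbl.add_right, hXV, hXVne _ _ h02, add_zero]
    have e2 : QuadraticMap.polar Q (X i₀) u = 1 := by
      rw [hu, hbl.add_right, hXV, hXVne _ _ h01, add_zero]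
    rw [e1, e2, one_smul, one_smul, hu, hw] at h5
    have h6 : V i₁ - V i₂ ∈ D i₀ := by
      have h7 := (D i₀).sub_mem h5 (hXD i₀)
      have h8 : X i₀ + (V i₀ + V i₁) - (V i₀ + V i₂) - X i₀ = V i₁ - V i₂ := by abel
      rw [h8] at h7
      exact h7
    have h9 := horth i₁ i₀ (Ne.symm h01) _ (hXD i₁) _ h6
    rw [qf_subr9 hQ, hXV, hXVne _ _ h12, sub_zero] at h9
    exact one_ne_zero h9
  -- the second witness
  obtain ⟨w₂, hw₂⟩ : ∃ w₂, w₂ = V i₁ + V i₂ := ⟨_, rfl⟩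
  have hQw₂ : Q w₂ = 0 := by
    rw [hw₂, qI_add9 (Q := Q), hVQ, hVQ, hVV]
    linear_combination h2
  have hXw₂ : QuadraticMap.polar Q (X i₀) w₂ = 0 := by
    rw [hw₂, hbl.add_right, hXVne _ _ h01, hXVne _ _ h02, add_zero]
  obtain ⟨bq, cq, hbqQ, hcqQ, hbqcq, hbqS, hcqS⟩ := qf_hyp9 hQ hchar hn (spanL9 [X i₀, w₂]) (by
    have := finrank_spanL9 (F := F) [X i₀, w₂]
    simp only [List.length_cons, List.length_nil] at this
    omega)
  obtain ⟨g₂, hg₂Ω, hg₂⟩ := sieg_omega9 hQ (X i₀) w₂ bq cq (hXQ i₀) hQw₂ hbqQ hcqQ hXw₂ hbqcq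
    (hbqS _ (mem_spanL9 (by simp))) (hcqS _ (mem_spanL9 (by simp)))
    (hbqS _ (mem_spanL9 (by simp))) (hcqS _ (mem_spanL9 (by simp)))
  have hVX : QuadraticMap.polar Q (V i₀) (X i₀) = 1 := by
    rw [QuadraticMap.polar_comm]
    exact hXV i₀
  have hg₂V : (g₂ : Matrix (Fin n) (Fin n) F) *ᵥ (V i₀) = V i₀ - w₂ := by
    rw [hg₂, hw₂, hbl.add_right, hVV, hVV, add_zero, zero_smul, add_zero, hVX, one_smul]
  refine ⟨Cfsg.stabilizing (Cfsg.glToMat (Fin n) F) S ⊓ Cfsg.Geo.omegaGL Q,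
    lt_of_le_of_ne ?_ ?_, lt_of_le_of_ne inf_le_right ?_⟩
  · intro g hg
    refine ⟨hstab g ?_, hg.2⟩
    intro v hv
    obtain ⟨i, hvi, hvQ⟩ := (hS v).mp hv
    obtain ⟨σ, hσ⟩ := hg.1
    refine (hS _).mpr ⟨σ i, ?_, ?_⟩
    · rw [← hσ i]
      exact Submodule.mem_map.mpr ⟨v, hvi, Matrix.toLin'_apply _ _⟩
    · rw [omega_iso9 hg.2, hvQ]
  · intro heq
    have h1 : g₁ ∈ Cfsg.Geo.decompositionStabilizer D ⊓ Cfsg.Geo.omegaGL Q := by
      rw [heq]
      exact ⟨hstab _ hfw₁, hg₁Ω⟩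
    exact hg₁D h1.1
  · intro heq
    have h1 : g₂ ∈ Cfsg.stabilizing (Cfsg.glToMat (Fin n) F) S ⊓ Cfsg.Geo.omegaGL Q := by
      rw [heq]
      exact hg₂Ω
    have h4 := ((hmemK _).mp h1.1 (V i₀)).mp ((hS _).mpr ⟨i₀, hVD i₀, hVQ i₀⟩)
    rw [hg₂V] at h4
    obtain ⟨i, hyi, -⟩ := (hS _).mp h4
    have e1 : QuadraticMap.polar Q (X i₀) (V i₀ - w₂) = 1 := by
      rw [qf_subr9 hQ, hXV, hXw₂, sub_zero]
    have e2 : QuadraticMap.polar Q (X i₁) (V i₀ - w₂) = -1 := by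
      rw [qf_subr9 hQ, hw₂, hbl.add_right, hXVne _ _ (Ne.symm h01), hXV, hXVne _ _ h12, add_zero,
        zero_sub]
    have h7 : i = i₀ := by
      by_contra hne
      have h5 := horth i₀ i (Ne.symm hne) _ (hXD i₀) _ hyi
      rw [e1] at h5
      exact one_ne_zero h5
    have h8 : i = i₁ := by
      by_contra hne
      have h5 := horth i₁ i (Ne.symm hne) _ (hXD i₁) _ hyi
      rw [e2] at h5
      exact one_ne_zero (neg_eq_zero.mp h5)
    exact h01 (h7.symm.trans h8)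

end Cfsg.Agent.Helper9
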