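import Mathlib
import Cfsg.Agent.Helper9.ODecH9

set_option autoImplicit false

namespace Cfsg.Agent.Helper9

open Cfsg
open scoped MatrixGroups Matrix

variable {ι : Type} [Fintype ι] [DecidableEq ι] {F : Type*} [Field F] {Q : (ι → F) → F}

/-- Hyperbolic planes over the field with four elements. -/
theorem odec_q4_9 [Fintype F] (hQ : Cfsg.Geo.IsNondegenerateQuadraticForm Q)
    (hq : Fintype.card F = 4) {t : ℕ} (ht : 3 ≤ t)
    (D : Fin t → Submodule F (ι → F)) (hD : Cfsg.Geo.IsOrthogonalMDecomposition Q 2 D)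
    (hplus : ∀ i, Cfsg.Geo.IsPlusTypeOn Q (D i)) :
    ∃ K : Subgroup (GL ι F),
      Cfsg.Geo.decompositionStabilizer D ⊓ Cfsg.Geo.omegaGL Q < K ∧ K < Cfsg.Geo.omegaGL Q := by
  classical
  have h2 : (2 : F) = 0 := by
    have h' := FiniteField.cast_card_eq_zero F
    rw [hq] at h'
    have h4 : (2 : F) * 2 = 0 := by
      have h5 : ((4 : ℕ) : F) = 0 := h'
      push_cast at h5
      linear_combination h5
    exact mul_self_eq_zero.mp h4
  have hbl := hQ.polar_bilinear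
  have horth := hD.decomp.orthogonal
  have hfin := hD.decomp.decomp.finrank_eq
  have hvv : ∀ v : ι → F, v + v = 0 := fun v => by rw [← two_smul F v, h2, zero_smul]
  have hneg : ∀ v : ι → F, -v = v := fun v => neg_eq_of_add_eq_zero_left (hvv v)
  have hz : ∀ v : ι → F, QuadraticMap.polar Q 0 v = 0 := by
    intro v
    have h := hbl.smul_left 0 0 v
    rwa [zero_smul, zero_mul] at h
  have hzr : ∀ v : ι → F, QuadraticMap.polar Q v 0 = 0 := by
    intro v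
    rw [QuadraticMap.polar_comm]
    exact hz v
  have hcube : ∀ ρ : F, ρ ≠ 0 → ρ ^ 3 = 1 := by
    intro ρ hρ
    have h := FiniteField.pow_card_sub_one_eq_one ρ hρ
    rw [hq] at h
    exact h
  obtain ⟨ω, hω⟩ : ∃ ω : F, ω * ω = ω + 1 := by
    have h3 : 2 < Fintype.card F := by rw [hq]; norm_num
    obtain ⟨x, y, z, hxy, hxz, hyz⟩ := Fintype.two_lt_card_iff.mp h3
    have hex : ∃ ω : F, ω ≠ 0 ∧ ω ≠ 1 := by
      by_cases hx0 : x = 0
      · by_cases hy1 : y = 1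
        · exact ⟨z, fun h => hxz (hx0.trans h.symm), fun h => hyz (hy1.trans h.symm)⟩
        · exact ⟨y, fun h => hxy (hx0.trans h.symm), hy1⟩
      · by_cases hx1 : x = 1
        · by_cases hy0 : y = 0
          · exact ⟨z, fun h => hyz (hy0.trans h.symm), fun h => hxz (hx1.trans h.symm)⟩
          · exact ⟨y, hy0, fun h => hxy (hx1.trans h.symm)⟩
        · exact ⟨x, hx0, hx1⟩
    obtain ⟨ω, hω0, hω1⟩ := hex
    refine ⟨ω, ?_⟩
    have h5 := hcube ω hω0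
    have h6 : (ω - 1) * (ω * ω + ω + 1) = 0 := by linear_combination h5
    rcases mul_eq_zero.mp h6 with h7 | h7
    · exact absurd (sub_eq_zero.mp h7) hω1
    · linear_combination h7 - (ω + 1) * h2
  have hω0 : ω ≠ 0 := by
    intro h
    rw [h, mul_zero, zero_add] at hω
    exact zero_ne_one hω
  have hωω0 : ω * ω ≠ 0 := mul_ne_zero hω0 hω0
  have hblock : ∀ i, (∀ p p', p ∈ D i → p' ∈ D i → Q p = 1 → Q p' = 1 →
      p = p' ∨ QuadraticMap.polar Q p p' = 1) ∧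
      ∃ a b, a ∈ D i ∧ b ∈ D i ∧ Q a = 1 ∧ Q b = 1 ∧ QuadraticMap.polar Q a b = 1 := by
    intro i
    obtain ⟨e, f', heW, hfW, hQe, hQf, hef, hspan⟩ :=
      hyp_pair9 hQ (D i) (hfin i) (hD.decomp.nondegenerate i) (hplus i)
    have hfe : QuadraticMap.polar Q f' e = 1 := by rw [QuadraticMap.polar_comm]; exact hef
    have hee : QuadraticMap.polar Q e e = 0 := by rw [qI_self9 hQ, hQe, mul_zero]
    have hff : QuadraticMap.polar Q f' f' = 0 := by rw [qI_self9 hQ, hQf, mul_zero]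
    constructor
    · intro p p' hp hp' hQp hQp'
      obtain ⟨x, y, hxy⟩ := hspan p hp
      obtain ⟨x', y', hxy'⟩ := hspan p' hp'
      have h1 : x * y = 1 := by
        rw [hxy, qI_lin2_9 hQ, hQe, hQf, hef] at hQp
        linear_combination hQp
      have h1' : x' * y' = 1 := by
        rw [hxy', qI_lin2_9 hQ, hQe, hQf, hef] at hQp'
        linear_combination hQp'
      have hpol : QuadraticMap.polar Q p p' = x * y' + y * x' := by
        rw [hxy, hxy']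
        simp only [hbl.add_left, hbl.add_right, hbl.smul_left, hbl.smul_right, hee, hff, hef, hfe]
        ring
      obtain ⟨ρ, hρ⟩ : ∃ ρ, ρ = x * y' := ⟨_, rfl⟩
      obtain ⟨τ, hτ⟩ : ∃ τ, τ = y * x' := ⟨_, rfl⟩
      have hρτ : ρ * τ = 1 := by
        rw [hρ, hτ]
        linear_combination (x' * y') * h1 + h1'
      have hρ0 : ρ ≠ 0 := left_ne_zero_of_mul_eq_one hρτ
      rw [hpol, ← hρ, ← hτ]
      have h6 : (ρ - 1) * (ρ * ρ + ρ + 1) = 0 := by linear_combination hcube ρ hρ0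
      rcases mul_eq_zero.mp h6 with h7 | h7
      · left
        have hρ1 : ρ = 1 := sub_eq_zero.mp h7
        have hx0 : x ≠ 0 := left_ne_zero_of_mul_eq_one h1
        have hy0 : y ≠ 0 := right_ne_zero_of_mul_eq_one h1
        have hyy : y' = y := by
          apply mul_left_cancel₀ hx0
          rw [← hρ, hρ1, h1]
        have hxx : x' = x := by
          apply mul_right_cancel₀ hy0
          rw [h1, ← hyy, h1']
        rw [hxy, hxy', hxx, hyy]
      · right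
        have hτ' : τ = ρ + 1 := by
          apply mul_left_cancel₀ hρ0
          rw [hρτ]
          linear_combination (-1 : F) * h7 + h2
        rw [hτ']
        linear_combination ρ * h2
    · refine ⟨e + f', ω • e + (ω + 1) • f', (D i).add_mem heW hfW,
        (D i).add_mem ((D i).smul_mem _ heW) ((D i).smul_mem _ hfW), ?_, ?_, ?_⟩
      · rw [qI_add9 (Q := Q), hQe, hQf, hef]
        ring
      · rw [qI_lin2_9 hQ, hQe, hQf, hef]
        linear_combination hω + ω * h2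
      · simp only [hbl.add_left, hbl.add_right, hbl.smul_right, hee, hff, hef, hfe]
        linear_combination ω * h2
  have hpair : ∀ i p p', p ∈ D i → p' ∈ D i → Q p = 1 → Q p' = 1 →
      p = p' ∨ QuadraticMap.polar Q p p' = 1 := fun i => (hblock i).1
  have hex : ∀ i, ∃ a b, a ∈ D i ∧ b ∈ D i ∧ Q a = 1 ∧ Q b = 1 ∧ QuadraticMap.polar Q a b = 1 :=
    fun i => (hblock i).2
  choose a b haD hbD hQa hQb hab using hex
  have hba : ∀ i, QuadraticMap.polar Q (b i) (a i) = 1 := by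
    intro i
    rw [QuadraticMap.polar_comm]
    exact hab i
  have hA_add : ∀ i p p', p ∈ D i → p' ∈ D i → (p = 0 ∨ Q p = 1) → (p' = 0 ∨ Q p' = 1) →
      (p + p' = 0 ∨ Q (p + p') = 1) := by
    intro i p p' hp hp' h h'
    rcases h with h | h
    · rw [h, zero_add]
      exact h'
    · rcases h' with h' | h'
      · rw [h', add_zero]
        exact Or.inr h
      · rcases hpair i p p' hp hp' h h' with h5 | h5
        · left
          rw [h5]
          exact hvv p'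
        · right
          rw [qI_add9 (Q := Q), h, h', h5]
          linear_combination h2
  have hA_pol : ∀ i p p', p ∈ D i → p' ∈ D i → (p = 0 ∨ Q p = 1) → (p' = 0 ∨ Q p' = 1) →
      (QuadraticMap.polar Q p p' = 0 ∨ QuadraticMap.polar Q p p' = 1) := by
    intro i p p' hp hp' h h'
    rcases h with h | h
    · left
      rw [h, hz]
    · rcases h' with h' | h'
      · left
        rw [h', hzr]
      · rcases hpair i p p' hp hp' h h' with h5 | h5
        · left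
          rw [h5, qI_self9 hQ, h', mul_one]
          exact h2
        · exact Or.inr h5
  have h01add : ∀ c c' : F, (c = 0 ∨ c = 1) → (c' = 0 ∨ c' = 1) →
      (c + c' = 0 ∨ c + c' = 1) := by
    intro c c' h h'
    rcases h with h | h <;> rcases h' with h' | h' <;> rw [h, h']
    · left
      rw [add_zero]
    · right
      rw [zero_add]
    · right
      rw [add_zero]
    · left
      rw [one_add_one_eq_two]
      exact h2
  obtain ⟨S, hS⟩ : ∃ S : Set (ι → F), ∀ v, v ∈ S ↔ ∃ w : Fin t → ι → F,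
      (∀ i, w i ∈ D i ∧ (w i = 0 ∨ Q (w i) = 1)) ∧ v = ∑ i, w i :=
    ⟨{v | ∃ w : Fin t → ι → F, (∀ i, w i ∈ D i ∧ (w i = 0 ∨ Q (w i) = 1)) ∧ v = ∑ i, w i},
      fun _ => Iff.rfl⟩
  have hmemK : ∀ g : GL ι F, g ∈ Cfsg.stabilizing (Cfsg.glToMat ι F) S ↔
      ∀ v : ι → F, v ∈ S ↔ (g : Matrix ι ι F) *ᵥ v ∈ S := fun g => Iff.rfl
  have hstab : ∀ t : GL ι F, (∀ v, v ∈ S → (t : Matrix ι ι F) *ᵥ v ∈ S) →
      t ∈ Cfsg.stabilizing (Cfsg.glToMat ι F) S := by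
    intro t ht
    refine (hmemK t).mpr (fun v => ⟨ht v, fun hv => ?_⟩)
    have hinj : Function.Injective (fun s : S => (⟨(t : Matrix ι ι F) *ᵥ s.1, ht s.1 s.2⟩ : S)) := by
      intro s s' hss
      have h4 : (t : Matrix ι ι F) *ᵥ s.1 = (t : Matrix ι ι F) *ᵥ s'.1 := congrArg Subtype.val hss
      have h5 : ((t⁻¹ : GL ι F) : Matrix ι ι F) *ᵥ ((t : Matrix ι ι F) *ᵥ s.1) = ((t⁻¹ : GL ι F) : Matrix ι ι F) *ᵥ ((t : Matrix ι ι F) *ᵥ s'.1) := by rw [h4]
      rw [gl_inv_mul_vecI9, gl_inv_mul_vecI9] at h5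
      exact Subtype.ext h5
    obtain ⟨s, hs⟩ := (Finite.surjective_of_injective hinj) ⟨(t : Matrix ι ι F) *ᵥ v, hv⟩
    have h6 : (t : Matrix ι ι F) *ᵥ s.1 = (t : Matrix ι ι F) *ᵥ v := congrArg Subtype.val hs
    have h7 : ((t⁻¹ : GL ι F) : Matrix ι ι F) *ᵥ ((t : Matrix ι ι F) *ᵥ s.1) = ((t⁻¹ : GL ι F) : Matrix ι ι F) *ᵥ ((t : Matrix ι ι F) *ᵥ v) := by rw [h6]
    rw [gl_inv_mul_vecI9, gl_inv_mul_vecI9] at h7
    rw [← h7]
    exact s.2
  have hS_add : ∀ v v', v ∈ S → v' ∈ S → v + v' ∈ S := by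
    intro v v' hv hv'
    obtain ⟨w, hw, rfl⟩ := (hS v).mp hv
    obtain ⟨w', hw', rfl⟩ := (hS v').mp hv'
    refine (hS _).mpr ⟨fun i => w i + w' i, fun i => ⟨(D i).add_mem (hw i).1 (hw' i).1,
      hA_add i _ _ (hw i).1 (hw' i).1 (hw i).2 (hw' i).2⟩, ?_⟩
    rw [Finset.sum_add_distrib]
  have hsumL : ∀ (s : Finset (Fin t)) (w : Fin t → ι → F) (z : ι → F),
      QuadraticMap.polar Q (∑ i ∈ s, w i) z = ∑ i ∈ s, QuadraticMap.polar Q (w i) z := by
    intro s w z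
    refine Finset.induction_on s ?_ ?_
    · rw [Finset.sum_empty, Finset.sum_empty, hz]
    · intro a s ha ih
      rw [Finset.sum_insert ha, Finset.sum_insert ha, hbl.add_left, ih]
  have hS_pol1 : ∀ v, v ∈ S → ∀ i p, p ∈ D i → (p = 0 ∨ Q p = 1) →
      (QuadraticMap.polar Q v p = 0 ∨ QuadraticMap.polar Q v p = 1) := by
    intro v hv i p hp hp1
    obtain ⟨w, hw, rfl⟩ := (hS v).mp hv
    rw [hsumL, Finset.sum_eq_single i (fun j _ hji => horth j i hji _ (hw j).1 _ hp)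
      (fun h => absurd (Finset.mem_univ i) h)]
    exact hA_pol i _ _ (hw i).1 hp (hw i).2 hp1
  have hS_single : ∀ i p, p ∈ D i → (p = 0 ∨ Q p = 1) → p ∈ S := by
    intro i p hp hp1
    refine (hS p).mpr ⟨Pi.single i p, fun j => ?_, ?_⟩
    · by_cases hji : j = i
      · rw [hji, Pi.single_eq_same]
        exact ⟨hp, hp1⟩
      · rw [Pi.single_eq_of_ne hji]
        exact ⟨(D j).zero_mem, Or.inl rfl⟩
    · rw [Finset.sum_eq_single i (fun j _ hji => by rw [Pi.single_eq_of_ne hji])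
        (fun h => absurd (Finset.mem_univ i) h), Pi.single_eq_same]
  have hrefl : ∀ z, z ∈ S → Q z = 1 → (∀ x, x ∈ S → QuadraticMap.polar Q x z = 0 ∨ QuadraticMap.polar Q x z = 1) →
      ∀ r : GL ι F, (∀ x, (r : Matrix ι ι F) *ᵥ x = x - (QuadraticMap.polar Q x z * (Q z)⁻¹) • z) → ∀ x, x ∈ S → (r : Matrix ι ι F) *ᵥ x ∈ S := by
    intro z hzS hQz hpol r hr x hx
    rw [hr, hQz, inv_one, mul_one]
    rcases hpol x hx with h | h
    · rw [h, zero_smul, sub_zero]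
      exact hx
    · rw [h, one_smul, sub_eq_add_neg, hneg]
      exact hS_add _ _ hx hzS
  obtain ⟨i₁, hi₁⟩ : ∃ i₁ : Fin t, i₁ = ⟨0, by omega⟩ := ⟨_, rfl⟩
  obtain ⟨i₂, hi₂⟩ : ∃ i₂ : Fin t, i₂ = ⟨1, by omega⟩ := ⟨_, rfl⟩
  obtain ⟨i₃, hi₃⟩ : ∃ i₃ : Fin t, i₃ = ⟨2, by omega⟩ := ⟨_, rfl⟩
  have h12 : i₁ ≠ i₂ := by
    rw [hi₁, hi₂]
    exact fun h => absurd (congrArg Fin.val h) (by norm_num)
  have h13 : i₁ ≠ i₃ := by
    rw [hi₁, hi₃]
    exact fun h => absurd (congrArg Fin.val h) (by norm_num)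
  have h23 : i₂ ≠ i₃ := by
    rw [hi₂, hi₃]
    exact fun h => absurd (congrArg Fin.val h) (by norm_num)
  have hO : ∀ i j (x y : ι → F), i ≠ j → x ∈ D i → y ∈ D j → QuadraticMap.polar Q x y = 0 :=
    fun i j x y hij hx hy => horth i j hij x hx y hy
  have hbb : ∀ i, QuadraticMap.polar Q (b i) (b i) = 0 := by
    intro i
    rw [qI_self9 hQ, hQb, mul_one]
    exact h2
  -- the first witness
  obtain ⟨u, hu⟩ : ∃ u, u = a i₁ + a i₂ + a i₃ := ⟨_, rfl⟩
  have hQu : Q u = 1 := by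
    rw [hu, qI_add9 (Q := Q), qI_add9 (Q := Q), hQa, hQa, hQa, hbl.add_left,
      hO _ _ _ _ h12 (haD _) (haD _), hO _ _ _ _ h13 (haD _) (haD _),
      hO _ _ _ _ h23 (haD _) (haD _)]
    linear_combination h2
  have huS : u ∈ S := by
    rw [hu]
    exact hS_add _ _ (hS_add _ _ (hS_single _ _ (haD _) (Or.inr (hQa _)))
      (hS_single _ _ (haD _) (Or.inr (hQa _)))) (hS_single _ _ (haD _) (Or.inr (hQa _)))
  have hpolu : ∀ x, x ∈ S → QuadraticMap.polar Q x u = 0 ∨ QuadraticMap.polar Q x u = 1 := by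
    intro x hx
    rw [hu, hbl.add_right, hbl.add_right]
    exact h01add _ _ (h01add _ _ (hS_pol1 x hx _ _ (haD _) (Or.inr (hQa _)))
      (hS_pol1 x hx _ _ (haD _) (Or.inr (hQa _)))) (hS_pol1 x hx _ _ (haD _) (Or.inr (hQa _)))
  have hb₁S : b i₁ ∈ S := hS_single _ _ (hbD _) (Or.inr (hQb _))
  have hpolb : ∀ x, x ∈ S → QuadraticMap.polar Q x (b i₁) = 0 ∨ QuadraticMap.polar Q x (b i₁) = 1 :=
    fun x hx => hS_pol1 x hx _ _ (hbD _) (Or.inr (hQb _))
  have hub : QuadraticMap.polar Q u (b i₁) = 1 := by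
    rw [hu, hbl.add_left, hbl.add_left, hab, hO _ _ _ _ (Ne.symm h12) (haD _) (hbD _),
      hO _ _ _ _ (Ne.symm h13) (haD _) (hbD _), add_zero, add_zero]
  have hbu : QuadraticMap.polar Q (b i₁) u = 1 := by rw [QuadraticMap.polar_comm]; exact hub
  have hu0 : Q u ≠ 0 := by rw [hQu]; exact one_ne_zero
  have hb0 : Q (b i₁) ≠ 0 := by rw [hQb]; exact one_ne_zero
  have hub0 : Q (u + b i₁) ≠ 0 := by
    rw [qI_add9 (Q := Q), hQu, hQb, hub]
    intro h
    exact one_ne_zero (show (1 : F) = 0 by linear_combination h - h2)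
  obtain ⟨r₁, hr₁, hr₁i, hr₁Q⟩ := exists_refl9 hQ u hu0
  obtain ⟨r₂, hr₂, hr₂i, hr₂Q⟩ := exists_refl9 hQ (b i₁) hb0
  have hg₁Ω : r₁ * r₂ ∈ Cfsg.Geo.omegaGL Q :=
    refl_mul_omega9 hQ u (b i₁) hu0 ((hQb i₁).trans hQu.symm) hub0 r₁ r₂ hr₁ hr₁i hr₁Q hr₂
  have hfw₁ : ∀ v, v ∈ S → ((r₁ * r₂ : GL ι F) : Matrix ι ι F) *ᵥ v ∈ S := by
    intro v hv
    rw [gl_mul_vecI9]
    exact hrefl u huS hQu hpolu r₁ hr₁ _ (hrefl (b i₁) hb₁S (hQb i₁) hpolb r₂ hr₂ v hv)
  have hg₁b : ((r₁ * r₂ : GL ι F) : Matrix ι ι F) *ᵥ (b i₁) = b i₁ - u := by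
    rw [gl_mul_vecI9, hr₂, hbb, zero_mul, zero_smul, sub_zero, hr₁, hbu, hQu, inv_one, mul_one,
      one_smul]
  have hg₁D : r₁ * r₂ ∉ Cfsg.Geo.decompositionStabilizer D := by
    rintro ⟨σ, hσ⟩
    have h1 : ((r₁ * r₂ : GL ι F) : Matrix ι ι F) *ᵥ (b i₁) ∈ D (σ i₁) := by
      rw [← hσ i₁]
      exact Submodule.mem_map.mpr ⟨b i₁, hbD i₁, Matrix.toLin'_apply _ _⟩
    rw [hg₁b] at h1
    have e1 : QuadraticMap.polar Q (b i₂) (b i₁ - u) = -1 := by
      rw [qI_subr9 hQ, hu, hbl.add_right, hbl.add_right, hba,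
        hO _ _ _ _ (Ne.symm h12) (hbD _) (hbD _), hO _ _ _ _ (Ne.symm h12) (hbD _) (haD _),
        hO _ _ _ _ h23 (hbD _) (haD _)]
      ring
    have e2 : QuadraticMap.polar Q (b i₃) (b i₁ - u) = -1 := by
      rw [qI_subr9 hQ, hu, hbl.add_right, hbl.add_right, hba,
        hO _ _ _ _ (Ne.symm h13) (hbD _) (hbD _), hO _ _ _ _ (Ne.symm h13) (hbD _) (haD _),
        hO _ _ _ _ (Ne.symm h23) (hbD _) (haD _)]
      ring
    have h7 : σ i₁ = i₂ := by
      by_contra hne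
      have h5 := hO _ _ _ _ (Ne.symm hne) (hbD i₂) h1
      rw [e1] at h5
      exact one_ne_zero (neg_eq_zero.mp h5)
    have h8 : σ i₁ = i₃ := by
      by_contra hne
      have h5 := hO _ _ _ _ (Ne.symm hne) (hbD i₃) h1
      rw [e2] at h5
      exact one_ne_zero (neg_eq_zero.mp h5)
    exact h23 (h7.symm.trans h8)
  -- the second witness
  obtain ⟨u', hu'⟩ : ∃ u', u' = ω • a i₁ + a i₂ + a i₃ := ⟨_, rfl⟩
  obtain ⟨w', hw'⟩ : ∃ w', w' = ω • b i₁ := ⟨_, rfl⟩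
  have hQu' : Q u' = ω * ω := by
    rw [hu', qI_add9 (Q := Q), qI_add9 (Q := Q), hQ.smul, hQa, hQa, hQa, hbl.add_left,
      hbl.smul_left, hbl.smul_left, hO _ _ _ _ h12 (haD _) (haD _),
      hO _ _ _ _ h13 (haD _) (haD _), hO _ _ _ _ h23 (haD _) (haD _)]
    linear_combination h2
  have hQw' : Q w' = ω * ω := by
    rw [hw', hQ.smul, hQb]
    ring
  have hu'w' : QuadraticMap.polar Q u' w' = ω * ω := by
    rw [hu', hw', hbl.smul_right, hbl.add_left, hbl.add_left, hbl.smul_left, hab,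
      hO _ _ _ _ (Ne.symm h12) (haD _) (hbD _), hO _ _ _ _ (Ne.symm h13) (haD _) (hbD _)]
    ring
  have hu'0 : Q u' ≠ 0 := by rw [hQu']; exact hωω0
  have hw'0 : Q w' ≠ 0 := by rw [hQw']; exact hωω0
  have hu'w'0 : Q (u' + w') ≠ 0 := by
    rw [qI_add9 (Q := Q), hQu', hQw', hu'w']
    intro h
    exact hωω0 (by linear_combination h - (ω * ω) * h2)
  obtain ⟨ρ₁, hρ₁, hρ₁i, hρ₁Q⟩ := exists_refl9 hQ u' hu'0
  obtain ⟨ρ₂, hρ₂, hρ₂i, hρ₂Q⟩ := exists_refl9 hQ w' hw'0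
  have hg₂Ω : ρ₁ * ρ₂ ∈ Cfsg.Geo.omegaGL Q :=
    refl_mul_omega9 hQ u' w' hu'0 (hQw'.trans hQu'.symm) hu'w'0 ρ₁ ρ₂ hρ₁ hρ₁i hρ₁Q hρ₂
  obtain ⟨κ, hκ⟩ : ∃ κ : F, κ = ω * (ω * ω)⁻¹ := ⟨_, rfl⟩
  have hκω : κ * (ω * ω) = ω := by rw [hκ, mul_assoc, inv_mul_cancel₀ hωω0, mul_one]
  have hbu' : QuadraticMap.polar Q (b i₁) u' = ω := by
    rw [hu', hbl.add_right, hbl.add_right, hbl.smul_right, hba,
      hO _ _ _ _ h12 (hbD _) (haD _), hO _ _ _ _ h13 (hbD _) (haD _), mul_one, add_zero, add_zero]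
  have hbw' : QuadraticMap.polar Q (b i₁) w' = 0 := by rw [hw', hbl.smul_right, hbb, mul_zero]
  have hg₂b : ((ρ₁ * ρ₂ : GL ι F) : Matrix ι ι F) *ᵥ (b i₁) = b i₁ - κ • u' := by
    rw [gl_mul_vecI9, hρ₂, hbw', zero_mul, zero_smul, sub_zero, hρ₁, hbu', hQu', ← hκ]
  refine ⟨Cfsg.stabilizing (Cfsg.glToMat ι F) S ⊓ Cfsg.Geo.omegaGL Q,
    lt_of_le_of_ne ?_ ?_, lt_of_le_of_ne inf_le_right ?_⟩
  · intro g hg
    refine ⟨hstab g ?_, hg.2⟩
    intro v hv
    obtain ⟨w, hw, rfl⟩ := (hS v).mp hv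
    obtain ⟨σ, hσ⟩ := hg.1
    have h1 : ∀ i x, x ∈ D i → (g : Matrix ι ι F) *ᵥ x ∈ D (σ i) := by
      intro i x hx
      rw [← hσ i]
      exact Submodule.mem_map.mpr ⟨x, hx, Matrix.toLin'_apply _ _⟩
    refine (hS _).mpr ⟨fun j => (g : Matrix ι ι F) *ᵥ (w (σ.symm j)), fun j => ⟨?_, ?_⟩, ?_⟩
    · have h5 := h1 (σ.symm j) _ (hw (σ.symm j)).1
      rwa [Equiv.apply_symm_apply] at h5
    · rcases (hw (σ.symm j)).2 with h5 | h5
      · left
        show (g : Matrix ι ι F) *ᵥ (w (σ.symm j)) = 0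
        rw [h5, Matrix.mulVec_zero]
      · right
        show Q ((g : Matrix ι ι F) *ᵥ (w (σ.symm j))) = 1
        rw [omegaI_iso9 hg.2, h5]
    · rw [Matrix.mulVec_sum]
      exact (Equiv.sum_comp σ.symm (fun i => (g : Matrix ι ι F) *ᵥ (w i))).symm
  · intro heq
    have h1 : r₁ * r₂ ∈ Cfsg.Geo.decompositionStabilizer D ⊓ Cfsg.Geo.omegaGL Q := by
      rw [heq]
      exact ⟨hstab _ hfw₁, hg₁Ω⟩
    exact hg₁D h1.1
  · intro heq
    have h1 : ρ₁ * ρ₂ ∈ Cfsg.stabilizing (Cfsg.glToMat ι F) S ⊓ Cfsg.Geo.omegaGL Q := by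
      rw [heq]
      exact hg₂Ω
    have h4 := ((hmemK _).mp h1.1 (b i₁)).mp hb₁S
    rw [hg₂b] at h4
    have h5 := hS_pol1 _ h4 i₂ (b i₂) (hbD _) (Or.inr (hQb _))
    have e1 : QuadraticMap.polar Q (b i₁ - κ • u') (b i₂) = -κ := by
      rw [qI_subl9 hQ, hbl.smul_left, hu', hbl.add_left, hbl.add_left, hbl.smul_left, hab,
        hO _ _ _ _ h12 (hbD _) (hbD _), hO _ _ _ _ h12 (haD _) (hbD _),
        hO _ _ _ _ (Ne.symm h23) (haD _) (hbD _)]
      ring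
    rw [e1] at h5
    rcases h5 with h5 | h5
    · have h6 : κ = 0 := neg_eq_zero.mp h5
      rw [h6, zero_mul] at hκω
      exact hω0 hκω.symm
    · have h6 : κ = -1 := by linear_combination -h5
      rw [h6] at hκω
      exact one_ne_zero (show (1 : F) = 0 by linear_combination (-1 : F) * hκω - hω - ω * h2)

end Cfsg.Agent.Helper9
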