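import Mathlib
import Cfsg.Agent.Helper9.ODecQ4

set_option autoImplicit false

namespace Cfsg.Agent.Helper9

open Cfsg
open scoped MatrixGroups Matrix

section general

variable {ι : Type} [Fintype ι] [DecidableEq ι] {F : Type*} [Field F] {Q : (ι → F) → F}

theorem span4_9 (W : Submodule F (ι → F)) (hW : Module.finrank F W = 4) (e₁ f₁ e₂ f₂ : ι → F)
    (h1 : e₁ ∈ W) (h2 : f₁ ∈ W) (h3 : e₂ ∈ W) (h4 : f₂ ∈ W)
    (hind : ∀ s₁ t₁ s₂ t₂ : F, s₁ • e₁ + t₁ • f₁ + s₂ • e₂ + t₂ • f₂ = 0 →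
      s₁ = 0 ∧ t₁ = 0 ∧ s₂ = 0 ∧ t₂ = 0) :
    ∀ v ∈ W, ∃ x₁ y₁ x₂ y₂ : F, v = x₁ • e₁ + y₁ • f₁ + x₂ • e₂ + y₂ • f₂ := by
  classical
  have hli : LinearIndependent F ![(⟨e₁, h1⟩ : W), ⟨f₁, h2⟩, ⟨e₂, h3⟩, ⟨f₂, h4⟩] := by
    rw [Fintype.linearIndependent_iff]
    intro g hg
    rw [Fin.sum_univ_four] at hg
    have h5 := congrArg Subtype.val hg
    have h6 := hind (g 0) (g 1) (g 2) (g 3) (by simpa using h5)
    intro i
    fin_cases i
    · exact h6.1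
    · exact h6.2.1
    · exact h6.2.2.1
    · exact h6.2.2.2
  obtain ⟨β, hβ⟩ : ∃ β : Module.Basis (Fin 4) F W,
      ⇑β = ![(⟨e₁, h1⟩ : W), ⟨f₁, h2⟩, ⟨e₂, h3⟩, ⟨f₂, h4⟩] :=
    ⟨basisOfLinearIndependentOfCardEqFinrank hli (by rw [Fintype.card_fin, hW]),
      coe_basisOfLinearIndependentOfCardEqFinrank _ _⟩
  intro v hv
  have h5 := β.sum_repr ⟨v, hv⟩
  rw [Fin.sum_univ_four, hβ] at h5
  refine ⟨β.repr ⟨v, hv⟩ 0, β.repr ⟨v, hv⟩ 1, β.repr ⟨v, hv⟩ 2, β.repr ⟨v, hv⟩ 3, ?_⟩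
  have h6 := congrArg Subtype.val h5
  simpa using h6.symm

/-- The structure of a plus-type space of dimension four over the field with two elements. -/
theorem block4_9 [Fintype F] (hq : Fintype.card F = 2)
    (hQ : Cfsg.Geo.IsNondegenerateQuadraticForm Q) (W : Submodule F (ι → F))
    (hW : Module.finrank F W = 4) (hnd : Cfsg.Geo.IsNondegenerateOn (QuadraticMap.polar Q) W)
    (hplus : Cfsg.Geo.IsPlusTypeOn Q W) :
    ∃ a b a' x : ι → F, a ∈ W ∧ b ∈ W ∧ a' ∈ W ∧ x ∈ W ∧ Q a = 1 ∧ Q b = 1 ∧ Q a' = 1 ∧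
      Q x = 0 ∧ QuadraticMap.polar Q a b = 1 ∧ QuadraticMap.polar Q a' a = 0 ∧ QuadraticMap.polar Q a' b = 0 ∧ QuadraticMap.polar Q x a = 1 ∧
      ∀ z ∈ W, QuadraticMap.polar Q z a = 0 → QuadraticMap.polar Q z b = 0 → Q z = 0 → z = 0 := by
  classical
  have h2 : (2 : F) = 0 := f2_two9 hq
  have hbl := hQ.polar_bilinear
  have hone : ∀ a : F, a ≠ 0 → a = 1 := by
    intro a ha
    rcases f2_cases9 hq a with h | h
    · exact absurd h ha
    · exact h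
  have hz : ∀ v : ι → F, QuadraticMap.polar Q 0 v = 0 := by
    intro v
    have h := hbl.smul_left 0 0 v
    rwa [zero_smul, zero_mul] at h
  obtain ⟨U, hUW, hUts, hUdim⟩ := hplus
  rw [hW] at hUdim
  have hU2 : Module.finrank F U = 2 := by omega
  obtain ⟨β⟩ : Nonempty (Module.Basis (Fin 2) F U) := ⟨Module.finBasisOfFinrankEq F U hU2⟩
  obtain ⟨e₁, he₁⟩ : ∃ e₁ : ι → F, e₁ = ((β 0 : U) : ι → F) := ⟨_, rfl⟩
  obtain ⟨p, hp⟩ : ∃ p : ι → F, p = ((β 1 : U) : ι → F) := ⟨_, rfl⟩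
  have he₁U : e₁ ∈ U := by rw [he₁]; exact (β 0).2
  have hpU : p ∈ U := by rw [hp]; exact (β 1).2
  have hne : ∀ c : F, p ≠ c • e₁ := by
    intro c h
    have h1 : β 1 = c • β 0 := by
      apply Subtype.ext
      rw [Submodule.coe_smul, ← he₁, ← hp]
      exact h
    have h4 := congrArg (fun z => β.repr z 1) h1
    simp at h4
  have he₁0 : e₁ ≠ 0 := by
    intro h
    apply β.ne_zero 0
    apply Subtype.ext
    rw [← he₁, h]
    rfl
  have he₁W := hUW he₁U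
  obtain ⟨⟨g₁, hg₁W, hg₁⟩, -⟩ := hnd e₁ he₁W he₁0
  have hg₁e : QuadraticMap.polar Q g₁ e₁ = 1 := hone _ hg₁
  obtain ⟨e₂, he₂⟩ : ∃ e₂, e₂ = p + QuadraticMap.polar Q g₁ p • e₁ := ⟨_, rfl⟩
  have he₂U : e₂ ∈ U := by rw [he₂]; exact U.add_mem hpU (U.smul_mem _ he₁U)
  have he₂W := hUW he₂U
  have he₂0 : e₂ ≠ 0 := by
    intro h
    rw [he₂] at h
    exact hne (-(QuadraticMap.polar Q g₁ p)) (by rw [neg_smul]; exact eq_neg_of_add_eq_zero_left h)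
  have hQe₁ : Q e₁ = 0 := hUts e₁ he₁U
  have hQe₂ : Q e₂ = 0 := hUts e₂ he₂U
  have he₁e₂ : QuadraticMap.polar Q e₁ e₂ = 0 := by
    have h := hUts (e₁ + e₂) (U.add_mem he₁U he₂U)
    rw [QuadraticMap.polar, h, hQe₁, hQe₂]
    ring
  have he₂e₁ : QuadraticMap.polar Q e₂ e₁ = 0 := by rw [QuadraticMap.polar_comm]; exact he₁e₂
  have hee₁ : QuadraticMap.polar Q e₁ e₁ = 0 := by rw [qI_self9 hQ, hQe₁, mul_zero]
  have hee₂ : QuadraticMap.polar Q e₂ e₂ = 0 := by rw [qI_self9 hQ, hQe₂, mul_zero]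
  have hg₁e₂ : QuadraticMap.polar Q g₁ e₂ = 0 := by
    rw [he₂, hbl.add_right, hbl.smul_right, hg₁e, mul_one]
    linear_combination (QuadraticMap.polar Q g₁ p) * h2
  obtain ⟨f₁, hf₁⟩ : ∃ f₁, f₁ = g₁ + Q g₁ • e₁ := ⟨_, rfl⟩
  have hf₁W : f₁ ∈ W := by rw [hf₁]; exact W.add_mem hg₁W (W.smul_mem _ he₁W)
  have hQf₁ : Q f₁ = 0 := by
    have h1 : g₁ + Q g₁ • e₁ = (1 : F) • g₁ + Q g₁ • e₁ := by rw [one_smul]
    rw [hf₁, h1, qI_lin2_9 hQ, hQe₁, hg₁e]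
    linear_combination (Q g₁) * h2
  have hf₁e₁ : QuadraticMap.polar Q f₁ e₁ = 1 := by
    rw [hf₁, hbl.add_left, hbl.smul_left, hee₁, mul_zero, add_zero, hg₁e]
  have hf₁e₂ : QuadraticMap.polar Q f₁ e₂ = 0 := by
    rw [hf₁, hbl.add_left, hbl.smul_left, he₁e₂, mul_zero, add_zero, hg₁e₂]
  have he₁f₁ : QuadraticMap.polar Q e₁ f₁ = 1 := by rw [QuadraticMap.polar_comm]; exact hf₁e₁
  have he₂f₁ : QuadraticMap.polar Q e₂ f₁ = 0 := by rw [QuadraticMap.polar_comm]; exact hf₁e₂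
  have hff₁ : QuadraticMap.polar Q f₁ f₁ = 0 := by rw [qI_self9 hQ, hQf₁, mul_zero]
  obtain ⟨⟨g₂, hg₂W, hg₂⟩, -⟩ := hnd e₂ he₂W he₂0
  have hg₂e : QuadraticMap.polar Q g₂ e₂ = 1 := hone _ hg₂
  obtain ⟨g₃, hg₃⟩ : ∃ g₃, g₃ = g₂ + QuadraticMap.polar Q g₂ e₁ • f₁ + QuadraticMap.polar Q g₂ f₁ • e₁ := ⟨_, rfl⟩
  have hg₃W : g₃ ∈ W := by
    rw [hg₃]
    exact W.add_mem (W.add_mem hg₂W (W.smul_mem _ hf₁W)) (W.smul_mem _ he₁W)
  have hg₃e₁ : QuadraticMap.polar Q g₃ e₁ = 0 := by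
    rw [hg₃, hbl.add_left, hbl.add_left, hbl.smul_left, hbl.smul_left, hf₁e₁, hee₁]
    linear_combination (QuadraticMap.polar Q g₂ e₁) * h2
  have hg₃f₁ : QuadraticMap.polar Q g₃ f₁ = 0 := by
    rw [hg₃, hbl.add_left, hbl.add_left, hbl.smul_left, hbl.smul_left, hff₁, he₁f₁]
    linear_combination (QuadraticMap.polar Q g₂ f₁) * h2
  have hg₃e₂ : QuadraticMap.polar Q g₃ e₂ = 1 := by
    rw [hg₃, hbl.add_left, hbl.add_left, hbl.smul_left, hbl.smul_left, hf₁e₂, he₁e₂, hg₂e]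
    ring
  obtain ⟨f₂, hf₂⟩ : ∃ f₂, f₂ = g₃ + Q g₃ • e₂ := ⟨_, rfl⟩
  have hf₂W : f₂ ∈ W := by rw [hf₂]; exact W.add_mem hg₃W (W.smul_mem _ he₂W)
  have hQf₂ : Q f₂ = 0 := by
    have h1 : g₃ + Q g₃ • e₂ = (1 : F) • g₃ + Q g₃ • e₂ := by rw [one_smul]
    rw [hf₂, h1, qI_lin2_9 hQ, hQe₂, hg₃e₂]
    linear_combination (Q g₃) * h2
  have hf₂e₂ : QuadraticMap.polar Q f₂ e₂ = 1 := by
    rw [hf₂, hbl.add_left, hbl.smul_left, hee₂, mul_zero, add_zero, hg₃e₂]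
  have hf₂e₁ : QuadraticMap.polar Q f₂ e₁ = 0 := by
    rw [hf₂, hbl.add_left, hbl.smul_left, he₂e₁, mul_zero, add_zero, hg₃e₁]
  have hf₂f₁ : QuadraticMap.polar Q f₂ f₁ = 0 := by
    rw [hf₂, hbl.add_left, hbl.smul_left, he₂f₁, mul_zero, add_zero, hg₃f₁]
  have he₂f₂ : QuadraticMap.polar Q e₂ f₂ = 1 := by rw [QuadraticMap.polar_comm]; exact hf₂e₂
  have he₁f₂ : QuadraticMap.polar Q e₁ f₂ = 0 := by rw [QuadraticMap.polar_comm]; exact hf₂e₁
  have hf₁f₂ : QuadraticMap.polar Q f₁ f₂ = 0 := by rw [QuadraticMap.polar_comm]; exact hf₂f₁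
  have hff₂ : QuadraticMap.polar Q f₂ f₂ = 0 := by rw [qI_self9 hQ, hQf₂, mul_zero]
  have hpair : ∀ (s₁ t₁ s₂ t₂ : F) (v : ι → F),
      QuadraticMap.polar Q (s₁ • e₁ + t₁ • f₁ + s₂ • e₂ + t₂ • f₂) v =
        s₁ * QuadraticMap.polar Q e₁ v + t₁ * QuadraticMap.polar Q f₁ v + s₂ * QuadraticMap.polar Q e₂ v + t₂ * QuadraticMap.polar Q f₂ v := by
    intro s₁ t₁ s₂ t₂ v
    rw [hbl.add_left, hbl.add_left, hbl.add_left, hbl.smul_left, hbl.smul_left, hbl.smul_left,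
      hbl.smul_left]
  have hspan := span4_9 W hW e₁ f₁ e₂ f₂ he₁W hf₁W he₂W hf₂W (by
    intro s₁ t₁ s₂ t₂ hst
    have k1 := hpair s₁ t₁ s₂ t₂ f₁
    have k2 := hpair s₁ t₁ s₂ t₂ e₁
    have k3 := hpair s₁ t₁ s₂ t₂ f₂
    have k4 := hpair s₁ t₁ s₂ t₂ e₂
    rw [hst, hz, he₁f₁, hff₁, he₂f₁, hf₂f₁] at k1
    rw [hst, hz, hee₁, hf₁e₁, he₂e₁, hf₂e₁] at k2
    rw [hst, hz, he₁f₂, hf₁f₂, he₂f₂, hff₂] at k3
    rw [hst, hz, he₁e₂, hf₁e₂, hee₂, hf₂e₂] at k4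
    exact ⟨by linear_combination -k1, by linear_combination -k2, by linear_combination -k3,
      by linear_combination -k4⟩)
  have hQef : Q (e₁ + f₁) = 1 := by
    rw [qI_add9 (Q := Q), hQe₁, hQf₁, he₁f₁]
    ring
  refine ⟨e₁ + f₁ + e₂, e₁ + f₁ + f₂, e₁ + f₁, f₂,
    W.add_mem (W.add_mem he₁W hf₁W) he₂W, W.add_mem (W.add_mem he₁W hf₁W) hf₂W,
    W.add_mem he₁W hf₁W, hf₂W, ?_, ?_, hQef, hQf₂, ?_, ?_, ?_, ?_, ?_⟩
  · rw [qI_add9 (Q := Q), hQef, hQe₂, hbl.add_left, he₁e₂, hf₁e₂]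
    ring
  · rw [qI_add9 (Q := Q), hQef, hQf₂, hbl.add_left, he₁f₂, hf₁f₂]
    ring
  · simp only [hbl.add_left, hbl.add_right, hee₁, he₁f₁, he₁f₂, hf₁e₁, hff₁, hf₁f₂, he₂e₁, he₂f₁,
      he₂f₂]
    linear_combination h2
  · simp only [hbl.add_left, hbl.add_right, hee₁, he₁f₁, he₁e₂, hf₁e₁, hff₁, hf₁e₂]
    linear_combination h2
  · simp only [hbl.add_left, hbl.add_right, hee₁, he₁f₁, he₁f₂, hf₁e₁, hff₁, hf₁f₂]
    linear_combination h2
  · simp only [hbl.add_right, hf₂e₁, hf₂f₁, hf₂e₂]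
    ring
  · intro z hzW hza hzb hzQ
    obtain ⟨x₁, y₁, x₂, y₂, hxyz⟩ := hspan z hzW
    have e1 : x₁ + y₁ + y₂ = 0 := by
      rw [hxyz, hpair] at hza
      simp only [hbl.add_right, hee₁, he₁f₁, he₁e₂, hf₁e₁, hff₁, hf₁e₂, he₂e₁, he₂f₁, hee₂,
        hf₂e₁, hf₂f₁, hf₂e₂] at hza
      linear_combination hza
    have e2 : x₁ + y₁ + x₂ = 0 := by
      rw [hxyz, hpair] at hzb
      simp only [hbl.add_right, hee₁, he₁f₁, he₁f₂, hf₁e₁, hff₁, hf₁f₂, he₂e₁, he₂f₁, he₂f₂,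
        hf₂e₁, hf₂f₁, hff₂] at hzb
      linear_combination hzb
    have e3 : x₁ * y₁ + x₂ * y₂ = 0 := by
      rw [hxyz, qI_add9 (Q := Q), qI_add9 (Q := Q), qI_lin2_9 hQ, hQ.smul, hQ.smul, hQe₁, hQf₁,
        hQe₂, hQf₂] at hzQ
      simp only [hbl.add_left, hbl.smul_left, hbl.smul_right, he₁f₁, he₁e₂, hf₁e₂, he₁f₂, hf₁f₂,
        he₂f₂] at hzQ
      linear_combination hzQ
    rcases f2_cases9 hq x₁ with k1 | k1 <;> rcases f2_cases9 hq y₁ with k2 | k2 <;>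
      rcases f2_cases9 hq x₂ with k3 | k3 <;> rcases f2_cases9 hq y₂ with k4 | k4 <;>
      subst k1 k2 k3 k4 <;>
      first
      | exact absurd (show (1 : F) = 0 by linear_combination e1) one_ne_zero
      | exact absurd (show (1 : F) = 0 by linear_combination e2) one_ne_zero
      | exact absurd (show (1 : F) = 0 by linear_combination e3) one_ne_zero
      | exact absurd (show (1 : F) = 0 by linear_combination e1 - h2) one_ne_zero
      | exact absurd (show (1 : F) = 0 by linear_combination e2 - h2) one_ne_zero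
      | (rw [hxyz]; simp)

end general

variable {n : ℕ} {F : Type*} [Field F]

/-- Plus-type blocks of dimension four over the field with two elements. -/
theorem odec_k4_9 [Fintype F] (hn : 13 ≤ n) (Q : (Fin n → F) → F)
    (hQ : Cfsg.Geo.IsNondegenerateQuadraticForm Q) (hq : Fintype.card F = 2) {t : ℕ}
    (D : Fin t → Submodule F (Fin n → F)) (hD : Cfsg.Geo.IsOrthogonalMDecomposition Q 4 D)
    (hplus : ∀ i, Cfsg.Geo.IsPlusTypeOn Q (D i)) :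
    ∃ K : Subgroup (GL (Fin n) F),
      Cfsg.Geo.decompositionStabilizer D ⊓ Cfsg.Geo.omegaGL Q < K ∧ K < Cfsg.Geo.omegaGL Q := by
  classical
  have h2 : (2 : F) = 0 := f2_two9 hq
  have hchar : (2 : F) = 0 ∨ ((2 : F) ≠ 0 ∧ Fintype.card F % 2 = 1) := Or.inl h2
  have hbl := hQ.polar_bilinear
  have horth := hD.decomp.orthogonal
  have hfin := hD.decomp.decomp.finrank_eq
  have hnd := hD.decomp.nondegenerate
  have hdim := odec_dim9 D hD.decomp.decomp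
  rw [Fintype.card_fin] at hdim
  have ht : 2 ≤ t := by omega
  have hvv : ∀ v : Fin n → F, v + v = 0 := fun v => by rw [← two_smul F v, h2, zero_smul]
  have hneg : ∀ v : Fin n → F, -v = v := fun v => neg_eq_of_add_eq_zero_left (hvv v)
  have hz : ∀ v : Fin n → F, QuadraticMap.polar Q 0 v = 0 := by
    intro v
    have h := hbl.smul_left 0 0 v
    rwa [zero_smul, zero_mul] at h
  have hQ0 : Q 0 = 0 := qf_zero9 hQ
  have hblock : ∀ i, ∃ a b a' x : Fin n → F, a ∈ D i ∧ b ∈ D i ∧ a' ∈ D i ∧ x ∈ D i ∧ Q a = 1 ∧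
      Q b = 1 ∧ Q a' = 1 ∧ Q x = 0 ∧ QuadraticMap.polar Q a b = 1 ∧ QuadraticMap.polar Q a' a = 0 ∧ QuadraticMap.polar Q a' b = 0 ∧ QuadraticMap.polar Q x a = 1 ∧
      ∀ z ∈ D i, QuadraticMap.polar Q z a = 0 → QuadraticMap.polar Q z b = 0 → Q z = 0 → z = 0 :=
    fun i => block4_9 hq hQ (D i) (hfin i) (hnd i) (hplus i)
  choose a b a' x haD hbD ha'D hxD hQa hQb hQa' hQx hab ha'a ha'b hxa haniso using hblock
  have hO : ∀ i j (p q : Fin n → F), i ≠ j → p ∈ D i → q ∈ D j → QuadraticMap.polar Q p q = 0 :=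
    fun i j p q hij hp hq => horth i j hij p hp q hq
  have hdisj : ∀ i j (v : Fin n → F), i ≠ j → v ∈ D i → v ∈ D j → v = 0 := by
    intro i j v hij hvi hvj
    by_contra hv
    obtain ⟨⟨y, hy, hne⟩, -⟩ := hnd i v hvi hv
    exact hne (hO i j y v hij hy hvj)
  obtain ⟨i₁, hi₁⟩ : ∃ i₁ : Fin t, i₁ = ⟨0, by omega⟩ := ⟨_, rfl⟩
  obtain ⟨i₂, hi₂⟩ : ∃ i₂ : Fin t, i₂ = ⟨1, by omega⟩ := ⟨_, rfl⟩
  have h12 : i₁ ≠ i₂ := by
    rw [hi₁, hi₂]
    exact fun h => absurd (congrArg Fin.val h) (by norm_num)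
  obtain ⟨S, hS⟩ : ∃ S : Set (Fin n → F), ∀ v, v ∈ S ↔ ∃ i, v ∈ D i ∧ Q v = 1 :=
    ⟨{v | ∃ i, v ∈ D i ∧ Q v = 1}, fun _ => Iff.rfl⟩
  have hmemK : ∀ g : GL (Fin n) F, g ∈ Cfsg.stabilizing (Cfsg.glToMat (Fin n) F) S ↔
      ∀ v : Fin n → F, v ∈ S ↔ (g : Matrix (Fin n) (Fin n) F) *ᵥ v ∈ S := fun g => Iff.rfl
  have hstab : ∀ t : GL (Fin n) F, (∀ v, v ∈ S → (t : Matrix (Fin n) (Fin n) F) *ᵥ v ∈ S) →
      t ∈ Cfsg.stabilizing (Cfsg.glToMat (Fin n) F) S := by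
    intro t ht
    refine (hmemK t).mpr (fun v => ⟨ht v, fun hv => ?_⟩)
    have hinj : Function.Injective (fun s : S => (⟨(t : Matrix (Fin n) (Fin n) F) *ᵥ s.1, ht s.1 s.2⟩ : S)) := by
      intro s s' hss
      have h4 : (t : Matrix (Fin n) (Fin n) F) *ᵥ s.1 = (t : Matrix (Fin n) (Fin n) F) *ᵥ s'.1 := congrArg Subtype.val hss
      have h5 : ((t⁻¹ : GL (Fin n) F) : Matrix (Fin n) (Fin n) F) *ᵥ ((t : Matrix (Fin n) (Fin n) F) *ᵥ s.1) = ((t⁻¹ : GL (Fin n) F) : Matrix (Fin n) (Fin n) F) *ᵥ ((t : Matrix (Fin n) (Fin n) F) *ᵥ s'.1) := by rw [h4]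
      rw [gl_inv_mul_vec9, gl_inv_mul_vec9] at h5
      exact Subtype.ext h5
    obtain ⟨s, hs⟩ := (Finite.surjective_of_injective hinj) ⟨(t : Matrix (Fin n) (Fin n) F) *ᵥ v, hv⟩
    have h6 : (t : Matrix (Fin n) (Fin n) F) *ᵥ s.1 = (t : Matrix (Fin n) (Fin n) F) *ᵥ v := congrArg Subtype.val hs
    have h7 : ((t⁻¹ : GL (Fin n) F) : Matrix (Fin n) (Fin n) F) *ᵥ ((t : Matrix (Fin n) (Fin n) F) *ᵥ s.1) = ((t⁻¹ : GL (Fin n) F) : Matrix (Fin n) (Fin n) F) *ᵥ ((t : Matrix (Fin n) (Fin n) F) *ᵥ v) := by rw [h6]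
    rw [gl_inv_mul_vec9, gl_inv_mul_vec9] at h7
    rw [← h7]
    exact s.2
  have hmove : ∀ (j j' : Fin t), j ≠ j' → ∀ (A B A' B' : Fin n → F), A ∈ D j → B ∈ D j →
      A' ∈ D j' → B' ∈ D j' → Q A = 1 → Q B = 1 → QuadraticMap.polar Q A B = 1 →
      (∀ z ∈ D j, QuadraticMap.polar Q z A = 0 → QuadraticMap.polar Q z B = 0 → Q z = 0 → z = 0) → ∀ v ∈ D j, Q v = 1 →
      (v + QuadraticMap.polar Q v (B + B') • (A + A') - QuadraticMap.polar Q v (A + A') • (B + B') ∈ D j ∨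
        v + QuadraticMap.polar Q v (B + B') • (A + A') - QuadraticMap.polar Q v (A + A') • (B + B') ∈ D j') := by
    intro j j' hjj A B A' B' hA hB hA' hB' hQA hQB hAB haniso' v hv hQv
    have hvA' : QuadraticMap.polar Q v A' = 0 := hO j j' v A' hjj hv hA'
    have hvB' : QuadraticMap.polar Q v B' = 0 := hO j j' v B' hjj hv hB'
    rw [hbl.add_right, hbl.add_right, hvA', hvB', add_zero, add_zero]
    have hAA : QuadraticMap.polar Q A A = 0 := by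
      rw [qI_self9 hQ, hQA, mul_one]
      exact h2
    have hBB : QuadraticMap.polar Q B B = 0 := by
      rw [qI_self9 hQ, hQB, mul_one]
      exact h2
    have hBA : QuadraticMap.polar Q B A = 1 := by rw [QuadraticMap.polar_comm]; exact hAB
    rcases f2_cases9 hq (QuadraticMap.polar Q v A) with hα | hα <;> rcases f2_cases9 hq (QuadraticMap.polar Q v B) with hβ | hβ
    · left
      rw [hα, hβ, zero_smul, zero_smul, add_zero, sub_zero]
      exact hv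
    · right
      have hz0 : v + A = 0 := haniso' (v + A) ((D j).add_mem hv hA)
        (by rw [hbl.add_left, hα, hAA, add_zero])
        (by rw [hbl.add_left, hβ, hAB]; linear_combination h2)
        (by rw [qI_add9 (Q := Q), hQv, hQA, hα]; linear_combination h2)
      have hv' : v = -A := eq_neg_of_add_eq_zero_left hz0
      rw [hα, hβ, one_smul, zero_smul, sub_zero, hv']
      have e : -A + (A + A') = A' := by abel
      rw [e]
      exact hA'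
    · right
      have hz0 : v + B = 0 := haniso' (v + B) ((D j).add_mem hv hB)
        (by rw [hbl.add_left, hα, hBA]; linear_combination h2)
        (by rw [hbl.add_left, hβ, hBB, add_zero])
        (by rw [qI_add9 (Q := Q), hQv, hQB, hβ]; linear_combination h2)
      have hv' : v = B := by rw [eq_neg_of_add_eq_zero_left hz0, hneg]
      rw [hα, hβ, one_smul, zero_smul, add_zero, hv']
      have e : B - (B + B') = -B' := by abel
      rw [e]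
      exact (D j').neg_mem hB'
    · right
      have hz0 : v + A + B = 0 := haniso' (v + A + B) ((D j).add_mem ((D j).add_mem hv hA) hB)
        (by rw [hbl.add_left, hbl.add_left, hα, hAA, hBA]; linear_combination h2)
        (by rw [hbl.add_left, hbl.add_left, hβ, hAB, hBB]; linear_combination h2)
        (by
          rw [qI_add9 (Q := Q), qI_add9 (Q := Q), hQv, hQA, hQB, hα, hbl.add_left, hβ, hAB]
          linear_combination 3 * h2)
      have hv' : v = -A + B := by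
        have h5 : v = -(A + B) := by
          rw [eq_neg_iff_add_eq_zero, ← add_assoc]
          exact hz0
        rw [h5, neg_add, hneg B]
      rw [hα, hβ, one_smul, one_smul, hv']
      have e : -A + B + (A + A') - (B + B') = A' - B' := by abel
      rw [e]
      exact (D j').sub_mem hA' hB'
  -- the first witness
  obtain ⟨u, hu⟩ : ∃ u, u = a i₁ + a i₂ := ⟨_, rfl⟩
  obtain ⟨w, hw⟩ : ∃ w, w = b i₁ + b i₂ := ⟨_, rfl⟩
  have hQu : Q u = 0 := by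
    rw [hu, qI_add9 (Q := Q), hQa, hQa, hO _ _ _ _ h12 (haD _) (haD _)]
    linear_combination h2
  have hQw : Q w = 0 := by
    rw [hw, qI_add9 (Q := Q), hQb, hQb, hO _ _ _ _ h12 (hbD _) (hbD _)]
    linear_combination h2
  have huw : QuadraticMap.polar Q u w = 0 := by
    rw [hu, hw, hbl.add_left, hbl.add_right, hbl.add_right, hab, hab,
      hO _ _ _ _ h12 (haD _) (hbD _), hO _ _ _ _ (Ne.symm h12) (haD _) (hbD _)]
    linear_combination h2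
  obtain ⟨bp, cp, hbpQ, hcpQ, hbpcp, hbpS, hcpS⟩ := qf_hyp9 hQ hchar hn (spanL9 [u, w]) (by
    have := finrank_spanL9 (F := F) [u, w]
    simp only [List.length_cons, List.length_nil] at this
    omega)
  obtain ⟨g₁, hg₁Ω, hg₁⟩ := sieg_omega9 hQ u w bp cp hQu hQw hbpQ hcpQ huw hbpcp
    (hbpS _ (mem_spanL9 (by simp))) (hcpS _ (mem_spanL9 (by simp)))
    (hbpS _ (mem_spanL9 (by simp))) (hcpS _ (mem_spanL9 (by simp)))
  have hfw₁ : ∀ v, v ∈ S → (g₁ : Matrix (Fin n) (Fin n) F) *ᵥ v ∈ S := by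
    intro v hv
    obtain ⟨i, hvi, hvQ⟩ := (hS v).mp hv
    have hQg : Q ((g₁ : Matrix (Fin n) (Fin n) F) *ᵥ v) = 1 := by rw [omega_iso9 hg₁Ω, hvQ]
    have hmem : ∃ j, (g₁ : Matrix (Fin n) (Fin n) F) *ᵥ v ∈ D j := by
      rw [hg₁, hu, hw]
      by_cases h1 : i = i₁
      · rw [h1] at hvi
        rcases hmove i₁ i₂ h12 (a i₁) (b i₁) (a i₂) (b i₂) (haD _) (hbD _) (haD _) (hbD _)
          (hQa _) (hQb _) (hab _) (haniso _) v hvi hvQ with h | h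
        · exact ⟨_, h⟩
        · exact ⟨_, h⟩
      · by_cases h2' : i = i₂
        · rw [h2'] at hvi
          have h5 := hmove i₂ i₁ (Ne.symm h12) (a i₂) (b i₂) (a i₁) (b i₁) (haD _) (hbD _)
            (haD _) (hbD _) (hQa _) (hQb _) (hab _) (haniso _) v hvi hvQ
          rw [add_comm (b i₂) (b i₁), add_comm (a i₂) (a i₁)] at h5
          rcases h5 with h | h
          · exact ⟨_, h⟩
          · exact ⟨_, h⟩
        · refine ⟨i, ?_⟩
          rw [hbl.add_right, hbl.add_right, hO _ _ _ _ h1 hvi (hbD _), hO _ _ _ _ h2' hvi (hbD _),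
            hO _ _ _ _ h1 hvi (haD _), hO _ _ _ _ h2' hvi (haD _), add_zero, zero_smul, zero_smul,
            add_zero, sub_zero]
          exact hvi
    obtain ⟨j, hj⟩ := hmem
    exact (hS _).mpr ⟨j, hj, hQg⟩
  have hg₁D : g₁ ∉ Cfsg.Geo.decompositionStabilizer D := by
    rintro ⟨σ, hσ⟩
    have h1 : ∀ p ∈ D i₁, (g₁ : Matrix (Fin n) (Fin n) F) *ᵥ p ∈ D (σ i₁) := by
      intro p hp
      rw [← hσ i₁]
      exact Submodule.mem_map.mpr ⟨p, hp, Matrix.toLin'_apply _ _⟩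
    have e1 : (g₁ : Matrix (Fin n) (Fin n) F) *ᵥ (a' i₁) = a' i₁ := by
      rw [hg₁, hu, hw, hbl.add_right, hbl.add_right, ha'a, ha'b,
        hO _ _ _ _ h12 (ha'D _) (haD _), hO _ _ _ _ h12 (ha'D _) (hbD _), add_zero, zero_smul,
        zero_smul, add_zero, sub_zero]
    have hbb : QuadraticMap.polar Q (b i₁) (b i₁) = 0 := by
      rw [qI_self9 hQ, hQb, mul_one]
      exact h2
    have hba : QuadraticMap.polar Q (b i₁) (a i₁) = 1 := by rw [QuadraticMap.polar_comm]; exact hab i₁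
    have e2 : (g₁ : Matrix (Fin n) (Fin n) F) *ᵥ (b i₁) = -b i₂ := by
      rw [hg₁, hu, hw, hbl.add_right, hbl.add_right, hbb, hba,
        hO _ _ _ _ h12 (hbD _) (hbD _), hO _ _ _ _ h12 (hbD _) (haD _), add_zero, zero_smul,
        add_zero, add_zero, one_smul]
      abel
    have h3 := h1 _ (ha'D i₁)
    rw [e1] at h3
    have h4 : σ i₁ = i₁ := by
      by_contra hne
      have h5 := hdisj _ _ _ hne h3 (ha'D i₁)
      have h6 := hQa' i₁
      rw [h5, hQ0] at h6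
      exact zero_ne_one h6
    have h7 := h1 _ (hbD i₁)
    rw [e2, h4] at h7
    have h8 := hdisj _ _ _ h12 h7 ((D i₂).neg_mem (hbD i₂))
    have h9 := hQb i₂
    rw [neg_eq_zero.mp h8, hQ0] at h9
    exact zero_ne_one h9
  -- the second witness
  have hxx : QuadraticMap.polar Q (x i₁) (x i₂) = 0 := hO _ _ _ _ h12 (hxD _) (hxD _)
  obtain ⟨bq, cq, hbqQ, hcqQ, hbqcq, hbqS, hcqS⟩ := qf_hyp9 hQ hchar hn
    (spanL9 [x i₁, x i₂]) (by
    have := finrank_spanL9 (F := F) [x i₁, x i₂]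
    simp only [List.length_cons, List.length_nil] at this
    omega)
  obtain ⟨g₂, hg₂Ω, hg₂⟩ := sieg_omega9 hQ (x i₁) (x i₂) bq cq (hQx _) (hQx _) hbqQ hcqQ hxx
    hbqcq (hbqS _ (mem_spanL9 (by simp))) (hcqS _ (mem_spanL9 (by simp)))
    (hbqS _ (mem_spanL9 (by simp))) (hcqS _ (mem_spanL9 (by simp)))
  have hax : QuadraticMap.polar Q (a i₁) (x i₁) = 1 := by rw [QuadraticMap.polar_comm]; exact hxa i₁
  have hg₂a : (g₂ : Matrix (Fin n) (Fin n) F) *ᵥ (a i₁) = a i₁ - x i₂ := by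
    rw [hg₂, hO _ _ _ _ h12 (haD _) (hxD _), hax, zero_smul, add_zero, one_smul]
  refine ⟨Cfsg.stabilizing (Cfsg.glToMat (Fin n) F) S ⊓ Cfsg.Geo.omegaGL Q,
    lt_of_le_of_ne ?_ ?_, lt_of_le_of_ne inf_le_right ?_⟩
  · intro g hg
    refine ⟨hstab g ?_, hg.2⟩
    intro v hv
    obtain ⟨i, hvi, hvQ⟩ := (hS v).mp hv
    obtain ⟨σ, hσ⟩ := hg.1
    refine (hS _).mpr ⟨σ i, ?_, ?_⟩
    · rw [← hσ i]
      exact Submodule.mem_map.mpr ⟨v, hvi, Matrix.toLin'_apply _ _⟩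
    · rw [omega_iso9 hg.2, hvQ]
  · intro heq
    have h1 : g₁ ∈ Cfsg.Geo.decompositionStabilizer D ⊓ Cfsg.Geo.omegaGL Q := by
      rw [heq]
      exact ⟨hstab _ hfw₁, hg₁Ω⟩
    exact hg₁D h1.1
  · intro heq
    have h1 : g₂ ∈ Cfsg.stabilizing (Cfsg.glToMat (Fin n) F) S ⊓ Cfsg.Geo.omegaGL Q := by
      rw [heq]
      exact hg₂Ω
    have h4 := ((hmemK _).mp h1.1 (a i₁)).mp ((hS _).mpr ⟨i₁, haD i₁, hQa i₁⟩)
    rw [hg₂a] at h4
    obtain ⟨j, hyj, -⟩ := (hS _).mp h4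
    by_cases hj : j = i₁
    · rw [hj] at hyj
      have h5 : x i₂ ∈ D i₁ := by
        have h6 := (D i₁).sub_mem (haD i₁) hyj
        have h7 : a i₁ - (a i₁ - x i₂) = x i₂ := by abel
        rw [h7] at h6
        exact h6
      have h8 := hdisj _ _ _ (Ne.symm h12) (hxD i₂) h5
      have h9 := hxa i₂
      rw [h8, hz] at h9
      exact zero_ne_one h9
    · have h5 := hO _ _ _ _ (Ne.symm hj) (hxD i₁) hyj
      rw [qf_subr9 hQ, hxa, hxx, sub_zero] at h5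
      exact one_ne_zero h5

end Cfsg.Agent.Helper9
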