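import Mathlib
import Cfsg.Agent.Helper9.ODecF9
import Cfsg.Agent.Helper9.ODecH9

set_option autoImplicit false

namespace Cfsg.Agent.Helper9

open Cfsg
open scoped MatrixGroups Matrix

/-- The small-field orthogonal decompositions that are not maximal. -/
theorem odec_plus9 {F : Type*} [Field F] [Fintype F] {n : ℕ} (hn : 13 ≤ n)
    (Q : (Fin n → F) → F) (hQ : Cfsg.Geo.IsNondegenerateQuadraticForm Q) {t : ℕ} (k : ℕ)
    (D : Fin t → Submodule F (Fin n → F)) (hD : Cfsg.Geo.IsOrthogonalMDecomposition Q k D)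
    (hcase : ((k = 2 ∧ (Fintype.card F = 3 ∨ ((∀ i, Cfsg.Geo.IsPlusTypeOn Q (D i)) ∧
      (Fintype.card F = 2 ∨ Fintype.card F = 4 ∨ Fintype.card F = 5)))) ∨
      (k = 3 ∧ Fintype.card F = 3) ∨
      (k = 4 ∧ Fintype.card F = 2 ∧ ∀ i, Cfsg.Geo.IsPlusTypeOn Q (D i)))) :
    ∃ K : Subgroup (GL (Fin n) F),
      Cfsg.Geo.decompositionStabilizer D ⊓ Cfsg.Geo.omegaGL Q < K ∧ K < Cfsg.Geo.omegaGL Q := by
  classical
  have hfin := hD.decomp.decomp.finrank_eq
  have hdim := odec_dim9 D hD.decomp.decomp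
  rw [Fintype.card_fin] at hdim
  have hnd := hD.decomp.nondegenerate
  rcases hcase with ⟨rfl, hq | ⟨hpl, hq | hq | hq⟩⟩ | ⟨rfl, hq⟩ | ⟨rfl, hq, hpl⟩
  · have ht : 4 ≤ t := by omega
    by_cases hp : Cfsg.Geo.IsPlusTypeOn Q (D ⟨0, by omega⟩)
    · obtain ⟨f, hfW, hfQ, hfO, hfC, hb⟩ :=
        frameH3_9 hq hQ (D ⟨0, by omega⟩) (hfin _) (hnd _) hp
      have h3 : (3 : F) = 0 := f3_three9 hq
      have h2 : (2 : F) ≠ 0 := f3_two9 hq
      exact odec_notmaxG9 hQ h2 D hD ht 1 one_ne_zero (by norm_num) f hfW hfQ hfO hfC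
        (Or.inr hb) 1 1 1 1 (by linear_combination h3)
        (by rw [one_add_one_eq_two]; exact h2) (by norm_num) one_ne_zero one_ne_zero
    · refine odec_notmax9 hq hQ (le_refl 2) D hD (by omega)
        (frame2_9 hq hQ (D ⟨0, by omega⟩) (hfin _) ?_)
      intro v hv hv0 hQv
      apply hp
      refine ⟨Submodule.span F {v}, ?_, ?_, ?_⟩
      · rw [Submodule.span_singleton_le_iff_mem]
        exact hv
      · intro w hw
        obtain ⟨c, rfl⟩ := Submodule.mem_span_singleton.mp hw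
        rw [hQ.smul, hQv, mul_zero]
      · rw [finrank_span_singleton hv0, hfin]
  · exact odec_q2_9 hn Q hQ hq D hD hpl
  · exact odec_q4_9 hQ hq (by omega) D hD hpl
  · have ht : 4 ≤ t := by omega
    have h5 : (5 : F) = 0 := by
      have h' := FiniteField.cast_card_eq_zero F
      rw [hq] at h'
      exact_mod_cast h'
    have h2 : (2 : F) ≠ 0 := fun h =>
      one_ne_zero (show (1 : F) = 0 by linear_combination h5 - 2 * h)
    obtain ⟨f, hfW, hfQ, hfO, hfC⟩ :=
      frameH5_9 hq hQ (D ⟨0, by omega⟩) (hfin _) (hnd _) (hpl _)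
    exact odec_notmaxG9 hQ h2 D hD ht 1 one_ne_zero (by norm_num) f hfW hfQ hfO hfC
      (Or.inl (le_refl 2)) 2 1 1 0 (by linear_combination h5)
      (fun h => one_ne_zero (show (1 : F) = 0 by linear_combination 2 * h - h5))
      (fun h => one_ne_zero (show (1 : F) = 0 by linear_combination 3 * h5 - 2 * h)) h2
      one_ne_zero
  · exact odec_fin9 hn Q hQ hq 3 (Or.inr rfl) D hD (fun h => absurd h (by decide))
  · exact odec_k4_9 hn Q hQ hq D hD hpl

end Cfsg.Agent.Helper9
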