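import Mathlib
import Cfsg.Agent.Helper9.OTens9b

set_option autoImplicit false

namespace Cfsg.Agent.Helper9

open Cfsg
open scoped MatrixGroups Matrix Kronecker

variable {F : Type*} [Field F]

/-- The invertible matrices normalising the group generated by an additive map `J`, in
characteristic two. -/
def nrmV9 {κ : Type} [Fintype κ] [DecidableEq κ] (h2 : (2 : F) = 0) (J : (κ → F) → (κ → F))
    (hJ : ∀ x y, J (x + y) = J x + J y) : Subgroup (GL κ F) where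
  carrier := {g | (∀ x, (g : Matrix κ κ F) *ᵥ J x = J ((g : Matrix κ κ F) *ᵥ x)) ∨
    (∀ x, (g : Matrix κ κ F) *ᵥ J x = J ((g : Matrix κ κ F) *ᵥ x) + (g : Matrix κ κ F) *ᵥ x)}
  mul_mem' := by
    intro a b ha hb
    have hvv : ∀ v : κ → F, v + v = 0 := fun v => by rw [← two_smul F v, h2, zero_smul]
    simp only [Set.mem_setOf_eq] at ha hb ⊢
    rcases ha with ha | ha <;> rcases hb with hb | hb
    · left
      intro x
      rw [gl_mul_vecI9, gl_mul_vecI9, hb, ha]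
    · right
      intro x
      rw [gl_mul_vecI9, gl_mul_vecI9, hb, Matrix.mulVec_add, ha]
    · right
      intro x
      rw [gl_mul_vecI9, gl_mul_vecI9, hb, ha]
    · left
      intro x
      rw [gl_mul_vecI9, gl_mul_vecI9, hb, Matrix.mulVec_add, ha, add_assoc, hvv, add_zero]
  one_mem' := Or.inl (fun x => by rw [gl_one_vecI9, gl_one_vecI9])
  inv_mem' := by
    intro a ha
    have hvv : ∀ v : κ → F, v + v = 0 := fun v => by rw [← two_smul F v, h2, zero_smul]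
    simp only [Set.mem_setOf_eq] at ha ⊢
    rcases ha with ha | ha
    · left
      intro x
      have h1 := ha (((a⁻¹ : GL κ F) : Matrix κ κ F) *ᵥ x)
      rw [gl_mul_inv_vecI9] at h1
      rw [← h1, gl_inv_mul_vecI9]
    · right
      intro x
      have h1 := ha (((a⁻¹ : GL κ F) : Matrix κ κ F) *ᵥ x)
      rw [gl_mul_inv_vecI9] at h1
      have h3 : ((a⁻¹ : GL κ F) : Matrix κ κ F) *ᵥ ((a : Matrix κ κ F) *ᵥ
          J (((a⁻¹ : GL κ F) : Matrix κ κ F) *ᵥ x)) =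
          ((a⁻¹ : GL κ F) : Matrix κ κ F) *ᵥ (J x + x) := by rw [h1]
      rw [gl_inv_mul_vecI9, Matrix.mulVec_add] at h3
      rw [h3, add_assoc, hvv, add_zero]

theorem pure2_decomp9 {n₂ : ℕ} (E0 E1 : Fin 2 → F) (h00 : E0 0 = 1) (h01 : E0 1 = 0)
    (h10 : E1 0 = 0) (h11 : E1 1 = 1) (z : Fin 2 × Fin n₂ → F) :
    z = pure9 E0 (fun b => z (0, b)) + pure9 E1 (fun b => z (1, b)) := by
  funext p
  obtain ⟨a, b⟩ := p
  revert a
  rw [Fin.forall_fin_two]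
  constructor
  · simp only [Pi.add_apply, pure9, h00, h10, one_mul, zero_mul, add_zero]
  · simp only [Pi.add_apply, pure9, h01, h11, one_mul, zero_mul, zero_add]

theorem pure2_coord9 {n₂ : ℕ} (E0 E1 : Fin 2 → F) (h00 : E0 0 = 1) (h01 : E0 1 = 0)
    (h10 : E1 0 = 0) (h11 : E1 1 = 1) (p₁ p₂ : Fin n₂ → F) (b : Fin n₂) :
    (pure9 E0 p₁ + pure9 E1 p₂) (0, b) = p₁ b ∧ (pure9 E0 p₁ + pure9 E1 p₂) (1, b) = p₂ b := by
  constructor
  · simp only [Pi.add_apply, pure9, h00, h10, one_mul, zero_mul, add_zero]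
  · simp only [Pi.add_apply, pure9, h01, h11, one_mul, zero_mul, zero_add]

theorem vec2_decomp9 (E0 E1 : Fin 2 → F) (h00 : E0 0 = 1) (h01 : E0 1 = 0)
    (h10 : E1 0 = 0) (h11 : E1 1 = 1) (u : Fin 2 → F) : u = u 0 • E0 + u 1 • E1 := by
  funext a
  revert a
  rw [Fin.forall_fin_two]
  constructor
  · simp only [Pi.add_apply, Pi.smul_apply, smul_eq_mul, h00, h10, mul_one, mul_zero, add_zero]
  · simp only [Pi.add_apply, Pi.smul_apply, smul_eq_mul, h01, h11, mul_one, mul_zero, zero_add]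

theorem omega_E9 (E0 E1 : Fin 2 → F) (h00 : E0 0 = 1) (h01 : E0 1 = 0)
    (h10 : E1 0 = 0) (h11 : E1 1 = 1) :
    omega9 F *ᵥ E0 = E1 ∧ omega9 F *ᵥ E1 = E0 + E1 := by
  constructor
  · funext a
    revert a
    rw [Fin.forall_fin_two]
    constructor
    · simp [omega9, Matrix.mulVec, dotProduct, Fin.sum_univ_two, h00, h01, h10, h11]
    · simp [omega9, Matrix.mulVec, dotProduct, Fin.sum_univ_two, h00, h01, h10, h11]
  · funext a
    revert a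
    rw [Fin.forall_fin_two]
    constructor
    · simp [omega9, Matrix.mulVec, dotProduct, Fin.sum_univ_two, h00, h01, h10, h11]
    · simp [omega9, Matrix.mulVec, dotProduct, Fin.sum_univ_two, h00, h01, h10, h11]

/-- Over the field with two elements, the stabiliser of a tensor decomposition with a symplectic
factor of dimension two is not maximal in `Ω`. -/
theorem otens2_notmax9 [Fintype F] {n : ℕ} (hn : 13 ≤ n) (Q : (Fin n → F) → F)
    (hQ : Cfsg.Geo.IsNondegenerateQuadraticForm Q) (hq : Fintype.card F = 2) (n₂ : ℕ)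
    (hn₂ : 2 < n₂) (e : Fin n ≃ Fin 2 × Fin n₂) (P : GL (Fin n) F)
    (f₁ : (Fin 2 → F) → (Fin 2 → F) → F) (f₂ : (Fin n₂ → F) → (Fin n₂ → F) → F)
    (hf₁ : Cfsg.Geo.IsSymplecticForm f₁) (hf₂ : Cfsg.Geo.IsSymplecticForm f₂)
    (hT : Cfsg.Geo.IsTensorFormStructure id (QuadraticMap.polar Q) f₁ f₂ e P)
    (hpure : ∀ (x₁ : Fin 2 → F) (x₂ : Fin n₂ → F),
      Q (Matrix.mulVec (P : Matrix (Fin n) (Fin n) F)
        ((fun a : Fin 2 × Fin n₂ => x₁ a.1 * x₂ a.2) ∘ e)) = 0) :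
    ∃ K : Subgroup (GL (Fin n) F),
      Cfsg.Geo.tensorProductSubgroup 2 n₂ e P ⊓ Cfsg.Geo.omegaGL Q < K ∧
      K < Cfsg.Geo.omegaGL Q := by
  classical
  have h2 : (2 : F) = 0 := f2_two9 hq
  have hchar : (2 : F) = 0 ∨ ((2 : F) ≠ 0 ∧ Fintype.card F % 2 = 1) := Or.inl h2
  have hb₁ := hf₁.bilinear
  have hb₂ := hf₂.bilinear
  have hbl := hQ.polar_bilinear
  have hvv : ∀ v : Fin n → F, v + v = 0 := fun v => by rw [← two_smul F v, h2, zero_smul]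
  have hnegv : ∀ v : Fin n → F, -v = v := fun v => neg_eq_of_add_eq_zero_left (hvv v)
  have hone : ∀ a : F, a ≠ 0 → a = 1 := by
    intro a ha
    rcases f2_cases9 hq a with h | h
    · exact absurd h ha
    · exact h
  have h2z : ∀ v, f₂ 0 v = 0 := fun v => by
    have h := hb₂.smul_left 0 0 v
    rwa [zero_smul, zero_mul] at h
  have h2zr : ∀ v, f₂ v 0 = 0 := fun v => by
    have h := hb₂.smul_right 0 v 0
    rwa [zero_smul, zero_mul] at h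
  obtain ⟨c, hc0, hTc⟩ := hT
  have hc1 : c = 1 := hone c hc0
  obtain ⟨T, hT'⟩ : ∃ T : (Fin 2 × Fin n₂ → F) → (Fin n → F), ∀ z, T z = (P : Matrix (Fin n) (Fin n) F) *ᵥ (z ∘ e) :=
    ⟨fun z => (P : Matrix (Fin n) (Fin n) F) *ᵥ (z ∘ e), fun z => rfl⟩
  have hTadd : ∀ z z', T (z + z') = T z + T z' := by
    intro z z'
    rw [hT', hT', hT', ← Matrix.mulVec_add]
    rfl
  have hTsmul : ∀ (a : F) z, T (a • z) = a • T z := by
    intro a z
    rw [hT', hT', ← Matrix.mulVec_smul]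
    rfl
  have hTinj : ∀ z z', T z = T z' → z = z' := by
    intro z z' hzz
    rw [hT', hT'] at hzz
    have h4 : ((P⁻¹ : GL (Fin n) F) : Matrix (Fin n) (Fin n) F) *ᵥ ((P : Matrix (Fin n) (Fin n) F) *ᵥ (z ∘ e)) = ((P⁻¹ : GL (Fin n) F) : Matrix (Fin n) (Fin n) F) *ᵥ ((P : Matrix (Fin n) (Fin n) F) *ᵥ (z' ∘ e)) := by rw [hzz]
    rw [gl_inv_mul_vec9, gl_inv_mul_vec9] at h4
    funext p
    have h5 := congrFun h4 (e.symm p)
    simp only [Function.comp_apply, Equiv.apply_symm_apply] at h5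
    exact h5
  have hTsurj : ∀ x, ∃ z, T z = x := by
    intro x
    refine ⟨fun p => (((P⁻¹ : GL (Fin n) F) : Matrix (Fin n) (Fin n) F) *ᵥ x) (e.symm p), ?_⟩
    rw [hT']
    have h4 : ((fun p => (((P⁻¹ : GL (Fin n) F) : Matrix (Fin n) (Fin n) F) *ᵥ x) (e.symm p)) ∘ e) = ((P⁻¹ : GL (Fin n) F) : Matrix (Fin n) (Fin n) F) *ᵥ x := by
      funext i
      simp only [Function.comp_apply, Equiv.symm_apply_apply]
    rw [h4, gl_mul_inv_vec9]
  have hpureB : ∀ u u' y y', QuadraticMap.polar Q (T (pure9 u y)) (T (pure9 u' y')) =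
      c * (f₁ u u' * f₂ y y') := by
    intro u u' y y'
    rw [hT', hT', hTc, fog_pure9 id (fun a b => rfl), ← bf_gram9 f₁ hb₁, ← bf_gram9 f₂ hb₂]
  have hpureQ : ∀ u y, Q (T (pure9 u y)) = 0 := by
    intro u y
    rw [hT']
    exact hpure u y
  obtain ⟨E0, h00, h01⟩ : ∃ E0 : Fin 2 → F, E0 0 = 1 ∧ E0 1 = 0 := ⟨![1, 0], rfl, rfl⟩
  obtain ⟨E1, h10, h11⟩ : ∃ E1 : Fin 2 → F, E1 0 = 0 ∧ E1 1 = 1 := ⟨![0, 1], rfl, rfl⟩
  have hu : ∀ u : Fin 2 → F, u = u 0 • E0 + u 1 • E1 := vec2_decomp9 E0 E1 h00 h01 h10 h11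
  have hωE0 : omega9 F *ᵥ E0 = E1 := (omega_E9 E0 E1 h00 h01 h10 h11).1
  have hωE1 : omega9 F *ᵥ E1 = E0 + E1 := (omega_E9 E0 E1 h00 h01 h10 h11).2
  have hf00 : f₁ E0 E0 = 0 := hf₁.alternating E0
  have hf11 : f₁ E1 E1 = 0 := hf₁.alternating E1
  have hf01 : f₁ E0 E1 = 1 := by
    apply hone
    intro h0
    have hE0 : E0 ≠ 0 := by
      intro h
      have h5 := congrFun h 0
      rw [h00] at h5
      exact one_ne_zero h5
    obtain ⟨-, ⟨x, hx⟩⟩ := hf₁.nondegenerate E0 hE0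
    apply hx
    rw [hu x, hb₁.add_right, hb₁.smul_right, hb₁.smul_right, hf00, h0, mul_zero, mul_zero,
      add_zero]
  have hf10 : f₁ E1 E0 = 1 := by
    rw [hf₁.skew, hf01]
    exact neg_eq_of_add_eq_zero_left (by rw [one_add_one_eq_two]; exact h2)
  obtain ⟨R, hRdef⟩ : ∃ R : (Fin n₂ → F) → (Fin n₂ → F) → (Fin n → F),
      ∀ p₁ p₂, R p₁ p₂ = T (pure9 E0 p₁ + pure9 E1 p₂) :=
    ⟨fun p₁ p₂ => T (pure9 E0 p₁ + pure9 E1 p₂), fun _ _ => rfl⟩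
  have hRcongr : ∀ a b a' b', a = a' → b = b' → R a b = R a' b' := by
    intro a b a' b' h h'
    rw [h, h']
  have hRadd : ∀ p₁ p₂ q₁ q₂, R p₁ p₂ + R q₁ q₂ = R (p₁ + q₁) (p₂ + q₂) := by
    intro p₁ p₂ q₁ q₂
    rw [hRdef, hRdef, hRdef, ← hTadd]
    congr 1
    rw [pure_add_right9, pure_add_right9]
    abel
  have hRsmul : ∀ (a : F) p₁ p₂, a • R p₁ p₂ = R (a • p₁) (a • p₂) := by
    intro a p₁ p₂
    rw [hRdef, hRdef, ← hTsmul]
    congr 1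
    rw [pure_smul_right9, pure_smul_right9, smul_add]
  have hRpure : ∀ u y, T (pure9 u y) = R (u 0 • y) (u 1 • y) := by
    intro u y
    rw [hRdef, pure_smul_right9, pure_smul_right9, ← pure_smul_left9, ← pure_smul_left9,
      ← pure_add_left9, ← hu u]
  have hRB : ∀ p₁ p₂ q₁ q₂, QuadraticMap.polar Q (R p₁ p₂) (R q₁ q₂) =
      f₂ p₁ q₂ + f₂ p₂ q₁ := by
    intro p₁ p₂ q₁ q₂
    rw [hRdef, hRdef, hTadd, hTadd]
    simp only [hbl.add_left, hbl.add_right, hpureB, hf00, hf11, hf01, hf10, hc1]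
    ring
  have hRQ : ∀ p₁ p₂, Q (R p₁ p₂) = f₂ p₁ p₂ := by
    intro p₁ p₂
    rw [hRdef, hTadd, qf_add9 (Q := Q), hpureQ, hpureQ, hpureB, hf01, hc1]
    ring
  have hRsurj : ∀ x, ∃ p₁ p₂, x = R p₁ p₂ := by
    intro x
    obtain ⟨z, hz⟩ := hTsurj x
    refine ⟨fun b => z (0, b), fun b => z (1, b), ?_⟩
    rw [hRdef, ← hz, ← pure2_decomp9 E0 E1 h00 h01 h10 h11 z]
  have hRinj : ∀ p₁ p₂ q₁ q₂, R p₁ p₂ = R q₁ q₂ → p₁ = q₁ ∧ p₂ = q₂ := by
    intro p₁ p₂ q₁ q₂ h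
    rw [hRdef, hRdef] at h
    have hz := hTinj _ _ h
    constructor
    · funext b
      have h5 := congrFun hz (0, b)
      rw [(pure2_coord9 E0 E1 h00 h01 h10 h11 p₁ p₂ b).1,
        (pure2_coord9 E0 E1 h00 h01 h10 h11 q₁ q₂ b).1] at h5
      exact h5
    · funext b
      have h5 := congrFun hz (1, b)
      rw [(pure2_coord9 E0 E1 h00 h01 h10 h11 p₁ p₂ b).2,
        (pure2_coord9 E0 E1 h00 h01 h10 h11 q₁ q₂ b).2] at h5
      exact h5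
  -- the map J
  obtain ⟨Tinv, hTinv⟩ : ∃ Tinv : (Fin n → F) → (Fin 2 × Fin n₂ → F),
      ∀ x, Tinv x = fun p => (((P⁻¹ : GL (Fin n) F) : Matrix (Fin n) (Fin n) F) *ᵥ x) (e.symm p) := ⟨_, fun _ => rfl⟩
  have hTinvT : ∀ z, Tinv (T z) = z := by
    intro z
    rw [hTinv, hT', gl_inv_mul_vec9]
    funext p
    simp only [Function.comp_apply, Equiv.apply_symm_apply]
  have hTinvadd : ∀ x y, Tinv (x + y) = Tinv x + Tinv y := by
    intro x y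
    rw [hTinv, hTinv, hTinv, Matrix.mulVec_add]
    rfl
  obtain ⟨J, hJdef⟩ : ∃ J : (Fin n → F) → (Fin n → F),
      ∀ x, J x = T ((omega9 F ⊗ₖ (1 : Matrix (Fin n₂) (Fin n₂) F)) *ᵥ Tinv x) :=
    ⟨_, fun _ => rfl⟩
  have hJadd : ∀ x y, J (x + y) = J x + J y := by
    intro x y
    rw [hJdef, hJdef, hJdef, hTinvadd, Matrix.mulVec_add, hTadd]
  have hJpure : ∀ u y, J (T (pure9 u y)) = T (pure9 (omega9 F *ᵥ u) y) := by
    intro u y
    rw [hJdef, hTinvT, kron_mulVec_pure9, Matrix.one_mulVec]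
  have hJR : ∀ p₁ p₂, J (R p₁ p₂) = R p₂ (p₁ + p₂) := by
    intro p₁ p₂
    rw [hRdef, hTadd, hJadd, hJpure, hJpure, hωE0, hωE1, hRdef, ← hTadd]
    congr 1
    rw [pure_add_left9, pure_add_right9]
    abel
  have hJsmul : ∀ (a : F) x, J (a • x) = a • J x := by
    intro a x
    obtain ⟨p₁, p₂, rfl⟩ := hRsurj x
    rw [hRsmul, hJR, hJR, hRsmul, smul_add]
  have hmemK : ∀ g : GL (Fin n) F, g ∈ nrmV9 h2 J hJadd ↔
      ((∀ x, (g : Matrix (Fin n) (Fin n) F) *ᵥ (J x) = J ((g : Matrix (Fin n) (Fin n) F) *ᵥ x)) ∨ (∀ x, (g : Matrix (Fin n) (Fin n) F) *ᵥ (J x) = J ((g : Matrix (Fin n) (Fin n) F) *ᵥ x) + (g : Matrix (Fin n) (Fin n) F) *ᵥ x)) :=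
    fun g => Iff.rfl
  -- vectors
  obtain ⟨y₁, hy₁0⟩ : ∃ y₁ : Fin n₂ → F, y₁ ≠ 0 := by
    refine ⟨Pi.single ⟨0, by omega⟩ 1, ?_⟩
    intro h
    have h5 := congrFun h ⟨0, by omega⟩
    rw [Pi.single_eq_same] at h5
    exact one_ne_zero h5
  obtain ⟨⟨y', hy'⟩, -⟩ := hf₂.nondegenerate y₁ hy₁0
  have hy'1 : f₂ y' y₁ = 1 := hone _ hy'
  obtain ⟨y₂, hy₂0, hy₂1, hy₂'⟩ : ∃ y₂ : Fin n₂ → F, y₂ ≠ 0 ∧ f₂ y₂ y₁ = 0 ∧ f₂ y₂ y' = 0 := by
    obtain ⟨φ, hφ⟩ : ∃ φ : (Fin n₂ → F) →ₗ[F] (F × F), ∀ y, φ y = (f₂ y y₁, f₂ y y') := by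
      refine ⟨{ toFun := fun y => (f₂ y y₁, f₂ y y'), map_add' := ?_, map_smul' := ?_ },
        fun _ => rfl⟩
      · intro x y
        show (f₂ (x + y) y₁, f₂ (x + y) y') = (f₂ x y₁, f₂ x y') + (f₂ y y₁, f₂ y y')
        rw [hb₂.add_left, hb₂.add_left]
        rfl
      · intro a x
        show (f₂ (a • x) y₁, f₂ (a • x) y') = a • (f₂ x y₁, f₂ x y')
        rw [hb₂.smul_left, hb₂.smul_left]
        rfl
    have hker : LinearMap.ker φ ≠ ⊥ := by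
      apply LinearMap.ker_ne_bot_of_finrank_lt
      rw [Module.finrank_prod, Module.finrank_self, Module.finrank_fin_fun]
      omega
    obtain ⟨y₂, hy₂k, hy₂0⟩ := (Submodule.ne_bot_iff _).mp hker
    have h5 := LinearMap.mem_ker.mp hy₂k
    rw [hφ] at h5
    have h6 := Prod.ext_iff.mp h5
    exact ⟨y₂, hy₂0, h6.1, h6.2⟩
  have hy₁y₂ : f₂ y₁ y₂ = 0 := by rw [hf₂.skew, hy₂1, neg_zero]
  have hy'y₂ : f₂ y' y₂ = 0 := by rw [hf₂.skew, hy₂', neg_zero]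
  -- the first witness
  obtain ⟨z₁, hz₁⟩ : ∃ z₁, z₁ = R y₁ y₂ := ⟨_, rfl⟩
  obtain ⟨w₁, hw₁⟩ : ∃ w₁, w₁ = R y₂ (y₁ + y₂) := ⟨_, rfl⟩
  have hJz₁ : J z₁ = w₁ := by rw [hz₁, hw₁, hJR]
  have hJw₁ : J w₁ = w₁ + z₁ := by
    rw [hw₁, hz₁, hJR, hRadd]
    exact hRcongr _ _ _ _ (by abel) (by abel)
  have hQz₁ : Q z₁ = 0 := by rw [hz₁, hRQ]; exact hy₁y₂
  have hQw₁ : Q w₁ = 0 := by
    rw [hw₁, hRQ]
    simp only [hb₂.add_right, hf₂.alternating, hy₂1, add_zero]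
  have hz₁w₁ : QuadraticMap.polar Q z₁ w₁ = 0 := by
    rw [hz₁, hw₁, hRB]
    simp only [hb₂.add_right, hf₂.alternating, hy₁y₂, add_zero]
  obtain ⟨bp, cp, hbpQ, hcpQ, hbpcp, hbpS, hcpS⟩ := qf_hyp9 hQ hchar hn (spanL9 [z₁, w₁]) (by
    have := finrank_spanL9 (F := F) [z₁, w₁]
    simp only [List.length_cons, List.length_nil] at this
    omega)
  obtain ⟨g₁, hg₁Ω, hg₁⟩ := sieg_omega9 hQ z₁ w₁ bp cp hQz₁ hQw₁ hbpQ hcpQ hz₁w₁ hbpcp
    (hbpS _ (mem_spanL9 (by simp))) (hcpS _ (mem_spanL9 (by simp)))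
    (hbpS _ (mem_spanL9 (by simp))) (hcpS _ (mem_spanL9 (by simp)))
  have hg₁' : ∀ v, (g₁ : Matrix (Fin n) (Fin n) F) *ᵥ v = v + QuadraticMap.polar Q v w₁ • z₁ +
      QuadraticMap.polar Q v z₁ • w₁ := by
    intro v
    rw [hg₁, sub_eq_add_neg, hnegv]
  have hJiso1 : ∀ x, QuadraticMap.polar Q (J x) w₁ = QuadraticMap.polar Q x z₁ := by
    intro x
    obtain ⟨p₁, p₂, rfl⟩ := hRsurj x
    rw [hJR, hw₁, hz₁, hRB, hRB]
    simp only [hb₂.add_left, hb₂.add_right]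
    linear_combination (f₂ p₂ y₂) * h2
  have hJiso2 : ∀ x, QuadraticMap.polar Q (J x) z₁ =
      QuadraticMap.polar Q x w₁ + QuadraticMap.polar Q x z₁ := by
    intro x
    obtain ⟨p₁, p₂, rfl⟩ := hRsurj x
    rw [hJR, hw₁, hz₁, hRB, hRB, hRB]
    simp only [hb₂.add_left, hb₂.add_right]
    linear_combination (-(f₂ p₁ y₂)) * h2
  have hg₁K : g₁ ∈ nrmV9 h2 J hJadd := by
    rw [hmemK]
    left
    intro x
    rw [hg₁' (J x), hg₁' x, hJiso1, hJiso2, hJadd, hJadd, hJsmul, hJsmul, hJz₁, hJw₁, smul_add,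
      add_smul]
    abel
  -- the second witness
  obtain ⟨z₂, hz₂⟩ : ∃ z₂, z₂ = R y₁ 0 := ⟨_, rfl⟩
  obtain ⟨w₂, hw₂⟩ : ∃ w₂, w₂ = R y₂ 0 := ⟨_, rfl⟩
  have hQz₂ : Q z₂ = 0 := by rw [hz₂, hRQ, h2zr]
  have hQw₂ : Q w₂ = 0 := by rw [hw₂, hRQ, h2zr]
  have hz₂w₂ : QuadraticMap.polar Q z₂ w₂ = 0 := by rw [hz₂, hw₂, hRB, h2zr, h2z, add_zero]
  obtain ⟨bq, cq, hbqQ, hcqQ, hbqcq, hbqS, hcqS⟩ := qf_hyp9 hQ hchar hn (spanL9 [z₂, w₂]) (by
    have := finrank_spanL9 (F := F) [z₂, w₂]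
    simp only [List.length_cons, List.length_nil] at this
    omega)
  obtain ⟨g₂, hg₂Ω, hg₂⟩ := sieg_omega9 hQ z₂ w₂ bq cq hQz₂ hQw₂ hbqQ hcqQ hz₂w₂ hbqcq
    (hbqS _ (mem_spanL9 (by simp))) (hcqS _ (mem_spanL9 (by simp)))
    (hbqS _ (mem_spanL9 (by simp))) (hcqS _ (mem_spanL9 (by simp)))
  have hg₂' : ∀ v, (g₂ : Matrix (Fin n) (Fin n) F) *ᵥ v = v + QuadraticMap.polar Q v w₂ • z₂ +
      QuadraticMap.polar Q v z₂ • w₂ := by
    intro v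
    rw [hg₂, sub_eq_add_neg, hnegv]
  refine ⟨nrmV9 h2 J hJadd ⊓ Cfsg.Geo.omegaGL Q, lt_of_le_of_ne ?_ ?_,
    lt_of_le_of_ne inf_le_right ?_⟩
  · intro g hg
    obtain ⟨a, b, hab⟩ := tp_actionI9 e P g hg.1
    have hab' : ∀ u y, (g : Matrix (Fin n) (Fin n) F) *ᵥ (T (pure9 u y)) =
        T (pure9 ((a : Matrix (Fin 2) (Fin 2) F) *ᵥ u) ((b : Matrix (Fin n₂) (Fin n₂) F) *ᵥ y)) := by
      intro u y
      rw [hT', hT']
      exact hab u y
    have hx2 : ∀ x, ∃ p₁ p₂, x = T (pure9 E0 p₁) + T (pure9 E1 p₂) := by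
      intro x
      obtain ⟨p₁, p₂, h⟩ := hRsurj x
      exact ⟨p₁, p₂, by rw [h, hRdef, hTadd]⟩
    have hgK : g ∈ nrmV9 h2 J hJadd := by
      rw [hmemK]
      rcases gl2_omega9 hq a with hω | hω
      · left
        intro x
        obtain ⟨p₁, p₂, rfl⟩ := hx2 x
        have key : ∀ u y, (g : Matrix (Fin n) (Fin n) F) *ᵥ (J (T (pure9 u y))) = J ((g : Matrix (Fin n) (Fin n) F) *ᵥ (T (pure9 u y))) := by
          intro u y
          rw [hJpure, hab', hab', hJpure, Matrix.mulVec_mulVec, Matrix.mulVec_mulVec, hω]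
        rw [hJadd, Matrix.mulVec_add, Matrix.mulVec_add, hJadd, key, key]
      · right
        intro x
        obtain ⟨p₁, p₂, rfl⟩ := hx2 x
        have key : ∀ u y, (g : Matrix (Fin n) (Fin n) F) *ᵥ (J (T (pure9 u y))) =
            J ((g : Matrix (Fin n) (Fin n) F) *ᵥ (T (pure9 u y))) + (g : Matrix (Fin n) (Fin n) F) *ᵥ (T (pure9 u y)) := by
          intro u y
          rw [hJpure, hab', hab', hJpure, Matrix.mulVec_mulVec, Matrix.mulVec_mulVec, hω,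
            Matrix.add_mul, Matrix.one_mul, Matrix.add_mulVec, pure_add_left9, hTadd]
        rw [hJadd, Matrix.mulVec_add, Matrix.mulVec_add, hJadd, key, key]
        abel
    exact ⟨hgK, hg.2⟩
  · intro heq
    have hg₁H : g₁ ∈ Cfsg.Geo.tensorProductSubgroup 2 n₂ e P ⊓ Cfsg.Geo.omegaGL Q := by
      rw [heq]
      exact ⟨hg₁K, hg₁Ω⟩
    obtain ⟨a, b, hab⟩ := tp_actionI9 e P g₁ hg₁H.1
    have hab' : ∀ u y, (g₁ : Matrix (Fin n) (Fin n) F) *ᵥ (T (pure9 u y)) =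
        T (pure9 ((a : Matrix (Fin 2) (Fin 2) F) *ᵥ u) ((b : Matrix (Fin n₂) (Fin n₂) F) *ᵥ y)) := by
      intro u y
      rw [hT', hT']
      exact hab u y
    have e1 := hab' E0 y'
    rw [hRpure, hRpure, h00, h01, one_smul, zero_smul, hg₁'] at e1
    have e2 : QuadraticMap.polar Q (R y' 0) w₁ = 1 := by
      rw [hw₁, hRB, hb₂.add_right, hy'1, hy'y₂, h2z, add_zero, add_zero]
    have e3 : QuadraticMap.polar Q (R y' 0) z₁ = 0 := by
      rw [hz₁, hRB, hy'y₂, h2z, add_zero]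
    rw [e2, e3, one_smul, zero_smul, add_zero, hz₁, hRadd] at e1
    obtain ⟨e4, e5⟩ := hRinj _ _ _ _ e1
    obtain ⟨α₀, hα₀⟩ : ∃ α₀ : F, α₀ = ((a : Matrix (Fin 2) (Fin 2) F) *ᵥ E0) 0 := ⟨_, rfl⟩
    obtain ⟨α₁, hα₁⟩ : ∃ α₁ : F, α₁ = ((a : Matrix (Fin 2) (Fin 2) F) *ᵥ E0) 1 := ⟨_, rfl⟩
    rw [← hα₀] at e4
    rw [← hα₁, zero_add] at e5
    have hα₁1 : α₁ = 1 := by
      apply hone
      intro h0
      rw [h0, zero_smul] at e5
      exact hy₂0 e5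
    rw [hα₁1, one_smul] at e5
    rw [← e5] at e4
    have e6 : f₂ (y' + y₁) y₁ = f₂ (α₀ • y₂) y₁ := by rw [e4]
    rw [hb₂.add_left, hb₂.smul_left, hy'1, hf₂.alternating, hy₂1, mul_zero, add_zero] at e6
    exact one_ne_zero e6
  · intro heq
    have hg₂K : g₂ ∈ nrmV9 h2 J hJadd ⊓ Cfsg.Geo.omegaGL Q := by
      rw [heq]
      exact hg₂Ω
    have hx1 : (g₂ : Matrix (Fin n) (Fin n) F) *ᵥ (R 0 y') = R y₂ y' := by
      simp only [hg₂', hw₂, hz₂, hRB, h2z, h2zr, hy'y₂, hy'1, add_zero, zero_add, zero_smul,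
        one_smul, hRadd]
    have hx2 : (g₂ : Matrix (Fin n) (Fin n) F) *ᵥ (R y' y') = R (y' + y₂) y' := by
      simp only [hg₂', hw₂, hz₂, hRB, h2z, h2zr, hy'y₂, hy'1, add_zero, zero_add, zero_smul,
        one_smul, hRadd]
    rcases (hmemK g₂).mp hg₂K.1 with hcomm | hanti
    · have e1 := hcomm (R 0 y')
      rw [hJR, zero_add, hx2, hx1, hJR] at e1
      have e2 := (hRinj _ _ _ _ e1).1
      exact hy₂0 (add_left_cancel (e2.trans (add_zero y').symm))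
    · have e1 := hanti (R 0 y')
      rw [hJR, zero_add, hx2, hx1, hJR, hRadd] at e1
      have e2 := (hRinj _ _ _ _ e1).2
      have e3 : f₂ y' y₁ = f₂ (y₂ + y' + y') y₁ := by rw [← e2]
      rw [hb₂.add_left, hb₂.add_left, hy₂1, hy'1] at e3
      exact one_ne_zero (by linear_combination e3 + h2)

end Cfsg.Agent.Helper9
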