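import Mathlib
import Cfsg.Agent.Helper9.SpMaxND

set_option autoImplicit false

namespace Cfsg.Agent.Helper9

open Cfsg
open scoped MatrixGroups Matrix

variable {m : ℕ} {F : Type*} [Field F]

/-- A quadratic form in characteristic two over a perfect field whose polar form is the
standard alternating form. -/
structure QData9 (m : ℕ) (F : Type*) [Field F] (Q : (Fin m ⊕ Fin m → F) → F) : Prop where
  add : ∀ u v, Q (u + v) = Q u + Q v + Cfsg.sympForm m F u v
  smul : ∀ (c : F) v, Q (c • v) = c ^ 2 * Q v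
  two : ∀ a : F, a + a = 0
  sq : ∀ a : F, ∃ s : F, s * s = a

variable {Q : (Fin m ⊕ Fin m → F) → F}

theorem QData9.zero (hq : QData9 m F Q) : Q 0 = 0 := by
  have := hq.smul 0 0
  simpa using this

theorem QData9.transv (hq : QData9 m F Q) (y z : Fin m ⊕ Fin m → F) (c : F) :
    Q (y + c • z) = Q y + c ^ 2 * Q z + c * Cfsg.sympForm m F y z := by
  rw [hq.add, hq.smul, sf_smul_right9]

theorem QData9.neg_eq (hq : QData9 m F Q) (a : F) : -a = a :=
  neg_eq_of_add_eq_zero_left (hq.two a)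

theorem finrank_sympV9 : Module.finrank F (Fin m ⊕ Fin m → F) = 2 * m := by
  rw [Module.finrank_fintype_fun_eq_card, Fintype.card_sum, Fintype.card_fin]
  ring

/-- A non-singular vector orthogonal to three given vectors. -/
theorem exists_nonsing_perp9 (hq : QData9 m F Q) (hm : 4 ≤ m) (p₁ p₂ p₃ : Fin m ⊕ Fin m → F) :
    ∃ w, Cfsg.sympForm m F p₁ w = 0 ∧ Cfsg.sympForm m F p₂ w = 0 ∧
      Cfsg.sympForm m F p₃ w = 0 ∧ Q w ≠ 0 := by
  by_contra hcon
  push_neg at hcon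
  let Ψ : (Fin m ⊕ Fin m → F) →ₗ[F] F × F × F :=
    LinearMap.prod (sfFlip9 m F p₁) (LinearMap.prod (sfFlip9 m F p₂) (sfFlip9 m F p₃))
  let U : Submodule F (Fin m ⊕ Fin m → F) := LinearMap.ker Ψ
  have hU : ∀ w ∈ U, Q w = 0 := by
    intro w hw
    have hw' : Ψ w = 0 := hw
    have h1 : Cfsg.sympForm m F w p₁ = 0 := congrArg Prod.fst hw'
    have h2 : Cfsg.sympForm m F w p₂ = 0 := congrArg (fun t : F × F × F => t.2.1) hw'
    have h3 : Cfsg.sympForm m F w p₃ = 0 := congrArg (fun t : F × F × F => t.2.2) hw'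
    exact hcon w (by rw [sf_swap9, h1, neg_zero]) (by rw [sf_swap9, h2, neg_zero])
      (by rw [sf_swap9, h3, neg_zero])
  have hUti : ∀ u ∈ U, ∀ v ∈ U, Cfsg.sympForm m F u v = 0 := by
    intro u hu v hv
    have h := hq.add u v
    rw [hU u hu, hU v hv, hU _ (U.add_mem hu hv), zero_add, zero_add] at h
    exact h.symm
  have hVdim : Module.finrank F (Fin m ⊕ Fin m → F) = 2 * m := finrank_sympV9
  have h1 : 2 * m ≤ Module.finrank F U + 3 := by
    have h := LinearMap.finrank_range_add_finrank_ker Ψ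
    have hr : Module.finrank F (LinearMap.range Ψ) ≤ 3 := by
      have h' := Submodule.finrank_le (LinearMap.range Ψ)
      have h3 : Module.finrank F (F × F × F) = 3 := by
        rw [Module.finrank_prod, Module.finrank_prod, Module.finrank_self]
      omega
    have hk : Module.finrank F (LinearMap.ker Ψ) = Module.finrank F U := rfl
    omega
  let Φ : (Fin m ⊕ Fin m → F) →ₗ[F] Module.Dual F U := U.dualRestrict ∘ₗ sfFlip9 m F
  have hΦsurj : Function.Surjective Φ := by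
    intro ψ
    obtain ⟨φ, hφ⟩ := Subspace.dualRestrict_surjective (W := U) ψ
    obtain ⟨z, hz⟩ := sf_repr9 φ
    refine ⟨z, ?_⟩
    rw [← hφ]
    ext x
    show Cfsg.sympForm m F (x : Fin m ⊕ Fin m → F) z = φ x
    rw [hz]
  have hker : U ≤ LinearMap.ker Φ := by
    intro u hu
    rw [LinearMap.mem_ker]
    ext x
    show Cfsg.sympForm m F (x : Fin m ⊕ Fin m → F) u = 0
    exact hUti x x.2 u hu
  have h2 := LinearMap.finrank_range_add_finrank_ker Φ
  have h3 : Module.finrank F (LinearMap.range Φ) = Module.finrank F U := by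
    rw [LinearMap.range_eq_top.mpr hΦsurj, finrank_top, Subspace.dual_finrank_eq]
  have h4 := Submodule.finrank_mono hker
  omega

/-- Prescribing the value of `Q` while keeping two linear conditions. -/
theorem exists_Q_value9 (hq : QData9 m F Q) (hm : 4 ≤ m) (p₁ p₂ y₀ : Fin m ⊕ Fin m → F) (γ : F) :
    ∃ y, Cfsg.sympForm m F p₁ y = Cfsg.sympForm m F p₁ y₀ ∧
      Cfsg.sympForm m F p₂ y = Cfsg.sympForm m F p₂ y₀ ∧ Q y = γ := by
  obtain ⟨w, hw1, hw2, hw3, hw⟩ := exists_nonsing_perp9 hq hm p₁ p₂ y₀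
  obtain ⟨t, ht⟩ := hq.sq ((γ + Q y₀) / Q w)
  refine ⟨y₀ + t • w, ?_, ?_, ?_⟩
  · rw [sf_add_right9, sf_smul_right9, hw1, mul_zero, add_zero]
  · rw [sf_add_right9, sf_smul_right9, hw2, mul_zero, add_zero]
  · rw [hq.transv, hw3, mul_zero, add_zero, pow_two, ht, div_mul_cancel₀ _ hw, ← add_assoc,
      add_comm (Q y₀) γ, add_assoc, hq.two, add_zero]

/-- The group of isometries of `Q` inside the symplectic group. -/
theorem mem_orth9 (hq : QData9 m F Q) (hm : 1 ≤ m) (g : GL (Fin m ⊕ Fin m) F) :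
    g ∈ Cfsg.Geo.quadSimilarityGroup Q ⊓ Cfsg.spGL m F ↔
      g ∈ Cfsg.spGL m F ∧
        ∀ v, Q ((g : Matrix (Fin m ⊕ Fin m) (Fin m ⊕ Fin m) F) *ᵥ v) = Q v := by
  constructor
  · rintro ⟨⟨c, hc⟩, hS⟩
    refine ⟨hS, ?_⟩
    have hc1 : (c : F) = 1 := by
      let i : Fin m := ⟨0, by omega⟩
      have hB : Cfsg.sympForm m F (Pi.single (Sum.inr i) 1) (Pi.single (Sum.inl i) 1) = 1 := by
        rw [sfRL9, if_pos rfl]
      have h1 := mem_spGL9.mp hS (Pi.single (Sum.inr i) 1) (Pi.single (Sum.inl i) 1)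
      have h2 := hq.add ((g : Matrix (Fin m ⊕ Fin m) (Fin m ⊕ Fin m) F) *ᵥ
        (Pi.single (Sum.inr i) 1)) ((g : Matrix (Fin m ⊕ Fin m) (Fin m ⊕ Fin m) F) *ᵥ
        (Pi.single (Sum.inl i) 1))
      rw [← Matrix.mulVec_add, hc, hc, hc, h1, hB, hq.add, hB] at h2
      have h3 : (c : F) * (Q (Pi.single (Sum.inr i) 1) + Q (Pi.single (Sum.inl i) 1) + 1) =
          (c : F) * Q (Pi.single (Sum.inr i) 1) + (c : F) * Q (Pi.single (Sum.inl i) 1) + c := by
        ring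
      rw [h3] at h2
      exact add_left_cancel h2
    intro v
    rw [hc, hc1, one_mul]
  · rintro ⟨hS, hv⟩
    exact ⟨⟨1, fun v => by rw [hv, Units.val_one, one_mul]⟩, hS⟩

/-- Reflections: the transvections lying in the orthogonal group. -/
theorem exists_refl9 (hq : QData9 m F Q) (hm : 1 ≤ m) (x : Fin m ⊕ Fin m → F) (hx : Q x ≠ 0) :
    ∃ r : GL (Fin m ⊕ Fin m) F, r ∈ Cfsg.Geo.quadSimilarityGroup Q ⊓ Cfsg.spGL m F ∧
      ∀ y, (r : Matrix (Fin m ⊕ Fin m) (Fin m ⊕ Fin m) F) *ᵥ y =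
        y + ((Q x)⁻¹ * Cfsg.sympForm m F y x) • x := by
  obtain ⟨r, hrS, hr⟩ := sp_transv9 (Q x)⁻¹ x
  refine ⟨r, (mem_orth9 hq hm r).mpr ⟨hrS, fun v => ?_⟩, hr⟩
  rw [hr, hq.transv]
  have e : ((Q x)⁻¹ * Cfsg.sympForm m F v x) ^ 2 * Q x +
      (Q x)⁻¹ * Cfsg.sympForm m F v x * Cfsg.sympForm m F v x = 0 := by
    have e1 : ((Q x)⁻¹ * Cfsg.sympForm m F v x) ^ 2 * Q x =
        (Q x)⁻¹ * Cfsg.sympForm m F v x * Cfsg.sympForm m F v x := by
      field_simp
    rw [e1, hq.two]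
  rw [add_assoc, e, add_zero]

/-- The orthogonal group moves any non-zero vector to every level of a given non-zero linear
functional. -/
theorem orth_level9 (hq : QData9 m F Q) (hm : 4 ≤ m) (x z₀ : Fin m ⊕ Fin m → F) (hx : x ≠ 0)
    (hz₀ : z₀ ≠ 0) (τ : F) :
    ∃ o : GL (Fin m ⊕ Fin m) F, o ∈ Cfsg.Geo.quadSimilarityGroup Q ⊓ Cfsg.spGL m F ∧
      Cfsg.sympForm m F x ((o : Matrix (Fin m ⊕ Fin m) (Fin m ⊕ Fin m) F) *ᵥ z₀) = τ := by
  by_cases hτ : τ + Cfsg.sympForm m F x z₀ = 0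
  · refine ⟨1, Subgroup.one_mem _, ?_⟩
    rw [gl_one_vecI9]
    have := hq.neg_eq (Cfsg.sympForm m F x z₀)
    rw [← this]
    exact (eq_neg_of_add_eq_zero_left hτ).symm ▸ rfl
  · -- find `y` with `Q y ≠ 0` and `f(z₀,y) f(x,y) = (τ + f(x,z₀)) Q(y)`
    obtain ⟨y, hyQ, hy⟩ : ∃ y, Q y ≠ 0 ∧ Cfsg.sympForm m F z₀ y * Cfsg.sympForm m F x y =
        (τ + Cfsg.sympForm m F x z₀) * Q y := by
      by_cases hdep : x ∈ Submodule.span F {z₀}
      · obtain ⟨l, hl⟩ := Submodule.mem_span_singleton.mp hdep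
        have hl0 : l ≠ 0 := by
          intro h0
          rw [h0, zero_smul] at hl
          exact hx hl.symm
        have hxz : Cfsg.sympForm m F x z₀ = 0 := by
          rw [← hl, sf_smul_left9, sf_self9, mul_zero]
        rw [hxz, add_zero] at hτ
        have hzb : z₀ ∉ (⊥ : Submodule F (Fin m ⊕ Fin m → F)) := by simpa using hz₀
        obtain ⟨ψ, hψ1, _⟩ := exists_dual_one9 _ _ hzb
        obtain ⟨y₀, hy₀⟩ := sf_repr9 ψ
        obtain ⟨y, hy1, _, hy3⟩ := exists_Q_value9 hq hm z₀ z₀ y₀ (l / τ)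
        have hzy : Cfsg.sympForm m F z₀ y = 1 := by rw [hy1, ← hy₀, hψ1]
        refine ⟨y, ?_, ?_⟩
        · rw [hy3]
          exact div_ne_zero hl0 hτ
        · rw [hxz, add_zero, hy3, ← hl, sf_smul_left9, hzy, mul_one, one_mul,
            mul_div_cancel₀ _ hτ]
      · have hdep' : z₀ ∉ Submodule.span F {x} := by
          intro h
          obtain ⟨l, hl⟩ := Submodule.mem_span_singleton.mp h
          have hl0 : l ≠ 0 := by
            intro h0
            rw [h0, zero_smul] at hl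
            exact hz₀ hl.symm
          apply hdep
          have : x = l⁻¹ • z₀ := by rw [← hl, smul_smul, inv_mul_cancel₀ hl0, one_smul]
          rw [this]
          exact Submodule.smul_mem _ _ (Submodule.mem_span_singleton_self z₀)
        obtain ⟨ψ₁, hψ₁1, hψ₁0⟩ := exists_dual_one9 _ _ hdep'
        obtain ⟨ψ₂, hψ₂1, hψ₂0⟩ := exists_dual_one9 _ _ hdep
        obtain ⟨y₁, hy₁⟩ := sf_repr9 ψ₁
        obtain ⟨y₂, hy₂⟩ := sf_repr9 ψ₂
        have h11 : Cfsg.sympForm m F z₀ y₁ = 1 := by rw [← hy₁, hψ₁1]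
        have h12 : Cfsg.sympForm m F x y₁ = 0 := by
          rw [← hy₁]
          exact hψ₁0 x (Submodule.mem_span_singleton_self x)
        have h21 : Cfsg.sympForm m F x y₂ = 1 := by rw [← hy₂, hψ₂1]
        have h22 : Cfsg.sympForm m F z₀ y₂ = 0 := by
          rw [← hy₂]
          exact hψ₂0 z₀ (Submodule.mem_span_singleton_self z₀)
        obtain ⟨y, hy1, hy2, hy3⟩ := exists_Q_value9 hq hm z₀ x (y₁ + y₂)
          (τ + Cfsg.sympForm m F x z₀)⁻¹
        refine ⟨y, ?_, ?_⟩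
        · rw [hy3]
          exact inv_ne_zero hτ
        · rw [hy1, hy2, hy3, sf_add_right9, sf_add_right9, h11, h12, h21, h22, add_zero, zero_add,
            mul_one, mul_inv_cancel₀ hτ]
    obtain ⟨r, hrO, hr⟩ := exists_refl9 hq (by omega) y hyQ
    refine ⟨r, hrO, ?_⟩
    rw [hr, sf_add_right9, sf_smul_right9]
    have e : (Q y)⁻¹ * Cfsg.sympForm m F z₀ y * Cfsg.sympForm m F x y =
        τ + Cfsg.sympForm m F x z₀ := by
      rw [mul_assoc, hy]
      field_simp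
    rw [e, add_comm τ, ← add_assoc, hq.two, zero_add]

/-- The isometry group of `Q` is maximal in the symplectic group. -/
theorem sp_orth_maximal9 (hq : QData9 m F Q) (hm : 4 ≤ m) :
    Cfsg.Geo.IsMaximalIn (Cfsg.spGL m F) (Cfsg.Geo.quadSimilarityGroup Q ⊓ Cfsg.spGL m F) := by
  have hm1 : 1 ≤ m := by omega
  refine ⟨lt_of_le_of_ne inf_le_right fun heq => ?_, fun M hPM hMS => ?_⟩
  · -- some symplectic transformation is not an isometry
    have hall : ∀ x : Fin m ⊕ Fin m → F, x ≠ 0 → Q x = 1 := by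
      intro x hx0
      have hxb : x ∉ (⊥ : Submodule F (Fin m ⊕ Fin m → F)) := by simpa using hx0
      obtain ⟨ψ, hψ1, _⟩ := exists_dual_one9 _ _ hxb
      obtain ⟨y', hy'⟩ := sf_repr9 ψ
      have hyx : Cfsg.sympForm m F y' x = 1 := by
        rw [sf_swap9, ← hy', hψ1, hq.neg_eq]
      obtain ⟨g, hgS, hg⟩ := sp_transv9 (1 : F) x
      rw [← heq] at hgS
      have h1 := ((mem_orth9 hq hm1 g).mp hgS).2 y'
      rw [hg, hq.transv, one_mul, hyx, one_pow, one_mul, mul_one] at h1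
      have h2 : Q x + 1 = 0 := by
        have h3 : Q y' + Q x + 1 = Q y' + (Q x + 1) := by ring
        rw [h3] at h1
        exact add_left_cancel (h1.trans (add_zero _).symm)
      have := hq.neg_eq 1
      rw [← this]
      exact eq_neg_of_add_eq_zero_left h2
    let i0 : Fin m := ⟨0, by omega⟩
    let i1 : Fin m := ⟨1, by omega⟩
    have hne0 : (Pi.single (Sum.inl i0) 1 : Fin m ⊕ Fin m → F) ≠ 0 := by
      intro h
      have := congrFun h (Sum.inl i0)
      simp at this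
    have hne1 : (Pi.single (Sum.inl i1) 1 : Fin m ⊕ Fin m → F) ≠ 0 := by
      intro h
      have := congrFun h (Sum.inl i1)
      simp at this
    have hne2 : (Pi.single (Sum.inl i0) 1 + Pi.single (Sum.inl i1) 1 : Fin m ⊕ Fin m → F) ≠ 0 := by
      intro h
      have := congrFun h (Sum.inl i0)
      have hi : i0 ≠ i1 := by
        intro e
        have := congrArg Fin.val e
        simp [i0, i1] at this
      simp [Pi.single_apply, hi] at this
    have h := hq.add (Pi.single (Sum.inl i0) 1) (Pi.single (Sum.inl i1) 1)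
    rw [hall _ hne0, hall _ hne1, hall _ hne2, sfLL9, add_zero, hq.two] at h
    exact one_ne_zero h
  · by_cases hMP : M ≤ Cfsg.Geo.quadSimilarityGroup Q ⊓ Cfsg.spGL m F
    · exact Or.inl (le_antisymm hMP hPM)
    · right
      refine le_antisymm hMS (sp_le_of_transv9 M ?_)
      obtain ⟨k, hkM, hkP⟩ := Set.not_subset.mp hMP
      -- an element of `M` changing the value of `Q` to a non-zero one
      obtain ⟨k₀, hk₀M, z₀, hk₀z, hk₀0⟩ : ∃ k₀ ∈ M, ∃ z₀ : Fin m ⊕ Fin m → F,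
          Q ((k₀ : Matrix (Fin m ⊕ Fin m) (Fin m ⊕ Fin m) F) *ᵥ z₀) ≠ Q z₀ ∧
          Q ((k₀ : Matrix (Fin m ⊕ Fin m) (Fin m ⊕ Fin m) F) *ᵥ z₀) ≠ 0 := by
        have hk1 : ¬ ∀ v, Q ((k : Matrix (Fin m ⊕ Fin m) (Fin m ⊕ Fin m) F) *ᵥ v) = Q v :=
          fun h => hkP ((mem_orth9 hq hm1 k).mpr ⟨hMS hkM, h⟩)
        push_neg at hk1
        obtain ⟨z₁, hz₁⟩ := hk1
        by_cases h0 : Q ((k : Matrix (Fin m ⊕ Fin m) (Fin m ⊕ Fin m) F) *ᵥ z₁) = 0
        · refine ⟨k⁻¹, M.inv_mem hkM, (k : Matrix (Fin m ⊕ Fin m) (Fin m ⊕ Fin m) F) *ᵥ z₁, ?_, ?_⟩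
          · rw [gl_inv_mul_vecI9]
            exact fun h => hz₁ h.symm
          · rw [gl_inv_mul_vecI9]
            intro h
            apply hz₁
            rw [h0, h]
        · exact ⟨k, hkM, z₁, hz₁, h0⟩
      have hz₀0 : z₀ ≠ 0 := by
        intro h
        apply hk₀0
        rw [h, Matrix.mulVec_zero, hq.zero]
      -- conjugating reflections
      have hK : ∀ h ∈ M, ∀ z : Fin m ⊕ Fin m → F,
          Q ((h : Matrix (Fin m ⊕ Fin m) (Fin m ⊕ Fin m) F) *ᵥ z) ≠ 0 →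
          ∃ g ∈ M, g ∈ Cfsg.spGL m F ∧ ∀ y,
            (g : Matrix (Fin m ⊕ Fin m) (Fin m ⊕ Fin m) F) *ᵥ y =
              y + ((Q ((h : Matrix (Fin m ⊕ Fin m) (Fin m ⊕ Fin m) F) *ᵥ z))⁻¹ *
                Cfsg.sympForm m F y z) • z := by
        intro h hhM z hz
        obtain ⟨r, hrO, hr⟩ := exists_refl9 hq hm1 _ hz
        have hhS := hMS hhM
        refine ⟨h⁻¹ * r * h, M.mul_mem (M.mul_mem (M.inv_mem hhM) (hPM hrO)) hhM,
          Subgroup.mul_mem _ (Subgroup.mul_mem _ (Subgroup.inv_mem _ hhS) hrO.2) hhS, fun y => ?_⟩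
        rw [gl_mul_vecI9, gl_mul_vecI9, hr, mem_spGL9.mp hhS, Matrix.mulVec_add,
          Matrix.mulVec_smul, gl_inv_mul_vecI9, gl_inv_mul_vecI9]
      obtain ⟨α, hα⟩ : ∃ α : F, α = Q ((k₀ : Matrix (Fin m ⊕ Fin m) (Fin m ⊕ Fin m) F) *ᵥ z₀) :=
        ⟨_, rfl⟩
      have hα0 : α ≠ 0 := by rw [hα]; exact hk₀0
      have hαz : Q z₀ + α ≠ 0 := by
        intro h
        apply hk₀z
        rw [← hα]
        have := hq.neg_eq α
        rw [← this]
        exact (eq_neg_of_add_eq_zero_left h).symm ▸ rfl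
      intro a z
      by_cases ha : a = 0
      · refine ⟨1, M.one_mem, Subgroup.one_mem _, fun y => ?_⟩
        rw [gl_one_vecI9, ha, zero_mul, zero_smul, add_zero]
      by_cases hz : z = 0
      · refine ⟨1, M.one_mem, Subgroup.one_mem _, fun y => ?_⟩
        rw [gl_one_vecI9, hz, smul_zero, add_zero]
      obtain ⟨τ, hτ⟩ := hq.sq ((a⁻¹ + Q z) * α ^ 2 / (Q z₀ + α))
      obtain ⟨o, hoO, ho⟩ := orth_level9 hq hm z z₀ hz hz₀0 τ
      have hoQ := ((mem_orth9 hq hm1 o).mp hoO).2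
      have hoM : o ∈ M := hPM hoO
      obtain ⟨g₁, hg₁M, hg₁S, hg₁⟩ := hK (k₀ * o⁻¹) (M.mul_mem hk₀M (M.inv_mem hoM))
        ((o : Matrix (Fin m ⊕ Fin m) (Fin m ⊕ Fin m) F) *ᵥ z₀)
        (by rw [gl_mul_vecI9, gl_inv_mul_vecI9]; exact hk₀0)
      rw [gl_mul_vecI9, gl_inv_mul_vecI9, ← hα] at hg₁
      have hQg : Q ((g₁ : Matrix (Fin m ⊕ Fin m) (Fin m ⊕ Fin m) F) *ᵥ z) = a⁻¹ := by
        rw [hg₁, hq.transv, hoQ, ho]
        have e : (α⁻¹ * τ) ^ 2 * Q z₀ + α⁻¹ * τ * τ = a⁻¹ + Q z := by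
          have e1 : (α⁻¹ * τ) ^ 2 * Q z₀ + α⁻¹ * τ * τ = (τ * τ) * ((Q z₀ + α) / α ^ 2) := by
            field_simp
          rw [e1, hτ]
          field_simp
        rw [add_assoc, e, add_comm a⁻¹, ← add_assoc, hq.two, zero_add]
      obtain ⟨g, hgM, hgS, hg⟩ := hK g₁ hg₁M z (by rw [hQg]; exact inv_ne_zero ha)
      rw [hQg, inv_inv] at hg
      exact ⟨g, hgM, hgS, hg⟩

end Cfsg.Agent.Helper9
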