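import Mathlib
import Cfsg.Agent.Helper9.SpOrth
import Cfsg.Agent.Helper9.SpSwap

set_option autoImplicit false

namespace Cfsg.Agent.Helper9

open Cfsg
open scoped MatrixGroups Matrix

variable {m : ℕ} {F : Type*} [Field F]

theorem sp_decomp2_not_max9 [Fintype F] (hm : 7 ≤ m) (hq2 : Fintype.card F = 2) {t : ℕ}
    (D : Fin t → Submodule F (Fin m ⊕ Fin m → F))
    (hD : Cfsg.Geo.IsNondegenerateMDecomposition (Cfsg.sympForm m F) 2 D) :
    ∃ K : Subgroup (GL (Fin m ⊕ Fin m) F),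
      Cfsg.Geo.decompositionStabilizer D ⊓ Cfsg.spGL m F < K ∧ K < Cfsg.spGL m F := by
  classical
  have hcu : (Finset.univ : Finset F).card = 2 := by
    rw [Finset.card_univ]
    exact hq2
  obtain ⟨x0, y0, hxy0, huniv⟩ := Finset.card_eq_two.mp hcu
  have h01 : ∀ a : F, a = 0 ∨ a = 1 := by
    intro a
    have ha : a ∈ ({x0, y0} : Finset F) := by
      rw [← huniv]
      exact Finset.mem_univ a
    have h0 : (0 : F) ∈ ({x0, y0} : Finset F) := by
      rw [← huniv]
      exact Finset.mem_univ _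
    have h1 : (1 : F) ∈ ({x0, y0} : Finset F) := by
      rw [← huniv]
      exact Finset.mem_univ _
    simp only [Finset.mem_insert, Finset.mem_singleton] at ha h0 h1
    rcases ha with ha | ha <;> rcases h0 with h0 | h0 <;> rcases h1 with h1 | h1 <;>
      first
        | exact absurd (h0.trans h1.symm) zero_ne_one
        | (left; rw [ha, ← h0])
        | (right; rw [ha, ← h1])
  have h11 : (1 : F) + 1 = 0 := by
    rcases h01 (1 + 1) with h | h
    · exact h
    · exfalso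
      have : (1 : F) = 0 := by linear_combination h
      exact one_ne_zero this
  have h2 : ∀ a : F, a + a = 0 := fun a => by linear_combination a * h11
  have hsq : ∀ a : F, a * a = a := by
    intro a
    rcases h01 a with rfl | rfl <;> simp
  have hneg : ∀ a : F, -a = a := fun a => neg_eq_of_add_eq_zero_left (h2 a)
  have hbase : ∀ i, ∃ e ∈ D i, ∃ f ∈ D i, Cfsg.sympForm m F e f = 1 ∧
      ∀ u ∈ D i, u = Cfsg.sympForm m F u f • e + Cfsg.sympForm m F u e • f := by
    intro i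
    obtain ⟨e, he, f, hf, hef, W₁, hW₁, hW₁d, _, _, hproj⟩ := hyp_split9 (D i) 2 (by norm_num)
      (hD.decomp.finrank_eq i) (fun u hu hu0 => (hD.nondegenerate i u hu hu0).2)
    refine ⟨e, he, f, hf, hef, fun u hu => ?_⟩
    have hW₁b : W₁ = ⊥ := Submodule.finrank_eq_zero.mp (by omega)
    have h0 := hproj u hu
    rw [hW₁b, Submodule.mem_bot] at h0
    have e1 : u = Cfsg.sympForm m F u f • e - Cfsg.sympForm m F u e • f := by
      rw [← sub_eq_zero, ← h0]
      abel
    calc u = Cfsg.sympForm m F u f • e - Cfsg.sympForm m F u e • f := e1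
      _ = Cfsg.sympForm m F u f • e + Cfsg.sympForm m F u e • f := by rw [sub_eq_add_neg, ← neg_smul, hneg]
  choose e he f hf hef hdec using hbase
  have horth : ∀ i j, i ≠ j → ∀ a ∈ D i, ∀ b ∈ D j, Cfsg.sympForm m F a b = 0 :=
    fun i j hij => hD.orthogonal i j hij
  obtain ⟨Q, hQdef⟩ : ∃ Q : (Fin m ⊕ Fin m → F) → F, Q = fun v => ∑ i,
      (Cfsg.sympForm m F v (f i) * Cfsg.sympForm m F v (f i) + Cfsg.sympForm m F v (f i) * Cfsg.sympForm m F v (e i) + Cfsg.sympForm m F v (e i) * Cfsg.sympForm m F v (e i)) :=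
    ⟨_, rfl⟩
  have hQ : ∀ v, Q v = ∑ i,
      (Cfsg.sympForm m F v (f i) * Cfsg.sympForm m F v (f i) + Cfsg.sympForm m F v (f i) * Cfsg.sympForm m F v (e i) + Cfsg.sympForm m F v (e i) * Cfsg.sympForm m F v (e i)) :=
    fun v => by rw [hQdef]
  have hpol : ∀ u v : Fin m ⊕ Fin m → F, ∑ i, (Cfsg.sympForm m F u (f i) * Cfsg.sympForm m F v (e i) + Cfsg.sympForm m F v (f i) * Cfsg.sympForm m F u (e i)) =
      Cfsg.sympForm m F u v := by
    intro u v
    have hu : u ∈ ⨆ i, D i := by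
      rw [hD.decomp.iSup_eq_top]
      exact Submodule.mem_top
    refine Submodule.iSup_induction D (motive := fun u =>
      ∑ i, (Cfsg.sympForm m F u (f i) * Cfsg.sympForm m F v (e i) + Cfsg.sympForm m F v (f i) * Cfsg.sympForm m F u (e i)) = Cfsg.sympForm m F u v) hu ?_ ?_ ?_
    · intro j u huj
      rw [Finset.sum_eq_single j]
      · conv_rhs => rw [hdec j u huj]
        rw [sf_add_left9, sf_smul_left9, sf_smul_left9, sf_swap9 (e j) v, sf_swap9 (f j) v,
          hneg, hneg]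
        ring
      · intro i _ hij
        rw [horth j i (Ne.symm hij) u huj (f i) (hf i), horth j i (Ne.symm hij) u huj (e i) (he i)]
        ring
      · intro h
        exact absurd (Finset.mem_univ j) h
    · simp [sf_zero_left9]
    · intro x y hx hy
      rw [sf_add_left9, ← hx, ← hy, ← Finset.sum_add_distrib]
      refine Finset.sum_congr rfl (fun i _ => ?_)
      rw [sf_add_left9, sf_add_left9]
      ring
  have hq : QData9 m F Q :=
    { add := fun u v => by
        rw [hQ, hQ, hQ, ← hpol u v, ← Finset.sum_add_distrib, ← Finset.sum_add_distrib]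
        refine Finset.sum_congr rfl (fun i _ => ?_)
        rw [sf_add_left9, sf_add_left9]
        linear_combination (Cfsg.sympForm m F u (f i) * Cfsg.sympForm m F v (f i) + Cfsg.sympForm m F u (e i) * Cfsg.sympForm m F v (e i)) * h11
      smul := fun c v => by
        rw [hQ, hQ, Finset.mul_sum]
        refine Finset.sum_congr rfl (fun i _ => ?_)
        rw [sf_smul_left9, sf_smul_left9]
        ring
      two := h2
      sq := fun a => ⟨a, hsq a⟩ }
  have hm4 : 4 ≤ m := by omega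
  have hm1 : 1 ≤ m := by omega
  have hQD : ∀ j, ∀ u ∈ D j, u ≠ 0 → Q u = 1 := by
    intro j u hu hu0
    rw [hQ, Finset.sum_eq_single j]
    · have hne : ¬ (Cfsg.sympForm m F u (f j) = 0 ∧ Cfsg.sympForm m F u (e j) = 0) := by
        rintro ⟨h1, h2'⟩
        apply hu0
        rw [hdec j u hu, h1, h2', zero_smul, zero_smul, add_zero]
      rcases h01 (Cfsg.sympForm m F u (f j)) with h1 | h1 <;> rcases h01 (Cfsg.sympForm m F u (e j)) with h2' | h2'
      · exact absurd ⟨h1, h2'⟩ hne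
      · rw [h1, h2']
        simp
      · rw [h1, h2']
        simp
      · rw [h1, h2']
        linear_combination h11
    · intro i _ hij
      rw [horth j i (Ne.symm hij) u hu (f i) (hf i), horth j i (Ne.symm hij) u hu (e i) (he i)]
      ring
    · intro h
      exact absurd (Finset.mem_univ j) h
  refine ⟨Cfsg.Geo.quadSimilarityGroup Q ⊓ Cfsg.spGL m F, ?_, (sp_orth_maximal9 hq hm4).1⟩
  have hle : Cfsg.Geo.decompositionStabilizer D ⊓ Cfsg.spGL m F ≤
      Cfsg.Geo.quadSimilarityGroup Q ⊓ Cfsg.spGL m F := by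
    rintro g ⟨⟨σ, hσ⟩, hgS⟩
    rw [mem_orth9 hq hm1]
    refine ⟨hgS, fun v => ?_⟩
    have hv : v ∈ ⨆ i, D i := by
      rw [hD.decomp.iSup_eq_top]
      exact Submodule.mem_top
    refine Submodule.iSup_induction D (motive := fun v => Q ((g : Matrix (Fin m ⊕ Fin m) (Fin m ⊕ Fin m) F) *ᵥ v) = Q v) hv ?_ ?_ ?_
    · intro j u hu
      by_cases hu0 : u = 0
      · rw [hu0, Matrix.mulVec_zero]
      · have hgu : (g : Matrix (Fin m ⊕ Fin m) (Fin m ⊕ Fin m) F) *ᵥ u ∈ D (σ j) := by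
          rw [← hσ j]
          have := Submodule.mem_map_of_mem
            (f := Matrix.toLin' (g : Matrix (Fin m ⊕ Fin m) (Fin m ⊕ Fin m) F)) hu
          rwa [Matrix.toLin'_apply] at this
        have hgu0 : (g : Matrix (Fin m ⊕ Fin m) (Fin m ⊕ Fin m) F) *ᵥ u ≠ 0 := by
          intro h
          apply hu0
          have := congrArg (fun w => ((g⁻¹ : GL (Fin m ⊕ Fin m) F) : Matrix (Fin m ⊕ Fin m) (Fin m ⊕ Fin m) F) *ᵥ w) h
          simpa [gl_inv_mul_vecI9] using this
        rw [hQD (σ j) _ hgu hgu0, hQD j u hu hu0]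
    · rw [Matrix.mulVec_zero]
    · intro x y hx hy
      rw [Matrix.mulVec_add, hq.add, hq.add, hx, hy, mem_spGL9.mp hgS]
  refine lt_of_le_of_ne hle (fun heq => ?_)
  have ht3 : 3 ≤ t := by
    by_contra hlt
    have ht2 : t = 2 := by
      have := hD.decomp.two_le
      omega
    subst ht2
    have htop : (⊤ : Submodule F (Fin m ⊕ Fin m → F)) ≤ D 0 ⊔ D 1 := by
      rw [← hD.decomp.iSup_eq_top]
      refine iSup_le (fun i => ?_)
      fin_cases i
      · exact le_sup_left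
      · exact le_sup_right
    have h1 := Submodule.finrank_mono htop
    have h3 := Submodule.finrank_add_le_finrank_add_finrank (D 0) (D 1)
    rw [hD.decomp.finrank_eq, hD.decomp.finrank_eq] at h3
    rw [finrank_top, Module.finrank_fintype_fun_eq_card, Fintype.card_sum, Fintype.card_fin] at h1
    omega
  obtain ⟨i₁, hi₁⟩ : ∃ i₁ : Fin t, i₁ = ⟨0, by omega⟩ := ⟨_, rfl⟩
  obtain ⟨i₂, hi₂⟩ : ∃ i₂ : Fin t, i₂ = ⟨1, by omega⟩ := ⟨_, rfl⟩
  obtain ⟨i₃, hi₃⟩ : ∃ i₃ : Fin t, i₃ = ⟨2, by omega⟩ := ⟨_, rfl⟩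
  have h12 : i₁ ≠ i₂ := by
    rw [hi₁, hi₂]
    intro h
    have := congrArg Fin.val h
    simp at this
  have h13 : i₁ ≠ i₃ := by
    rw [hi₁, hi₃]
    intro h
    have := congrArg Fin.val h
    simp at this
  have h23 : i₂ ≠ i₃ := by
    rw [hi₂, hi₃]
    intro h
    have := congrArg Fin.val h
    simp at this
  have he0 : ∀ i, e i ≠ 0 := fun i h => by
    have := hef i
    rw [h, sf_zero_left9] at this
    exact zero_ne_one this
  obtain ⟨z, hz⟩ : ∃ z : Fin m ⊕ Fin m → F, z = e i₁ + e i₂ + e i₃ := ⟨_, rfl⟩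
  have hQz : Q z = 1 := by
    rw [hz, hq.add, hq.add, hQD _ _ (he i₁) (he0 i₁), hQD _ _ (he i₂) (he0 i₂),
      hQD _ _ (he i₃) (he0 i₃), horth i₁ i₂ h12 _ (he i₁) _ (he i₂), sf_add_left9,
      horth i₁ i₃ h13 _ (he i₁) _ (he i₃), horth i₂ i₃ h23 _ (he i₂) _ (he i₃)]
    linear_combination h11
  obtain ⟨r, hrK, hr⟩ := exists_refl9 hq hm1 z (by rw [hQz]; exact one_ne_zero)
  rw [← heq] at hrK
  obtain ⟨σ, hσ⟩ := hrK.1
  have hBfz : Cfsg.sympForm m F (f i₁) z = 1 := by
    rw [hz, sf_add_right9, sf_add_right9, sf_swap9 (f i₁) (e i₁), hef, hneg,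
      horth i₁ i₂ h12 _ (hf i₁) _ (he i₂), horth i₁ i₃ h13 _ (hf i₁) _ (he i₃), add_zero, add_zero]
  have hrf : (r : Matrix (Fin m ⊕ Fin m) (Fin m ⊕ Fin m) F) *ᵥ (f i₁) = f i₁ + z := by
    rw [hr, hQz, inv_one, one_mul, hBfz, one_smul]
  have hmem : f i₁ + z ∈ D (σ i₁) := by
    rw [← hrf, ← hσ i₁]
    have := Submodule.mem_map_of_mem
      (f := Matrix.toLin' (r : Matrix (Fin m ⊕ Fin m) (Fin m ⊕ Fin m) F)) (hf i₁)
    rwa [Matrix.toLin'_apply] at this
  have hj2 : σ i₁ = i₂ := by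
    by_contra hne
    have h0 := horth (σ i₁) i₂ hne _ hmem (f i₂) (hf i₂)
    rw [hz, sf_add_left9, sf_add_left9, sf_add_left9, horth i₁ i₂ h12 _ (hf i₁) _ (hf i₂),
      horth i₁ i₂ h12 _ (he i₁) _ (hf i₂), hef,
      horth i₃ i₂ (Ne.symm h23) _ (he i₃) _ (hf i₂)] at h0
    simp at h0
  have hj3 : σ i₁ = i₃ := by
    by_contra hne
    have h0 := horth (σ i₁) i₃ hne _ hmem (f i₃) (hf i₃)
    rw [hz, sf_add_left9, sf_add_left9, sf_add_left9, horth i₁ i₃ h13 _ (hf i₁) _ (hf i₃),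
      horth i₁ i₃ h13 _ (he i₁) _ (hf i₃), horth i₂ i₃ h23 _ (he i₂) _ (hf i₃), hef] at h0
    simp at h0
  exact h23 (hj2.symm.trans hj3)

end Cfsg.Agent.Helper9
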