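import Mathlib
import Cfsg.Agent.Helper9.SLGen

set_option autoImplicit false

namespace Cfsg.Agent.Helper9

open Cfsg
open scoped MatrixGroups Matrix

variable {n : ℕ} {F : Type*} [Field F] {f : (Fin n → F) → (Fin n → F) → F}

theorem af_neg_left9 (hf : Cfsg.Geo.IsSymplecticForm f) (x v : Fin n → F) :
    f (-x) v = - f x v := by
  have := hf.bilinear.smul_left (-1 : F) x v
  rwa [neg_one_smul, neg_one_mul] at this

theorem af_neg_right9 (hf : Cfsg.Geo.IsSymplecticForm f) (x v : Fin n → F) :
    f x (-v) = - f x v := by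
  have := hf.bilinear.smul_right (-1 : F) x v
  rwa [neg_one_smul, neg_one_mul] at this

theorem af_sub_left9 (hf : Cfsg.Geo.IsSymplecticForm f) (x y v : Fin n → F) :
    f (x - y) v = f x v - f y v := by
  rw [sub_eq_add_neg, hf.bilinear.add_left, af_neg_left9 hf, ← sub_eq_add_neg]

theorem af_sub_right9 (hf : Cfsg.Geo.IsSymplecticForm f) (v x y : Fin n → F) :
    f v (x - y) = f v x - f v y := by
  rw [sub_eq_add_neg, hf.bilinear.add_right, af_neg_right9 hf, ← sub_eq_add_neg]

theorem af_zero_right9 (hf : Cfsg.Geo.IsSymplecticForm f) (v : Fin n → F) : f v 0 = 0 := by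
  have := hf.bilinear.smul_right (0 : F) v 0
  rwa [zero_smul, zero_mul] at this

theorem af_zero_left9 (hf : Cfsg.Geo.IsSymplecticForm f) (v : Fin n → F) : f 0 v = 0 := by
  have := hf.bilinear.smul_left (0 : F) 0 v
  rwa [zero_smul, zero_mul] at this

theorem af_repr9 (hf : Cfsg.Geo.IsSymplecticForm f) (ψ : Module.Dual F (Fin n → F)) :
    ∃ u : Fin n → F, ∀ x, ψ x = f x u := by
  let Φ : (Fin n → F) →ₗ[F] Module.Dual F (Fin n → F) :=
    { toFun := fun z =>
        { toFun := fun x => f x z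
          map_add' := fun x y => hf.bilinear.add_left x y z
          map_smul' := fun c x => by rw [hf.bilinear.smul_left, RingHom.id_apply, smul_eq_mul] }
      map_add' := fun z z' => by
        ext x
        exact hf.bilinear.add_right _ z z'
      map_smul' := fun c z => by
        ext x
        show f _ (c • z) = c • f _ z
        rw [hf.bilinear.smul_right, smul_eq_mul] }
  have hinj : Function.Injective Φ := by
    rw [← LinearMap.ker_eq_bot, LinearMap.ker_eq_bot']
    intro z hz
    by_contra hz0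
    obtain ⟨⟨x, hx⟩, _⟩ := hf.nondegenerate z hz0
    apply hx
    have := congrArg (fun g : Module.Dual F (Fin n → F) => g x) hz
    exact this
  have hsurj : Function.Surjective Φ :=
    (LinearMap.injective_iff_surjective_of_finrank_eq_finrank
      (Subspace.dual_finrank_eq).symm).mp hinj
  obtain ⟨z, hz⟩ := hsurj ψ
  refine ⟨z, fun x => ?_⟩
  rw [← hz]
  rfl

/-- The transvection `x ↦ x + f(x,u) v` for `f(v,u) = 0`. -/
theorem af_transv9 (hf : Cfsg.Geo.IsSymplecticForm f) (u v : Fin n → F) (huv : f v u = 0) :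
    ∃ g : GL (Fin n) F, g ∈ Cfsg.Geo.specialLinear (Fin n) F ∧
      ∀ x, (g : Matrix (Fin n) (Fin n) F) *ᵥ x = x + f x u • v := by
  let φ : Module.Dual F (Fin n → F) :=
    { toFun := fun x => f x u
      map_add' := fun x y => hf.bilinear.add_left x y u
      map_smul' := fun c x => by rw [hf.bilinear.smul_left, RingHom.id_apply, smul_eq_mul] }
  obtain ⟨g, hgS, hg⟩ := exists_transv9 φ v huv
  exact ⟨g, hgS, fun x => hg x⟩

/-- Symplectic transvections are isometries of determinant one. -/
theorem af_symp_transv9 (hf : Cfsg.Geo.IsSymplecticForm f) (a : F) (z : Fin n → F) :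
    ∃ g : GL (Fin n) F,
      g ∈ Cfsg.Geo.similarityGroup f ⊓ Cfsg.Geo.specialLinear (Fin n) F ∧
      (∀ u v, f ((g : Matrix (Fin n) (Fin n) F) *ᵥ u) ((g : Matrix (Fin n) (Fin n) F) *ᵥ v) =
        f u v) ∧
      ∀ x, (g : Matrix (Fin n) (Fin n) F) *ᵥ x = x + (a * f x z) • z := by
  obtain ⟨g, hgS, hg⟩ := af_transv9 hf (a • z) z
    (by rw [hf.bilinear.smul_right, hf.alternating, mul_zero])
  have hg' : ∀ x, (g : Matrix (Fin n) (Fin n) F) *ᵥ x = x + (a * f x z) • z := fun x => by
    rw [hg, hf.bilinear.smul_right]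
  have hpres : ∀ u v, f ((g : Matrix (Fin n) (Fin n) F) *ᵥ u)
      ((g : Matrix (Fin n) (Fin n) F) *ᵥ v) = f u v := by
    intro u v
    rw [hg', hg']
    simp only [hf.bilinear.add_left, hf.bilinear.add_right, hf.bilinear.smul_left,
      hf.bilinear.smul_right, hf.alternating]
    rw [hf.skew z v]
    ring
  exact ⟨g, ⟨⟨1, fun u v => by rw [hpres, Units.val_one, one_mul]⟩, hgS⟩, hpres, hg'⟩

theorem af_move9 (hf : Cfsg.Geo.IsSymplecticForm f) (M : Subgroup (GL (Fin n) F))
    (hHM : Cfsg.Geo.similarityGroup f ⊓ Cfsg.Geo.specialLinear (Fin n) F ≤ M)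
    (x y : Fin n → F) (hxy : f x y ≠ 0) :
    ∃ t ∈ M, (∀ u v, f ((t : Matrix (Fin n) (Fin n) F) *ᵥ u)
        ((t : Matrix (Fin n) (Fin n) F) *ᵥ v) = f u v) ∧
      (t : Matrix (Fin n) (Fin n) F) *ᵥ x = y ∧
      ∀ v, f v x = f v y → (t : Matrix (Fin n) (Fin n) F) *ᵥ v = v := by
  obtain ⟨t, htH, htp, ht⟩ := af_symp_transv9 hf (f x y)⁻¹ (x - y)
  refine ⟨t, hHM htH, htp, ?_, ?_⟩
  · rw [ht, af_sub_right9 hf, hf.alternating, zero_sub, mul_neg, inv_mul_cancel₀ hxy, neg_smul,
      one_smul]
    abel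
  · intro v hv
    rw [ht, af_sub_right9 hf, hv, sub_self, mul_zero, zero_smul, add_zero]

theorem af_move2_9 (hf : Cfsg.Geo.IsSymplecticForm f) (M : Subgroup (GL (Fin n) F))
    (hHM : Cfsg.Geo.similarityGroup f ⊓ Cfsg.Geo.specialLinear (Fin n) F ≤ M)
    (x e z₁ z₂ : Fin n → F) (h1 : f x z₁ ≠ 0) (h2 : f z₂ e ≠ 0) :
    ∃ t ∈ M, (∀ u v, f ((t : Matrix (Fin n) (Fin n) F) *ᵥ u)
        ((t : Matrix (Fin n) (Fin n) F) *ᵥ v) = f u v) ∧
      (t : Matrix (Fin n) (Fin n) F) *ᵥ x = e ∧
      ∀ v, f v x = 0 → f v e = 0 → f v z₁ = 0 → f v z₂ = 0 →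
        (t : Matrix (Fin n) (Fin n) F) *ᵥ v = v := by
  by_cases hxe : f x e ≠ 0
  · obtain ⟨t, htM, htS, htx, htv⟩ := af_move9 hf M hHM x e hxe
    exact ⟨t, htM, htS, htx, fun v hvx hve _ _ => htv v (by rw [hvx, hve])⟩
  · obtain ⟨z, hxz, hze, hz⟩ : ∃ z, f x z ≠ 0 ∧ f z e ≠ 0 ∧
        ∀ v, f v z₁ = 0 → f v z₂ = 0 → f v z = 0 := by
      by_cases c1 : f z₁ e ≠ 0
      · exact ⟨z₁, h1, c1, fun v a _ => a⟩
      · by_cases c2 : f x z₂ ≠ 0
        · exact ⟨z₂, c2, h2, fun v _ b => b⟩
        · push_neg at c1 c2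
          refine ⟨z₁ + z₂, ?_, ?_, ?_⟩
          · rw [hf.bilinear.add_right, c2, add_zero]
            exact h1
          · rw [hf.bilinear.add_left, c1, zero_add]
            exact h2
          · intro v a b
            rw [hf.bilinear.add_right, a, b, add_zero]
    obtain ⟨t₁, ht₁M, ht₁S, ht₁x, ht₁v⟩ := af_move9 hf M hHM x z hxz
    obtain ⟨t₂, ht₂M, ht₂S, ht₂x, ht₂v⟩ := af_move9 hf M hHM z e hze
    refine ⟨t₂ * t₁, M.mul_mem ht₂M ht₁M, ?_, ?_, ?_⟩
    · intro u v
      rw [gl_mul_vec9, gl_mul_vec9, ht₂S, ht₁S]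
    · rw [gl_mul_vec9, ht₁x, ht₂x]
    · intro v hvx hve hv1 hv2
      have hvz := hz v hv1 hv2
      rw [gl_mul_vec9, ht₁v v (by rw [hvx, hvz]), ht₂v v (by rw [hvz, hve])]

/-- The similarity group of a symplectic form is maximal in the special linear group. -/
theorem sp_in_sl_maximal9 (hn : 4 ≤ n) (hf : Cfsg.Geo.IsSymplecticForm f) :
    Cfsg.Geo.IsMaximalIn (Cfsg.Geo.specialLinear (Fin n) F)
      (Cfsg.Geo.similarityGroup f ⊓ Cfsg.Geo.specialLinear (Fin n) F) := by
  have nd1 : ∀ v : Fin n → F, v ≠ 0 → ∃ x, f x v ≠ 0 := fun v hv => (hf.nondegenerate v hv).1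
  have nd2 : ∀ v : Fin n → F, v ≠ 0 → ∃ x, f v x ≠ 0 := fun v hv => (hf.nondegenerate v hv).2
  have hrep : ∀ (N : Submodule F (Fin n → F)) (x : Fin n → F), x ∉ N →
      ∃ y, f x y = 1 ∧ ∀ w ∈ N, f w y = 0 := by
    intro N x hx
    obtain ⟨ψ, hψ1, hψ0⟩ := exists_dual_one9 N x hx
    obtain ⟨y, hy⟩ := af_repr9 hf ψ
    exact ⟨y, by rw [← hy, hψ1], fun w hw => by rw [← hy]; exact hψ0 w hw⟩
  let i0 : Fin n := ⟨0, by omega⟩
  let i1 : Fin n := ⟨1, by omega⟩
  obtain ⟨e, he⟩ : ∃ e : Fin n → F, e = Pi.single i0 1 := ⟨_, rfl⟩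
  obtain ⟨e', he'⟩ : ∃ e' : Fin n → F, e' = Pi.single i1 1 := ⟨_, rfl⟩
  have he0 : e ≠ 0 := by
    intro h
    have := congrFun h i0
    rw [he, Pi.single_eq_same] at this
    exact one_ne_zero this
  have he'e : e' ∉ Submodule.span F {e} := by
    intro h
    obtain ⟨c, hc⟩ := Submodule.mem_span_singleton.mp h
    have := congrFun hc i1
    rw [he, he', Pi.smul_apply, Pi.single_eq_same, Pi.single_apply, if_neg, smul_zero] at this
    · exact zero_ne_one this
    · intro e1
      have := congrArg Fin.val e1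
      simp [i0, i1] at this
  have hVdim : Module.finrank F (Fin n → F) = n := by
    rw [Module.finrank_fintype_fun_eq_card, Fintype.card_fin]
  refine ⟨lt_of_le_of_ne inf_le_right fun heq => ?_, fun M hHM hMS => ?_⟩
  · obtain ⟨x₁, hx₁⟩ := nd1 e he0
    obtain ⟨u, hu0, hu1, hu2⟩ : ∃ u : Fin n → F, u ≠ 0 ∧ f e u = 0 ∧ f x₁ u = 0 := by
      let Ψ : (Fin n → F) →ₗ[F] F × F :=
        { toFun := fun u => (f e u, f x₁ u)
          map_add' := fun a b => by
            rw [hf.bilinear.add_right, hf.bilinear.add_right]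
            rfl
          map_smul' := fun c a => by
            rw [hf.bilinear.smul_right, hf.bilinear.smul_right]
            rfl }
      by_contra hcon
      push_neg at hcon
      have hinj : Function.Injective Ψ := by
        rw [← LinearMap.ker_eq_bot, LinearMap.ker_eq_bot']
        intro u hu
        by_contra hu0
        have h1 : f e u = 0 := congrArg Prod.fst hu
        have h2 : f x₁ u = 0 := congrArg Prod.snd hu
        exact hcon u hu0 h1 h2
      have hle := LinearMap.finrank_le_finrank_of_injective hinj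
      rw [hVdim, Module.finrank_prod, Module.finrank_self] at hle
      omega
    have hue : u ∉ Submodule.span F {e} := by
      intro h
      obtain ⟨c, hc⟩ := Submodule.mem_span_singleton.mp h
      rw [← hc, hf.bilinear.smul_right] at hu2
      rcases mul_eq_zero.mp hu2 with h' | h'
      · apply hu0
        rw [← hc, h', zero_smul]
      · exact hx₁ h'
    have heu : e ∉ Submodule.span F {u} := by
      intro h
      obtain ⟨c, hc⟩ := Submodule.mem_span_singleton.mp h
      have hc0 : c ≠ 0 := by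
        intro h0
        rw [h0, zero_smul] at hc
        exact he0 hc.symm
      apply hue
      have : u = c⁻¹ • e := by rw [← hc, smul_smul, inv_mul_cancel₀ hc0, one_smul]
      rw [this]
      exact Submodule.smul_mem _ _ (Submodule.mem_span_singleton_self e)
    obtain ⟨g, hgS, hg⟩ := af_transv9 hf u e hu1
    rw [← heq] at hgS
    obtain ⟨c, hc⟩ := hgS.1
    have hge : (g : Matrix (Fin n) (Fin n) F) *ᵥ e = e := by
      rw [hg, hu1, zero_smul, add_zero]
    obtain ⟨y₁, hy₁⟩ := nd2 e he0
    have hc1 : (c : F) = 1 := by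
      have h1 := hc e y₁
      rw [hge, hg, hf.bilinear.add_right, hf.bilinear.smul_right, hf.alternating, mul_zero,
        add_zero] at h1
      have h2 : ((c : F) - 1) * f e y₁ = 0 := by rw [sub_mul, ← h1, one_mul, sub_self]
      rcases mul_eq_zero.mp h2 with h' | h'
      · exact sub_eq_zero.mp h'
      · exact absurd h' hy₁
    obtain ⟨x₀, hx₀1, hx₀0⟩ := hrep _ e heu
    have hux₀ : f u x₀ = 0 := hx₀0 u (Submodule.mem_span_singleton_self u)
    obtain ⟨y₀, hy₀⟩ := nd1 u hu0
    have h1 := hc x₀ y₀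
    have hgx₀ : (g : Matrix (Fin n) (Fin n) F) *ᵥ x₀ = x₀ := by
      rw [hg, hf.skew, hux₀, neg_zero, zero_smul, add_zero]
    rw [hgx₀, hg, hf.bilinear.add_right, hf.bilinear.smul_right, hc1, one_mul, hf.skew x₀ e,
      hx₀1] at h1
    apply hy₀
    have h2 : f y₀ u * -1 = 0 := by
      have := sub_eq_zero.mpr h1
      rw [add_sub_cancel_left] at this
      exact this
    rcases mul_eq_zero.mp h2 with h' | h'
    · exact h'
    · exact absurd (neg_eq_zero.mp h') one_ne_zero
  · by_cases hMH : M ≤ Cfsg.Geo.similarityGroup f ⊓ Cfsg.Geo.specialLinear (Fin n) F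
    · exact Or.inl (le_antisymm hMH hHM)
    · right
      refine le_antisymm hMS (sl_le_of_transv9 M ?_)
      obtain ⟨g, hgM, hgH⟩ := Set.not_subset.mp hMH
      have hgS := hMS hgM
      have hgsim : g ∉ Cfsg.Geo.similarityGroup f := fun h => hgH ⟨h, hgS⟩
      -- Step 1: a vector where the transported form is not proportional to `f`
      obtain ⟨z₀, hz₀⟩ : ∃ z₀ : Fin n → F, ¬ ∃ c : F, ∀ x,
          f ((g : Matrix (Fin n) (Fin n) F) *ᵥ x) ((g : Matrix (Fin n) (Fin n) F) *ᵥ z₀) =
            c * f x z₀ := by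
        by_contra hcon
        push_neg at hcon
        choose c hc using hcon
        have hindep : ∀ z w : Fin n → F, w ≠ 0 → z ∉ Submodule.span F {w} → c z = c w := by
          intro z w hw hzw
          have h1 : ∀ x, f x ((c (z + w) - c z) • z + (c (z + w) - c w) • w) = 0 := by
            intro x
            have h := hc (z + w) x
            rw [Matrix.mulVec_add, hf.bilinear.add_right, hc z x, hc w x,
              hf.bilinear.add_right] at h
            rw [hf.bilinear.add_right, hf.bilinear.smul_right, hf.bilinear.smul_right]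
            linear_combination (-1 : F) * h
          have h2 : (c (z + w) - c z) • z + (c (z + w) - c w) • w = 0 := by
            by_contra hne
            obtain ⟨x, hx⟩ := nd1 _ hne
            exact hx (h1 x)
          have ha : c (z + w) - c z = 0 := by
            by_contra ha
            apply hzw
            have h3 : (c (z + w) - c z) • z = -((c (z + w) - c w) • w) :=
              eq_neg_of_add_eq_zero_left h2
            have : z = (c (z + w) - c z)⁻¹ • (-((c (z + w) - c w) • w)) := by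
              rw [← h3, smul_smul, inv_mul_cancel₀ ha, one_smul]
            rw [this]
            exact Submodule.smul_mem _ _ (Submodule.neg_mem _
              (Submodule.smul_mem _ _ (Submodule.mem_span_singleton_self w)))
          have hb : c (z + w) - c w = 0 := by
            rw [ha, zero_smul, zero_add] at h2
            rcases smul_eq_zero.mp h2 with h | h
            · exact h
            · exact absurd h hw
          exact (sub_eq_zero.mp ha).symm.trans (sub_eq_zero.mp hb)
        have hall : ∀ z : Fin n → F, z ≠ 0 → c z = c e := by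
          intro z hz0
          by_cases hz : z ∈ Submodule.span F {e}
          · have he'z : e' ∉ Submodule.span F {z} := by
              intro h
              obtain ⟨μ, hμ⟩ := Submodule.mem_span_singleton.mp h
              obtain ⟨l, hl⟩ := Submodule.mem_span_singleton.mp hz
              apply he'e
              rw [← hμ, ← hl, smul_smul]
              exact Submodule.smul_mem _ _ (Submodule.mem_span_singleton_self e)
            exact (hindep e' z hz0 he'z).symm.trans (hindep e' e he0 he'e)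
          · exact hindep z e he0 hz
        have hc0 : c e ≠ 0 := by
          intro h0
          obtain ⟨x₁, hx₁⟩ := nd1 e he0
          apply hx₁
          have hz1 : ((g⁻¹ : GL (Fin n) F) : Matrix (Fin n) (Fin n) F) *ᵥ e ≠ 0 := by
            intro h
            have := congrArg (fun w => (g : Matrix (Fin n) (Fin n) F) *ᵥ w) h
            simp only [gl_mul_inv_vec9, Matrix.mulVec_zero] at this
            exact he0 this
          have h1 := hc (((g⁻¹ : GL (Fin n) F) : Matrix (Fin n) (Fin n) F) *ᵥ e)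
            (((g⁻¹ : GL (Fin n) F) : Matrix (Fin n) (Fin n) F) *ᵥ x₁)
          rw [gl_mul_inv_vec9, gl_mul_inv_vec9, hall _ hz1, h0, zero_mul] at h1
          exact h1
        apply hgsim
        refine ⟨Units.mk0 (c e) hc0, fun u v => ?_⟩
        rw [Units.val_mk0]
        by_cases hv : v = 0
        · rw [hv, Matrix.mulVec_zero, af_zero_right9 hf, af_zero_right9 hf, mul_zero]
        · rw [hc v u, hall v hv]
      -- Step 2
      have hz₀0 : z₀ ≠ 0 := by
        intro h
        apply hz₀
        refine ⟨0, fun x => ?_⟩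
        rw [h, Matrix.mulVec_zero, af_zero_right9 hf, zero_mul]
      obtain ⟨u₀, hu₀⟩ : ∃ u₀ : Fin n → F, ∀ x,
          f ((g : Matrix (Fin n) (Fin n) F) *ᵥ x) ((g : Matrix (Fin n) (Fin n) F) *ᵥ z₀) =
            f x u₀ := by
        let ψ : Module.Dual F (Fin n → F) :=
          { toFun := fun x => f ((g : Matrix (Fin n) (Fin n) F) *ᵥ x)
              ((g : Matrix (Fin n) (Fin n) F) *ᵥ z₀)
            map_add' := fun x y => by rw [Matrix.mulVec_add, hf.bilinear.add_left]
            map_smul' := fun c x => by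
              rw [Matrix.mulVec_smul, hf.bilinear.smul_left, RingHom.id_apply, smul_eq_mul] }
        obtain ⟨u₀, hu₀⟩ := af_repr9 hf ψ
        exact ⟨u₀, fun x => hu₀ x⟩
      have hu₀z : u₀ ∉ Submodule.span F {z₀} := by
        intro h
        obtain ⟨c, hc⟩ := Submodule.mem_span_singleton.mp h
        apply hz₀
        refine ⟨c, fun x => ?_⟩
        rw [hu₀ x, ← hc, hf.bilinear.smul_right]
      have hz₀u₀ : f z₀ u₀ = 0 := by
        rw [← hu₀ z₀, hf.alternating]
      -- the relation "the transvection with data (u, v) lies in M"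
      have hconj : ∀ h ∈ M, (∀ a b, f ((h : Matrix (Fin n) (Fin n) F) *ᵥ a)
            ((h : Matrix (Fin n) (Fin n) F) *ᵥ b) = f a b) → ∀ u v : Fin n → F,
          (∃ s ∈ M, ∀ x, (s : Matrix (Fin n) (Fin n) F) *ᵥ x = x + f x u • v) →
          ∃ s ∈ M, ∀ x, (s : Matrix (Fin n) (Fin n) F) *ᵥ x =
            x + f x ((h : Matrix (Fin n) (Fin n) F) *ᵥ u) •
              ((h : Matrix (Fin n) (Fin n) F) *ᵥ v) := by
        intro h hhM hh u v ⟨s, hsM, hs⟩
        refine ⟨h * s * h⁻¹, M.mul_mem (M.mul_mem hhM hsM) (M.inv_mem hhM), fun x => ?_⟩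
        rw [gl_mul_vec9, gl_mul_vec9, hs, Matrix.mulVec_add, Matrix.mulVec_smul, gl_mul_inv_vec9]
        have e1 := hh (((h⁻¹ : GL (Fin n) F) : Matrix (Fin n) (Fin n) F) *ᵥ x) u
        rw [gl_mul_inv_vec9] at e1
        rw [e1]
      have hS : ∃ s ∈ M, ∀ x, (s : Matrix (Fin n) (Fin n) F) *ᵥ x = x + f x u₀ • z₀ := by
        obtain ⟨T, hTH, _, hT⟩ := af_symp_transv9 hf (1 : F)
          ((g : Matrix (Fin n) (Fin n) F) *ᵥ z₀)
        refine ⟨g⁻¹ * T * g, M.mul_mem (M.mul_mem (M.inv_mem hgM) (hHM hTH)) hgM, fun x => ?_⟩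
        rw [gl_mul_vec9, gl_mul_vec9, hT, one_mul, hu₀, Matrix.mulVec_add, Matrix.mulVec_smul,
          gl_inv_mul_vec9, gl_inv_mul_vec9]
      have h3a : ∀ u : Fin n → F, f z₀ u = 0 →
          ∃ s ∈ M, ∀ x, (s : Matrix (Fin n) (Fin n) F) *ᵥ x = x + f x u • z₀ := by
        intro u hu
        by_cases hus : u ∈ Submodule.span F {z₀}
        · obtain ⟨l, hl⟩ := Submodule.mem_span_singleton.mp hus
          obtain ⟨T, hTH, _, hT⟩ := af_symp_transv9 hf l z₀
          refine ⟨T, hHM hTH, fun x => ?_⟩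
          rw [hT, ← hl, hf.bilinear.smul_right]
        · obtain ⟨y₁, hy₁1, hy₁0⟩ := hrep _ u₀ hu₀z
          obtain ⟨y₂, hy₂1, hy₂0⟩ := hrep _ u hus
          have hzy₁ : f z₀ y₁ = 0 := hy₁0 z₀ (Submodule.mem_span_singleton_self z₀)
          have hzy₂ : f z₀ y₂ = 0 := hy₂0 z₀ (Submodule.mem_span_singleton_self z₀)
          obtain ⟨t, htM, htp, htx, htv⟩ := af_move2_9 hf M hHM u₀ u y₁ y₂
            (by rw [hy₁1]; exact one_ne_zero)
            (by rw [hf.skew, hy₂1]; exact neg_ne_zero.mpr one_ne_zero)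
          have htz : (t : Matrix (Fin n) (Fin n) F) *ᵥ z₀ = z₀ := htv z₀ hz₀u₀ hu hzy₁ hzy₂
          have := hconj t htM htp u₀ z₀ hS
          rw [htx, htz] at this
          exact this
      have h3b : ∀ v u : Fin n → F, f v u = 0 →
          ∃ s ∈ M, ∀ x, (s : Matrix (Fin n) (Fin n) F) *ᵥ x = x + f x u • v := by
        intro v u hvu
        by_cases hv : v = 0
        · refine ⟨1, M.one_mem, fun x => ?_⟩
          rw [gl_one_vec9, hv, smul_zero, add_zero]
        · obtain ⟨z₁, hz₁⟩ := nd2 z₀ hz₀0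
          obtain ⟨z₂, hz₂⟩ := nd1 v hv
          obtain ⟨t, htM, htp, htx, _⟩ := af_move2_9 hf M hHM z₀ v z₁ z₂ hz₁ hz₂
          have h1 : f z₀ (((t⁻¹ : GL (Fin n) F) : Matrix (Fin n) (Fin n) F) *ᵥ u) = 0 := by
            have := htp z₀ (((t⁻¹ : GL (Fin n) F) : Matrix (Fin n) (Fin n) F) *ᵥ u)
            rw [htx, gl_mul_inv_vec9] at this
            rw [← this]
            exact hvu
          have := hconj t htM htp _ z₀ (h3a _ h1)
          rw [htx, gl_mul_inv_vec9] at this
          exact this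
      intro φ v hφv
      obtain ⟨u, hu⟩ := af_repr9 hf φ
      have hvu : f v u = 0 := by
        rw [← hu]
        exact hφv
      obtain ⟨s, hsM, hs⟩ := h3b v u hvu
      exact ⟨s, hsM, hMS hsM, fun x => by rw [hs, hu]⟩

end Cfsg.Agent.Helper9
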