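import Mathlib
import Cfsg.Agent.Helper9.SpDecomp

set_option autoImplicit false

namespace Cfsg.Agent.Helper9

open Cfsg
open scoped MatrixGroups Matrix

variable {m : ℕ} {F : Type*} [Field F]

/-- A pair of complementary totally isotropic subspaces of dimension `m`. -/
structure TIPair9 (m : ℕ) (F : Type*) [Field F] (U W : Submodule F (Fin m ⊕ Fin m → F)) :
    Prop where
  tiU : ∀ u ∈ U, ∀ v ∈ U, Cfsg.sympForm m F u v = 0
  tiW : ∀ u ∈ W, ∀ v ∈ W, Cfsg.sympForm m F u v = 0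
  dec : ∀ v : Fin m ⊕ Fin m → F, ∃ u ∈ U, ∃ w ∈ W, v = u + w
  dimU : Module.finrank F U = m
  dimW : Module.finrank F W = m

theorem TIPair9.symm {U W : Submodule F (Fin m ⊕ Fin m → F)} (h : TIPair9 m F U W) :
    TIPair9 m F W U :=
  ⟨h.tiW, h.tiU, fun v => by
    obtain ⟨u, hu, w, hw, e⟩ := h.dec v
    exact ⟨w, hw, u, hu, by rw [e, add_comm]⟩, h.dimW, h.dimU⟩

theorem TIPair9.dual {U W : Submodule F (Fin m ⊕ Fin m → F)} (h : TIPair9 m F U W)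
    (N : Submodule F (Fin m ⊕ Fin m → F)) (x : Fin m ⊕ Fin m → F) (hxU : x ∈ U) (hx : x ∉ N) :
    ∃ w ∈ W, Cfsg.sympForm m F x w = 1 ∧ ∀ y ∈ N, y ∈ U → Cfsg.sympForm m F y w = 0 := by
  obtain ⟨φ, hφ1, hφ0⟩ := exists_dual_one9 N x hx
  obtain ⟨z, hz⟩ := sf_repr9 φ
  obtain ⟨zu, hzu, zw, hzw, e⟩ := h.dec z
  have key : ∀ y ∈ U, Cfsg.sympForm m F y zw = φ y := by
    intro y hy
    rw [hz y, e, sf_add_right9, h.tiU y hy zu hzu, zero_add]
  exact ⟨zw, hzw, by rw [key x hxU, hφ1], fun y hyN hyU => by rw [key y hyU]; exact hφ0 y hyN⟩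

theorem exists_in_inf9 (U X : Submodule F (Fin m ⊕ Fin m → F)) (z₁ z₂ : Fin m ⊕ Fin m → F)
    (h : Module.finrank F X + 2 < Module.finrank F U) :
    ∃ x ∈ U, Cfsg.sympForm m F x z₁ = 0 ∧ Cfsg.sympForm m F x z₂ = 0 ∧ x ∉ X := by
  let Ψ : (Fin m ⊕ Fin m → F) →ₗ[F] F × F := LinearMap.prod (sfFlip9 m F z₁) (sfFlip9 m F z₂)
  have hrk := LinearMap.finrank_range_add_finrank_ker Ψ
  have hV : Module.finrank F (Fin m ⊕ Fin m → F) = 2 * m := by
    rw [Module.finrank_fintype_fun_eq_card, Fintype.card_sum, Fintype.card_fin]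
    ring
  have hr : Module.finrank F (LinearMap.range Ψ) ≤ 2 := by
    have := Submodule.finrank_le (LinearMap.range Ψ)
    simpa [Module.finrank_prod, Module.finrank_self] using this
  have hsum := Submodule.finrank_sup_add_finrank_inf_eq U (LinearMap.ker Ψ)
  have hle : Module.finrank F (U ⊔ LinearMap.ker Ψ : Submodule F (Fin m ⊕ Fin m → F)) ≤
      2 * m := by
    rw [← hV]
    exact Submodule.finrank_le _
  by_contra hcon
  push_neg at hcon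
  have hsub : U ⊓ LinearMap.ker Ψ ≤ X := by
    rintro y ⟨hyU, hyK⟩
    have hy' : Ψ y = 0 := hyK
    have h1 : Cfsg.sympForm m F y z₁ = 0 := congrArg Prod.fst hy'
    have h2 : Cfsg.sympForm m F y z₂ = 0 := congrArg Prod.snd hy'
    exact hcon y hyU h1 h2
  have := Submodule.finrank_mono hsub
  omega

theorem sk_inv9 {s : GL (Fin m ⊕ Fin m) F} {x y : Fin m ⊕ Fin m → F} {κ : F}
    (hxy : Cfsg.sympForm m F x y = 0)
    (hs : ∀ v, (s : Matrix (Fin m ⊕ Fin m) (Fin m ⊕ Fin m) F) *ᵥ v =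
      v + Cfsg.sympForm m F v x • y + Cfsg.sympForm m F v y • x +
        (κ * Cfsg.sympForm m F v x) • x) :
    ∀ v, ((s⁻¹ : GL (Fin m ⊕ Fin m) F) : Matrix (Fin m ⊕ Fin m) (Fin m ⊕ Fin m) F) *ᵥ v =
      v - Cfsg.sympForm m F v x • y - Cfsg.sympForm m F v y • x -
        (κ * Cfsg.sympForm m F v x) • x := by
  intro v
  have hyx : Cfsg.sympForm m F y x = 0 := by rw [sf_swap9, hxy, neg_zero]
  have e : (s : Matrix (Fin m ⊕ Fin m) (Fin m ⊕ Fin m) F) *ᵥ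
      (v - Cfsg.sympForm m F v x • y - Cfsg.sympForm m F v y • x -
        (κ * Cfsg.sympForm m F v x) • x) = v := by
    rw [hs]
    simp only [sf_sub_left9, sf_smul_left9, sf_self9, hxy, hyx, mul_zero, sub_zero]
    module
  conv_lhs => rw [← e]
  rw [gl_inv_mul_vecI9]

theorem sieg_inv9 {s : GL (Fin m ⊕ Fin m) F} {x y : Fin m ⊕ Fin m → F}
    (hxy : Cfsg.sympForm m F x y = 0)
    (hs : ∀ v, (s : Matrix (Fin m ⊕ Fin m) (Fin m ⊕ Fin m) F) *ᵥ v =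
      v + Cfsg.sympForm m F v x • y + Cfsg.sympForm m F v y • x) :
    ∀ v, ((s⁻¹ : GL (Fin m ⊕ Fin m) F) : Matrix (Fin m ⊕ Fin m) (Fin m ⊕ Fin m) F) *ᵥ v =
      v - Cfsg.sympForm m F v x • y - Cfsg.sympForm m F v y • x := by
  intro v
  have := sk_inv9 (κ := 0) hxy (fun v => by rw [hs, zero_mul, zero_smul, add_zero]) v
  rw [this, zero_mul, zero_smul, sub_zero]

theorem sieg_comm9 {M : Subgroup (GL (Fin m ⊕ Fin m) F)} {s s' : GL (Fin m ⊕ Fin m) F}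
    (hsM : s ∈ M) (hs'M : s' ∈ M) {x y x' y' : Fin m ⊕ Fin m → F}
    (hxy : Cfsg.sympForm m F x y = 0) (hx'y' : Cfsg.sympForm m F x' y' = 0)
    (h1 : Cfsg.sympForm m F x' x = 0) (h2 : Cfsg.sympForm m F x' y = 0)
    (h3 : Cfsg.sympForm m F y' x = 0)
    (hs : ∀ v, (s : Matrix (Fin m ⊕ Fin m) (Fin m ⊕ Fin m) F) *ᵥ v =
      v + Cfsg.sympForm m F v x • y + Cfsg.sympForm m F v y • x)
    (hs' : ∀ v, (s' : Matrix (Fin m ⊕ Fin m) (Fin m ⊕ Fin m) F) *ᵥ v =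
      v + Cfsg.sympForm m F v x' • y' + Cfsg.sympForm m F v y' • x') :
    ∃ e ∈ M, ∀ v, (e : Matrix (Fin m ⊕ Fin m) (Fin m ⊕ Fin m) F) *ᵥ v =
      v + (Cfsg.sympForm m F y' y * Cfsg.sympForm m F v x) • x' +
        (Cfsg.sympForm m F y' y * Cfsg.sympForm m F v x') • x := by
  have hyx : Cfsg.sympForm m F y x = 0 := by rw [sf_swap9, hxy, neg_zero]
  have hy'x' : Cfsg.sympForm m F y' x' = 0 := by rw [sf_swap9, hx'y', neg_zero]
  have h1' : Cfsg.sympForm m F x x' = 0 := by rw [sf_swap9, h1, neg_zero]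
  have h2' : Cfsg.sympForm m F y x' = 0 := by rw [sf_swap9, h2, neg_zero]
  have h3' : Cfsg.sympForm m F x y' = 0 := by rw [sf_swap9, h3, neg_zero]
  have hyy' : Cfsg.sympForm m F y y' = - Cfsg.sympForm m F y' y := sf_swap9 y y'
  refine ⟨s * s' * s⁻¹ * s'⁻¹,
    M.mul_mem (M.mul_mem (M.mul_mem hsM hs'M) (M.inv_mem hsM)) (M.inv_mem hs'M), fun v => ?_⟩
  rw [gl_mul_vecI9, gl_mul_vecI9, gl_mul_vecI9, sieg_inv9 hx'y' hs', sieg_inv9 hxy hs, hs', hs]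
  simp only [sf_add_left9, sf_sub_left9, sf_smul_left9, sf_self9, hxy, hyx, hx'y', hy'x', h1, h1',
    h2, h2', h3, h3', hyy', mul_zero, sub_zero, add_zero, zero_mul, mul_neg, neg_zero]
  module

theorem sk_comm9 {M : Subgroup (GL (Fin m ⊕ Fin m) F)} {e s : GL (Fin m ⊕ Fin m) F}
    (heM : e ∈ M) (hsM : s ∈ M) {x y w : Fin m ⊕ Fin m → F} {κ : F}
    (hxy : Cfsg.sympForm m F x y = 0) (hxw : Cfsg.sympForm m F x w = 0)
    (he : ∀ v, (e : Matrix (Fin m ⊕ Fin m) (Fin m ⊕ Fin m) F) *ᵥ v =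
      v + Cfsg.sympForm m F v x • y + Cfsg.sympForm m F v y • x +
        (κ * Cfsg.sympForm m F v x) • x)
    (hs : ∀ v, (s : Matrix (Fin m ⊕ Fin m) (Fin m ⊕ Fin m) F) *ᵥ v =
      v + Cfsg.sympForm m F v x • w + Cfsg.sympForm m F v w • x) :
    ∃ t ∈ M, ∀ v, (t : Matrix (Fin m ⊕ Fin m) (Fin m ⊕ Fin m) F) *ᵥ v =
      v + ((2 * Cfsg.sympForm m F w y) * Cfsg.sympForm m F v x) • x := by
  have hyx : Cfsg.sympForm m F y x = 0 := by rw [sf_swap9, hxy, neg_zero]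
  have hwx : Cfsg.sympForm m F w x = 0 := by rw [sf_swap9, hxw, neg_zero]
  have hyw : Cfsg.sympForm m F y w = - Cfsg.sympForm m F w y := sf_swap9 y w
  refine ⟨e * s * e⁻¹ * s⁻¹,
    M.mul_mem (M.mul_mem (M.mul_mem heM hsM) (M.inv_mem heM)) (M.inv_mem hsM), fun v => ?_⟩
  rw [gl_mul_vecI9, gl_mul_vecI9, gl_mul_vecI9, sieg_inv9 hxw hs, sk_inv9 hxy he, hs, he]
  simp only [sf_add_left9, sf_sub_left9, sf_smul_left9, sf_self9, hxy, hyx, hxw, hwx, hyw,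
    mul_zero, sub_zero, add_zero, zero_mul, mul_neg, neg_zero]
  module

/-- Two complementary, dually paired totally isotropic subspaces are interchanged by a
symplectic transformation. -/
theorem sp_tiswap9 : ∀ (d : ℕ) (U W : Submodule F (Fin m ⊕ Fin m → F)),
    Module.finrank F U = d →
    (∀ u ∈ U, ∀ v ∈ U, Cfsg.sympForm m F u v = 0) →
    (∀ u ∈ W, ∀ v ∈ W, Cfsg.sympForm m F u v = 0) →
    (∀ u ∈ U, u ≠ 0 → ∃ w ∈ W, Cfsg.sympForm m F u w ≠ 0) →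
    (∀ w ∈ W, w ≠ 0 → ∃ u ∈ U, Cfsg.sympForm m F u w ≠ 0) →
    ∃ s : GL (Fin m ⊕ Fin m) F, s ∈ Cfsg.spGL m F ∧
      (∀ u ∈ U, (s : Matrix (Fin m ⊕ Fin m) (Fin m ⊕ Fin m) F) *ᵥ u ∈ W) ∧
      (∀ w ∈ W, (s : Matrix (Fin m ⊕ Fin m) (Fin m ⊕ Fin m) F) *ᵥ w ∈ U) ∧
      ∀ v, (∀ u ∈ U, Cfsg.sympForm m F u v = 0) → (∀ w ∈ W, Cfsg.sympForm m F w v = 0) →
        (s : Matrix (Fin m ⊕ Fin m) (Fin m ⊕ Fin m) F) *ᵥ v = v := by
  intro d
  induction d using Nat.strong_induction_on with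
  | _ d ih =>
    intro U W hU tiU tiW pU pW
    by_cases hUb : U = ⊥
    · have hWb : W = ⊥ := by
        rw [Submodule.eq_bot_iff]
        intro w hw
        by_contra hw0
        obtain ⟨u, hu, huw⟩ := pW w hw hw0
        rw [hUb, Submodule.mem_bot] at hu
        rw [hu, sf_zero_left9] at huw
        exact huw rfl
      refine ⟨1, Subgroup.one_mem _, ?_, ?_, fun v _ _ => gl_one_vecI9 v⟩
      · intro u hu
        rw [hUb, Submodule.mem_bot] at hu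
        rw [hu, Matrix.mulVec_zero]
        exact W.zero_mem
      · intro w hw
        rw [hWb, Submodule.mem_bot] at hw
        rw [hw, Matrix.mulVec_zero]
        exact U.zero_mem
    · obtain ⟨u₁, hu₁U, hu₁0⟩ := (Submodule.ne_bot_iff U).mp hUb
      obtain ⟨w₀, hw₀W, hu₁w₀⟩ := pU u₁ hu₁U hu₁0
      obtain ⟨w₁, hw₁⟩ : ∃ w₁ : Fin m ⊕ Fin m → F,
          w₁ = (Cfsg.sympForm m F u₁ w₀)⁻¹ • w₀ := ⟨_, rfl⟩
      have hw₁W : w₁ ∈ W := by
        rw [hw₁]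
        exact W.smul_mem _ hw₀W
      have huw : Cfsg.sympForm m F u₁ w₁ = 1 := by
        rw [hw₁, sf_smul_right9, inv_mul_cancel₀ hu₁w₀]
      have hwu : Cfsg.sympForm m F w₁ u₁ = -1 := by rw [sf_swap9, huw]
      obtain ⟨U₁, hU₁def⟩ : ∃ U₁ : Submodule F (Fin m ⊕ Fin m → F),
          U₁ = U ⊓ LinearMap.ker (sfFlip9 m F w₁) := ⟨_, rfl⟩
      obtain ⟨W₁, hW₁def⟩ : ∃ W₁ : Submodule F (Fin m ⊕ Fin m → F),
          W₁ = W ⊓ LinearMap.ker (sfFlip9 m F u₁) := ⟨_, rfl⟩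
      have hU₁ : ∀ x, x ∈ U₁ ↔ x ∈ U ∧ Cfsg.sympForm m F x w₁ = 0 := by
        intro x
        rw [hU₁def, Submodule.mem_inf, LinearMap.mem_ker, sfFlip9_apply]
      have hW₁ : ∀ x, x ∈ W₁ ↔ x ∈ W ∧ Cfsg.sympForm m F x u₁ = 0 := by
        intro x
        rw [hW₁def, Submodule.mem_inf, LinearMap.mem_ker, sfFlip9_apply]
      have hlt : Module.finrank F U₁ < d := by
        rw [← hU]
        apply Submodule.finrank_lt_finrank_of_lt
        refine lt_of_le_of_ne (fun x hx => ((hU₁ x).mp hx).1) (fun h => ?_)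
        have h1 : u₁ ∈ U₁ := by
          rw [h]
          exact hu₁U
        have h2 := ((hU₁ u₁).mp h1).2
        rw [huw] at h2
        exact one_ne_zero h2
      obtain ⟨s₁, hs₁S, hs₁U, hs₁W, hs₁fix⟩ := ih _ hlt U₁ W₁ rfl
        (fun u hu v hv => tiU u ((hU₁ u).mp hu).1 v ((hU₁ v).mp hv).1)
        (fun u hu v hv => tiW u ((hW₁ u).mp hu).1 v ((hW₁ v).mp hv).1)
        (by
          intro u hu hu0
          obtain ⟨huU, huw₁⟩ := (hU₁ u).mp hu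
          obtain ⟨w, hwW, huw'⟩ := pU u huU hu0
          refine ⟨w + Cfsg.sympForm m F w u₁ • w₁,
            (hW₁ _).mpr ⟨W.add_mem hwW (W.smul_mem _ hw₁W), ?_⟩, ?_⟩
          · rw [sf_add_left9, sf_smul_left9, hwu]
            ring
          · rw [sf_add_right9, sf_smul_right9, huw₁, mul_zero, add_zero]
            exact huw')
        (by
          intro w hw hw0
          obtain ⟨hwW, hwu₁⟩ := (hW₁ w).mp hw
          obtain ⟨u, huU, huw'⟩ := pW w hwW hw0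
          refine ⟨u - Cfsg.sympForm m F u w₁ • u₁,
            (hU₁ _).mpr ⟨U.sub_mem huU (U.smul_mem _ hu₁U), ?_⟩, ?_⟩
          · rw [sf_sub_left9, sf_smul_left9, huw]
            ring
          · rw [sf_sub_left9, sf_smul_left9, sf_swap9 u₁ w, hwu₁, neg_zero, mul_zero, sub_zero]
            exact huw')
      obtain ⟨t₁, ht₁S, ht₁⟩ := sp_transv9 (1 : F) u₁
      obtain ⟨t₂, ht₂S, ht₂⟩ := sp_transv9 (1 : F) w₁
      have hn : ∀ x, ((t₁ * t₂ * t₁ : GL (Fin m ⊕ Fin m) F) :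
          Matrix (Fin m ⊕ Fin m) (Fin m ⊕ Fin m) F) *ᵥ x =
          x + (Cfsg.sympForm m F x u₁ - Cfsg.sympForm m F x w₁) • u₁ +
            (Cfsg.sympForm m F x w₁ + Cfsg.sympForm m F x u₁) • w₁ := by
        intro x
        rw [gl_mul_vecI9, gl_mul_vecI9, ht₁, ht₂, ht₁]
        simp only [sf_add_left9, sf_smul_left9, sf_self9, huw, hwu, one_mul, mul_zero, add_zero,
          mul_one]
        module
      have hs₁u₁ : (s₁ : Matrix (Fin m ⊕ Fin m) (Fin m ⊕ Fin m) F) *ᵥ u₁ = u₁ :=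
        hs₁fix u₁ (fun u hu => tiU u ((hU₁ u).mp hu).1 u₁ hu₁U)
          (fun w hw => ((hW₁ w).mp hw).2)
      have hs₁w₁ : (s₁ : Matrix (Fin m ⊕ Fin m) (Fin m ⊕ Fin m) F) *ᵥ w₁ = w₁ :=
        hs₁fix w₁ (fun u hu => ((hU₁ u).mp hu).2)
          (fun w hw => tiW w ((hW₁ w).mp hw).1 w₁ hw₁W)
      refine ⟨t₁ * t₂ * t₁ * s₁, Subgroup.mul_mem _ (Subgroup.mul_mem _
        (Subgroup.mul_mem _ ht₁S ht₂S) ht₁S) hs₁S, ?_, ?_, ?_⟩
      · intro u hu
        have hu' : u - Cfsg.sympForm m F u w₁ • u₁ ∈ U₁ := by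
          refine (hU₁ _).mpr ⟨U.sub_mem hu (U.smul_mem _ hu₁U), ?_⟩
          rw [sf_sub_left9, sf_smul_left9, huw]
          ring
        have h1 := hs₁U _ hu'
        obtain ⟨h1W, h1u⟩ := (hW₁ _).mp h1
        have h1w : Cfsg.sympForm m F ((s₁ : Matrix (Fin m ⊕ Fin m) (Fin m ⊕ Fin m) F) *ᵥ
            (u - Cfsg.sympForm m F u w₁ • u₁)) w₁ = 0 := tiW _ h1W w₁ hw₁W
        have hdec : u = (u - Cfsg.sympForm m F u w₁ • u₁) + Cfsg.sympForm m F u w₁ • u₁ := by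
          abel
        rw [hdec, gl_mul_vecI9 (t₁ * t₂ * t₁) s₁, Matrix.mulVec_add, Matrix.mulVec_smul, hs₁u₁,
          Matrix.mulVec_add, Matrix.mulVec_smul, hn, hn u₁, h1u, h1w, sf_self9, huw]
        simp only [sub_zero, zero_smul, add_zero, zero_sub, zero_add]
        have e : (s₁ : Matrix (Fin m ⊕ Fin m) (Fin m ⊕ Fin m) F) *ᵥ
            (u - Cfsg.sympForm m F u w₁ • u₁) +
            Cfsg.sympForm m F u w₁ • (u₁ + (-1 : F) • u₁ + (1 : F) • w₁) =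
            (s₁ : Matrix (Fin m ⊕ Fin m) (Fin m ⊕ Fin m) F) *ᵥ
            (u - Cfsg.sympForm m F u w₁ • u₁) + Cfsg.sympForm m F u w₁ • w₁ := by
          module
        rw [e]
        exact W.add_mem h1W (W.smul_mem _ hw₁W)
      · intro w hw
        have hw' : w + Cfsg.sympForm m F w u₁ • w₁ ∈ W₁ := by
          refine (hW₁ _).mpr ⟨W.add_mem hw (W.smul_mem _ hw₁W), ?_⟩
          rw [sf_add_left9, sf_smul_left9, hwu]
          ring
        have h1 := hs₁W _ hw'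
        obtain ⟨h1U, h1w⟩ := (hU₁ _).mp h1
        have h1u : Cfsg.sympForm m F ((s₁ : Matrix (Fin m ⊕ Fin m) (Fin m ⊕ Fin m) F) *ᵥ
            (w + Cfsg.sympForm m F w u₁ • w₁)) u₁ = 0 := tiU _ h1U u₁ hu₁U
        have hdec : w = (w + Cfsg.sympForm m F w u₁ • w₁) - Cfsg.sympForm m F w u₁ • w₁ := by
          abel
        rw [hdec, gl_mul_vecI9 (t₁ * t₂ * t₁) s₁, Matrix.mulVec_sub, Matrix.mulVec_smul, hs₁w₁,
          Matrix.mulVec_sub, Matrix.mulVec_smul, hn, hn w₁, h1u, h1w, sf_self9, hwu]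
        simp only [sub_zero, zero_smul, add_zero, zero_sub, zero_add]
        have e : (s₁ : Matrix (Fin m ⊕ Fin m) (Fin m ⊕ Fin m) F) *ᵥ
            (w + Cfsg.sympForm m F w u₁ • w₁) -
            Cfsg.sympForm m F w u₁ • (w₁ + (-1 : F) • u₁ + (-1 : F) • w₁) =
            (s₁ : Matrix (Fin m ⊕ Fin m) (Fin m ⊕ Fin m) F) *ᵥ
            (w + Cfsg.sympForm m F w u₁ • w₁) + Cfsg.sympForm m F w u₁ • u₁ := by
          module
        rw [e]
        exact U.add_mem h1U (U.smul_mem _ hu₁U)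
      · intro v hvU hvW
        have h1 : (s₁ : Matrix (Fin m ⊕ Fin m) (Fin m ⊕ Fin m) F) *ᵥ v = v :=
          hs₁fix v (fun u hu => hvU u ((hU₁ u).mp hu).1) (fun w hw => hvW w ((hW₁ w).mp hw).1)
        have h2 : Cfsg.sympForm m F v u₁ = 0 := by rw [sf_swap9, hvU u₁ hu₁U, neg_zero]
        have h3 : Cfsg.sympForm m F v w₁ = 0 := by rw [sf_swap9, hvW w₁ hw₁W, neg_zero]
        rw [gl_mul_vecI9 (t₁ * t₂ * t₁) s₁, h1, hn, h2, h3]
        simp

end Cfsg.Agent.Helper9
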