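import Mathlib
import Cfsg.Agent.Helper9.SpPair

set_option autoImplicit false

namespace Cfsg.Agent.Helper9

open Cfsg
open scoped MatrixGroups Matrix

variable {m : ℕ} {F : Type*} [Field F]

theorem ti_config9 {U W : Submodule F (Fin m ⊕ Fin m → F)} (hP : TIPair9 m F U W) (hm : 5 ≤ m)
    (h2 : (2 : F) ≠ 0) (M : Subgroup (GL (Fin m ⊕ Fin m) F))
    (hH : ∀ s ∈ Cfsg.spGL m F, (∀ x ∈ U, (s : Matrix (Fin m ⊕ Fin m) (Fin m ⊕ Fin m) F) *ᵥ x ∈ U) → (∀ x ∈ W, (s : Matrix (Fin m ⊕ Fin m) (Fin m ⊕ Fin m) F) *ᵥ x ∈ W) → s ∈ M)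
    (p r pU pW rU rW : Fin m ⊕ Fin m → F) (hpU : pU ∈ U) (hpW : pW ∈ W) (hp : p = pU + pW)
    (hrU : rU ∈ U) (hrW : rW ∈ W) (hr : r = rU + rW)
    (hpr : Cfsg.sympForm m F p r = 0)
    (hs : ∃ s ∈ M, ∀ v, (s : Matrix (Fin m ⊕ Fin m) (Fin m ⊕ Fin m) F) *ᵥ v = v + Cfsg.sympForm m F v p • r + Cfsg.sympForm m F v r • p)
    (hrU0 : rU ≠ 0) (hind : pU ∉ Submodule.span F {rU}) :
    ∃ x ∈ U, x ≠ 0 ∧ ∃ a : F, a ≠ 0 ∧ ∃ t ∈ M, ∀ v, (t : Matrix (Fin m ⊕ Fin m) (Fin m ⊕ Fin m) F) *ᵥ v = v + (a * Cfsg.sympForm m F v x) • x := by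
  classical
  obtain ⟨s, hsM, hs⟩ := hs
  have hpU0 : pU ≠ 0 := fun h => hind (by rw [h]; exact Submodule.zero_mem _)
  obtain ⟨x, hxU, hxpW, hxrW, hxX⟩ := exists_in_inf9 U
    (Submodule.span F ((({pU, rU} : Finset (Fin m ⊕ Fin m → F))) : Set (Fin m ⊕ Fin m → F))) pW rW (by
      have h1 : Module.finrank F (Submodule.span F ((({pU, rU} : Finset (Fin m ⊕ Fin m → F))) : Set (Fin m ⊕ Fin m → F))) ≤
          2 := (finrank_span_finset_le_card (R := F) ({pU, rU} : Finset (Fin m ⊕ Fin m → F))).trans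
            Finset.card_le_two
      rw [hP.dimU]
      omega)
  have hxX' : x ∉ Submodule.span F ({pU, rU} : Set (Fin m ⊕ Fin m → F)) := by
    intro h
    apply hxX
    rw [Finset.coe_pair]
    exact h
  have hx0 : x ≠ 0 := fun h => hxX' (by rw [h]; exact Submodule.zero_mem _)
  have hrU' : rU ∉ Submodule.span F ({x, pU} : Set (Fin m ⊕ Fin m → F)) := by
    intro h
    obtain ⟨c, d, hcd⟩ := Submodule.mem_span_pair.mp h
    by_cases hc : c = 0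
    · rw [hc, zero_smul, zero_add] at hcd
      have hd : d ≠ 0 := by
        intro hd
        rw [hd, zero_smul] at hcd
        exact hrU0 hcd.symm
      apply hind
      have : pU = d⁻¹ • rU := by rw [← hcd, smul_smul, inv_mul_cancel₀ hd, one_smul]
      rw [this]
      exact Submodule.smul_mem _ _ (Submodule.mem_span_singleton_self rU)
    · apply hxX'
      have : x = c⁻¹ • rU - (c⁻¹ * d) • pU := by
        rw [← hcd, smul_add, smul_smul, smul_smul, inv_mul_cancel₀ hc, one_smul]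
        abel
      rw [this]
      exact Submodule.sub_mem _ (Submodule.smul_mem _ _ (Submodule.subset_span (by simp)))
        (Submodule.smul_mem _ _ (Submodule.subset_span (by simp)))
  have hpU' : pU ∉ Submodule.span F {x} := by
    intro h
    obtain ⟨c, hc⟩ := Submodule.mem_span_singleton.mp h
    have hc0 : c ≠ 0 := by
      intro h0
      rw [h0, zero_smul] at hc
      exact hpU0 hc.symm
    apply hxX'
    have : x = c⁻¹ • pU := by rw [← hc, smul_smul, inv_mul_cancel₀ hc0, one_smul]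
    rw [this]
    exact Submodule.smul_mem _ _ (Submodule.subset_span (by simp))
  obtain ⟨y, hyW, hrUy, hy0⟩ := hP.dual (Submodule.span F ({x, pU} : Set (Fin m ⊕ Fin m → F))) rU hrU hrU'
  have hxy : Cfsg.sympForm m F x y = 0 := hy0 x (Submodule.subset_span (by simp)) hxU
  have hpUy : Cfsg.sympForm m F pU y = 0 := hy0 pU (Submodule.subset_span (by simp)) hpU
  obtain ⟨w, hwW, hpUw, hw0⟩ := hP.dual (Submodule.span F {x}) pU hpU hpU'
  have hxw : Cfsg.sympForm m F x w = 0 := hw0 x (Submodule.mem_span_singleton_self x) hxU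
  have hHsieg : ∀ a ∈ U, ∀ b ∈ W, Cfsg.sympForm m F a b = 0 →
      ∃ s ∈ M, ∀ v, (s : Matrix (Fin m ⊕ Fin m) (Fin m ⊕ Fin m) F) *ᵥ v = v + Cfsg.sympForm m F v a • b + Cfsg.sympForm m F v b • a := by
    intro a ha b hb hab
    obtain ⟨s, hsS, hs⟩ := siegel9 a b hab
    refine ⟨s, hH s hsS ?_ ?_, hs⟩
    · intro v hv
      rw [hs, hP.tiU v hv a ha, zero_smul, add_zero]
      exact U.add_mem hv (U.smul_mem _ ha)
    · intro v hv
      rw [hs, hP.tiW v hv b hb, zero_smul, add_zero]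
      exact W.add_mem hv (W.smul_mem _ hb)
  obtain ⟨s₁, hs₁M, hs₁⟩ := hHsieg x hxU y hyW hxy
  obtain ⟨c, hc⟩ : ∃ c : F, c = Cfsg.sympForm m F r y := ⟨_, rfl⟩
  have hc0 : c ≠ 0 := by
    rw [hc, hr, sf_add_left9, hrUy, hP.tiW rW hrW y hyW, add_zero]
    exact one_ne_zero
  have hpx : Cfsg.sympForm m F p x = 0 := by
    rw [hp, sf_add_left9, hP.tiU pU hpU x hxU, zero_add, sf_swap9, hxpW, neg_zero]
  have hpy : Cfsg.sympForm m F p y = 0 := by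
    rw [hp, sf_add_left9, hpUy, hP.tiW pW hpW y hyW, add_zero]
  have hrx : Cfsg.sympForm m F r x = 0 := by
    rw [hr, sf_add_left9, hP.tiU rU hrU x hxU, zero_add, sf_swap9, hxrW, neg_zero]
  obtain ⟨e₁, he₁M, he₁⟩ := sieg_comm9 hs₁M hsM hxy hpr hpx hpy hrx hs₁ hs
  rw [← hc] at he₁
  have hxb : Cfsg.sympForm m F x (-c • pW) = 0 := by rw [sf_smul_right9, hxpW, mul_zero]
  obtain ⟨s₂, hs₂M, hs₂⟩ := hHsieg x hxU (-c • pW) (W.smul_mem _ hpW) hxb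
  have hxpU : Cfsg.sympForm m F x (c • pU) = 0 := hP.tiU x hxU _ (U.smul_mem _ hpU)
  have hpWx : Cfsg.sympForm m F pW x = 0 := by rw [sf_swap9, hxpW, neg_zero]
  have hpUx : Cfsg.sympForm m F pU x = 0 := hP.tiU pU hpU x hxU
  have hxpU' : Cfsg.sympForm m F x pU = 0 := hP.tiU x hxU pU hpU
  have he : ∀ v, ((e₁ * s₂ : GL (Fin m ⊕ Fin m) F) : Matrix (Fin m ⊕ Fin m) (Fin m ⊕ Fin m) F) *ᵥ v =
      v + Cfsg.sympForm m F v x • (c • pU) + Cfsg.sympForm m F v (c • pU) • x +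
        ((-(c * c * Cfsg.sympForm m F pW pU)) * Cfsg.sympForm m F v x) • x := by
    intro v
    rw [gl_mul_vecI9, hs₂, he₁, hp]
    simp only [sf_add_left9, sf_add_right9, sf_smul_left9, sf_smul_right9, sf_self9, hpWx, hpUx,
      hxpW, hxpU', mul_zero, add_zero, zero_add]
    module
  obtain ⟨s₃, hs₃M, hs₃⟩ := hHsieg x hxU w hwW hxw
  obtain ⟨t, htM, ht⟩ := sk_comm9 (M.mul_mem he₁M hs₂M) hs₃M hxpU hxw he hs₃
  refine ⟨x, hxU, hx0, 2 * Cfsg.sympForm m F w (c • pU), ?_, t, htM, ht⟩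
  rw [sf_smul_right9, sf_swap9 w pU, hpUw]
  exact mul_ne_zero h2 (mul_ne_zero hc0 (neg_ne_zero.mpr one_ne_zero))

theorem ti_spread9 {U W : Submodule F (Fin m ⊕ Fin m → F)} (hP : TIPair9 m F U W) (hm : 2 ≤ m)
    (h2 : (2 : F) ≠ 0) (M : Subgroup (GL (Fin m ⊕ Fin m) F)) (hMS : M ≤ Cfsg.spGL m F)
    (hH : ∀ s ∈ Cfsg.spGL m F, (∀ x ∈ U, (s : Matrix (Fin m ⊕ Fin m) (Fin m ⊕ Fin m) F) *ᵥ x ∈ U) → (∀ x ∈ W, (s : Matrix (Fin m ⊕ Fin m) (Fin m ⊕ Fin m) F) *ᵥ x ∈ W) → s ∈ M)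
    (x₀ : Fin m ⊕ Fin m → F) (hx₀U : x₀ ∈ U) (hx₀ : x₀ ≠ 0) (a₀ : F) (ha₀ : a₀ ≠ 0)
    (ht₀ : ∃ t ∈ M, ∀ v, (t : Matrix (Fin m ⊕ Fin m) (Fin m ⊕ Fin m) F) *ᵥ v = v + (a₀ * Cfsg.sympForm m F v x₀) • x₀) :
    ∀ u ∈ U, InC9 M u := by
  obtain ⟨t₀, ht₀M, ht₀⟩ := ht₀
  have hmove1 : ∀ x u : Fin m ⊕ Fin m → F, x ∈ U → u ∈ U → x ∉ Submodule.span F {u} →
      u ∉ Submodule.span F {x} → ∃ h ∈ M, (h : Matrix (Fin m ⊕ Fin m) (Fin m ⊕ Fin m) F) *ᵥ x = u := by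
    intro x u hxU huU hxu hux
    obtain ⟨w₁, hw₁W, hxw₁, hw₁0⟩ := hP.dual (Submodule.span F {u}) x hxU hxu
    obtain ⟨w₂, hw₂W, huw₂, hw₂0⟩ := hP.dual (Submodule.span F {x}) u huU hux
    have huw₁ : Cfsg.sympForm m F u w₁ = 0 := hw₁0 u (Submodule.mem_span_singleton_self u) huU
    have hxw₂ : Cfsg.sympForm m F x w₂ = 0 := hw₂0 x (Submodule.mem_span_singleton_self x) hxU
    have hab : Cfsg.sympForm m F (u - x) (w₁ + w₂) = 0 := by
      rw [sf_sub_left9, sf_add_right9, sf_add_right9, huw₁, huw₂, hxw₁, hxw₂]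
      ring
    obtain ⟨s, hsS, hs⟩ := siegel9 (u - x) (w₁ + w₂) hab
    refine ⟨s, hH s hsS ?_ ?_, ?_⟩
    · intro v hv
      rw [hs, hP.tiU v hv (u - x) (U.sub_mem huU hxU), zero_smul, add_zero]
      exact U.add_mem hv (U.smul_mem _ (U.sub_mem huU hxU))
    · intro v hv
      rw [hs, hP.tiW v hv (w₁ + w₂) (W.add_mem hw₁W hw₂W), zero_smul, add_zero]
      exact W.add_mem hv (W.smul_mem _ (W.add_mem hw₁W hw₂W))
    · rw [hs, hP.tiU x hxU (u - x) (U.sub_mem huU hxU), zero_smul, add_zero, sf_add_right9,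
        hxw₁, hxw₂, add_zero, one_smul]
      abel
  have hmove : ∀ u ∈ U, u ≠ 0 → ∃ h ∈ M, (h : Matrix (Fin m ⊕ Fin m) (Fin m ⊕ Fin m) F) *ᵥ x₀ = u := by
    intro u huU hu0
    by_cases hux : u ∈ Submodule.span F {x₀}
    · obtain ⟨l, hl⟩ := Submodule.mem_span_singleton.mp hux
      have hl0 : l ≠ 0 := by
        intro h
        rw [h, zero_smul] at hl
        exact hu0 hl.symm
      obtain ⟨u', hu'U, hu'⟩ : ∃ u' ∈ U, u' ∉ Submodule.span F {x₀} := by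
        by_contra hcon
        push_neg at hcon
        have hle : U ≤ Submodule.span F {x₀} := hcon
        have := Submodule.finrank_mono hle
        rw [hP.dimU, finrank_span_singleton hx₀] at this
        omega
      have h1 : x₀ ∉ Submodule.span F {u'} := by
        intro h
        obtain ⟨c, hc⟩ := Submodule.mem_span_singleton.mp h
        have hc0 : c ≠ 0 := by
          intro h0
          rw [h0, zero_smul] at hc
          exact hx₀ hc.symm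
        apply hu'
        have : u' = c⁻¹ • x₀ := by rw [← hc, smul_smul, inv_mul_cancel₀ hc0, one_smul]
        rw [this]
        exact Submodule.smul_mem _ _ (Submodule.mem_span_singleton_self x₀)
      have h2' : u' ∉ Submodule.span F {u} := by
        intro h
        obtain ⟨c, hc⟩ := Submodule.mem_span_singleton.mp h
        apply hu'
        rw [← hc, ← hl, smul_smul]
        exact Submodule.smul_mem _ _ (Submodule.mem_span_singleton_self x₀)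
      have h3 : u ∉ Submodule.span F {u'} := by
        intro h
        obtain ⟨c, hc⟩ := Submodule.mem_span_singleton.mp h
        apply h1
        have : x₀ = (l⁻¹ * c) • u' := by
          rw [← smul_smul, hc, ← hl, smul_smul, inv_mul_cancel₀ hl0, one_smul]
        rw [this]
        exact Submodule.smul_mem _ _ (Submodule.mem_span_singleton_self u')
      obtain ⟨k₁, hk₁M, hk₁⟩ := hmove1 x₀ u' hx₀U hu'U h1 hu'
      obtain ⟨k₂, hk₂M, hk₂⟩ := hmove1 u' u hu'U huU h2' h3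
      exact ⟨k₂ * k₁, M.mul_mem hk₂M hk₁M, by rw [gl_mul_vecI9, hk₁, hk₂]⟩
    · have h1 : x₀ ∉ Submodule.span F {u} := by
        intro h
        obtain ⟨c, hc⟩ := Submodule.mem_span_singleton.mp h
        have hc0 : c ≠ 0 := by
          intro h0
          rw [h0, zero_smul] at hc
          exact hx₀ hc.symm
        apply hux
        have : u = c⁻¹ • x₀ := by rw [← hc, smul_smul, inv_mul_cancel₀ hc0, one_smul]
        rw [this]
        exact Submodule.smul_mem _ _ (Submodule.mem_span_singleton_self x₀)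
      exact hmove1 x₀ u hx₀U huU h1 hux
  have hbase : ∀ u ∈ U, u ≠ 0 → ∃ t ∈ M, ∀ v, (t : Matrix (Fin m ⊕ Fin m) (Fin m ⊕ Fin m) F) *ᵥ v = v + (a₀ * Cfsg.sympForm m F v u) • u := by
    intro u huU hu0
    obtain ⟨h, hhM, hh⟩ := hmove u huU hu0
    have hhS := hMS hhM
    refine ⟨h * t₀ * h⁻¹, M.mul_mem (M.mul_mem hhM ht₀M) (M.inv_mem hhM), fun v => ?_⟩
    rw [gl_mul_vecI9, gl_mul_vecI9, ht₀, Matrix.mulVec_add, Matrix.mulVec_smul,
      gl_mul_inv_vecI9, hh]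
    have e := mem_spGL9.mp hhS (((h⁻¹ : GL (Fin m ⊕ Fin m) F) : Matrix (Fin m ⊕ Fin m) (Fin m ⊕ Fin m) F) *ᵥ v) x₀
    rw [gl_mul_inv_vecI9, hh] at e
    rw [← e]
  intro u huU
  by_cases hu0 : u = 0
  · rw [hu0]
    exact inC_zero9 M
  have hsq : ∀ l : F, ∃ t ∈ M, ∀ v, (t : Matrix (Fin m ⊕ Fin m) (Fin m ⊕ Fin m) F) *ᵥ v = v + ((a₀ * (l * l)) * Cfsg.sympForm m F v u) • u := by
    intro l
    by_cases hl : l = 0
    · refine ⟨1, M.one_mem, fun v => ?_⟩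
      rw [gl_one_vecI9, hl, mul_zero, mul_zero, zero_mul, zero_smul, add_zero]
    · obtain ⟨t, htM, ht⟩ := hbase (l • u) (U.smul_mem _ huU) (smul_ne_zero hl hu0)
      refine ⟨t, htM, fun v => ?_⟩
      rw [ht, sf_smul_right9, smul_smul]
      have : a₀ * (l * Cfsg.sympForm m F v u) * l = a₀ * (l * l) * Cfsg.sympForm m F v u := by ring
      rw [this]
  intro a
  obtain ⟨e, he⟩ : ∃ e : F, e = a / a₀ := ⟨_, rfl⟩
  obtain ⟨t₁, ht₁M, ht₁⟩ := hsq ((e + 1) / 2)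
  obtain ⟨t₂, ht₂M, ht₂⟩ := hsq ((e - 1) / 2)
  have ht₂inv : ∀ v, ((t₂⁻¹ : GL (Fin m ⊕ Fin m) F) : Matrix (Fin m ⊕ Fin m) (Fin m ⊕ Fin m) F) *ᵥ v =
      v - ((a₀ * ((e - 1) / 2 * ((e - 1) / 2))) * Cfsg.sympForm m F v u) • u := by
    intro v
    have e' : (t₂ : Matrix (Fin m ⊕ Fin m) (Fin m ⊕ Fin m) F) *ᵥ (v - ((a₀ * ((e - 1) / 2 * ((e - 1) / 2))) * Cfsg.sympForm m F v u) • u) = v := by
      rw [ht₂, sf_sub_left9, sf_smul_left9, sf_self9, mul_zero, sub_zero]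
      abel
    conv_lhs => rw [← e']
    rw [gl_inv_mul_vecI9]
  refine ⟨t₁ * t₂⁻¹, M.mul_mem ht₁M (M.inv_mem ht₂M),
    hMS (M.mul_mem ht₁M (M.inv_mem ht₂M)), fun v => ?_⟩
  rw [gl_mul_vecI9, ht₂inv, ht₁, sf_sub_left9, sf_smul_left9, sf_self9, mul_zero, sub_zero]
  have hval : a₀ * ((e + 1) / 2 * ((e + 1) / 2)) - a₀ * ((e - 1) / 2 * ((e - 1) / 2)) = a := by
    rw [he]
    field_simp
    ring
  rw [← hval]
  module

theorem ti_caseII9 {U W : Submodule F (Fin m ⊕ Fin m → F)} (hP : TIPair9 m F U W) (hm : 5 ≤ m) (h2 : (2 : F) ≠ 0)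
    (M : Subgroup (GL (Fin m ⊕ Fin m) F))
    (hH : ∀ s ∈ Cfsg.spGL m F, (∀ x ∈ U, (s : Matrix (Fin m ⊕ Fin m) (Fin m ⊕ Fin m) F) *ᵥ x ∈ U) → (∀ x ∈ W, (s : Matrix (Fin m ⊕ Fin m) (Fin m ⊕ Fin m) F) *ᵥ x ∈ W) → s ∈ M)
    (g : GL (Fin m ⊕ Fin m) F) (hgS : g ∈ Cfsg.spGL m F) (X Y : Submodule F (Fin m ⊕ Fin m → F)) (hYdim : Module.finrank F Y = m)
    (hXY : ∀ x ∈ X, ∀ y ∈ Y, Cfsg.sympForm m F x y = 0 →
      ∃ s ∈ M, ∀ v, (s : Matrix (Fin m ⊕ Fin m) (Fin m ⊕ Fin m) F) *ᵥ v = v + Cfsg.sympForm m F v ((g : Matrix (Fin m ⊕ Fin m) (Fin m ⊕ Fin m) F) *ᵥ x) • ((g : Matrix (Fin m ⊕ Fin m) (Fin m ⊕ Fin m) F) *ᵥ y) + Cfsg.sympForm m F v ((g : Matrix (Fin m ⊕ Fin m) (Fin m ⊕ Fin m) F) *ᵥ y) • ((g : Matrix (Fin m ⊕ Fin m) (Fin m ⊕ Fin m) F) *ᵥ x))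
    (hY : ∀ y ∈ Y, (g : Matrix (Fin m ⊕ Fin m) (Fin m ⊕ Fin m) F) *ᵥ y ∈ U) (x₁ : Fin m ⊕ Fin m → F) (hx₁ : x₁ ∈ X) (hx₁W : (g : Matrix (Fin m ⊕ Fin m) (Fin m ⊕ Fin m) F) *ᵥ x₁ ∉ W) :
    ∃ x ∈ U, x ≠ 0 ∧ ∃ a : F, a ≠ 0 ∧ ∃ t ∈ M, ∀ v, (t : Matrix (Fin m ⊕ Fin m) (Fin m ⊕ Fin m) F) *ᵥ v = v + (a * Cfsg.sympForm m F v x) • x := by
  obtain ⟨pU, hpU, pW, hpW, hp⟩ := hP.dec ((g : Matrix (Fin m ⊕ Fin m) (Fin m ⊕ Fin m) F) *ᵥ x₁)
  have hpU0 : pU ≠ 0 := by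
    intro h
    apply hx₁W
    rw [hp, h, zero_add]
    exact hpW
  have hq0 : ((g⁻¹ : GL (Fin m ⊕ Fin m) F) : Matrix (Fin m ⊕ Fin m) (Fin m ⊕ Fin m) F) *ᵥ pU ≠ 0 := by
    intro h
    apply hpU0
    have := congrArg (fun w => (g : Matrix (Fin m ⊕ Fin m) (Fin m ⊕ Fin m) F) *ᵥ w) h
    simpa [gl_mul_inv_vecI9] using this
  obtain ⟨a, haY, hax, _, haX⟩ := exists_in_inf9 Y (Submodule.span F {((g⁻¹ : GL (Fin m ⊕ Fin m) F) : Matrix (Fin m ⊕ Fin m) (Fin m ⊕ Fin m) F) *ᵥ pU}) x₁ x₁ (by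
    rw [hYdim, finrank_span_singleton hq0]
    omega)
  have ha0 : a ≠ 0 := fun h => haX (by rw [h]; exact Submodule.zero_mem _)
  have hr0 : (g : Matrix (Fin m ⊕ Fin m) (Fin m ⊕ Fin m) F) *ᵥ a ≠ 0 := by
    intro h
    apply ha0
    have := congrArg (fun w => ((g⁻¹ : GL (Fin m ⊕ Fin m) F) : Matrix (Fin m ⊕ Fin m) (Fin m ⊕ Fin m) F) *ᵥ w) h
    simpa [gl_inv_mul_vecI9] using this
  have hind : pU ∉ Submodule.span F {(g : Matrix (Fin m ⊕ Fin m) (Fin m ⊕ Fin m) F) *ᵥ a} := by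
    intro h
    obtain ⟨c, hc⟩ := Submodule.mem_span_singleton.mp h
    have hc0 : c ≠ 0 := by
      intro h0
      rw [h0, zero_smul] at hc
      exact hpU0 hc.symm
    apply haX
    have : a = c⁻¹ • (((g⁻¹ : GL (Fin m ⊕ Fin m) F) : Matrix (Fin m ⊕ Fin m) (Fin m ⊕ Fin m) F) *ᵥ pU) := by
      rw [← hc, Matrix.mulVec_smul, gl_inv_mul_vecI9, smul_smul, inv_mul_cancel₀ hc0, one_smul]
    rw [this]
    exact Submodule.smul_mem _ _ (Submodule.mem_span_singleton_self _)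
  have hxa : Cfsg.sympForm m F x₁ a = 0 := by rw [sf_swap9, hax, neg_zero]
  exact ti_config9 hP hm h2 M hH ((g : Matrix (Fin m ⊕ Fin m) (Fin m ⊕ Fin m) F) *ᵥ x₁) ((g : Matrix (Fin m ⊕ Fin m) (Fin m ⊕ Fin m) F) *ᵥ a) pU pW ((g : Matrix (Fin m ⊕ Fin m) (Fin m ⊕ Fin m) F) *ᵥ a) 0 hpU hpW hp (hY a haY)
    W.zero_mem (by rw [add_zero]) (by rw [mem_spGL9.mp hgS]; exact hxa)
    (hXY x₁ hx₁ a haY hxa) hr0 hind

end Cfsg.Agent.Helper9
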