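import Mathlib
import Cfsg.Agent.Helper9.SpPair2

set_option autoImplicit false

namespace Cfsg.Agent.Helper9

open Cfsg
open scoped MatrixGroups Matrix

variable {m : ℕ} {F : Type*} [Field F]

/-- The stabiliser of a pair of complementary totally isotropic subspaces is maximal in the
symplectic group over a field of odd order. -/
theorem sp_pair_maximal9 [Fintype F] (hm : 7 ≤ m) (hodd : Odd (Fintype.card F))
    (D : Fin 2 → Submodule F (Fin m ⊕ Fin m → F)) (hD : Cfsg.Geo.IsMDecomposition m D)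
    (hts : ∀ i, Cfsg.Geo.IsTotallySingularFor (Cfsg.sympForm m F) (D i)) :
    Cfsg.Geo.IsMaximalIn (Cfsg.spGL m F)
      (Cfsg.Geo.decompositionStabilizer D ⊓ Cfsg.spGL m F) := by
  classical
  have h2 : (2 : F) ≠ 0 := by
    intro h
    have hc : ringChar F = 2 :=
      CharP.ringChar_of_prime_eq_zero Nat.prime_two (by exact_mod_cast h)
    have := FiniteField.even_card_of_char_two hc
    rcases hodd with ⟨k, hk⟩
    omega
  have hsup : D 0 ⊔ D 1 = ⊤ := by
    rw [eq_top_iff, ← hD.iSup_eq_top]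
    refine iSup_le (fun i => ?_)
    fin_cases i
    · exact le_sup_left
    · exact le_sup_right
  have hdisj : Disjoint (D 0) (D 1) :=
    (hD.indep 0).mono_right (le_iSup₂_of_le 1 (by decide) le_rfl)
  have hP : TIPair9 m F (D 0) (D 1) := ⟨hts 0, hts 1, fun v => by
    have : v ∈ D 0 ⊔ D 1 := by
      rw [hsup]
      exact Submodule.mem_top
    obtain ⟨u, hu, w, hw, e⟩ := Submodule.mem_sup.mp this
    exact ⟨u, hu, w, hw, e.symm⟩, hD.finrank_eq 0, hD.finrank_eq 1⟩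
  have hinter : ∀ v : Fin m ⊕ Fin m → F, v ∈ D 0 → v ∈ D 1 → v = 0 := by
    intro v h0 h1
    have := hdisj.le_bot (Submodule.mem_inf.mpr ⟨h0, h1⟩)
    simpa using this
  have hHmem : ∀ s ∈ Cfsg.spGL m F, (∀ x ∈ D 0, (s : Matrix (Fin m ⊕ Fin m) (Fin m ⊕ Fin m) F) *ᵥ x ∈ D 0) → (∀ x ∈ D 1, (s : Matrix (Fin m ⊕ Fin m) (Fin m ⊕ Fin m) F) *ᵥ x ∈ D 1) →
      s ∈ Cfsg.Geo.decompositionStabilizer D ⊓ Cfsg.spGL m F := by
    intro s hsS h0 h1
    refine ⟨⟨1, fun i => ?_⟩, hsS⟩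
    fin_cases i
    · exact map_eq_of_maps9 (D 0) (D 0) s rfl h0
    · exact map_eq_of_maps9 (D 1) (D 1) s rfl h1
  have hHswap : ∀ s ∈ Cfsg.spGL m F, (∀ x ∈ D 0, (s : Matrix (Fin m ⊕ Fin m) (Fin m ⊕ Fin m) F) *ᵥ x ∈ D 1) → (∀ x ∈ D 1, (s : Matrix (Fin m ⊕ Fin m) (Fin m ⊕ Fin m) F) *ᵥ x ∈ D 0) →
      s ∈ Cfsg.Geo.decompositionStabilizer D ⊓ Cfsg.spGL m F := by
    intro s hsS h0 h1
    refine ⟨⟨Equiv.swap 0 1, fun i => ?_⟩, hsS⟩
    fin_cases i
    · show (D 0).map _ = D (Equiv.swap 0 1 0)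
      rw [Equiv.swap_apply_left]
      exact map_eq_of_maps9 (D 0) (D 1) s (by rw [hD.finrank_eq, hD.finrank_eq]) h0
    · show (D 1).map _ = D (Equiv.swap 0 1 1)
      rw [Equiv.swap_apply_right]
      exact map_eq_of_maps9 (D 1) (D 0) s (by rw [hD.finrank_eq, hD.finrank_eq]) h1
  have pU' : ∀ u ∈ D 0, u ≠ 0 → ∃ w ∈ D 1, Cfsg.sympForm m F u w ≠ 0 := by
    intro u hu hu0
    obtain ⟨w, hw, h1, _⟩ := hP.dual ⊥ u hu (by simpa using hu0)
    exact ⟨w, hw, by rw [h1]; exact one_ne_zero⟩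
  have pW' : ∀ w ∈ D 1, w ≠ 0 → ∃ u ∈ D 0, Cfsg.sympForm m F u w ≠ 0 := by
    intro w hw hw0
    obtain ⟨u, hu, h1, _⟩ := hP.symm.dual ⊥ w hw (by simpa using hw0)
    exact ⟨u, hu, by rw [sf_swap9, h1]; exact neg_ne_zero.mpr one_ne_zero⟩
  refine ⟨lt_of_le_of_ne inf_le_right fun heq => ?_, fun M hHM hMS => ?_⟩
  · obtain ⟨u, huU, hu0⟩ : ∃ u ∈ D 0, u ≠ 0 := by
      have hne : D 0 ≠ ⊥ := by
        intro h
        have := hD.finrank_eq 0
        rw [h, finrank_bot] at this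
        omega
      exact (Submodule.ne_bot_iff _).mp hne
    obtain ⟨w, hwW, huw⟩ := pU' u huU hu0
    obtain ⟨g, hgS, hg⟩ := sp_transv9 (1 : F) u
    rw [← heq] at hgS
    obtain ⟨σ, hσ⟩ := hgS.1
    have hw0 : w ≠ 0 := by
      intro h
      rw [h, sf_zero_right9] at huw
      exact huw rfl
    have hmem : (g : Matrix (Fin m ⊕ Fin m) (Fin m ⊕ Fin m) F) *ᵥ w ∈ D (σ 1) := by
      have := Submodule.mem_map_of_mem (f := Matrix.toLin' (g : Matrix (Fin m ⊕ Fin m) (Fin m ⊕ Fin m) F)) hwW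
      rw [Matrix.toLin'_apply, hσ 1] at this
      exact this
    rw [hg, one_mul] at hmem
    have hwu : Cfsg.sympForm m F w u ≠ 0 := by
      rw [sf_swap9]
      exact neg_ne_zero.mpr huw
    obtain ⟨j, hj⟩ : ∃ j, j = σ 1 := ⟨_, rfl⟩
    rw [← hj] at hmem
    fin_cases j
    · have h1 : w ∈ D 0 := by
        have := (D 0).sub_mem hmem ((D 0).smul_mem (Cfsg.sympForm m F w u) huU)
        simpa using this
      exact hw0 (hinter w h1 hwW)
    · have h1 : Cfsg.sympForm m F w u • u ∈ D 1 := by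
        have := (D 1).sub_mem hmem hwW
        simpa using this
      have h3 : u ∈ D 1 := by
        have := (D 1).smul_mem (Cfsg.sympForm m F w u)⁻¹ h1
        rwa [smul_smul, inv_mul_cancel₀ hwu, one_smul] at this
      exact hu0 (hinter u huU h3)
  · by_cases hMH : M ≤ Cfsg.Geo.decompositionStabilizer D ⊓ Cfsg.spGL m F
    · exact Or.inl (le_antisymm hMH hHM)
    · right
      refine le_antisymm hMS (sp_le_of_transv9 M ?_)
      obtain ⟨g, hgM, hgH⟩ := Set.not_subset.mp hMH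
      have hgS := hMS hgM
      have hHU : ∀ s ∈ Cfsg.spGL m F, (∀ x ∈ D 0, (s : Matrix (Fin m ⊕ Fin m) (Fin m ⊕ Fin m) F) *ᵥ x ∈ D 0) →
          (∀ x ∈ D 1, (s : Matrix (Fin m ⊕ Fin m) (Fin m ⊕ Fin m) F) *ᵥ x ∈ D 1) → s ∈ M := fun s hs h0 h1 => hHM (hHmem s hs h0 h1)
      have hHW : ∀ s ∈ Cfsg.spGL m F, (∀ x ∈ D 1, (s : Matrix (Fin m ⊕ Fin m) (Fin m ⊕ Fin m) F) *ᵥ x ∈ D 1) →
          (∀ x ∈ D 0, (s : Matrix (Fin m ⊕ Fin m) (Fin m ⊕ Fin m) F) *ᵥ x ∈ D 0) → s ∈ M := fun s hs h1 h0 => hHU s hs h0 h1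
      have hS : ∀ a ∈ D 0, ∀ b ∈ D 1, Cfsg.sympForm m F a b = 0 → ∃ s ∈ M, ∀ v,
          (s : Matrix (Fin m ⊕ Fin m) (Fin m ⊕ Fin m) F) *ᵥ v = v + Cfsg.sympForm m F v ((g : Matrix (Fin m ⊕ Fin m) (Fin m ⊕ Fin m) F) *ᵥ a) • ((g : Matrix (Fin m ⊕ Fin m) (Fin m ⊕ Fin m) F) *ᵥ b) + Cfsg.sympForm m F v ((g : Matrix (Fin m ⊕ Fin m) (Fin m ⊕ Fin m) F) *ᵥ b) • ((g : Matrix (Fin m ⊕ Fin m) (Fin m ⊕ Fin m) F) *ᵥ a) := by
        intro a ha b hb hab
        obtain ⟨s, hsS, hs⟩ := siegel9 a b hab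
        have hsM : s ∈ M := hHU s hsS
          (fun v hv => by
            rw [hs, hP.tiU v hv a ha, zero_smul, add_zero]
            exact (D 0).add_mem hv ((D 0).smul_mem _ ha))
          (fun v hv => by
            rw [hs, hP.tiW v hv b hb, zero_smul, add_zero]
            exact (D 1).add_mem hv ((D 1).smul_mem _ hb))
        refine ⟨g * s * g⁻¹, M.mul_mem (M.mul_mem hgM hsM) (M.inv_mem hgM), fun v => ?_⟩
        rw [gl_mul_vecI9, gl_mul_vecI9, hs, Matrix.mulVec_add, Matrix.mulVec_add,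
          Matrix.mulVec_smul, Matrix.mulVec_smul, gl_mul_inv_vecI9]
        have e1 := mem_spGL9.mp hgS (((g⁻¹ : GL (Fin m ⊕ Fin m) F) : Matrix (Fin m ⊕ Fin m) (Fin m ⊕ Fin m) F) *ᵥ v) a
        have e2 := mem_spGL9.mp hgS (((g⁻¹ : GL (Fin m ⊕ Fin m) F) : Matrix (Fin m ⊕ Fin m) (Fin m ⊕ Fin m) F) *ᵥ v) b
        rw [gl_mul_inv_vecI9] at e1 e2
        rw [← e1, ← e2]
      have hS' : ∀ b ∈ D 1, ∀ a ∈ D 0, Cfsg.sympForm m F b a = 0 → ∃ s ∈ M, ∀ v,
          (s : Matrix (Fin m ⊕ Fin m) (Fin m ⊕ Fin m) F) *ᵥ v = v + Cfsg.sympForm m F v ((g : Matrix (Fin m ⊕ Fin m) (Fin m ⊕ Fin m) F) *ᵥ b) • ((g : Matrix (Fin m ⊕ Fin m) (Fin m ⊕ Fin m) F) *ᵥ a) + Cfsg.sympForm m F v ((g : Matrix (Fin m ⊕ Fin m) (Fin m ⊕ Fin m) F) *ᵥ a) • ((g : Matrix (Fin m ⊕ Fin m) (Fin m ⊕ Fin m) F) *ᵥ b) := by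
        intro b hb a ha hba
        obtain ⟨s, hsM, hs⟩ := hS a ha b hb (by rw [sf_swap9, hba, neg_zero])
        exact ⟨s, hsM, fun v => by rw [hs]; abel⟩
      have key : (∃ x ∈ D 0, x ≠ 0 ∧ ∃ a : F, a ≠ 0 ∧ ∃ t ∈ M, ∀ v,
            (t : Matrix (Fin m ⊕ Fin m) (Fin m ⊕ Fin m) F) *ᵥ v = v + (a * Cfsg.sympForm m F v x) • x) ∨
          (∃ x ∈ D 1, x ≠ 0 ∧ ∃ a : F, a ≠ 0 ∧ ∃ t ∈ M, ∀ v,
            (t : Matrix (Fin m ⊕ Fin m) (Fin m ⊕ Fin m) F) *ᵥ v = v + (a * Cfsg.sympForm m F v x) • x) := by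
        by_cases c1 : ∀ u ∈ D 0, (g : Matrix (Fin m ⊕ Fin m) (Fin m ⊕ Fin m) F) *ᵥ u ∈ D 0
        · obtain ⟨b, hb, hgb⟩ : ∃ b ∈ D 1, (g : Matrix (Fin m ⊕ Fin m) (Fin m ⊕ Fin m) F) *ᵥ b ∉ D 1 := by
            by_contra hcon
            push_neg at hcon
            exact hgH (hHmem g hgS c1 hcon)
          left
          exact ti_caseII9 hP (by omega) h2 M hHU g hgS (D 1) (D 0) (hD.finrank_eq 0) hS' c1 b
            hb hgb
        · by_cases c2 : ∀ u ∈ D 0, (g : Matrix (Fin m ⊕ Fin m) (Fin m ⊕ Fin m) F) *ᵥ u ∈ D 1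
          · obtain ⟨b, hb, hgb⟩ : ∃ b ∈ D 1, (g : Matrix (Fin m ⊕ Fin m) (Fin m ⊕ Fin m) F) *ᵥ b ∉ D 0 := by
              by_contra hcon
              push_neg at hcon
              exact hgH (hHswap g hgS c2 hcon)
            right
            exact ti_caseII9 hP.symm (by omega) h2 M hHW g hgS (D 1) (D 0) (hD.finrank_eq 0) hS'
              c2 b hb hgb
          · by_cases c3 : ∀ w ∈ D 1, (g : Matrix (Fin m ⊕ Fin m) (Fin m ⊕ Fin m) F) *ᵥ w ∈ D 1
            · obtain ⟨a, ha, hga⟩ : ∃ a ∈ D 0, (g : Matrix (Fin m ⊕ Fin m) (Fin m ⊕ Fin m) F) *ᵥ a ∉ D 0 := by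
                push_neg at c1
                exact c1
              right
              exact ti_caseII9 hP.symm (by omega) h2 M hHW g hgS (D 0) (D 1) (hD.finrank_eq 1)
                hS c3 a ha hga
            · by_cases c4 : ∀ w ∈ D 1, (g : Matrix (Fin m ⊕ Fin m) (Fin m ⊕ Fin m) F) *ᵥ w ∈ D 0
              · obtain ⟨a, ha, hga⟩ : ∃ a ∈ D 0, (g : Matrix (Fin m ⊕ Fin m) (Fin m ⊕ Fin m) F) *ᵥ a ∉ D 1 := by
                  push_neg at c2
                  exact c2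
                left
                exact ti_caseII9 hP (by omega) h2 M hHU g hgS (D 0) (D 1) (hD.finrank_eq 1) hS
                  c4 a ha hga
              · obtain ⟨b, hbW, hbU', hbW'⟩ : ∃ b ∈ D 1, (g : Matrix (Fin m ⊕ Fin m) (Fin m ⊕ Fin m) F) *ᵥ b ∉ D 0 ∧ (g : Matrix (Fin m ⊕ Fin m) (Fin m ⊕ Fin m) F) *ᵥ b ∉ D 1 := by
                  obtain ⟨b₁, hb₁, hb₁'⟩ : ∃ b₁ ∈ D 1, (g : Matrix (Fin m ⊕ Fin m) (Fin m ⊕ Fin m) F) *ᵥ b₁ ∉ D 0 := by
                    push_neg at c4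
                    exact c4
                  obtain ⟨b₂, hb₂, hb₂'⟩ : ∃ b₂ ∈ D 1, (g : Matrix (Fin m ⊕ Fin m) (Fin m ⊕ Fin m) F) *ᵥ b₂ ∉ D 1 := by
                    push_neg at c3
                    exact c3
                  by_cases e1 : (g : Matrix (Fin m ⊕ Fin m) (Fin m ⊕ Fin m) F) *ᵥ b₁ ∈ D 1
                  · by_cases e2 : (g : Matrix (Fin m ⊕ Fin m) (Fin m ⊕ Fin m) F) *ᵥ b₂ ∈ D 0
                    · refine ⟨b₁ + b₂, (D 1).add_mem hb₁ hb₂, ?_, ?_⟩
                      · rw [Matrix.mulVec_add]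
                        intro h
                        apply hb₁'
                        have := (D 0).sub_mem h e2
                        simpa using this
                      · rw [Matrix.mulVec_add]
                        intro h
                        apply hb₂'
                        have := (D 1).sub_mem h e1
                        simpa using this
                    · exact ⟨b₂, hb₂, e2, hb₂'⟩
                  · exact ⟨b₁, hb₁, hb₁', e1⟩
                obtain ⟨rU, hrU, rW, hrW, hr⟩ := hP.dec ((g : Matrix (Fin m ⊕ Fin m) (Fin m ⊕ Fin m) F) *ᵥ b)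
                have hrU0 : rU ≠ 0 := by
                  intro h
                  apply hbW'
                  rw [hr, h, zero_add]
                  exact hrW
                have hrW0 : rW ≠ 0 := by
                  intro h
                  apply hbU'
                  rw [hr, h, add_zero]
                  exact hrU
                obtain ⟨a, haU, hab, _, haX⟩ := exists_in_inf9 (D 0)
                  (Submodule.span F ((({((g⁻¹ : GL (Fin m ⊕ Fin m) F) : Matrix (Fin m ⊕ Fin m) (Fin m ⊕ Fin m) F) *ᵥ rU, ((g⁻¹ : GL (Fin m ⊕ Fin m) F) : Matrix (Fin m ⊕ Fin m) (Fin m ⊕ Fin m) F) *ᵥ rW} : Finset (Fin m ⊕ Fin m → F))) : Set (Fin m ⊕ Fin m → F))) b b (by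
                    have h1 : Module.finrank F (Submodule.span F
                        ((({((g⁻¹ : GL (Fin m ⊕ Fin m) F) : Matrix (Fin m ⊕ Fin m) (Fin m ⊕ Fin m) F) *ᵥ rU, ((g⁻¹ : GL (Fin m ⊕ Fin m) F) : Matrix (Fin m ⊕ Fin m) (Fin m ⊕ Fin m) F) *ᵥ rW} : Finset (Fin m ⊕ Fin m → F))) : Set (Fin m ⊕ Fin m → F))) ≤ 2 :=
                      (finrank_span_finset_le_card (R := F)
                        ({((g⁻¹ : GL (Fin m ⊕ Fin m) F) : Matrix (Fin m ⊕ Fin m) (Fin m ⊕ Fin m) F) *ᵥ rU, ((g⁻¹ : GL (Fin m ⊕ Fin m) F) : Matrix (Fin m ⊕ Fin m) (Fin m ⊕ Fin m) F) *ᵥ rW} : Finset (Fin m ⊕ Fin m → F))).trans Finset.card_le_two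
                    rw [hD.finrank_eq]
                    omega)
                obtain ⟨pU, hpU, pW, hpW, hp⟩ := hP.dec ((g : Matrix (Fin m ⊕ Fin m) (Fin m ⊕ Fin m) F) *ᵥ a)
                have hpr : Cfsg.sympForm m F ((g : Matrix (Fin m ⊕ Fin m) (Fin m ⊕ Fin m) F) *ᵥ a) ((g : Matrix (Fin m ⊕ Fin m) (Fin m ⊕ Fin m) F) *ᵥ b) = 0 := by
                  rw [mem_spGL9.mp hgS]
                  exact hab
                by_cases h1 : pU ∈ Submodule.span F {rU}
                · by_cases h2' : pW ∈ Submodule.span F {rW}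
                  · exfalso
                    obtain ⟨c, hc⟩ := Submodule.mem_span_singleton.mp h1
                    obtain ⟨d, hd⟩ := Submodule.mem_span_singleton.mp h2'
                    apply haX
                    have : a = c • (((g⁻¹ : GL (Fin m ⊕ Fin m) F) : Matrix (Fin m ⊕ Fin m) (Fin m ⊕ Fin m) F) *ᵥ rU) + d • (((g⁻¹ : GL (Fin m ⊕ Fin m) F) : Matrix (Fin m ⊕ Fin m) (Fin m ⊕ Fin m) F) *ᵥ rW) := by
                      rw [← Matrix.mulVec_smul, ← Matrix.mulVec_smul, ← Matrix.mulVec_add, hc,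
                        hd, ← hp, gl_inv_mul_vecI9]
                    rw [this, Finset.coe_pair]
                    exact Submodule.add_mem _
                      (Submodule.smul_mem _ _ (Submodule.subset_span (by simp)))
                      (Submodule.smul_mem _ _ (Submodule.subset_span (by simp)))
                  · right
                    exact ti_config9 hP.symm (by omega) h2 M hHW ((g : Matrix (Fin m ⊕ Fin m) (Fin m ⊕ Fin m) F) *ᵥ a) ((g : Matrix (Fin m ⊕ Fin m) (Fin m ⊕ Fin m) F) *ᵥ b) pW pU rW rU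
                      hpW hpU (by rw [hp, add_comm]) hrW hrU (by rw [hr, add_comm]) hpr
                      (hS a haU b hbW hab) hrW0 h2'
                · left
                  exact ti_config9 hP (by omega) h2 M hHU ((g : Matrix (Fin m ⊕ Fin m) (Fin m ⊕ Fin m) F) *ᵥ a) ((g : Matrix (Fin m ⊕ Fin m) (Fin m ⊕ Fin m) F) *ᵥ b) pU pW rU rW hpU hpW
                    hp hrU hrW hr hpr (hS a haU b hbW hab) hrU0 h1
      obtain ⟨n₀, hn₀S, hn₀U, hn₀W, _⟩ := sp_tiswap9 m (D 0) (D 1) (hD.finrank_eq 0) hP.tiU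
        hP.tiW pU' pW'
      have hn₀M : n₀ ∈ M := hHM (hHswap n₀ hn₀S hn₀U hn₀W)
      have hall : (∀ u ∈ D 0, InC9 M u) ∧ (∀ w ∈ D 1, InC9 M w) := by
        rcases key with ⟨x, hxU, hx0, a, ha, ht⟩ | ⟨x, hxW, hx0, a, ha, ht⟩
        · have h1 := ti_spread9 hP (by omega) h2 M hMS hHU x hxU hx0 a ha ht
          refine ⟨h1, fun w hw => ?_⟩
          have := inC_conj9 M hMS n₀⁻¹ (M.inv_mem hn₀M) _ (h1 _ (hn₀W w hw))
          rwa [gl_inv_mul_vecI9] at this
        · have h1 := ti_spread9 hP.symm (by omega) h2 M hMS hHW x hxW hx0 a ha ht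
          refine ⟨fun u hu => ?_, h1⟩
          have := inC_conj9 M hMS n₀⁻¹ (M.inv_mem hn₀M) _ (h1 _ (hn₀U u hu))
          rwa [gl_inv_mul_vecI9] at this
      have hInC : ∀ z : Fin m ⊕ Fin m → F, InC9 M z := by
        intro z
        obtain ⟨zu, hzu, zw, hzw, e⟩ := hP.dec z
        have hu := hall.1 zu hzu
        have hw := hall.2 zw hzw
        by_cases h0 : Cfsg.sympForm m F zu zw ≠ 0
        · have := inC_line9 M hMS zu zw hu hw h0 1
          rw [one_smul, ← e] at this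
          exact this
        · push_neg at h0
          by_cases hzw0 : zw = 0
          · rw [e, hzw0, add_zero]
            exact hu
          · obtain ⟨u', hu', hu'w⟩ := pW' zw hzw hzw0
            have h1 := inC_line9 M hMS (zu + u') zw (hall.1 _ ((D 0).add_mem hzu hu')) hw
              (by rw [sf_add_left9, h0, zero_add]; exact hu'w) 1
            have h3 : Cfsg.sympForm m F (zu + u' + (1 : F) • zw) u' ≠ 0 := by
              rw [sf_add_left9, sf_smul_left9, hP.tiU _ ((D 0).add_mem hzu hu') u' hu', zero_add,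
                one_mul, sf_swap9]
              exact neg_ne_zero.mpr hu'w
            have := inC_line9 M hMS _ u' h1 (hall.1 u' hu') h3 (-1)
            have e2 : zu + u' + (1 : F) • zw + (-1 : F) • u' = z := by
              rw [e]
              module
            rw [e2] at this
            exact this
      intro a z
      exact hInC z a

end Cfsg.Agent.Helper9
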