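import Mathlib
import Cfsg.Agent.Helper9.UForm9

set_option autoImplicit false

namespace Cfsg.Agent.Helper9

open Cfsg
open scoped MatrixGroups Matrix

variable {n : ℕ} {F : Type*} [Field F] {σ : F ≃+* F} {f : (Fin n → F) → (Fin n → F) → F}

theorem uf_span9 [Finite F] (hf : Cfsg.Geo.IsUnitaryForm σ f) (hn : 8 ≤ n) (p q : Fin n → F)
    (A : (Fin n → F) → Prop)
    (hAadd : ∀ x y, A x → A y → A (x + y)) (hAneg : ∀ x, A x → A (-x))
    (hd₀ : ∃ d₀, f d₀ p = 0 ∧ f d₀ q = 1)
    (hA : ∀ z z₂ : Fin n → F, f z z = 0 → f z₂ z₂ = 0 → f z p = 0 → f z₂ p = 0 →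
      ∀ b b₁ : F, σ b = -b → σ b₁ = -b₁ → A ((b * b₁ * σ (f z q) * f z z₂) • z₂)) :
    ∀ w, f w p = 0 → A w := by
  obtain ⟨μ, hμ0, hμ⟩ := uf_skew9 hf
  obtain ⟨d₀, hd₀p, hd₀q⟩ := hd₀
  have stepA : ∀ z₂, f z₂ z₂ = 0 → f z₂ p = 0 →
      (∃ d, f d p = 0 ∧ f d q = 0 ∧ f d z₂ ≠ 0) → ∀ c : F, A (c • z₂) := by
    intro z₂ hz₂ hz₂p ⟨d, hdp, hdq, hdz⟩ c
    obtain ⟨γ, hγ⟩ : ∃ γ : F, γ = (c / (μ * μ) - f d₀ z₂) / f d z₂ := ⟨_, rfl⟩
    obtain ⟨z₀, hz₀⟩ : ∃ z₀ : Fin n → F, z₀ = d₀ + γ • d := ⟨_, rfl⟩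
    have h1 : f z₀ p = 0 := by
      rw [hz₀, hf.add_left, hf.smul_left, hd₀p, hdp, mul_zero, add_zero]
    have h2 : f z₀ q = 1 := by
      rw [hz₀, hf.add_left, hf.smul_left, hd₀q, hdq, mul_zero, add_zero]
    have h3 : f z₀ z₂ = c / (μ * μ) := by
      rw [hz₀, hf.add_left, hf.smul_left, hγ, div_mul_cancel₀ _ hdz]
      ring
    obtain ⟨a, b, haa, hbb, hab, hap, haq, haz, hbp, hbq, hbz⟩ := uf_hyp3_9 hf hn p q z₂
    obtain ⟨l, r, _, hiso⟩ := uf_correct9 hf a b z₀ haa hbb hab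
    obtain ⟨z, hz⟩ : ∃ z : Fin n → F, z = z₀ + (l • a + r • b) := ⟨_, rfl⟩
    rw [← hz] at hiso
    have hzp : f z p = 0 := by
      rw [hz]
      simp only [hf.add_left, hf.smul_left, h1, hap, hbp, mul_zero, add_zero]
    have hzq : f z q = 1 := by
      rw [hz]
      simp only [hf.add_left, hf.smul_left, h2, haq, hbq, mul_zero, add_zero]
    have hzz₂ : f z z₂ = c / (μ * μ) := by
      rw [hz]
      simp only [hf.add_left, hf.smul_left, h3, haz, hbz, mul_zero, add_zero]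
    have := hA z z₂ hiso hz₂ hzp hz₂p μ μ hμ hμ
    have e : μ * μ * σ (f z q) * f z z₂ = c := by
      rw [hzq, hzz₂, map_one]
      field_simp
    rw [e] at this
    exact this
  intro w hwp
  obtain ⟨a, b, haa, hbb, hab, hap, haq, haw, hbp, hbq, hbw⟩ := uf_hyp3_9 hf hn p q w
  have hba : f b a = 1 := by rw [hf.herm, hab, map_one]
  obtain ⟨l, r, hlr, hiso⟩ := uf_correct9 hf a b w haa hbb hab
  obtain ⟨w', hw'⟩ : ∃ w' : Fin n → F, w' = w + (l • a + r • b) := ⟨_, rfl⟩
  rw [← hw'] at hiso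
  have hw'p : f w' p = 0 := by
    rw [hw']
    simp only [hf.add_left, hf.smul_left, hwp, hap, hbp, mul_zero, add_zero]
  have hAa : ∀ c : F, A (c • a) :=
    stepA a haa hap ⟨b, hbp, hbq, by rw [hba]; exact one_ne_zero⟩
  have hAb : ∀ c : F, A (c • b) :=
    stepA b hbb hbp ⟨a, hap, haq, by rw [hab]; exact one_ne_zero⟩
  have hσ0 : ∀ c : F, c ≠ 0 → σ c ≠ 0 := by
    intro c hc h
    apply hc
    have := congrArg σ h
    rwa [hf.involutive, map_zero] at this
  have hAw' : A w' := by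
    have hsep : ∃ d, f d p = 0 ∧ f d q = 0 ∧ f d w' ≠ 0 := by
      rcases hlr with hl | hr
      · refine ⟨b, hbp, hbq, ?_⟩
        rw [hw']
        simp only [uf_add_right9 hf, uf_smul_right9 hf, hbw, hba, hbb, mul_zero, add_zero,
          zero_add, mul_one]
        exact hσ0 l hl
      · refine ⟨a, hap, haq, ?_⟩
        rw [hw']
        simp only [uf_add_right9 hf, uf_smul_right9 hf, haw, hab, haa, mul_zero, add_zero,
          zero_add, mul_one]
        exact hσ0 r hr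
    have := stepA w' hiso hw'p hsep 1
    rwa [one_smul] at this
  have e : w = w' + (-(l • a) + -(r • b)) := by
    rw [hw']
    abel
  rw [e]
  exact hAadd _ _ hAw' (hAadd _ _ (hAneg _ (hAa l)) (hAneg _ (hAb r)))

/-- The transvection `x ↦ x + f(x,u) v` lies in `M`. -/
def UT9 (f : (Fin n → F) → (Fin n → F) → F) (M : Subgroup (GL (Fin n) F))
    (u v : Fin n → F) : Prop :=
  f v u = 0 ∧ ∃ s ∈ M, ∀ x, (s : Matrix (Fin n) (Fin n) F) *ᵥ x = x + f x u • v

variable {M : Subgroup (GL (Fin n) F)}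

theorem ut_zero_left9 (hf : Cfsg.Geo.IsUnitaryForm σ f) (v : Fin n → F) : UT9 f M 0 v :=
  ⟨uf_zero_right9 hf v, 1, M.one_mem, fun x => by
    rw [gl_one_vec9, uf_zero_right9 hf, zero_smul, add_zero]⟩

theorem ut_zero_right9 (hf : Cfsg.Geo.IsUnitaryForm σ f) (u : Fin n → F) : UT9 f M u 0 :=
  ⟨uf_zero_left9 hf u, 1, M.one_mem, fun x => by rw [gl_one_vec9, smul_zero, add_zero]⟩

theorem ut_inv9 (hf : Cfsg.Geo.IsUnitaryForm σ f) {t : GL (Fin n) F} {u v : Fin n → F}
    (huv : f v u = 0) (ht : ∀ x, (t : Matrix (Fin n) (Fin n) F) *ᵥ x = x + f x u • v) :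
    ∀ x, ((t⁻¹ : GL (Fin n) F) : Matrix (Fin n) (Fin n) F) *ᵥ x = x - f x u • v := by
  intro x
  have e : (t : Matrix (Fin n) (Fin n) F) *ᵥ (x - f x u • v) = x := by
    rw [ht, uf_sub_left9 hf, hf.smul_left, huv, mul_zero, sub_zero]
    abel
  conv_lhs => rw [← e]
  rw [gl_inv_mul_vec9]

theorem ut_add_left9 (hf : Cfsg.Geo.IsUnitaryForm σ f) {u u' v : Fin n → F}
    (h : UT9 f M u v) (h' : UT9 f M u' v) : UT9 f M (u + u') v := by
  obtain ⟨h0, s, hsM, hs⟩ := h
  obtain ⟨h0', s', hsM', hs'⟩ := h'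
  refine ⟨by rw [uf_add_right9 hf, h0, h0', add_zero], s * s', M.mul_mem hsM hsM', fun x => ?_⟩
  rw [gl_mul_vec9, hs', hs, hf.add_left, hf.smul_left, h0, mul_zero, add_zero,
    uf_add_right9 hf]
  module

theorem ut_neg_left9 (hf : Cfsg.Geo.IsUnitaryForm σ f) {u v : Fin n → F}
    (h : UT9 f M u v) : UT9 f M (-u) v := by
  obtain ⟨h0, s, hsM, hs⟩ := h
  refine ⟨by rw [uf_neg_right9 hf, h0, neg_zero], s⁻¹, M.inv_mem hsM, fun x => ?_⟩
  rw [ut_inv9 hf h0 hs, uf_neg_right9 hf]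
  module

theorem ut_add_right9 (hf : Cfsg.Geo.IsUnitaryForm σ f) {u v v' : Fin n → F}
    (h : UT9 f M u v) (h' : UT9 f M u v') : UT9 f M u (v + v') := by
  obtain ⟨h0, s, hsM, hs⟩ := h
  obtain ⟨h0', s', hsM', hs'⟩ := h'
  refine ⟨by rw [hf.add_left, h0, h0', add_zero], s * s', M.mul_mem hsM hsM', fun x => ?_⟩
  rw [gl_mul_vec9, hs', hs, hf.add_left, hf.smul_left, h0', mul_zero, add_zero]
  module

theorem ut_neg_right9 (hf : Cfsg.Geo.IsUnitaryForm σ f) {u v : Fin n → F}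
    (h : UT9 f M u v) : UT9 f M u (-v) := by
  obtain ⟨h0, s, hsM, hs⟩ := h
  refine ⟨by rw [uf_neg_left9 hf, h0, neg_zero], s⁻¹, M.inv_mem hsM, fun x => ?_⟩
  rw [ut_inv9 hf h0 hs]
  module

theorem ut_smul_swap9 (hf : Cfsg.Geo.IsUnitaryForm σ f) {c : F} {u v : Fin n → F}
    (h : UT9 f M (c • u) v) : UT9 f M u (σ c • v) := by
  obtain ⟨h0, s, hsM, hs⟩ := h
  rw [uf_smul_right9 hf] at h0
  refine ⟨by rw [hf.smul_left]; exact h0, s, hsM, fun x => ?_⟩
  rw [hs, uf_smul_right9 hf, smul_smul, mul_comm]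

theorem ut_comm9 (hf : Cfsg.Geo.IsUnitaryForm σ f) {u v u' v' : Fin n → F}
    (h : UT9 f M u v) (h' : UT9 f M u' v') (hv'u : f v' u = 0) :
    UT9 f M ((-σ (f v u')) • u) v' := by
  obtain ⟨h0, t, htM, ht⟩ := h
  obtain ⟨h0', t', htM', ht'⟩ := h'
  refine ⟨by rw [uf_smul_right9 hf, hv'u, mul_zero], t * t' * t⁻¹ * t'⁻¹,
    M.mul_mem (M.mul_mem (M.mul_mem htM htM') (M.inv_mem htM)) (M.inv_mem htM'), fun x => ?_⟩
  rw [gl_mul_vec9, gl_mul_vec9, gl_mul_vec9, ut_inv9 hf h0' ht', ut_inv9 hf h0 ht, ht', ht]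
  simp only [uf_sub_left9 hf, hf.add_left, hf.smul_left, uf_smul_right9 hf, h0, h0', hv'u,
    map_neg, hf.involutive, mul_zero, sub_zero, add_zero]
  module

theorem ut_unitary9 (hf : Cfsg.Geo.IsUnitaryForm σ f)
    (hHM : Cfsg.Geo.similarityGroup f ⊓ Cfsg.Geo.specialLinear (Fin n) F ≤ M) (b : F)
    (hb : σ b = -b) (z : Fin n → F) (hz : f z z = 0) : UT9 f M (b • z) z := by
  obtain ⟨t, htH, ht⟩ := uf_utransv9 hf b hb z hz
  exact ⟨by rw [uf_smul_right9 hf, hz, mul_zero], t, hHM htH, ht⟩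

theorem ut_core9 [Finite F] (hf : Cfsg.Geo.IsUnitaryForm σ f) (hn : 8 ≤ n)
    (hHM : Cfsg.Geo.similarityGroup f ⊓ Cfsg.Geo.specialLinear (Fin n) F ≤ M)
    (u v : Fin n → F) (hT : UT9 f M u v)
    (w1 : ∃ d, f d v = 0 ∧ f d u = 1) (w2 : ∃ d, f d u = 0 ∧ f d v = 1) :
    (∀ w, f w v = 0 → UT9 f M w v) ∧ (∀ w, f w u = 0 → UT9 f M u w) := by
  constructor
  · apply uf_span9 hf hn v u (fun w => UT9 f M w v) (fun x y => ut_add_left9 hf)
      (fun x => ut_neg_left9 hf) w1
    intro z z₂ hz hz₂ hzv hz₂v b b₁ hb hb₁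
    have h1 := ut_comm9 hf (ut_unitary9 hf hHM b₁ hb₁ z hz) hT
      (by rw [uf_smul_right9 hf, uf_swap_zero9 hf hzv, mul_zero])
    have h2 := ut_comm9 hf (ut_unitary9 hf hHM b hb z₂ hz₂) h1
      (by rw [uf_smul_right9 hf, uf_swap_zero9 hf hz₂v, mul_zero])
    have e : (-σ (f z₂ ((-σ (f z u)) • (b₁ • z)))) • (b • z₂) =
        (b * b₁ * σ (f z u) * f z z₂) • z₂ := by
      rw [uf_smul_right9 hf, uf_smul_right9 hf, smul_smul]
      congr 1
      simp only [map_mul, map_neg, hf.involutive, hb₁]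
      rw [← hf.herm z z₂]
      ring
    rw [e] at h2
    exact h2
  · apply uf_span9 hf hn u v (fun w => UT9 f M u w) (fun x y => ut_add_right9 hf)
      (fun x => ut_neg_right9 hf) w2
    intro z z₂ hz hz₂ hzu hz₂u b b₁ hb hb₁
    have h1 := ut_comm9 hf hT (ut_unitary9 hf hHM b₁ hb₁ z hz) hzu
    have h2 := ut_comm9 hf h1 (ut_unitary9 hf hHM b hb z₂ hz₂)
      (by rw [uf_smul_right9 hf, hz₂u, mul_zero])
    rw [smul_smul] at h2
    have h3 := ut_smul_swap9 hf h2
    have e : σ (-σ (f z (b • z₂)) * -σ (f v (b₁ • z))) = b * b₁ * σ (f z v) * f z z₂ := by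
      simp only [uf_smul_right9 hf, map_mul, map_neg, hf.involutive, hb, hb₁]
      rw [hf.herm v z]
      ring
    rw [e] at h3
    exact h3

theorem uf_wit9 [Finite F] (hf : Cfsg.Geo.IsUnitaryForm σ f) (x y : Fin n → F)
    (h : x ∉ Submodule.span F {y}) : ∃ d, f d y = 0 ∧ f d x = 1 := by
  obtain ⟨φ, hφ1, hφ0⟩ := exists_dual_one9 _ x h
  obtain ⟨d, hd⟩ := uf_repr9 hf φ
  refine ⟨d, ?_, ?_⟩
  · apply uf_swap_zero9 hf
    rw [← hd]
    exact hφ0 y (Submodule.mem_span_singleton_self y)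
  · rw [hf.herm, ← hd, hφ1, map_one]

/-- The similarity group of a unitary form is maximal in the special linear group. -/
theorem unitary_in_sl_maximal9 [Finite F] (hn : 8 ≤ n) (hf : Cfsg.Geo.IsUnitaryForm σ f) :
    Cfsg.Geo.IsMaximalIn (Cfsg.Geo.specialLinear (Fin n) F)
      (Cfsg.Geo.similarityGroup f ⊓ Cfsg.Geo.specialLinear (Fin n) F) := by
  have nd1 : ∀ v : Fin n → F, v ≠ 0 → ∃ x, f x v ≠ 0 := fun v hv => (hf.nondegenerate v hv).1
  obtain ⟨μ, hμ0, hμ⟩ := uf_skew9 hf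
  obtain ⟨a, b, haa, hbb, hab, -⟩ := uf_hyp3_9 hf hn 0 0 0
  have hba : f b a = 1 := by rw [hf.herm, hab, map_one]
  have ha0 : a ≠ 0 := by
    intro h
    rw [h, uf_zero_left9 hf] at hab
    exact zero_ne_one hab
  refine ⟨lt_of_le_of_ne inf_le_right fun heq => ?_, fun M hHM hMS => ?_⟩
  · obtain ⟨a', b', ha'a', hb'b', ha'b', ha'a, ha'b, -, hb'a, hb'b, -⟩ :=
      uf_hyp3_9 hf hn a b 0
    have haa' : f a a' = 0 := uf_swap_zero9 hf ha'a
    obtain ⟨g, hgS, hg⟩ := uf_transv9 hf a' a haa'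
    rw [← heq] at hgS
    obtain ⟨c, hc⟩ := hgS.1
    have hga : (g : Matrix (Fin n) (Fin n) F) *ᵥ a = a := by
      rw [hg, haa', zero_smul, add_zero]
    have hgb : (g : Matrix (Fin n) (Fin n) F) *ᵥ b = b := by
      rw [hg, uf_swap_zero9 hf ha'b, zero_smul, add_zero]
    have hgb' : (g : Matrix (Fin n) (Fin n) F) *ᵥ b' = b' + a := by
      rw [hg, hf.herm, ha'b', map_one, one_smul]
    have hc1 : (c : F) = 1 := by
      have := hc a b
      rw [hga, hgb, hab, mul_one] at this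
      exact this.symm
    have h2 := hc b' b
    rw [hgb', hgb, hf.add_left, hb'b, hab, hc1, zero_add, mul_zero] at h2
    exact one_ne_zero h2
  · by_cases hMH : M ≤ Cfsg.Geo.similarityGroup f ⊓ Cfsg.Geo.specialLinear (Fin n) F
    · exact Or.inl (le_antisymm hMH hHM)
    · right
      refine le_antisymm hMS (sl_le_of_transv9 M ?_)
      obtain ⟨g, hgM, hgH⟩ := Set.not_subset.mp hMH
      have hgS := hMS hgM
      have hgsim : g ∉ Cfsg.Geo.similarityGroup f := fun h => hgH ⟨h, hgS⟩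
      have hginj : ∀ y : Fin n → F, (g : Matrix (Fin n) (Fin n) F) *ᵥ y = 0 → y = 0 := by
        intro y h
        have := congrArg (fun w => ((g⁻¹ : GL (Fin n) F) : Matrix (Fin n) (Fin n) F) *ᵥ w) h
        simp only [gl_inv_mul_vec9, Matrix.mulVec_zero] at this
        exact this
      have hadj : ∀ y : Fin n → F, ∃ y' : Fin n → F, ∀ x,
          f ((g : Matrix (Fin n) (Fin n) F) *ᵥ x) y' = f x y := by
        intro y
        let ψ : Module.Dual F (Fin n → F) :=
          { toFun := fun x => f (((g⁻¹ : GL (Fin n) F) : Matrix (Fin n) (Fin n) F) *ᵥ x) y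
            map_add' := fun x x' => by rw [Matrix.mulVec_add, hf.add_left]
            map_smul' := fun c x => by
              rw [Matrix.mulVec_smul, hf.smul_left, RingHom.id_apply, smul_eq_mul] }
        obtain ⟨y', hy'⟩ := uf_repr9 hf ψ
        refine ⟨y', fun x => ?_⟩
        rw [← hy']
        show f (((g⁻¹ : GL (Fin n) F) : Matrix (Fin n) (Fin n) F) *ᵥ
          ((g : Matrix (Fin n) (Fin n) F) *ᵥ x)) y = f x y
        rw [gl_inv_mul_vec9]
      -- Step 1: an isotropic vector where the transported form is not proportional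
      obtain ⟨z₀, hz₀iso, hz₀⟩ : ∃ z₀ : Fin n → F, f z₀ z₀ = 0 ∧ ¬ ∃ c : F, ∀ x,
          f ((g : Matrix (Fin n) (Fin n) F) *ᵥ x) ((g : Matrix (Fin n) (Fin n) F) *ᵥ z₀) =
            c * f x z₀ := by
        by_contra hcon
        push_neg at hcon
        have hcon' : ∀ z : Fin n → F, ∃ c : F, f z z = 0 → ∀ x,
            f ((g : Matrix (Fin n) (Fin n) F) *ᵥ x) ((g : Matrix (Fin n) (Fin n) F) *ᵥ z) =
              c * f x z := by
          intro z
          by_cases hz : f z z = 0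
          · obtain ⟨c, hc⟩ := hcon z hz
            exact ⟨c, fun _ => hc⟩
          · exact ⟨0, fun h => absurd h hz⟩
        choose c hc using hcon'
        have hpair : ∀ z w : Fin n → F, f z z = 0 → f w w = 0 → f z w = 0 →
            (∃ d, f d z ≠ 0 ∧ f d w = 0) → (∃ d, f d w ≠ 0 ∧ f d z = 0) → c z = c w := by
          intro z w hz hw hzw ⟨d, hdz, hdw⟩ ⟨d', hd'w, hd'z⟩
          have hwz : f w z = 0 := uf_swap_zero9 hf hzw
          have hzw_iso : f (z + w) (z + w) = 0 := by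
            simp only [hf.add_left, uf_add_right9 hf, hz, hw, hzw, hwz, add_zero]
          have key : ∀ x, (c (z + w) - c z) * f x z + (c (z + w) - c w) * f x w = 0 := by
            intro x
            have h1 := hc (z + w) hzw_iso x
            rw [Matrix.mulVec_add, uf_add_right9 hf, hc z hz x, hc w hw x,
              uf_add_right9 hf] at h1
            linear_combination (-1 : F) * h1
          have hA : c (z + w) - c z = 0 := by
            have := key d
            rw [hdw, mul_zero, add_zero] at this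
            exact (mul_eq_zero.mp this).resolve_right hdz
          have hB : c (z + w) - c w = 0 := by
            have := key d'
            rw [hd'z, mul_zero, zero_add] at this
            exact (mul_eq_zero.mp this).resolve_right hd'w
          exact (sub_eq_zero.mp hA).symm.trans (sub_eq_zero.mp hB)
        have hconst : ∀ z : Fin n → F, f z z = 0 → z ≠ 0 → c z = c a := by
          intro z hz hz0
          obtain ⟨a', b', ha'a', hb'b', ha'b', ha'z, ha'a, -, hb'z, hb'a, -⟩ :=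
            uf_hyp3_9 hf hn z a 0
          have hb'a' : f b' a' = 1 := by rw [hf.herm, ha'b', map_one]
          have sep : ∀ y : Fin n → F, y ≠ 0 → f b' y = 0 → ∃ d, f d y ≠ 0 ∧ f d a' = 0 := by
            intro y hy0 hby
            obtain ⟨d₁, hd₁⟩ := nd1 y hy0
            refine ⟨d₁ - f d₁ a' • b', ?_, ?_⟩
            · rw [uf_sub_left9 hf, hf.smul_left, hby, mul_zero, sub_zero]
              exact hd₁
            · rw [uf_sub_left9 hf, hf.smul_left, hb'a', mul_one, sub_self]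
          have h1 : c z = c a' := hpair z a' hz ha'a' (uf_swap_zero9 hf ha'z)
            (sep z hz0 hb'z) ⟨b', by rw [hb'a']; exact one_ne_zero, hb'z⟩
          have h2 : c a = c a' := hpair a a' haa ha'a' (uf_swap_zero9 hf ha'a)
            (sep a ha0 hb'a) ⟨b', by rw [hb'a']; exact one_ne_zero, hb'a⟩
          exact h1.trans h2.symm
        have hiso : ∀ z : Fin n → F, f z z = 0 → ∀ x,
            f ((g : Matrix (Fin n) (Fin n) F) *ᵥ x) ((g : Matrix (Fin n) (Fin n) F) *ᵥ z) =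
              c a * f x z := by
          intro z hz x
          by_cases hz0 : z = 0
          · rw [hz0, Matrix.mulVec_zero, uf_zero_right9 hf, uf_zero_right9 hf, mul_zero]
          · rw [hc z hz x, hconst z hz hz0]
        have hall : ∀ v x : Fin n → F,
            f ((g : Matrix (Fin n) (Fin n) F) *ᵥ x) ((g : Matrix (Fin n) (Fin n) F) *ᵥ v) =
              c a * f x v := by
          intro v x
          obtain ⟨l, r, _, hv'⟩ := uf_correct9 hf a b v haa hbb hab
          obtain ⟨v', hv'def⟩ : ∃ v' : Fin n → F, v' = v + (l • a + r • b) := ⟨_, rfl⟩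
          rw [← hv'def] at hv'
          have e : v = v' - l • a - r • b := by
            rw [hv'def]
            abel
          have h1 := hiso v' hv' x
          have h2 := hiso a haa x
          have h3 := hiso b hbb x
          rw [e, Matrix.mulVec_sub, Matrix.mulVec_sub, Matrix.mulVec_smul, Matrix.mulVec_smul,
            uf_sub_right9 hf, uf_sub_right9 hf, uf_smul_right9 hf, uf_smul_right9 hf, h1, h2, h3,
            uf_sub_right9 hf, uf_sub_right9 hf, uf_smul_right9 hf, uf_smul_right9 hf]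
          ring
        have hc0 : c a ≠ 0 := by
          intro h0
          have hga : (g : Matrix (Fin n) (Fin n) F) *ᵥ a ≠ 0 := fun h => ha0 (hginj a h)
          obtain ⟨y, hy⟩ := nd1 _ hga
          apply hy
          have := hall a (((g⁻¹ : GL (Fin n) F) : Matrix (Fin n) (Fin n) F) *ᵥ y)
          rw [gl_mul_inv_vec9, h0, zero_mul] at this
          exact this
        apply hgsim
        exact ⟨Units.mk0 (c a) hc0, fun u v => by rw [Units.val_mk0]; exact hall v u⟩
      have hz₀0 : z₀ ≠ 0 := by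
        intro h
        apply hz₀
        refine ⟨0, fun x => ?_⟩
        rw [h, Matrix.mulVec_zero, uf_zero_right9 hf, zero_mul]
      obtain ⟨u₁, hu₁⟩ := hadj (μ • z₀)
      obtain ⟨v₁, hv₁⟩ : ∃ v₁ : Fin n → F, v₁ = (g : Matrix (Fin n) (Fin n) F) *ᵥ z₀ :=
        ⟨_, rfl⟩
      have hv₁0 : v₁ ≠ 0 := by
        intro h
        rw [hv₁] at h
        exact hz₀0 (hginj z₀ h)
      have hσ0 : ∀ c : F, c ≠ 0 → σ c ≠ 0 := by
        intro c hc h
        apply hc
        have := congrArg σ h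
        rwa [hf.involutive, map_zero] at this
      have hu₁v₁ : u₁ ∉ Submodule.span F {v₁} := by
        intro h
        obtain ⟨d, hd⟩ := Submodule.mem_span_singleton.mp h
        apply hz₀
        have hd0 : d ≠ 0 := by
          intro h0
          rw [h0, zero_smul] at hd
          obtain ⟨x, hx⟩ := nd1 (μ • z₀) (smul_ne_zero hμ0 hz₀0)
          apply hx
          rw [← hu₁ x, ← hd, uf_zero_right9 hf]
        have hσd : σ d ≠ 0 := hσ0 d hd0
        refine ⟨σ μ / σ d, fun x => ?_⟩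
        have := hu₁ x
        rw [← hd, hv₁, uf_smul_right9 hf, uf_smul_right9 hf] at this
        rw [div_mul_eq_mul_div, eq_div_iff hσd]
        linear_combination this
      have hu₁0 : u₁ ≠ 0 := by
        intro h
        apply hu₁v₁
        rw [h]
        exact Submodule.zero_mem _
      have hv₁u₁ : v₁ ∉ Submodule.span F {u₁} := by
        intro h
        obtain ⟨d, hd⟩ := Submodule.mem_span_singleton.mp h
        have hd0 : d ≠ 0 := by
          intro h0
          rw [h0, zero_smul] at hd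
          exact hv₁0 hd.symm
        apply hu₁v₁
        have : u₁ = d⁻¹ • v₁ := by rw [← hd, smul_smul, inv_mul_cancel₀ hd0, one_smul]
        rw [this]
        exact Submodule.smul_mem _ _ (Submodule.mem_span_singleton_self v₁)
      have hT₁ : UT9 f M u₁ v₁ := by
        obtain ⟨t, htH, ht⟩ := uf_utransv9 hf μ hμ z₀ hz₀iso
        refine ⟨?_, g * t * g⁻¹, M.mul_mem (M.mul_mem hgM (hHM htH)) (M.inv_mem hgM),
          fun x => ?_⟩
        · rw [hv₁, hu₁, uf_smul_right9 hf, hz₀iso, mul_zero]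
        · rw [gl_mul_vec9, gl_mul_vec9, ht, Matrix.mulVec_add, Matrix.mulVec_smul,
            gl_mul_inv_vec9, ← hv₁]
          have := hu₁ (((g⁻¹ : GL (Fin n) F) : Matrix (Fin n) (Fin n) F) *ᵥ x)
          rw [gl_mul_inv_vec9] at this
          rw [this]
      have wit1 := uf_wit9 hf u₁ v₁ hu₁v₁
      have wit2 := uf_wit9 hf v₁ u₁ hv₁u₁
      have hfinal : ∀ u v : Fin n → F, f v u = 0 → UT9 f M u v := by
        intro u v hvu
        by_cases hv0 : v = 0
        · rw [hv0]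
          exact ut_zero_right9 hf u
        · obtain ⟨a', b', ha'a', hb'b', ha'b', ha'v₁, ha'v, -, hb'v₁, hb'v, -⟩ :=
            uf_hyp3_9 hf hn v₁ v 0
          have hb'a' : f b' a' = 1 := by rw [hf.herm, ha'b', map_one]
          have c1 := (ut_core9 hf hn hHM u₁ v₁ hT₁ wit1 wit2).1 a' ha'v₁
          have sep : ∀ y : Fin n → F, y ≠ 0 → f b' y = 0 → ∃ d, f d a' = 0 ∧ f d y = 1 := by
            intro y hy0 hby
            obtain ⟨d₁, hd₁⟩ := nd1 y hy0
            refine ⟨(f d₁ y)⁻¹ • (d₁ - f d₁ a' • b'), ?_, ?_⟩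
            · rw [hf.smul_left, uf_sub_left9 hf, hf.smul_left, hb'a', mul_one, sub_self,
                mul_zero]
            · rw [hf.smul_left, uf_sub_left9 hf, hf.smul_left, hby, mul_zero, sub_zero,
                inv_mul_cancel₀ hd₁]
          have c2 := (ut_core9 hf hn hHM a' v₁ c1 ⟨b', hb'v₁, hb'a'⟩ (sep v₁ hv₁0 hb'v₁)).2 v
            (uf_swap_zero9 hf ha'v)
          exact (ut_core9 hf hn hHM a' v c2 ⟨b', hb'v, hb'a'⟩ (sep v hv0 hb'v)).1 u
            (uf_swap_zero9 hf hvu)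
      intro φ v hφv
      obtain ⟨u, hu⟩ := uf_repr9 hf φ
      obtain ⟨_, s, hsM, hs⟩ := hfinal u v (by rw [← hu]; exact hφv)
      exact ⟨s, hsM, hMS hsM, fun x => by rw [hs, hu]⟩

end Cfsg.Agent.Helper9
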