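import Mathlib
import Cfsg.Agent.Helper9.UPair3
import Cfsg.Agent.Helper9.UInSL
import Cfsg.Agent.Helper9.SpMaxTI

set_option autoImplicit false

namespace Cfsg.Agent.Helper9

open Cfsg
open scoped MatrixGroups Matrix

variable {n : ℕ} {F : Type*} [Field F] {σ : F ≃+* F} {f : (Fin n → F) → (Fin n → F) → F}

theorem inCU_smul9 (hf : Cfsg.Geo.IsUnitaryForm σ f) (M : Subgroup (GL (Fin n) F)) (z : Fin n → F) (h : InCU9 σ f M z) (c : F) :
    InCU9 σ f M (c • z) := by
  intro γ hγ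
  obtain ⟨t, htM, ht⟩ := h (γ * (c * σ c)) (by
    rw [map_mul, map_mul, hf.involutive, hγ]
    ring)
  refine ⟨t, htM, fun v => ?_⟩
  rw [ht, uf_smul_right9 hf, smul_smul]
  have e : γ * (c * σ c) * f v z = γ * (σ c * f v z) * c := by ring
  rw [e]

theorem uf_move9 (hf : Cfsg.Geo.IsUnitaryForm σ f) (x y : Fin n → F) (hxx : f x x = 0) (hyy : f y y = 0) (hxy : f x y ≠ 0) :
    ∃ (z : Fin n → F) (γ l : F), f z z = 0 ∧ σ γ = -γ ∧ l ≠ 0 ∧ z = x - l • y ∧
      x + (γ * f x z) • z = l • y := by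
  obtain ⟨μ, hμ0, hμ⟩ := uf_skew9 hf
  obtain ⟨η, hη⟩ : ∃ η : F, η = f x y := ⟨_, rfl⟩
  have hη0 : η ≠ 0 := by
    rw [hη]
    exact hxy
  obtain ⟨l, hl⟩ : ∃ l : F, l = σ (μ / η) := ⟨_, rfl⟩
  have hσl : σ l * η = μ := by rw [hl, hf.involutive, div_mul_cancel₀ μ hη0]
  have hl0 : l ≠ 0 := by
    intro h0
    rw [h0, map_zero, zero_mul] at hσl
    exact hμ0 hσl.symm
  have hyx : f y x = σ η := by
    rw [hη]
    exact hf.herm y x
  have hxz : f x (x - l • y) = -μ := by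
    rw [uf_sub_right9 hf, uf_smul_right9 hf, hxx, ← hη, hσl]
    ring
  have hyz : f y (x - l • y) = σ η := by
    rw [uf_sub_right9 hf, uf_smul_right9 hf, hyy, hyx]
    ring
  have hlη : l * σ η = -μ := by
    have := congrArg σ hσl
    rw [map_mul, hf.involutive, hμ] at this
    exact this
  refine ⟨x - l • y, μ⁻¹, l, ?_, ?_, hl0, rfl, ?_⟩
  · rw [uf_sub_left9 hf, hf.smul_left, hxz, hyz]
    linear_combination (-1 : F) * hlη
  · rw [map_inv₀, hμ, inv_neg]
  · rw [hxz, mul_neg, inv_mul_cancel₀ hμ0]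
    module

theorem uf_onestep9 (hf : Cfsg.Geo.IsUnitaryForm σ f) {W : Submodule F (Fin n → F)} (hW : ∀ u ∈ W, ∀ v ∈ W, f u v = 0) (M : Subgroup (GL (Fin n) F))
    (hperp : ∀ s ∈ uG9 f, (∀ x ∈ W, (s : Matrix (Fin n) (Fin n) F) *ᵥ x ∈ W) → s ∈ M)
    (a u z : Fin n → F) (haW : a ∈ W) (huu : f u u = 0) (hzz : f z z = 0)
    (hua : f u a = -1) (hza : f z a = -1) (hC : σ (f u z) = -f u z) :
    ∃ p ∈ M, (p : Matrix (Fin n) (Fin n) F) *ᵥ u = z := by
  obtain ⟨μ, hμ0, hμ⟩ := uf_skew9 hf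
  have haa : f a a = 0 := hW a haW a haW
  have hau : f a u = -1 := by rw [hf.herm, hua, map_neg, map_one]
  have haz : f a z = -1 := by rw [hf.herm, hza, map_neg, map_one]
  have hzu : f z u = -f u z := by rw [hf.herm z u, hC]
  obtain ⟨l, hl⟩ := uf_trace9 hf (f u z / μ) (by rw [map_div₀, hC, hμ, neg_div_neg_eq])
  obtain ⟨δ, hδ⟩ : ∃ δ : F, δ = μ * l := ⟨_, rfl⟩
  have hδ' : δ - σ δ = f u z := by
    rw [hδ, map_mul, hμ]
    have : μ * (l + σ l) = f u z := by rw [hl, mul_div_cancel₀ _ hμ0]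
    linear_combination this
  obtain ⟨b, hb⟩ : ∃ b : Fin n → F, b = z - u - δ • a := ⟨_, rfl⟩
  have hab : f a b = 0 := by
    rw [hb, uf_sub_right9 hf, uf_sub_right9 hf, uf_smul_right9 hf, haz, hau, haa]
    ring
  have hub : f u b = δ := by
    rw [hb, uf_sub_right9 hf, uf_sub_right9 hf, uf_smul_right9 hf, huu, hua]
    linear_combination (-1 : F) * hδ'
  have hzb : f z b = δ := by
    rw [hb, uf_sub_right9 hf, uf_sub_right9 hf, uf_smul_right9 hf, hzz, hzu, hza]
    linear_combination (-1 : F) * hδ'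
  have hbb : f b b = 0 := by
    have e : f b b = f z b - f u b - δ * f a b := by
      conv_lhs => rw [hb]
      rw [uf_sub_left9 hf, uf_sub_left9 hf, hf.smul_left, ← hb]
    rw [e, hzb, hub, hab]
    ring
  obtain ⟨s, hsG, hs⟩ := uf_siegel9 hf a b haa hbb hab
  refine ⟨s, hperp s hsG (fun x hx => ?_), ?_⟩
  · rw [hs, hW x hx a haW, zero_smul, sub_zero]
    exact W.add_mem hx (W.smul_mem _ haW)
  · rw [hs, hub, hua, hb]
    module

theorem uf_trans9 [Finite F] (hf : Cfsg.Geo.IsUnitaryForm σ f) (hn : 8 ≤ n) {W : Submodule F (Fin n → F)} (hW : ∀ u ∈ W, ∀ v ∈ W, f u v = 0)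
    (M : Subgroup (GL (Fin n) F)) (hperp : ∀ s ∈ uG9 f, (∀ x ∈ W, (s : Matrix (Fin n) (Fin n) F) *ᵥ x ∈ W) → s ∈ M)
    (u z : Fin n → F) (huu : f u u = 0) (hzz : f z z = 0) (hu : ∃ w ∈ W, f w u ≠ 0)
    (hz : ∃ w ∈ W, f w z ≠ 0) :
    ∃ p ∈ M, ∃ c e : F, e ≠ 0 ∧ (p : Matrix (Fin n) (Fin n) F) *ᵥ (c • u) = e • z := by
  obtain ⟨w₁, hw₁, h1⟩ := hu
  obtain ⟨w₂, hw₂, h2⟩ := hz
  obtain ⟨a, haW, hau, haz⟩ : ∃ a ∈ W, f a u ≠ 0 ∧ f a z ≠ 0 := by
    by_cases c1 : f w₁ z ≠ 0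
    · exact ⟨w₁, hw₁, h1, c1⟩
    · by_cases c2 : f w₂ u ≠ 0
      · exact ⟨w₂, hw₂, c2, h2⟩
      · push_neg at c1 c2
        refine ⟨w₁ + w₂, W.add_mem hw₁ hw₂, ?_, ?_⟩
        · rw [hf.add_left, c2, add_zero]
          exact h1
        · rw [hf.add_left, c1, zero_add]
          exact h2
  have hua0 : f u a ≠ 0 := fun h => hau (uf_swap_zero9 hf h)
  have hza0 : f z a ≠ 0 := fun h => haz (uf_swap_zero9 hf h)
  obtain ⟨c, hc⟩ : ∃ c : F, c = -(f u a)⁻¹ := ⟨_, rfl⟩
  obtain ⟨e, he⟩ : ∃ e : F, e = -(f z a)⁻¹ := ⟨_, rfl⟩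
  have he0 : e ≠ 0 := by
    rw [he]
    exact neg_ne_zero.mpr (inv_ne_zero hza0)
  obtain ⟨u', hu'⟩ : ∃ u' : Fin n → F, u' = c • u := ⟨_, rfl⟩
  obtain ⟨z', hz'⟩ : ∃ z' : Fin n → F, z' = e • z := ⟨_, rfl⟩
  have hu'a : f u' a = -1 := by rw [hu', hf.smul_left, hc, neg_mul, inv_mul_cancel₀ hua0]
  have hz'a : f z' a = -1 := by rw [hz', hf.smul_left, he, neg_mul, inv_mul_cancel₀ hza0]
  have hu'u' : f u' u' = 0 := by
    rw [hu', hf.smul_left, uf_smul_right9 hf, huu, mul_zero, mul_zero]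
  have hz'z' : f z' z' = 0 := by
    rw [hz', hf.smul_left, uf_smul_right9 hf, hzz, mul_zero, mul_zero]
  suffices h : ∃ p ∈ M, (p : Matrix (Fin n) (Fin n) F) *ᵥ u' = z' by
    obtain ⟨p, hpM, hp⟩ := h
    exact ⟨p, hpM, c, e, he0, by rw [← hu', ← hz']; exact hp⟩
  by_cases hC : σ (f u' z') = -f u' z'
  · exact uf_onestep9 hf hW M hperp a u' z' haW hu'u' hz'z' hu'a hz'a hC
  · have haS : a ∉ Submodule.span F ({u', z'} : Set (Fin n → F)) := by
      intro hm
      obtain ⟨α, β, hαβ⟩ := Submodule.mem_span_pair.mp hm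
      apply hC
      have haa : f a a = 0 := hW a haW a haW
      have e1 : f u' a = σ β * f u' z' := by
        rw [← hαβ, uf_add_right9 hf, uf_smul_right9 hf, uf_smul_right9 hf, hu'u']
        ring
      have e2 : f z' a = σ α * f z' u' := by
        rw [← hαβ, uf_add_right9 hf, uf_smul_right9 hf, uf_smul_right9 hf, hz'z']
        ring
      have e3 : α * f u' a + β * f z' a = 0 := by
        have h3 : f (α • u' + β • z') a = α * f u' a + β * f z' a := by
          rw [hf.add_left, hf.smul_left, hf.smul_left]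
        rw [hαβ, haa] at h3
        exact h3.symm
      have hβ : β = -α := by
        rw [hu'a, hz'a] at e3
        linear_combination (-1 : F) * e3
      have h1' : σ α * f u' z' = 1 := by
        rw [hu'a, hβ, map_neg] at e1
        linear_combination e1
      have h2' : σ α * σ (f u' z') = -1 := by
        rw [hz'a, hf.herm z' u'] at e2
        exact e2.symm
      have h3 : σ α * (σ (f u' z') + f u' z') = 0 := by linear_combination h2' + h1'
      have hα : σ α ≠ 0 := by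
        intro h0
        rw [h0, zero_mul] at h1'
        exact zero_ne_one h1'
      have := (mul_eq_zero.mp h3).resolve_left hα
      linear_combination this
    obtain ⟨φ, hφ1, hφ0⟩ := exists_dual_one9 _ a haS
    obtain ⟨v₀, hv₀⟩ := uf_repr9 hf φ
    obtain ⟨a₁, b₁, ha₁a₁, hb₁b₁, ha₁b₁, ha₁u, ha₁z, ha₁a, hb₁u, hb₁z, hb₁a⟩ :=
      uf_hyp3_9 hf hn u' z' a
    obtain ⟨l, r, -, hv₁⟩ := uf_correct9 hf a₁ b₁ v₀ ha₁a₁ hb₁b₁ ha₁b₁
    obtain ⟨v₁, hv₁def⟩ : ∃ v₁ : Fin n → F, v₁ = v₀ + (l • a₁ + r • b₁) := ⟨_, rfl⟩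
    rw [← hv₁def] at hv₁
    have hav₁ : f a v₁ = 1 := by
      rw [hv₁def, uf_add_right9 hf, uf_add_right9 hf, uf_smul_right9 hf, uf_smul_right9 hf,
        uf_swap_zero9 hf ha₁a, uf_swap_zero9 hf hb₁a, ← hv₀, hφ1]
      ring
    have hu'v₁ : f u' v₁ = 0 := by
      rw [hv₁def, uf_add_right9 hf, uf_add_right9 hf, uf_smul_right9 hf, uf_smul_right9 hf,
        uf_swap_zero9 hf ha₁u, uf_swap_zero9 hf hb₁u, ← hv₀,
        hφ0 u' (Submodule.subset_span (by simp))]
      ring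
    have hz'v₁ : f z' v₁ = 0 := by
      rw [hv₁def, uf_add_right9 hf, uf_add_right9 hf, uf_smul_right9 hf, uf_smul_right9 hf,
        uf_swap_zero9 hf ha₁z, uf_swap_zero9 hf hb₁z, ← hv₀,
        hφ0 z' (Submodule.subset_span (by simp))]
      ring
    have hvv : f (-v₁) (-v₁) = 0 := by
      rw [uf_neg_left9 hf, uf_neg_right9 hf, hv₁, neg_zero, neg_zero]
    have hva : f (-v₁) a = -1 := by rw [uf_neg_left9 hf, hf.herm, hav₁, map_one]
    have hu'v : f u' (-v₁) = 0 := by rw [uf_neg_right9 hf, hu'v₁, neg_zero]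
    have hvz' : f (-v₁) z' = 0 := by rw [uf_neg_left9 hf, uf_swap_zero9 hf hz'v₁, neg_zero]
    obtain ⟨p₁, hp₁M, hp₁⟩ := uf_onestep9 hf hW M hperp a u' (-v₁) haW hu'u' hvv hu'a hva
      (by rw [hu'v, map_zero, neg_zero])
    obtain ⟨p₂, hp₂M, hp₂⟩ := uf_onestep9 hf hW M hperp a (-v₁) z' haW hvv hz'z' hva hz'a
      (by rw [hvz', map_zero, neg_zero])
    exact ⟨p₂ * p₁, M.mul_mem hp₂M hp₁M, by rw [gl_mul_vec9, hp₁, hp₂]⟩

theorem uf_ti_top9 [Finite F] (hf : Cfsg.Geo.IsUnitaryForm σ f) {W : Submodule F (Fin n → F)} (hW : ∀ u ∈ W, ∀ v ∈ W, f u v = 0)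
    (M : Subgroup (GL (Fin n) F)) (hMS : M ≤ uG9 f)
    (hperp : ∀ s ∈ uG9 f, (∀ x ∈ W, (s : Matrix (Fin n) (Fin n) F) *ᵥ x ∈ W) → s ∈ M)
    (hall : ∀ z : Fin n → F, f z z = 0 → InCU9 σ f M z) : uG9 f ≤ M := by
  have key : ∀ (d : ℕ) (g : GL (Fin n) F), g ∈ uG9 f →
      Module.finrank F (W ⊓ Submodule.comap
        (Matrix.toLin' (g : Matrix (Fin n) (Fin n) F)) W : Submodule F (Fin n → F)) + d = Module.finrank F W →
      ∃ t ∈ M, ∀ w ∈ W, ((t * g : GL (Fin n) F) : Matrix (Fin n) (Fin n) F) *ᵥ w ∈ W := by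
    intro d
    induction d using Nat.strong_induction_on with
    | _ d ih =>
      intro g hg hd
      obtain ⟨I, hI⟩ : ∃ I : Submodule F (Fin n → F), I = W ⊓ Submodule.comap
          (Matrix.toLin' (g : Matrix (Fin n) (Fin n) F)) W := ⟨_, rfl⟩
      have hImem : ∀ v, v ∈ I ↔ v ∈ W ∧ (g : Matrix (Fin n) (Fin n) F) *ᵥ v ∈ W := by
        intro v
        rw [hI, Submodule.mem_inf, Submodule.mem_comap, Matrix.toLin'_apply]
      rw [← hI] at hd
      by_cases hall' : ∀ w ∈ W, (g : Matrix (Fin n) (Fin n) F) *ᵥ w ∈ W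
      · exact ⟨1, M.one_mem, fun w hw => by rw [one_mul]; exact hall' w hw⟩
      · push_neg at hall'
        obtain ⟨a, haW, hga⟩ := hall'
        obtain ⟨x, hx⟩ : ∃ x : Fin n → F, x = (g : Matrix (Fin n) (Fin n) F) *ᵥ a := ⟨_, rfl⟩
        rw [← hx] at hga
        have hxx : f x x = 0 := by
          rw [hx, uG_iso9 hg]
          exact hW a haW a haW
        have hstep : ∃ t ∈ M, (t : Matrix (Fin n) (Fin n) F) *ᵥ x ∈ W ∧ ∀ u, u ∈ I → (t : Matrix (Fin n) (Fin n) F) *ᵥ ((g : Matrix (Fin n) (Fin n) F) *ᵥ u) = (g : Matrix (Fin n) (Fin n) F) *ᵥ u := by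
          by_cases hA : ∃ y ∈ W, f x y ≠ 0
          · obtain ⟨y, hyW, hxy⟩ := hA
            obtain ⟨z, γ, l, hzz, hγ, hl0, hzdef, hmv⟩ :=
              uf_move9 hf x y hxx (hW y hyW y hyW) hxy
            obtain ⟨t, htM, ht⟩ := hall z hzz γ hγ
            refine ⟨t, htM, ?_, fun u hu => ?_⟩
            · rw [ht, hmv]
              exact W.smul_mem _ hyW
            · obtain ⟨huW, hguW⟩ := (hImem u).mp hu
              have h0 : f ((g : Matrix (Fin n) (Fin n) F) *ᵥ u) z = 0 := by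
                rw [hzdef, uf_sub_right9 hf, uf_smul_right9 hf, hx, uG_iso9 hg,
                  hW u huW a haW, hW _ hguW y hyW]
                ring
              rw [ht, h0, mul_zero, zero_smul, add_zero]
          · push_neg at hA
            obtain ⟨y, hyW, hgy⟩ : ∃ y ∈ W, ((g⁻¹ : GL (Fin n) F) : Matrix (Fin n) (Fin n) F) *ᵥ y ∉ W := by
              by_contra hcon
              push_neg at hcon
              have hst := stab_of_mapsI9 W g⁻¹ hcon
              have := (mem_stabI9.mp hst x).mpr (by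
                rw [hx, gl_inv_mul_vec9]
                exact haW)
              exact hga this
            obtain ⟨gW, hgWdef⟩ : ∃ gW : Submodule F (Fin n → F), gW = Submodule.comap
                (Matrix.toLin' ((g⁻¹ : GL (Fin n) F) : Matrix (Fin n) (Fin n) F)) W := ⟨_, rfl⟩
            have hgWmem : ∀ v, v ∈ gW ↔ ((g⁻¹ : GL (Fin n) F) : Matrix (Fin n) (Fin n) F) *ᵥ v ∈ W := by
              intro v
              rw [hgWdef, Submodule.mem_comap, Matrix.toLin'_apply]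
            obtain ⟨φ₁, hφ₁1, hφ₁0⟩ := exists_dual_one9 W x hga
            obtain ⟨φ₂, hφ₂1, hφ₂0⟩ := exists_dual_one9 gW y (fun h => hgy ((hgWmem y).mp h))
            obtain ⟨v₀, hv₀⟩ := uf_repr9 hf (φ₁ + φ₂)
            have hxv₀ : f x v₀ = 1 := by
              rw [← hv₀, LinearMap.add_apply, hφ₁1,
                hφ₂0 x ((hgWmem x).mpr (by rw [hx, gl_inv_mul_vec9]; exact haW)), add_zero]
            have hyv₀ : f y v₀ = 1 := by
              rw [← hv₀, LinearMap.add_apply, hφ₁0 y hyW, hφ₂1, zero_add]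
            have hIv₀ : ∀ u, u ∈ I → f ((g : Matrix (Fin n) (Fin n) F) *ᵥ u) v₀ = 0 := by
              intro u hu
              obtain ⟨huW, hguW⟩ := (hImem u).mp hu
              rw [← hv₀, LinearMap.add_apply, hφ₁0 _ hguW,
                hφ₂0 _ ((hgWmem _).mpr (by rw [gl_inv_mul_vec9]; exact huW)), add_zero]
            obtain ⟨c, hc⟩ := uf_trace9 hf (-(f v₀ v₀)) (by rw [map_neg, uf_self9 hf])
            obtain ⟨v, hvdef⟩ : ∃ v : Fin n → F, v = v₀ + c • x := ⟨_, rfl⟩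
            have hv₀x : f v₀ x = 1 := by rw [hf.herm, hxv₀, map_one]
            have hxv : f x v = 1 := by
              rw [hvdef, uf_add_right9 hf, uf_smul_right9 hf, hxx, hxv₀]
              ring
            have hyx : f y x = 0 := uf_swap_zero9 hf (hA y hyW)
            have hyv : f y v = 1 := by
              rw [hvdef, uf_add_right9 hf, uf_smul_right9 hf, hyx, hyv₀]
              ring
            have hvv : f v v = 0 := by
              have e : f v v = f v₀ v + c * f x v := by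
                conv_lhs => rw [hvdef]
                rw [hf.add_left, hf.smul_left, ← hvdef]
              have e' : f v₀ v = f v₀ v₀ + σ c := by
                rw [hvdef, uf_add_right9 hf, uf_smul_right9 hf, hv₀x, mul_one]
              rw [e, e', hxv]
              linear_combination hc
            have hIv : ∀ u, u ∈ I → f ((g : Matrix (Fin n) (Fin n) F) *ᵥ u) v = 0 := by
              intro u hu
              obtain ⟨huW, hguW⟩ := (hImem u).mp hu
              rw [hvdef, uf_add_right9 hf, uf_smul_right9 hf, hIv₀ u hu, hx, uG_iso9 hg,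
                hW u huW a haW]
              ring
            obtain ⟨z₁, γ₁, l₁, hz₁z₁, hγ₁, hl₁0, hz₁def, hmv₁⟩ :=
              uf_move9 hf x v hxx hvv (by rw [hxv]; exact one_ne_zero)
            obtain ⟨t₁, ht₁M, ht₁⟩ := hall z₁ hz₁z₁ γ₁ hγ₁
            have hvy : f v y = 1 := by rw [hf.herm, hyv, map_one]
            have hx₂ : f (l₁ • v) (l₁ • v) = 0 := by
              rw [hf.smul_left, uf_smul_right9 hf, hvv, mul_zero, mul_zero]
            obtain ⟨z₂, γ₂, l₂, hz₂z₂, hγ₂, hl₂0, hz₂def, hmv₂⟩ :=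
              uf_move9 hf (l₁ • v) y hx₂ (hW y hyW y hyW)
                (by rw [hf.smul_left, hvy, mul_one]; exact hl₁0)
            obtain ⟨t₂, ht₂M, ht₂⟩ := hall z₂ hz₂z₂ γ₂ hγ₂
            refine ⟨t₂ * t₁, M.mul_mem ht₂M ht₁M, ?_, fun u hu => ?_⟩
            · rw [gl_mul_vec9, ht₁, hmv₁, ht₂, hmv₂]
              exact W.smul_mem _ hyW
            · obtain ⟨huW, hguW⟩ := (hImem u).mp hu
              have h1 : f ((g : Matrix (Fin n) (Fin n) F) *ᵥ u) z₁ = 0 := by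
                rw [hz₁def, uf_sub_right9 hf, uf_smul_right9 hf, hIv u hu, hx, uG_iso9 hg,
                  hW u huW a haW]
                ring
              have h2 : f ((g : Matrix (Fin n) (Fin n) F) *ᵥ u) z₂ = 0 := by
                rw [hz₂def, uf_sub_right9 hf, uf_smul_right9 hf, uf_smul_right9 hf, hIv u hu,
                  hW _ hguW y hyW]
                ring
              rw [gl_mul_vec9, ht₁, h1, mul_zero, zero_smul, add_zero, ht₂, h2, mul_zero,
                zero_smul, add_zero]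
        obtain ⟨t, htM, htx, hfix⟩ := hstep
        obtain ⟨I', hI'⟩ : ∃ I' : Submodule F (Fin n → F), I' = W ⊓ Submodule.comap
            (Matrix.toLin' ((t * g : GL (Fin n) F) : Matrix (Fin n) (Fin n) F)) W := ⟨_, rfl⟩
        have hI'mem : ∀ v, v ∈ I' ↔ v ∈ W ∧ ((t * g : GL (Fin n) F) : Matrix (Fin n) (Fin n) F) *ᵥ v ∈ W := by
          intro v
          rw [hI', Submodule.mem_inf, Submodule.mem_comap, Matrix.toLin'_apply]
        have hlt : I < I' := by
          refine lt_of_le_of_ne (fun u hu => ?_) (fun h => ?_)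
          · obtain ⟨huW, hguW⟩ := (hImem u).mp hu
            refine (hI'mem u).mpr ⟨huW, ?_⟩
            rw [gl_mul_vec9, hfix u hu]
            exact hguW
          · have ha' : a ∈ I' := by
              refine (hI'mem a).mpr ⟨haW, ?_⟩
              rw [gl_mul_vec9, ← hx]
              exact htx
            rw [← h] at ha'
            apply hga
            rw [hx]
            exact ((hImem a).mp ha').2
        have h1 := Submodule.finrank_lt_finrank_of_lt hlt
        have h2 : Module.finrank F I' ≤ Module.finrank F W :=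
          Submodule.finrank_mono (fun u hu => ((hI'mem u).mp hu).1)
        obtain ⟨t', ht'M, ht'⟩ := ih (Module.finrank F W - Module.finrank F I') (by omega)
          (t * g) (Subgroup.mul_mem _ (hMS htM) hg) (by rw [← hI']; omega)
        refine ⟨t' * t, M.mul_mem ht'M htM, fun w hw => ?_⟩
        rw [mul_assoc]
        exact ht' w hw
  intro g hg
  have hI : Module.finrank F (W ⊓ Submodule.comap
      (Matrix.toLin' (g : Matrix (Fin n) (Fin n) F)) W : Submodule F (Fin n → F)) ≤ Module.finrank F W :=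
    Submodule.finrank_mono inf_le_left
  obtain ⟨t, htM, ht⟩ := key _ g hg (Nat.add_sub_cancel' hI)
  have h3 : t * g ∈ M := hperp _ (Subgroup.mul_mem _ (hMS htM) hg) ht
  have e : g = t⁻¹ * (t * g) := by group
  rw [e]
  exact M.mul_mem (M.inv_mem htM) h3

/-- The stabiliser of a non-zero totally singular subspace is maximal in the group of
isometries of determinant one of a unitary form. -/
theorem uf_ti_maximal9 [Finite F] (hf : Cfsg.Geo.IsUnitaryForm σ f) (hn : 8 ≤ n) (W : Submodule F (Fin n → F)) (hW0 : W ≠ ⊥)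
    (hW : Cfsg.Geo.IsTotallySingularFor f W) :
    Cfsg.Geo.IsMaximalIn (uG9 f) (Cfsg.Geo.subspaceStabilizer W ⊓ uG9 f) := by
  have hWti : ∀ u ∈ W, ∀ v ∈ W, f u v = 0 := hW
  obtain ⟨w₁, hw₁W, hw₁0⟩ := (Submodule.ne_bot_iff W).mp hW0
  obtain ⟨μ, hμ0, hμ⟩ := uf_skew9 hf
  have hex : ∃ z : Fin n → F, f z z = 0 ∧ f w₁ z = 1 := by
    obtain ⟨⟨x, hx⟩, _⟩ := hf.nondegenerate w₁ hw₁0
    obtain ⟨z₀, hz₀⟩ : ∃ z₀ : Fin n → F, z₀ = (f x w₁)⁻¹ • x := ⟨_, rfl⟩
    have hz₀w : f z₀ w₁ = 1 := by rw [hz₀, hf.smul_left, inv_mul_cancel₀ hx]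
    have hwz₀ : f w₁ z₀ = 1 := by rw [hf.herm, hz₀w, map_one]
    obtain ⟨c, hc⟩ := uf_trace9 hf (-(f z₀ z₀)) (by rw [map_neg, uf_self9 hf])
    refine ⟨z₀ + c • w₁, ?_, ?_⟩
    · simp only [hf.add_left, uf_add_right9 hf, hf.smul_left, uf_smul_right9 hf, hz₀w, hwz₀,
        hWti w₁ hw₁W w₁ hw₁W, mul_one, mul_zero, add_zero]
      linear_combination hc
    · rw [uf_add_right9 hf, uf_smul_right9 hf, hWti w₁ hw₁W w₁ hw₁W, hwz₀]
      ring
  refine ⟨lt_of_le_of_ne inf_le_right fun heq => ?_, fun M hHM hMS => ?_⟩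
  · obtain ⟨z, hzz, hwz⟩ := hex
    obtain ⟨t, htG, ht⟩ := uf_tv9 hf μ hμ z hzz
    rw [← heq] at htG
    have h1 := (mem_stabI9.mp htG.1 w₁).mp hw₁W
    rw [ht, hwz, mul_one] at h1
    have hzW : z ∈ W := by
      have h2 := W.sub_mem h1 hw₁W
      have h3 : w₁ + μ • z - w₁ = μ • z := by abel
      rw [h3] at h2
      have := W.smul_mem μ⁻¹ h2
      rwa [smul_smul, inv_mul_cancel₀ hμ0, one_smul] at this
    have := hWti w₁ hw₁W z hzW
    rw [hwz] at this
    exact one_ne_zero this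
  · by_cases hMH : M ≤ Cfsg.Geo.subspaceStabilizer W ⊓ uG9 f
    · exact Or.inl (le_antisymm hMH hHM)
    · right
      have hperp : ∀ s ∈ uG9 f, (∀ x ∈ W, (s : Matrix (Fin n) (Fin n) F) *ᵥ x ∈ W) → s ∈ M :=
        fun s hs h => hHM ⟨stab_of_mapsI9 W s h, hs⟩
      refine le_antisymm hMS (uf_ti_top9 hf hWti M hMS hperp ?_)
      obtain ⟨k, hkM, hkH⟩ := Set.not_subset.mp hMH
      have hkW : k ∉ Cfsg.Geo.subspaceStabilizer W := fun h => hkH ⟨h, hMS hkM⟩
      obtain ⟨k', hk'M, w₀, hw₀W, hkw₀⟩ := exists_move_out9 W M k hkM hkW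
      have hk'G := hMS hk'M
      have hP1 : ∀ z : Fin n → F, f z z = 0 → (∀ w ∈ W, f w z = 0) → InCU9 σ f M z := by
        intro z hzz hzW γ hγ
        obtain ⟨t, htG, ht⟩ := uf_tv9 hf γ hγ z hzz
        refine ⟨t, hperp t htG (fun x hx => ?_), ht⟩
        rw [ht, hzW x hx, mul_zero, zero_smul, add_zero]
        exact hx
      obtain ⟨x, hx⟩ : ∃ x : Fin n → F, x = (k' : Matrix (Fin n) (Fin n) F) *ᵥ w₀ := ⟨_, rfl⟩
      rw [← hx] at hkw₀
      have hxx : f x x = 0 := by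
        rw [hx, uG_iso9 hk'G]
        exact hWti w₀ hw₀W w₀ hw₀W
      have hw₀G : InCU9 σ f M w₀ :=
        hP1 w₀ (hWti w₀ hw₀W w₀ hw₀W) (fun w hw => hWti w hw w₀ hw₀W)
      obtain ⟨z₁, hz₁z₁, hz₁W, hz₁G⟩ : ∃ z₁ : Fin n → F, f z₁ z₁ = 0 ∧ (∃ w ∈ W, f w z₁ ≠ 0) ∧
          InCU9 σ f M z₁ := by
        by_cases hxW : ∃ w ∈ W, f w x ≠ 0
        · refine ⟨x, hxx, hxW, ?_⟩
          rw [hx]
          exact inCU_conj9 hf M hMS k' hk'M w₀ hw₀G
        · push_neg at hxW
          obtain ⟨φ, hφ1, hφ0⟩ := exists_dual_one9 W x hkw₀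
          obtain ⟨y₁, hy₁⟩ := uf_repr9 hf φ
          have hxy₁ : f x y₁ = 1 := by rw [← hy₁, hφ1]
          have hy₁x : f y₁ x = 1 := by rw [hf.herm, hxy₁, map_one]
          obtain ⟨c, hc⟩ := uf_trace9 hf (-(f y₁ y₁)) (by rw [map_neg, uf_self9 hf])
          obtain ⟨y₀, hy₀⟩ : ∃ y₀ : Fin n → F, y₀ = y₁ + c • x := ⟨_, rfl⟩
          have hy₀y₀ : f y₀ y₀ = 0 := by
            rw [hy₀]
            simp only [hf.add_left, uf_add_right9 hf, hf.smul_left, uf_smul_right9 hf, hxy₁,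
              hy₁x, hxx, mul_one, mul_zero, add_zero]
            linear_combination hc
          have hy₀W : ∀ w ∈ W, f w y₀ = 0 := by
            intro w hw
            rw [hy₀, uf_add_right9 hf, uf_smul_right9 hf, hxW w hw, ← hy₁, hφ0 w hw]
            ring
          have hxy₀ : f x y₀ = 1 := by
            rw [hy₀, uf_add_right9 hf, uf_smul_right9 hf, hxx, hxy₁]
            ring
          refine ⟨((k'⁻¹ : GL (Fin n) F) : Matrix (Fin n) (Fin n) F) *ᵥ y₀, ?_, ⟨w₀, hw₀W, ?_⟩, ?_⟩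
          · have := uG_iso9 (Subgroup.inv_mem _ hk'G) y₀ y₀
            rw [this]
            exact hy₀y₀
          · have := uG_iso9 hk'G w₀ (((k'⁻¹ : GL (Fin n) F) : Matrix (Fin n) (Fin n) F) *ᵥ y₀)
            rw [gl_mul_inv_vec9, ← hx, hxy₀] at this
            rw [← this]
            exact one_ne_zero
          · exact inCU_conj9 hf M hMS k'⁻¹ (M.inv_mem hk'M) y₀ (hP1 y₀ hy₀y₀ hy₀W)
      intro z hzz
      by_cases hzW : ∀ w ∈ W, f w z = 0
      · exact hP1 z hzz hzW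
      · push_neg at hzW
        obtain ⟨p, hpM, c, e, he0, hp⟩ :=
          uf_trans9 hf hn hWti M hperp z₁ z hz₁z₁ hzz hz₁W hzW
        have h1 := inCU_conj9 hf M hMS p hpM _ (inCU_smul9 hf M z₁ hz₁G c)
        rw [hp] at h1
        have h2 := inCU_smul9 hf M _ h1 e⁻¹
        rwa [smul_smul, inv_mul_cancel₀ he0, one_smul] at h2

end Cfsg.Agent.Helper9
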